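import Cfsg.Statements.S2395
import Cfsg.Agent.H133.ScPerfect

set_option autoImplicit false
open Cfsg

namespace Cfsg.Agent.S2395

open Cfsg.Agent.H133.ScPerfect Cfsg.Agent.ChevalleyStructure.OrbitWords
  Cfsg.Agent.ChevalleyStructure.W0Small Cfsg.Agent.ChevalleyStructure.W0E6
  Cfsg.Agent.ChevalleyStructure.W0E7 Cfsg.Agent.ChevalleyStructure.W0E8

/-- The group presented by Steinberg's generators x̄_r(t) subject only to (R1) (additivity) and (R2) (the commutator formula) is perfect, for each of the types G₂, B₂, D₄, F₄, E₆, E₇, E₈ over any field (for types B₂ and G₂ the field must have more than two elements — the cases where the Chevalley group is not simple are set aside). -/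
theorem result {K : Type*} [Field K] (D : Cfsg.Lie.ChevalleyDatum) (hD : D ∈ [Cfsg.Lie.chevG2, Cfsg.Lie.chevB2, Cfsg.Lie.chevD4, Cfsg.Lie.chevF4, Cfsg.Lie.chevE6, Cfsg.Lie.chevE7, Cfsg.Lie.chevE8]) (hK : D ∈ [Cfsg.Lie.chevB2, Cfsg.Lie.chevG2] → ∃ x : K, x ≠ 0 ∧ x ≠ 1) :
    commutator (D.SteinbergCover K) = ⊤ := by
  have hD' := hD
  simp only [List.mem_cons, List.not_mem_nil, or_false] at hD'
  rcases hD' with rfl | rfl | rfl | rfl | rfl | rfl | rfl
  · obtain ⟨a, ha0, ha1⟩ := hK (by simp)
    refine commutator_eq_top_of_tables hD K tabG2 tabG2_ok rangeG2 [7, 11] wordsG2 orbitG2 ?_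
    have hc : Cfsg.Lie.chevG2.cartan 1 7 = -1 := by decide +kernel
    have h7 : InDer Cfsg.Lie.chevG2 K 7 := inDer_of_torus hD K (i := 1) (by decide) (by decide) ha0 (by
      rw [hc, zpow_neg, zpow_one]
      exact fun h => ha1 (inv_eq_one.1 h))
    have h11 : InDer Cfsg.Lie.chevG2 K 11 := inDer_of_single K (r := 6) (s := 10) (c := 1) (by norm_num) (by decide) (by decide)
      (by decide) (by decide +kernel) (by decide +kernel)
    intro s hs
    simp only [List.mem_cons, List.not_mem_nil, or_false] at hs
    rcases hs with rfl | rfl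
    · exact h7
    · exact h11
  · obtain ⟨a, ha0, ha1⟩ := hK (by simp)
    refine commutator_eq_top_of_tables hD K tabB2 tabB2_ok rangeB2 [5, 7] wordsB2 orbitB2 ?_
    have hc5 : Cfsg.Lie.chevB2.cartan 1 5 = -1 := by decide +kernel
    have hc6 : Cfsg.Lie.chevB2.cartan 1 6 = 1 := by decide +kernel
    have h5 : InDer Cfsg.Lie.chevB2 K 5 := inDer_of_torus hD K (i := 1) (by decide) (by decide) ha0 (by
      rw [hc5, zpow_neg, zpow_one]
      exact fun h => ha1 (inv_eq_one.1 h))
    have h6 : InDer Cfsg.Lie.chevB2 K 6 := inDer_of_torus hD K (i := 1) (by decide) (by decide) ha0 (by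
      rw [hc6, zpow_one]
      exact ha1)
    have h7 : InDer Cfsg.Lie.chevB2 K 7 := inDer_of_double K (r := 5) (s := 4) (k := 6) (c := -1) (d := -1) (by norm_num)
      (by decide) (by decide) (by decide) (by decide +kernel) (by decide +kernel) h6
    intro s hs
    simp only [List.mem_cons, List.not_mem_nil, or_false] at hs
    rcases hs with rfl | rfl
    · exact h5
    · exact h7
  · refine commutator_eq_top_of_tables hD K tabD4 tabD4_ok rangeD4 [19] wordsD4 orbitD4 ?_
    intro s hs
    rw [List.mem_singleton] at hs
    subst hs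
    exact inDer_of_single K (r := 18) (s := 14) (c := -1) (by norm_num) (by decide) (by decide)
      (by decide) (by decide +kernel) (by decide +kernel)
  · refine commutator_eq_top_of_tables hD K tabF4 tabF4_ok rangeF4 [34, 26] wordsF4 orbitF4 ?_
    intro s hs
    simp only [List.mem_cons, List.not_mem_nil, or_false] at hs
    rcases hs with rfl | rfl
    · exact inDer_of_single K (r := 33) (s := 27) (c := -1) (by norm_num) (by decide) (by decide)
        (by decide) (by decide +kernel) (by decide +kernel)
    · exact inDer_of_single K (r := 25) (s := 24) (c := -1) (by norm_num) (by decide) (by decide)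
        (by decide) (by decide +kernel) (by decide +kernel)
  · refine commutator_eq_top_of_tables hD K tabE6 tabE6_ok rangeE6 [57] wordsE6 orbitE6 ?_
    intro s hs
    rw [List.mem_singleton] at hs
    subst hs
    exact inDer_of_single K (r := 56) (s := 42) (c := -1) (by norm_num) (by decide) (by decide)
      (by decide) (by decide +kernel) (by decide +kernel)
  · refine commutator_eq_top_of_tables hD K tabE7 tabE7_ok rangeE7 [94] wordsE7 orbitE7 ?_
    intro s hs
    rw [List.mem_singleton] at hs
    subst hs
    exact inDer_of_single K (r := 93) (s := 73) (c := -1) (by norm_num) (by decide) (by decide)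
      (by decide) (by decide +kernel) (by decide +kernel)
  · refine commutator_eq_top_of_tables hD K tabE8 tabE8_ok rangeE8 [163] wordsE8 orbitE8 ?_
    intro s hs
    rw [List.mem_singleton] at hs
    subst hs
    exact inDer_of_single K (r := 162) (s := 135) (c := -1) (by norm_num) (by decide) (by decide)
      (by decide) (by decide +kernel) (by decide +kernel)


end Cfsg.Agent.S2395
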