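import Cfsg.Statements.S2736
import Cfsg.Agent.H208.Dict
import Cfsg.Agent.H966.Coset
import Cfsg.Agent.ClassicalGeometry.Reflection

set_option autoImplicit false
open Cfsg

namespace Cfsg.Agent.S2736

open Cfsg.Agent.LieClassical.OrthCore Cfsg.Agent.LieClassical.OrthTrans Cfsg.Agent.LieClassical.QuadForms
open Cfsg.Agent.ClassicalGeometry.OrthSemi Cfsg.Agent.AutOrth.Main
open Cfsg.Agent.H208.Parity Cfsg.Agent.H208.ConjSS Cfsg.Agent.H208.Dict Cfsg.Agent.H208.FramePar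
open scoped Matrix MatrixGroups

theorem all_of_eq {ι : Type} [Fintype ι] [DecidableEq ι] {F : Type*} [Field F] {q q' : (ι → F) → F} (h : q = q')
    (hq : ∀ α : MulAut (Cfsg.POmega F q), Ind q α) : ∀ α : MulAut (Cfsg.POmega F q'), Ind q' α := by
  subst h; exact hq

theorem tsm_plus (F : Type*) [Field F] (m : ℕ) : ∃ U, TSm (plusForm m F) m U :=
  ⟨cP F m, finrank_cP m, fun u hu => by rw [coe_plusForm]; exact plus_cP hu⟩

/-- field type -/
def FT {ι : Type} [Fintype ι] [DecidableEq ι] {F : Type*} [Field F] (Q : (ι → F) → F) (x : MulAut (POmega F Q)) :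
    Prop := Cfsg.IsFieldAutClassPOmega Q x ∨
  ∃ (α γ φ : MulAut (POmega F Q)) (σ : F ≃+* F) (v : ι → F) (r : GL ι F),
    σ ≠ RingEquiv.refl F ∧ Q v ≠ 0 ∧ (∀ i, σ (v i) = v i) ∧
    (r : Matrix ι ι F) = reflectionMatrix Q v ∧
    IsInducedBySemilinearPOmega Q r (RingEquiv.refl F) γ ∧
    IsFieldAutPOmegaOf Q σ φ ∧ α * x * α⁻¹ = γ * φ

/-- inner-diagonal -/
def ID {ι : Type} [Fintype ι] [DecidableEq ι] {F : Type*} [Field F] (Q : (ι → F) → F) (β : MulAut (POmega F Q)) :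
    Prop := ∃ g : GL ι F, g ∈ Geo.quadSimilarityGroup (F := F) Q ∧
    PreservesSingularClasses Q (g : Matrix ι ι F) ∧ IsInducedBySemilinearPOmega Q g (RingEquiv.refl F) β

theorem aux {F : Type*} [Field F] [Finite F] {m : ℕ} (hm : 5 ≤ m)
    {q : (Fin m ⊕ Fin m → F) → F} (hq : ⇑(plusForm m F) = q)
    (x δ : MulAut (Cfsg.POmega F q)) (hx : FT q x) {r : ℕ}
    (hr : r.Prime) (hxr : orderOf x = r) (hδ : δ ∈ autSubgroupOf fun β => ID q β) :
    orderOf (δ * x) = r ↔ Cfsg.IsConjUnder (autSubgroupOf fun β => ID q β) x (δ * x) := by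
  subst hq
  have hG : Good (plusForm m F) := good_plus (by omega)
  have hQ : Nondeg (plusForm m F) := hG.nondeg
  have hV : Module.finrank F (Fin m ⊕ Fin m → F) = 2 * m := by
    rw [Module.finrank_fintype_fun_eq_card]
    simp only [Fintype.card_sum, Fintype.card_fin]
    ring
  have hT := tsm_plus F m
  have hprime : ∀ (σ : F ≃+* F) (v : Fin m ⊕ Fin m → F), plusForm m F (fun i => σ (v i)) = σ (plusForm m F v) := by
    intro σ v
    rw [coe_plusForm]
    unfold Cfsg.quadFormPlus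
    simp only [map_sum, map_mul]
  constructor
  · intro h
    have hall : ∀ α : MulAut (Cfsg.POmega F ⇑(plusForm m F)), Ind ⇑(plusForm m F) α :=
      all_of_eq (coe_plusForm m).symm (all_plus hm)
    obtain ⟨M, σ, c, hM, hσ, hxM⟩ : ∃ (N : Gam (plusForm m F)) (τ : F ≃+* F) (d : F),
        IsSS (plusForm m F) τ d N.1 ∧ τ ≠ 1 ∧ tr hG x = Psi (plusForm m F) N := by
      rcases hx with hx | ⟨α, γ, φ, σ, v, g, hσ, hv, -, hg, hγ, hφ, hc⟩
      · exact exists_gam_field hG hall hprime hx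
      · have h1 : IsSS (plusForm m F) σ 1 (perm (1 : GL (Fin m ⊕ Fin m) F) σ) := isSS_perm one_ne_zero fun v => by
          rw [Units.val_one, Matrix.one_mulVec, hprime, one_mul]
        have h2 : IsSS (plusForm m F) (RingEquiv.refl F) 1 (perm g (RingEquiv.refl F)) :=
          isSS_perm one_ne_zero fun u => by
            rw [hg, one_mul]
            exact ClassicalGeometry.Reflection.reflectionMatrix_isometry (plusForm m F) v hv u
        have h3 := h2.mul h1
        have h4 : tr hG (γ * φ) = Psi (plusForm m F) (⟨_, _, _, h2⟩ * ⟨_, _, _, h1⟩) := by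
          rw [tr_mul, map_mul, (induced_iff hG (M := ⟨_, _, _, h2⟩) rfl).1 hγ,
            (std_iff hG (M := ⟨_, _, _, h1⟩) rfl).1 hφ]
        exact exists_gam_of_conj hG hall hc h3 hσ h4
    obtain ⟨D, ⟨hD, hDe⟩, hδD⟩ := exists_gam_closure hG (R := fun M => Lin M ∧ Ev m M)
      ⟨⟨1, H208.Frame.isSS_one⟩, ev_one⟩
      (fun M N h h' => ⟨h.1.mul h'.1, (ev_mul hQ hV hT M N).2 ⟨fun _ => h'.2, fun _ => h.2⟩⟩)
      (fun M h => ⟨h.1.inv, (ev_inv hQ hV hT M).2 h.2⟩) (fun β hβ => by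
        obtain ⟨g, hg, hp, hβ⟩ := hβ
        obtain ⟨e, he⟩ := exists_isSS (pair_of_sim hg)
        exact ⟨⟨_, _, _, he⟩, ⟨⟨e, he⟩, (preserves_iff hQ hV hT (fun v => rfl)).1 hp⟩,
          (induced_iff hG rfl).1 hβ⟩) hδ
    have hy : tr hG (δ * x) = Psi (plusForm m F) (D * M) := by rw [tr_mul, hδD, hxM, map_mul]
    obtain ⟨H, hH, hHe, hc⟩ := main_plus hG hQ hV hT hM hσ hD hDe hr
      (pow_eq_one hG hxM (by rw [← hxr, pow_orderOf_eq_one]))
      (pow_eq_one hG hy (by rw [← h, pow_orderOf_eq_one]))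
    obtain ⟨η, hη⟩ := exists_tr hG H
    obtain ⟨e, he⟩ := hH
    obtain ⟨g, hg, hgp, hi⟩ := mem_pgo hG he hη
    exact ⟨η, Subgroup.subset_closure ⟨g, sim_of_pair hg,
      (preserves_iff hQ hV hT (fun v => by rw [hgp]; rfl)).2 hHe, hi⟩, eq_conj hG hxM hy hη hc⟩
  · rintro ⟨h, -, hh⟩
    rw [hh, ← hxr]
    exact H966.Coset.orderOf_conj_eq h x

/-- Let T = PΩ⁺_{2m}(F) with m ≥ 5 (dimension ≠ 8) and x a field automorphism or a graph-field automorphism of T of prime order r. Then an element y of the coset Inndiag(T)·x (y = δ x with δ induced by a class-preserving similarity) has order r if and only if y is conjugate to x by an element of Inndiag(T). -/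
theorem result {F : Type*} [Field F] [Fintype F] {m : ℕ} (hm : 5 ≤ m) (x δ : MulAut (Cfsg.POmega F (Cfsg.quadFormPlus m F))) (hx : Cfsg.IsFieldAutClassPOmega (Cfsg.quadFormPlus m F) x ∨ Cfsg.IsGraphFieldAutClassPOmegaPlus m x) {r : ℕ} (hr : r.Prime) (hxr : orderOf x = r) (hδ : δ ∈ Cfsg.inndiagPOmegaPlus m F) :
    orderOf (δ * x) = r ↔ Cfsg.IsConjUnder (Cfsg.inndiagPOmegaPlus m F) x (δ * x) :=
  aux hm (coe_plusForm m) x δ hx hr hxr hδ

end Cfsg.Agent.S2736
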