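import Cfsg.Statements.S3108
import Cfsg.Agent.H976.TightQ.Main
import Cfsg.Agent.Cit.Nil.Final1309

set_option autoImplicit false
open Cfsg

namespace Cfsg.Agent.S3108

/-- Let G be a finite group whose generalized Fitting subgroup F*(G) is a non-abelian simple group, and suppose G contains a tightly embedded subgroup whose Sylow 2-subgroups are generalized quaternion. Then F*(G) is a group of Lie type over a field of odd characteristic, or is isomorphic to the Mathieu group of degree 11 or of degree 12. -/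
theorem result {G : Type*} [Group G] [Finite G]
    (hF : IsSimpleGroup ↥(Cfsg.generalizedFittingSubgroup G)) (hF' : ¬ IsMulCommutative ↥(Cfsg.generalizedFittingSubgroup G))
    (H : Subgroup G) (hH : Cfsg.IsTightlyEmbedded H)
    (hQ : ∀ S : Sylow 2 ↥H, ∃ n : ℕ, Nonempty (↥(S : Subgroup ↥H) ≃* QuaternionGroup (2 ^ (n + 1)))) :
    (∃ p : ℕ, p.Prime ∧ p ≠ 2 ∧ Cfsg.IsLieTypeChar p ↥(Cfsg.generalizedFittingSubgroup G)) ∨
      Cfsg.Spor.IsoM11 ↥(Cfsg.generalizedFittingSubgroup G) ∨ Cfsg.Spor.IsoM12 ↥(Cfsg.generalizedFittingSubgroup G) := by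
  exact H976.TightQ.main (Cit.Nil.FinalNilExt.ext Cit.Nil.Plug1309.p1311)
    (Cit.Nil.FinalNilExt.openOf Cit.Nil.Final1309.sc Cit.Nil.Final1309.simple Cit.Nil.Unbal.All.unbalNil) hF hF' H hH hQ

end Cfsg.Agent.S3108
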