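import Cfsg.Statements.S4664
import Mathlib
import Cfsg.Agent.Blocks.Orthogonality
import Cfsg.Agent.Blocks.GaloisConj
import Cfsg.Agent.S0907

set_option autoImplicit false
open Cfsg

namespace Cfsg.Agent.S4664

open scoped ComplexConjugate

/-- All `n`-th roots of unity lie in the field generated by `exp (2πi/m)` when `n ∣ m`. -/
theorem root_mem {m n : ℕ} (hm : m ≠ 0) (hnm : n ∣ m) {z : ℂ} (hz : z ^ n = 1) :
    z ∈ IntermediateField.adjoin ℚ ({Complex.exp (2 * Real.pi * Complex.I / (m : ℂ))} : Set ℂ) := by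
  have : NeZero m := ⟨hm⟩
  have hprim := Complex.isPrimitiveRoot_exp m hm
  have hz' : z ^ m = 1 := by
    obtain ⟨k, rfl⟩ := hnm
    rw [pow_mul, hz, one_pow]
  obtain ⟨i, -, rfl⟩ := hprim.eq_pow_of_pow_eq_one hz'
  exact pow_mem (IntermediateField.subset_adjoin ℚ _ (Set.mem_singleton _)) i

/-- The value of a character at `g` lies in the field generated by `exp (2πi/m)` when `g ^ n = 1`
and `n ∣ m`. -/
theorem char_mem {G : Type*} [Group G] {χ : G → ℂ} (hχ : IsCharacter G χ) {m n : ℕ} (hm : m ≠ 0)
    (hnm : n ∣ m) {g : G} (hg : g ^ n = 1) :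
    χ g ∈ IntermediateField.adjoin ℚ
      ({Complex.exp (2 * Real.pi * Complex.I / (m : ℂ))} : Set ℂ) := by
  have hn : n ≠ 0 := by
    rintro rfl
    exact hm (zero_dvd_iff.mp hnm)
  obtain ⟨s, hs1, hs2⟩ := Blocks.GaloisConj.exists_multiset_pow hχ hn hg
  have h1 := hs2 1
  rw [pow_one] at h1
  rw [h1]
  refine multiset_sum_mem _ fun z hz => ?_
  rw [Multiset.mem_map] at hz
  obtain ⟨w, hw, rfl⟩ := hz
  rw [pow_one]
  exact root_mem hm hnm (hs1 w hw)

/-- Fix a prime p and a maximal ideal M of the algebraic integers containing p, and let B be a p-block of the finite group G. Let m be the p'-part of the order of G and η = exp(2πi/m). Then every coefficient of the idempotent of B lies in the cyclotomic field ℚ(η). -/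
theorem result {G : Type*} [Group G] [Fintype G] (p : ℕ) [Fact p.Prime] (M : Ideal Cfsg.AlgInt) (hM : Cfsg.IsPModular p M) (B : Set (Cfsg.IrrCharacter G)) (hB : Cfsg.IsPBlock M B) (g : G) : Cfsg.blockCoeff B g ∈ IntermediateField.adjoin ℚ ({Complex.exp (2 * Real.pi * Complex.I / ((Nat.card G / p ^ (Nat.card G).factorization p : ℕ) : ℂ))} : Set ℂ) := by
  classical
  have hp : p.Prime := Fact.out
  by_cases hg : p ∣ orderOf g
  · have h := S0907.result p M hM B hB 1 g (by
      rw [orderOf_one]; exact fun h => hp.one_lt.ne' (Nat.dvd_one.mp h)) hg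
    rw [Blocks.Basic.blockCoeff_def, h, mul_zero]
    exact zero_mem _
  · have hfin : Finite (IrrCharacter G) := S0909.finite_irr
    have := Fintype.ofFinite (IrrCharacter G)
    rw [Blocks.Orthogonality.blockCoeff_eq_sum]
    refine mul_mem (inv_mem (natCast_mem _ _)) (sum_mem fun χ _ => ?_)
    have hm : Nat.card G / p ^ (Nat.card G).factorization p ≠ 0 :=
      (Nat.ordCompl_pos p Nat.card_pos.ne').ne'
    have hdvd : orderOf g ∣ Nat.card G / p ^ (Nat.card G).factorization p := by
      have hcop : Nat.Coprime (orderOf g) (p ^ (Nat.card G).factorization p) :=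
        Nat.Coprime.pow_right _ ((hp.coprime_iff_not_dvd.mpr hg).symm)
      have h1 : orderOf g ∣ p ^ (Nat.card G).factorization p *
          (Nat.card G / p ^ (Nat.card G).factorization p) := by
        rw [Nat.ordProj_mul_ordCompl_eq_self]
        exact orderOf_dvd_natCard g
      exact hcop.dvd_of_dvd_mul_left h1
    have hχ := Blocks.Basic.irr_isCharacter χ.2
    refine mul_mem (char_mem hχ hm (one_dvd _) (by simp)) ?_
    rw [← Blocks.Orthogonality.irr_apply_inv χ.2]
    exact char_mem hχ hm hdvd (by rw [inv_pow, pow_orderOf_eq_one, inv_one])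

end Cfsg.Agent.S4664
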