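import Cfsg.Statements.S3420
import Cfsg.Agent.H363.AltPrimes

set_option autoImplicit false
open Cfsg

namespace Cfsg.Agent.S3420

open Subgroup Cfsg.Agent.H363.Frat Cfsg.Agent.H363.AltPrimes

/-- `p` and `s` both greater than `n/2` and at most `n`: `p` does not divide `s - 1`. -/
theorem not_dvd_sub_one {n p s : ℕ} (hn : 11 ≤ n) (hp : p.Prime) (hs : s.Prime)
    (hnp : n < 2 * p) (hsn : s ≤ n) : ¬ p ∣ s - 1 := by
  rintro ⟨c, hc⟩
  have hs2 := hs.two_le
  have hc1 : c < 2 := by
    by_contra h
    have : p * 2 ≤ p * c := Nat.mul_le_mul_left p (by omega)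
    omega
  have hc0 : c ≠ 0 := by
    rintro rfl
    omega
  have hc2 : c = 1 := by omega
  subst hc2
  rcases hp.eq_two_or_odd' with h | ⟨k, hk⟩
  · omega
  · rcases hs.eq_two_or_odd' with h | ⟨l, hl⟩
    · omega
    · omega

/-- Let n ≥ 11 and let G be a finite group with the same order and the same set of element orders as the alternating group of degree n. Then G has normal subgroups N < H such that H/N is a non-abelian simple group whose order is divisible by every prime p with n/2 < p ≤ n. -/
theorem result {G : Type*} [Group G] [Finite G] (n : ℕ) (hn : 11 ≤ n)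
    (hcard : Nat.card G = Nat.card ↥(alternatingGroup (Fin n)))
    (hspec : Set.range (orderOf : G → ℕ) = Set.range (orderOf : ↥(alternatingGroup (Fin n)) → ℕ)) :
    ∃ (N H : Subgroup G) (_ : N.Normal), H.Normal ∧ N < H ∧
      IsSimpleGroup (↥H ⧸ N.subgroupOf H) ∧ ¬ IsMulCommutative (↥H ⧸ N.subgroupOf H) ∧
      ∀ p : ℕ, p.Prime → n < 2 * p → p ≤ n → p ∣ Nat.card (↥H ⧸ N.subgroupOf H) := by
  obtain ⟨p, s, hp, hs, hnp, hps, hsn⟩ := Cfsg.Agent.H363.TwoPrimes.exists_two_primes' n hn
  -- the primes in `(n/2, n]` divide `|G|` exactly once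
  have hfac : ∀ r : ℕ, r.Prime → n < 2 * r → r ≤ n → (Nat.card G).factorization r = 1 := by
    intro r hr h1 h2
    rw [hcard]
    exact factorization_alternating (by omega) hr (by omega) h2 h1
  have hadj : ∀ r t : ℕ, r.Prime → t.Prime → r ≠ t → n < 2 * r → n < 2 * t → NonAdj G r t := by
    intro r t hr ht hrt h1 h2
    exact nonAdj_of_range hspec (nonAdj_alternating hr ht hrt h1 h2)
  have hpG : p ∣ Nat.card G := by
    rw [hp.dvd_iff_one_le_factorization Nat.card_pos.ne', hfac p hp hnp (by omega)]
  -- a maximal normal `p'`-subgroup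
  obtain ⟨N, ⟨hNn, hNp⟩, hNmax⟩ : ∃ N : Subgroup G, (N.Normal ∧ ¬ p ∣ Nat.card N) ∧
      ∀ L : Subgroup G, (L.Normal ∧ ¬ p ∣ Nat.card L) → N ≤ L → L = N := by
    have hfin : {L : Subgroup G | L.Normal ∧ ¬ p ∣ Nat.card L}.Finite := Set.toFinite _
    obtain ⟨N, hN⟩ := hfin.exists_maximal ⟨⊥, Subgroup.normal_bot, by
      rw [Subgroup.card_bot]; exact fun h => hp.one_lt.ne' (Nat.dvd_one.mp h)⟩
    exact ⟨N, hN.1, fun L hL hNL => le_antisymm (hN.2 hL hNL) hNL⟩
  have hpidx : p ∣ N.index := by
    have h1 := N.card_mul_index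
    rw [← h1] at hpG
    rcases hp.dvd_mul.mp hpG with h | h
    · exact absurd h hNp
    · exact h
  -- a minimal normal subgroup of `G / N`
  obtain ⟨M, hMn, hM0, hMmin⟩ : ∃ M : Subgroup (G ⧸ N), M.Normal ∧ M ≠ ⊥ ∧
      ∀ L : Subgroup (G ⧸ N), L.Normal → L ≤ M → L = ⊥ ∨ L = M := by
    have hfin : {L : Subgroup (G ⧸ N) | L.Normal ∧ L ≠ ⊥}.Finite := Set.toFinite _
    obtain ⟨M, hM⟩ := hfin.exists_minimal ⟨⊤, Subgroup.normal_top, by
      intro h
      have h2 : Nat.card (G ⧸ N) = 1 := by
        have := Subgroup.card_top (G := G ⧸ N)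
        rw [h, Subgroup.card_bot] at this
        exact this.symm
      rw [← Subgroup.index_eq_card] at h2
      rw [h2] at hpidx
      exact hp.one_lt.ne' (Nat.dvd_one.mp hpidx)⟩
    refine ⟨M, hM.1.1, hM.1.2, fun L hL hLM => ?_⟩
    by_cases h : L = ⊥
    · exact Or.inl h
    · exact Or.inr (le_antisymm hLM (hM.2 ⟨hL, h⟩ hLM))
  set H : Subgroup G := M.comap (QuotientGroup.mk' N) with hH
  have hHn : H.Normal := hMn.comap _
  have hNH : N ≤ H := by
    intro x hx
    rw [hH, mem_comap]
    have : QuotientGroup.mk' N x = 1 := (QuotientGroup.eq_one_iff x).mpr hx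
    rw [this]
    exact one_mem _
  have hHN : H ≠ N := by
    intro h
    apply hM0
    rw [eq_bot_iff]
    intro y hy
    obtain ⟨x, rfl⟩ := QuotientGroup.mk'_surjective N y
    have : x ∈ H := hy
    rw [h] at this
    exact Subgroup.mem_bot.mpr ((QuotientGroup.eq_one_iff x).mpr this)
  have hpH : p ∣ Nat.card H := by
    by_contra h
    exact hHN (hNmax H ⟨hHn, h⟩ hNH)
  have e := quotEquiv N M
  have hcardM : Nat.card N * Nat.card M = Nat.card H := by
    have h1 : Nat.card (↥H ⧸ N.subgroupOf H) = Nat.card M := Nat.card_congr e.toEquiv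
    have h2 : Nat.card (↥H ⧸ N.subgroupOf H) = N.relIndex H := rfl
    rw [← h1, h2, Nat.mul_comm]
    have h3 := Subgroup.relIndex_mul_relIndex ⊥ N H bot_le hNH
    rw [relIndex_bot_left, relIndex_bot_left] at h3
    rw [Nat.mul_comm]
    exact h3
  have hpM : p ∣ Nat.card M := by
    rw [← hcardM] at hpH
    rcases hp.dvd_mul.mp hpH with h | h
    · exact absurd h hNp
    · exact h
  have hp2M : ¬ p ^ 2 ∣ Nat.card M := by
    intro h
    have h1 : p ^ 2 ∣ Nat.card G := by
      refine h.trans ((Dvd.intro_left _ hcardM).trans (Subgroup.card_subgroup_dvd_card H))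
    have h2 := (hp.pow_dvd_iff_le_factorization Nat.card_pos.ne').mp h1
    rw [hfac p hp hnp (by omega)] at h2
    omega
  have hsimple : IsSimpleGroup M := isSimple_of_minimal M hMmin hp hpM hp2M
  have hall : ∀ t : ℕ, t.Prime → n < 2 * t → t ≤ n → t ∣ Nat.card M := by
    intro t ht hnt htn
    by_cases htp : t = p
    · rw [htp]; exact hpM
    have htG : t ∣ Nat.card G := by
      rw [ht.dvd_iff_one_le_factorization Nat.card_pos.ne', hfac t ht hnt htn]
    -- `t` does not divide `|N|`
    have htN : ¬ t ∣ Nat.card N := by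
      intro h
      have h1 : (Nat.card N).factorization t = 1 := by
        have h2 : 1 ≤ (Nat.card N).factorization t :=
          (ht.dvd_iff_one_le_factorization Nat.card_pos.ne').mp h
        have h3 : (Nat.card N).factorization t ≤ (Nat.card G).factorization t :=
          (Nat.factorization_le_iff_dvd Nat.card_pos.ne' Nat.card_pos.ne').mpr
            (Subgroup.card_subgroup_dvd_card N) t
        rw [hfac t ht hnt htn] at h3
        omega
      have h4 := pow_dvd_of_normal hp ht (Ne.symm htp)
        (hadj p t hp ht (Ne.symm htp) hnp hnt) N (k := 1) (by rw [pow_one]; exact hpidx)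
      rw [h1, pow_one, pow_one] at h4
      exact not_dvd_sub_one hn hp ht hnp htn h4
    -- `t` does not divide `|G : H|`
    have htH : ¬ t ∣ H.index := by
      intro h
      have h1 : (Nat.card H).factorization p = 1 := by
        have h2 : 1 ≤ (Nat.card H).factorization p :=
          (hp.dvd_iff_one_le_factorization Nat.card_pos.ne').mp hpH
        have h3 : (Nat.card H).factorization p ≤ (Nat.card G).factorization p :=
          (Nat.factorization_le_iff_dvd Nat.card_pos.ne' Nat.card_pos.ne').mpr
            (Subgroup.card_subgroup_dvd_card H) p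
        rw [hfac p hp hnp (by omega)] at h3
        omega
      have h4 := pow_dvd_of_normal ht hp htp
        (hadj t p ht hp htp hnt hnp) H (k := 1) (by rw [pow_one]; exact h)
      rw [h1, pow_one, pow_one] at h4
      exact not_dvd_sub_one hn ht hp hnt (by omega) h4
    have h5 := H.card_mul_index
    rw [← h5] at htG
    rcases ht.dvd_mul.mp htG with h | h
    · rw [← hcardM] at h
      rcases ht.dvd_mul.mp h with h | h
      · exact absurd h htN
      · exact h
    · exact absurd h htH
  refine ⟨N, H, hNn, hHn, lt_of_le_of_ne hNH (Ne.symm hHN), ?_, ?_, ?_⟩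
  · exact e.isSimpleGroup
  · intro hcomm
    have hsM : s ∣ Nat.card M := hall s hs (by omega) hsn
    have hcommM : ∀ x y : M, x * y = y * x := by
      intro x y
      have h1 := hcomm.is_comm.comm (e.symm x) (e.symm y)
      have h2 := congrArg e h1
      simpa using h2
    let _ : CommGroup M := { (inferInstance : Group M) with mul_comm := hcommM }
    have hprime : (Nat.card M).Prime := IsSimpleGroup.prime_card
    have h1 := (Nat.prime_dvd_prime_iff_eq hp hprime).mp hpM
    have h2 := (Nat.prime_dvd_prime_iff_eq hs hprime).mp hsM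
    omega
  · intro t ht hnt htn
    rw [Nat.card_congr e.toEquiv]
    exact hall t ht hnt htn

end Cfsg.Agent.S3420
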