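import Cfsg.Statements.S3419
import Cfsg.Agent.S3420
import Cfsg.Agent.Solvable.Hall

set_option autoImplicit false
open Cfsg

namespace Cfsg.Agent.S3419

open Subgroup Cfsg.Agent.H363.Frat Cfsg.Agent.H363.AltPrimes

/-- A solvable group whose order has the parts `p ^ a` and `q` with `p ∤ q - 1`,
`q ∤ p ^ a - 1` has elements of order `p * q`. -/
theorem not_solvable_of_nonAdj {G : Type*} [Group G] [Finite G] {p q a k : ℕ} (hp : p.Prime)
    (hq : q.Prime) (hpq : p ≠ q) (hG : Nat.card G = (p ^ a * q) * k)
    (hcop : (p ^ a * q).Coprime k) (h1 : ¬ p ∣ q - 1) (h2 : ¬ q ∣ p ^ a - 1)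
    (h : NonAdj G p q) : ¬ Group.IsSolvable G := by
  intro hs
  obtain ⟨K, hK⟩ := Cfsg.Agent.Solvable.Hall.hall_exists (p ^ a * q) k hG hcop
  have : Fact p.Prime := ⟨hp⟩
  have : Fact q.Prime := ⟨hq⟩
  have hKadj : NonAdj K p q := h.subgroup K
  have hq' : (Nat.card K).factorization q = 1 := by
    rw [hK, Nat.factorization_mul (pow_ne_zero _ hp.ne_zero) hq.ne_zero, hp.factorization_pow,
      hq.factorization]
    simp [Finsupp.single_apply, hpq]
  let Q : Sylow q K := default
  have hQc : Nat.card (Q : Subgroup K) = q := by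
    rw [Q.card_eq_multiplicity, hq', pow_one]
  let P : Sylow p (normalizer ((Q : Subgroup K) : Set K)) := default
  have hPc : Nat.card ((P : Subgroup (normalizer ((Q : Subgroup K) : Set K))).map
      (normalizer ((Q : Subgroup K) : Set K)).subtype) ∣ Nat.card (Q : Subgroup K) - 1 := by
    apply dvd_card_sub_one hp hq hpq hKadj (P.2.map _) Q.2
    rintro _ ⟨x, _, rfl⟩
    exact x.2
  rw [hQc, Nat.card_congr ((P : Subgroup (normalizer ((Q : Subgroup K) : Set K))).equivMapOfInjective
      (normalizer ((Q : Subgroup K) : Set K)).subtype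
      (normalizer ((Q : Subgroup K) : Set K)).subtype_injective).symm.toEquiv,
      P.card_eq_multiplicity] at hPc
  have hN0 : (Nat.card (normalizer ((Q : Subgroup K) : Set K))).factorization p = 0 := by
    by_contra hne
    exact h1 ((dvd_pow_self p hne).trans hPc)
  have hNp : ¬ p ∣ Nat.card (normalizer ((Q : Subgroup K) : Set K)) := by
    intro hd
    have := (hp.dvd_iff_one_le_factorization Nat.card_pos.ne').mp hd
    omega
  have hNc : Nat.card (normalizer ((Q : Subgroup K) : Set K)) ∣ q := by
    have h3 : Nat.card (normalizer ((Q : Subgroup K) : Set K)) ∣ p ^ a * q := by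
      rw [← hK]
      exact Subgroup.card_subgroup_dvd_card _
    exact (Nat.Coprime.pow_right a ((hp.coprime_iff_not_dvd.mpr hNp).symm)).dvd_of_dvd_mul_left h3
  have hNq : q ∣ Nat.card (normalizer ((Q : Subgroup K) : Set K)) := by
    have h3 : Nat.card (Q : Subgroup K) ∣ Nat.card (normalizer ((Q : Subgroup K) : Set K)) :=
      Subgroup.card_dvd_of_le le_normalizer
    rwa [hQc] at h3
  have hNcard : Nat.card (normalizer ((Q : Subgroup K) : Set K)) = q := Nat.dvd_antisymm hNc hNq
  have hidx : (normalizer ((Q : Subgroup K) : Set K)).index = p ^ a := by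
    have h3 := (normalizer ((Q : Subgroup K) : Set K)).card_mul_index
    rw [hNcard, hK, Nat.mul_comm (p ^ a) q] at h3
    exact Nat.eq_of_mul_eq_mul_left hq.pos h3
  have hmod := card_sylow_modEq_one q K
  have hidx' : Nat.card (Sylow q K) = p ^ a := by
    rw [Sylow.card_eq_index_normalizer Q]
    exact hidx
  rw [hidx'] at hmod
  exact h2 ((Nat.modEq_iff_dvd' (Nat.one_le_pow _ _ hp.pos)).mp hmod.symm)

theorem nonAdj_perm_of_sum {n p s : ℕ} (hp : p.Prime) (hs : s.Prime) (hps : p ≠ s)
    (hn : n < p + s) : NonAdj (Equiv.Perm (Fin n)) p s := by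
  intro σ hσ
  obtain ⟨c, hc, hpc⟩ := exists_dvd_cycleType σ hp (by rw [hσ]; exact dvd_mul_right _ _)
  obtain ⟨d, hd, hsd⟩ := exists_dvd_cycleType σ hs (by rw [hσ]; exact dvd_mul_left _ _)
  have hsum : σ.cycleType.sum ≤ n := by
    rw [Equiv.Perm.sum_cycleType]
    simpa using σ.support.card_le_univ
  have hcpos : 0 < c := lt_of_lt_of_le two_pos (Equiv.Perm.two_le_of_mem_cycleType hc)
  have hdpos : 0 < d := lt_of_lt_of_le two_pos (Equiv.Perm.two_le_of_mem_cycleType hd)
  have hpc' := Nat.le_of_dvd hcpos hpc
  have hsd' := Nat.le_of_dvd hdpos hsd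
  obtain ⟨t, ht⟩ := Multiset.exists_cons_of_mem hc
  by_cases hcd : c = d
  · subst hcd
    have h1 : p * s ∣ c := (Nat.Coprime.mul_dvd_of_dvd_of_dvd
      ((Nat.coprime_primes hp hs).mpr hps) hpc hsd)
    have h2 := Nat.le_of_dvd hcpos h1
    have h3 : c ≤ n := by
      rw [ht, Multiset.sum_cons] at hsum
      omega
    have h4 := hp.two_le
    have h5 := hs.two_le
    nlinarith
  · have hd' : d ∈ t := by
      rw [ht] at hd
      rcases Multiset.mem_cons.mp hd with h | h
      · exact absurd h.symm hcd
      · exact h
    obtain ⟨u, hu⟩ := Multiset.exists_cons_of_mem hd'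
    rw [ht, hu, Multiset.sum_cons, Multiset.sum_cons] at hsum
    omega

theorem nonAdj_alt_of_sum {n p s : ℕ} (hp : p.Prime) (hs : s.Prime) (hps : p ≠ s)
    (hn : n < p + s) : NonAdj (alternatingGroup (Fin n)) p s :=
  (nonAdj_perm_of_sum hp hs hps hn).subgroup _

/-- Let n ≥ 5 and let G be a finite group with the same order and the same set of element orders as the alternating group of degree n. Then G is not solvable. -/
theorem result {G : Type*} [Group G] [Finite G] (n : ℕ) (hn : 5 ≤ n)
    (hcard : Nat.card G = Nat.card ↥(alternatingGroup (Fin n)))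
    (hspec : Set.range (orderOf : G → ℕ) = Set.range (orderOf : ↥(alternatingGroup (Fin n)) → ℕ)) :
    ¬ Group.IsSolvable G := by
  by_cases hn11 : 11 ≤ n
  · intro hsol
    obtain ⟨N, H, hN, hH, hNH, hsimple, hnc, -⟩ :=
      Cfsg.Agent.S3420.result n hn11 hcard hspec
    have hs : Group.IsSolvable (↥H ⧸ N.subgroupOf H) := inferInstance
    exact hnc ⟨⟨(IsSimpleGroup.comm_iff_isSolvable.mpr hs)⟩⟩
  · have h2c := card_alternating (n := n) (by omega)
    rw [← hcard] at h2c
    push Not at hn11
    interval_cases n
    · have hG : Nat.card G = 60 := by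
        have : Nat.factorial 5 = 120 := by decide
        omega
      exact not_solvable_of_nonAdj (p := 3) (q := 5) (a := 1) (k := 4) Nat.prime_three
        Nat.prime_five (by norm_num) (by rw [hG]; norm_num) (by norm_num) (by norm_num) (by norm_num)
        (nonAdj_of_range hspec (nonAdj_alt_of_sum Nat.prime_three Nat.prime_five (by norm_num)
          (by norm_num)))
    · have hG : Nat.card G = 360 := by
        have : Nat.factorial 6 = 720 := by decide
        omega
      exact not_solvable_of_nonAdj (p := 3) (q := 5) (a := 2) (k := 8) Nat.prime_three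
        Nat.prime_five (by norm_num) (by rw [hG]; norm_num) (by norm_num) (by norm_num) (by norm_num)
        (nonAdj_of_range hspec (nonAdj_alt_of_sum Nat.prime_three Nat.prime_five (by norm_num)
          (by norm_num)))
    · have hG : Nat.card G = 2520 := by
        have : Nat.factorial 7 = 5040 := by decide
        omega
      exact not_solvable_of_nonAdj (p := 5) (q := 7) (a := 1) (k := 72) Nat.prime_five
        (by norm_num) (by norm_num) (by rw [hG]; norm_num) (by norm_num) (by norm_num) (by norm_num)
        (nonAdj_of_range hspec (nonAdj_alt_of_sum Nat.prime_five (by norm_num) (by norm_num)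
          (by norm_num)))
    · have hG : Nat.card G = 20160 := by
        have : Nat.factorial 8 = 40320 := by decide
        omega
      exact not_solvable_of_nonAdj (p := 5) (q := 7) (a := 1) (k := 576) Nat.prime_five
        (by norm_num) (by norm_num) (by rw [hG]; norm_num) (by norm_num) (by norm_num) (by norm_num)
        (nonAdj_of_range hspec (nonAdj_alt_of_sum Nat.prime_five (by norm_num) (by norm_num)
          (by norm_num)))
    · have hG : Nat.card G = 181440 := by
        have : Nat.factorial 9 = 362880 := by decide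
        omega
      exact not_solvable_of_nonAdj (p := 5) (q := 7) (a := 1) (k := 5184) Nat.prime_five
        (by norm_num) (by norm_num) (by rw [hG]; norm_num) (by norm_num) (by norm_num) (by norm_num)
        (nonAdj_of_range hspec (nonAdj_alt_of_sum Nat.prime_five (by norm_num) (by norm_num)
          (by norm_num)))
    · have hG : Nat.card G = 1814400 := by
        have : Nat.factorial 10 = 3628800 := by decide
        omega
      exact not_solvable_of_nonAdj (p := 5) (q := 7) (a := 2) (k := 10368) Nat.prime_five
        (by norm_num) (by norm_num) (by rw [hG]; norm_num) (by norm_num) (by norm_num) (by norm_num)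
        (nonAdj_of_range hspec (nonAdj_alt_of_sum Nat.prime_five (by norm_num) (by norm_num)
          (by norm_num)))

end Cfsg.Agent.S3419
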