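import Cfsg.Statements.S1829
import Cfsg.Agent.H465.QtkeWr
import Cfsg.Agent.OrdDiv.Table
import Cfsg.Agent.S1816

set_option autoImplicit false
open Cfsg

namespace Cfsg.Agent.S1829

/-- There is no non-abelian finite simple QTKE-group G with a Sylow 2-subgroup T and a maximal 2-local subgroup M containing T such that M is isomorphic to the wreath product S₄ ≀ Z₂ (the subgroup of the symmetric group of degree 8 preserving a partition into two blocks of size 4; order 1152). -/
theorem result {G : Type*} [Group G] [Finite G] [IsSimpleGroup G]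
    (hG : ¬ IsMulCommutative G) (hQ : Cfsg.IsQTKE G) (T : Sylow 2 G) (M : Subgroup G)
    (hM : M ∈ Cfsg.maxTwoLocalsContaining (T : Subgroup G))
    (hW : Nonempty (↥M ≃* ↥Cfsg.blockStabilizerS4wr2)) : False := by
  obtain ⟨e⟩ := hW
  exact Cfsg.Agent.H465.QtkeWr.main Cfsg.Agent.OrdDiv.table (Cfsg.Agent.S1816.result hG hQ) T M hM.2 e

end Cfsg.Agent.S1829
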