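import Cfsg.Statements.S1846
import Cfsg.Agent.S0205
import Cfsg.Agent.S1819
import Cfsg.Agent.S1821
import Cfsg.Agent.H6.MinH

set_option autoImplicit false
open Cfsg

namespace Cfsg.Agent.S1846

/-- Let G be a non-abelian finite simple QTKE-group, T a Sylow 2-subgroup of G, and L a maximal member of ℒ(G, T) with L/O₂(L) quasisimple; put M = N_G(⟨L^T⟩). Then T lies in at least two distinct maximal 2-local subgroups of G, and for every member H of ℋ_*(T, M) (a subgroup with O₂(H) ≠ 1 containing T, not contained in M, and minimal among such), H ∩ M is the unique maximal subgroup of H containing T. -/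
theorem result {G : Type*} [Group G] [Finite G] [IsSimpleGroup G]
    (hG : ¬ IsMulCommutative G) (hQ : Cfsg.IsQTKE G) (T : Sylow 2 G) (L : Subgroup G)
    (hL : L ∈ Cfsg.calLMax (T : Subgroup G)) (hq : Cfsg.IsQuasisimple (↥L ⧸ Cfsg.pCore 2 ↥L)) :
    (∃ M₁ M₂ : Subgroup G, M₁ ∈ Cfsg.maxTwoLocalsContaining (T : Subgroup G) ∧
      M₂ ∈ Cfsg.maxTwoLocalsContaining (T : Subgroup G) ∧ M₁ ≠ M₂) ∧
    ∀ H ∈ Cfsg.calHMin (T : Subgroup G) (Subgroup.normalizer (Cfsg.conjClosure L (T : Subgroup G) : Set G)),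
      IsCoatom ((H ⊓ Subgroup.normalizer (Cfsg.conjClosure L (T : Subgroup G) : Set G)).subgroupOf H) ∧
      ∀ K : Subgroup ↥H, IsCoatom K → (T : Subgroup G).subgroupOf H ≤ K →
        K = (H ⊓ Subgroup.normalizer (Cfsg.conjClosure L (T : Subgroup G) : Set G)).subgroupOf H := by
  refine ⟨?_, fun H hH => H6.MinH.formal T (H6.MinH.le_normalizer_conjClosure L _) hH⟩
  have h1 := (Cfsg.Agent.S1821.result hG hQ T L hL).2.2
  have h2 : Subgroup.normalizer (Cfsg.conjClosure L (T : Subgroup G) : Set G) ∈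
      Cfsg.maxTwoLocalsContaining (L ⊔ (T : Subgroup G)) := by rw [h1]; rfl
  exact H6.MinH.two T hL.1 ⟨h2.1, le_sup_right.trans h2.2⟩ fun h =>
    H6.MinH.twoSolv_rows (fun _ _ _ h => Cfsg.Agent.S0205.result h) (fun _ _ _ h => Cfsg.Agent.S0205.result h)
      (Cfsg.Agent.S1819.result hG hQ T _ h)

end Cfsg.Agent.S1846
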