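import Cfsg.Statements.S1847
import Cfsg.Agent.S1819
import Cfsg.Agent.S1169
import Cfsg.Agent.H6.SylUniq

set_option autoImplicit false
open Cfsg

namespace Cfsg.Agent.S1847

/-- Let G be a non-abelian finite simple QTKE-group and T a Sylow 2-subgroup of G lying in a unique maximal 2-local subgroup M of G. Suppose N_G(D) ≤ M for every member D of the Alperin–Goldschmidt conjugation family of T in G. Then every normal 2-subgroup of M is strongly closed in T with respect to G, and G is a Bender group: G is isomorphic to L₂(2ⁿ) (n ≥ 2), U₃(2ⁿ) (n ≥ 2) or Sz(2ⁿ) (n ≥ 3 odd). -/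
theorem result {G : Type*} [Group G] [Finite G] [IsSimpleGroup G]
    (hG : ¬ IsMulCommutative G) (hQ : Cfsg.IsQTKE G) (T : Sylow 2 G) (M : Subgroup G)
    (hM : Cfsg.maxTwoLocalsContaining (T : Subgroup G) = {M})
    (h : ∀ D ∈ Cfsg.agConjFamily (T : Subgroup G), Subgroup.normalizer (D : Set G) ≤ M) :
    (∀ U : Subgroup G, U ≤ M → M ≤ Subgroup.normalizer (U : Set G) → IsPGroup 2 ↥U →
        Cfsg.IsStronglyClosed U (T : Subgroup G)) ∧
      Cfsg.IsBenderGroup G :=
  H6.SylUniq.main hG T M hM h (Cfsg.Agent.S1819.result hG hQ T M hM)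
    fun A hA hAc hsc => Cfsg.Agent.S1169.result T A hA hAc hsc

end Cfsg.Agent.S1847
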