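import Cfsg.Statements.S1849
import Cfsg.Agent.S1817
import Cfsg.Agent.H7.JOneStd

set_option autoImplicit false
open Cfsg

namespace Cfsg.Agent.S1849

/-- Let G be a non-abelian finite simple group that is quasithin, all of whose proper subgroups are K-groups, and which is of even type (no involution centralizer has a nontrivial normal subgroup of odd order, and the components of involution centralizers come from the restricted list used for quasithin groups) but not of even characteristic. Let T be a Sylow 2-subgroup of G, z an involution in the centre of T, and L a component of C_G(z). Then L is a standard subgroup of G: L is quasisimple, C_G(L) is tightly embedded in G, L commutes elementwise with no conjugate of L other than itself, and N_G(L) = N_G(C_G(L)). -/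
theorem result {G : Type*} [Group G] [Finite G] [IsSimpleGroup G]
    (hG : ¬ IsMulCommutative G) (hQT : Cfsg.IsQuasithin G) (hK : Cfsg.IsKProper G)
    (hnE : ¬ Cfsg.IsOfEvenCharacteristic G) (hE : Cfsg.IsOfQTEvenType G) (T : Sylow 2 G)
    (z : G) (hzT : z ∈ (T : Subgroup G)) (hzc : ∀ t ∈ (T : Subgroup G), t * z = z * t) (hz2 : orderOf z = 2)
    (L : Subgroup ↥(Subgroup.centralizer ({z} : Set G))) (hL : Cfsg.IsComponent L) :
    Cfsg.IsStandardSubgroup (L.map (Subgroup.centralizer ({z} : Set G)).subtype) :=
  (H7.JOneStd.std_of_iso (Cfsg.Agent.S1817.result hG hQT hK hE hnE) hz2 L hL).2.2.2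

end Cfsg.Agent.S1849
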