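import Cfsg.Statements.S1850
import Cfsg.Agent.H7.CharTwoUp

set_option autoImplicit false
open Cfsg

namespace Cfsg.Agent.S1850

open Subgroup

/-- Let G be a non-abelian finite simple QTKE-group and T a Sylow 2-subgroup of G. If U is a nontrivial 2-subgroup of G with U ∩ Z(T) ≠ 1, then F*(N_G(U)) = O₂(N_G(U)). -/
theorem result {G : Type*} [Group G] [Finite G] [IsSimpleGroup G]
    (hG : ¬ IsMulCommutative G) (hQ : Cfsg.IsQTKE G) (T : Sylow 2 G) (U : Subgroup G)
    (hU : IsPGroup 2 ↥U) (hZ : U ⊓ ((T : Subgroup G) ⊓ Subgroup.centralizer ((T : Subgroup G) : Set G)) ≠ ⊥) :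
    Subgroup.normalizer (U : Set G) ∈ Cfsg.calHe G := by
  have h2f : Fact (Nat.Prime 2) := ⟨Nat.prime_two⟩
  change generalizedFittingSubgroup ↥(normalizer (U : Set G)) = pCore 2 ↥(normalizer (U : Set G))
  rw [Cfsg.Agent.SignalizersComponents.CharP.genFitting_eq_pCore_iff]
  set V : Subgroup G := U ⊓ ((T : Subgroup G) ⊓ centralizer ((T : Subgroup G) : Set G)) with hV
  refine H7.CharTwoUp.charP_normalizer_of_le (V := V) inf_le_left hU ?_
  have hV2 : IsPGroup 2 ↥V := hU.to_le inf_le_left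
  have hl : IsTwoLocal (normalizer (V : Set G)) := ⟨V, hV2, hZ, rfl⟩
  refine hQ.2.2 _ hl ⟨T, ?_⟩
  intro t ht
  rw [mem_normalizer_iff]
  intro x
  constructor
  · intro hx
    have h1 := (mem_centralizer_iff.1 hx.2.2) t ht
    have h2 : t * x * t⁻¹ = x := by rw [h1]; group
    rw [h2]; exact hx
  · intro hx
    have h1 := (mem_centralizer_iff.1 hx.2.2) t ht
    have h2 : x = t * x * t⁻¹ := by
      have e1 : t⁻¹ * (t * (t * x * t⁻¹)) * t = t * x := by group
      have e2 : t⁻¹ * ((t * x * t⁻¹) * t) * t = x * t := by group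
      have h3 : t * x = x * t := by rw [← e1, h1, e2]
      rw [h3]; group
    rw [h2]; exact hx

end Cfsg.Agent.S1850
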