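import Cfsg.Statements.S1852
import Cfsg.Agent.H7.XiFin
import Cfsg.Agent.S1822
import Cfsg.Agent.S1824

set_option autoImplicit false
open Cfsg

namespace Cfsg.Agent.S1852

open Subgroup Cfsg.Agent.H7.XiConc Cfsg.Agent.H7.XiFin
open Cfsg.Agent.QTUniq.Local (pCore_ne_bot_of_twoLocal exists_maximal_twoLocal map_pCore_isPGroup)

/-- Let G be a non-abelian finite simple QTKE-group and T a Sylow 2-subgroup of G lying in at least two distinct maximal 2-local subgroups of G. Let X be a member of Ξ*(G, T) — X = O²(X) is T-invariant with O₂(XT) ≠ 1, X/O₂(X) is elementary abelian of order p² or extraspecial of order p³ for some odd prime p, T is irreducible on the Frattini quotient of X/O₂(X), and XT lies in no ⟨L, T⟩ with L ∈ ℒ(G, T) and L/O₂(L) quasisimple — that also lies in 𝒳 (F*(X) = O₂(X)) and acts nontrivially on Ω₁(Z(O₂(X))) (a faithful solvable uniqueness group). Then either X is a {2, 3}-group, or X/O₂(X) is a 5-group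 and the group of automorphisms of X/O₂(X) induced by N_G(X) is a {2, 5}-group (rendered: for every prime r other than 2 and 5, an element of N_G(X) whose r-th power acts trivially on X/O₂(X) itself acts trivially on X/O₂(X)). -/
theorem result {G : Type*} [Group G] [Finite G] [IsSimpleGroup G]
    (hG : ¬ IsMulCommutative G) (hQ : Cfsg.IsQTKE G) (T : Sylow 2 G) (X : Subgroup G)
    (hT : ∃ M₁ M₂ : Subgroup G, M₁ ∈ Cfsg.maxTwoLocalsContaining (T : Subgroup G) ∧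
      M₂ ∈ Cfsg.maxTwoLocalsContaining (T : Subgroup G) ∧ M₁ ≠ M₂)
    (hX : X ∈ Cfsg.XiStar (T : Subgroup G)) (hXf : X ∈ Cfsg.calXf G) :
    (∀ p : ℕ, p.Prime → p ∣ Nat.card ↥X → p = 2 ∨ p = 3) ∨
    (IsPGroup 5 (↥X ⧸ Cfsg.pCore 2 ↥X) ∧
      ∀ r : ℕ, r.Prime → r ≠ 2 → r ≠ 5 → ∀ g ∈ Subgroup.normalizer (X : Set G),
        (∀ x ∈ X, g ^ r * x * (g ^ r)⁻¹ * x⁻¹ ∈ Cfsg.pCoreTwoOf X) →
          ∀ x ∈ X, g * x * g⁻¹ * x⁻¹ ∈ Cfsg.pCoreTwoOf X) := by
  have h2f : Fact (Nat.Prime 2) := ⟨Nat.prime_two⟩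
  have hN := Cfsg.Agent.S1822.result hG hQ T X hX
  obtain ⟨p, P, D⟩ := exists_setup hX.1
  have hne := D.not_le_centralizer hXf.2
  refine concl D hXf.2 ?_
  set M : Subgroup G := normalizer (X : Set G) with hM
  set M₀ : Subgroup G := X ⊔ (T : Subgroup G) with hM₀
  have hMmem : M ∈ maxTwoLocalsContaining M₀ := by rw [hN]; rfl
  have hMT : M ∈ maxTwoLocalsContaining (T : Subgroup G) := ⟨hMmem.1, D.TX⟩
  -- another maximal 2-local over `T`
  obtain ⟨M₂, hM₂, hM₂ne⟩ : ∃ M₂ ∈ maxTwoLocalsContaining (T : Subgroup G), M₂ ≠ M := by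
    obtain ⟨M₁, M₂, h1, h2, h12⟩ := hT
    by_cases h : M₁ = M
    · exact ⟨M₂, h2, fun h' => h12 (h.trans h'.symm)⟩
    · exact ⟨M₁, h1, h⟩
  have hM₂' : M₂ ∈ calHOverNotLE (T : Subgroup G) M := by
    refine ⟨⟨pCore_ne_bot_of_twoLocal hM₂.1.1, hM₂.2⟩, fun h => hM₂ne ?_⟩
    exact (hM₂.1.2 M hMT.1.1 h).symm
  obtain ⟨H, hH⟩ : ∃ H : Subgroup G, H ∈ calHMin (T : Subgroup G) M := by
    classical
    have hfin : Set.Finite (calHOverNotLE (T : Subgroup G) M) := Set.toFinite _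
    obtain ⟨H, hH⟩ := hfin.exists_minimal ⟨M₂, hM₂'⟩
    exact ⟨H, hH.prop, fun K hK hKH => le_antisymm hKH (hH.2 hK hKH)⟩
  have hgood : ∀ B : Subgroup G, InducesElemAbelianTwoGroupOn B (Vx T X) →
      (Vx T X ⊓ centralizer (B : Set G)).relIndex (Vx T X) ≤ ((centralizer (Vx T X : Set G)).relIndex B) ^ 2 →
      Good (Vx T X) B := by
    intro B hB hidx
    refine ⟨hB.1, fun b hb => ?_, hB.2.2, ?_⟩
    · rw [← pow_two]
      exact hB.2.1 b hb
    · rw [inf_relIndex_left] at hidx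
      exact hidx
  rcases Cfsg.Agent.S1824.result hG hQ T M M₀ H (Vx T X) hMT le_sup_right (sup_le le_normalizer D.TX) hH
    (D.mem_calR2 hne) (by rw [D.pCore_eq, D.inf_centralizer hne])
    (Or.inl (by rw [D.oddGenerated_sup]; exact inf_le_right)) with h | ⟨-, h⟩ | h
  · exfalso
    obtain ⟨R₀, hR₀, hR₀Q, hR₀n⟩ := h
    have hR₀p : IsPGroup 2 R₀ := (map_pCore_isPGroup 2 M₀).to_le hR₀Q
    obtain ⟨M', hM', hle⟩ := exists_maximal_twoLocal (⟨R₀, hR₀p, hR₀, rfl⟩ : IsTwoLocal (normalizer (R₀ : Set G)))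
    have h1 : M' ∈ maxTwoLocalsContaining M₀ := ⟨hM', (le_sup_left.trans hR₀n).trans hle⟩
    rw [hN] at h1
    have h2 : M' = M := h1
    apply hH.1.2
    rw [← h2]
    exact (le_sup_right.trans hR₀n).trans hle
  · obtain ⟨B, hB, hind, -, hidx⟩ := h
    exact ⟨B, hB, hgood B hind hidx⟩
  · obtain ⟨B, hB, hind, -, hidx⟩ := h
    exact ⟨B, hB, hgood B hind hidx⟩

end Cfsg.Agent.S1852
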