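import Cfsg.Statements.S1957
import Cfsg.Agent.Lib.Cores
import Cfsg.Agent.GTwoFour.Tools
import Cfsg.Agent.SignalizersComponents.CoprimeGen

set_option autoImplicit false
open Cfsg

namespace Cfsg.Agent.S1957

open Subgroup

/-- The stability argument. -/
theorem key {G : Type*} [Group G] [Finite G] (Q H U D : Subgroup G) (w : G) (hQ2 : IsPGroup 2 Q)
    (hQH : Q ≤ H) (hHQ : H ≤ normalizer (Q : Set G)) (hcent : H ⊓ centralizer (Q : Set G) ≤ Q)
    (hww : w * w = 1) (hw : ∀ h ∈ H, h * w = w * h) (hUH : U ≤ H)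
    (hUQ : ∀ a ∈ U, ∀ q ∈ Q, a * q * a⁻¹ = q ∨ a * q * a⁻¹ = q * w)
    (hDH : D ≤ H) (hD : Odd (Nat.card D)) (hUD : U ≤ normalizer (D : Set G)) :
    ∀ a ∈ U, ∀ d ∈ D, a * d = d * a := by
  intro a ha d hd
  have hwi : w⁻¹ = w := inv_eq_of_mul_eq_one_left hww
  -- e = [a, d]
  have hed : a * d * a⁻¹ * d⁻¹ ∈ D :=
    D.mul_mem ((mem_normalizer_iff.1 (hUD ha) d).1 hd) (D.inv_mem hd)
  obtain ⟨e, he⟩ : ∃ e, e = a * d * a⁻¹ * d⁻¹ := ⟨_, rfl⟩
  rw [← he] at hed
  have heH : e ∈ H := hDH hed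
  have hconjQ : ∀ h ∈ H, ∀ q ∈ Q, h * q * h⁻¹ ∈ Q := fun h hh q hq =>
    (mem_normalizer_iff.1 (hHQ hh) q).1 hq
  have hwc : ∀ h ∈ H, h * w * h⁻¹ = w := by
    intro h hh; rw [hw h hh]; group
  have hUQ' : ∀ q ∈ Q, ∃ v, (v = 1 ∨ v = w) ∧ a * q * a⁻¹ = q * v := by
    intro q hq
    rcases hUQ a ha q hq with h | h
    · exact ⟨1, Or.inl rfl, by rw [h, mul_one]⟩
    · exact ⟨w, Or.inr rfl, h⟩
  have hUQi : ∀ q ∈ Q, ∃ v, (v = 1 ∨ v = w) ∧ a⁻¹ * q * a = q * v := by
    intro q hq
    have ha' := U.inv_mem ha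
    rcases hUQ a⁻¹ ha' q hq with h | h
    · exact ⟨1, Or.inl rfl, by rw [inv_inv] at h; rw [h, mul_one]⟩
    · exact ⟨w, Or.inr rfl, by rw [inv_inv] at h; exact h⟩
  have hvc : ∀ v, (v = 1 ∨ v = w) → ∀ h ∈ H, h * v * h⁻¹ = v := by
    rintro v (rfl | rfl) h hh
    · group
    · exact hwc h hh
  -- e q e⁻¹ ∈ {q, q w}
  have heq : ∀ q ∈ Q, e * q * e⁻¹ = q ∨ e * q * e⁻¹ = q * w := by
    intro q hq
    have hdi : d⁻¹ * q * d ∈ Q := by
      have := hconjQ d⁻¹ (H.inv_mem (hDH hd)) q hq
      rwa [inv_inv] at this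
    obtain ⟨v, hv, h1⟩ := hUQi _ hdi
    obtain ⟨u, hu, h2⟩ := hUQ' q hq
    have h3 : e * q * e⁻¹ = q * (u * v) := by
      calc e * q * e⁻¹ = a * (d * (a⁻¹ * (d⁻¹ * q * d) * a) * d⁻¹) * a⁻¹ := by rw [he]; group
        _ = a * (d * (d⁻¹ * q * d * v) * d⁻¹) * a⁻¹ := by rw [h1]
        _ = a * (q * (d * v * d⁻¹)) * a⁻¹ := by group
        _ = a * (q * v) * a⁻¹ := by rw [hvc v hv d (hDH hd)]
        _ = (a * q * a⁻¹) * (a * v * a⁻¹) := by group
        _ = q * u * v := by rw [h2, hvc v hv a (hUH ha)]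
        _ = q * (u * v) := by group
    rw [h3]
    rcases hu with rfl | rfl <;> rcases hv with rfl | rfl
    · left; simp
    · right; simp
    · right; simp
    · left; rw [hww, mul_one]
  -- e² centralizes Q
  have he2 : ∀ q ∈ Q, (e * e) * q = q * (e * e) := by
    intro q hq
    rcases heq q hq with h | h
    · have h1 : e * q = q * e := mul_inv_eq_iff_eq_mul.1 h
      calc e * e * q = e * (e * q) := by group
        _ = e * (q * e) := by rw [h1]
        _ = (e * q) * e := by group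
        _ = q * e * e := by rw [h1]
        _ = q * (e * e) := by group
    · have h1 : e * q = q * w * e := mul_inv_eq_iff_eq_mul.1 h
      calc e * e * q = e * (e * q) := by group
        _ = e * (q * w * e) := by rw [h1]
        _ = (e * q) * w * e := by group
        _ = q * w * e * w * e := by rw [h1]
        _ = q * w * (e * w) * e := by group
        _ = q * w * (w * e) * e := by rw [hw e heH]
        _ = q * (w * w) * (e * e) := by group
        _ = q * (e * e) := by rw [hww, mul_one]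
  have hcomm : e * e ∈ H ⊓ centralizer (Q : Set G) := by
    exact mem_inf.2 ⟨H.mul_mem heH heH, mem_centralizer_iff.2 fun q hq => (he2 q hq).symm⟩
  have heQ : e * e ∈ Q := hcent hcomm
  -- e² has odd order and 2-power order
  have hodd : Odd (orderOf e) := by
    have : orderOf e ∣ Nat.card D := Subgroup.orderOf_dvd_natCard D hed
    exact Odd.of_dvd_nat hD this
  obtain ⟨k, hk⟩ := hQ2 ⟨e * e, heQ⟩
  have hk' : (e * e) ^ 2 ^ k = 1 := by
    have := congrArg Subtype.val hk
    simpa using this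
  have hk2 : e ^ 2 ^ (k + 1) = 1 := by
    rw [← pow_two, ← pow_mul] at hk'
    rw [pow_succ, mul_comm]; exact hk'
  have h1 : orderOf e ∣ 2 ^ (k + 1) := orderOf_dvd_of_pow_eq_one hk2
  have h2 : orderOf e = 1 := by
    have hc : Nat.Coprime (orderOf e) (2 ^ (k + 1)) := (Nat.Coprime.pow_right _ hodd.coprime_two_right)
    exact Nat.eq_one_of_dvd_coprimes hc dvd_rfl h1 
  rw [orderOf_eq_one_iff] at h2
  have h3 : a * d * a⁻¹ * d⁻¹ = 1 := by rw [← he]; exact h2
  have h4 : a * d = d * a := by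
    have := congrArg (fun x => x * d * a) h3
    simpa [mul_assoc] using this
  exact h4

theorem normalizer_zpowers_eq {G : Type*} [Group G] (u : G) (huu : u * u = 1) :
    normalizer ((zpowers u : Subgroup G) : Set G) = centralizer {u} := by
  have hz : ∀ x ∈ zpowers u, x = 1 ∨ x = u := by
    rintro x ⟨n, rfl⟩
    rcases Int.even_or_odd' n with ⟨k, rfl | rfl⟩
    · left; simp only; rw [zpow_mul, zpow_ofNat, pow_two, huu, one_zpow]
    · right; simp only; rw [zpow_add, zpow_mul, zpow_ofNat, pow_two, huu, one_zpow, one_mul, zpow_one]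
  ext g
  rw [mem_centralizer_singleton_iff, mem_normalizer_iff]
  constructor
  · intro h
    have h1 := (h u).1 (mem_zpowers u)
    rcases hz _ h1 with h2 | h2
    · have : u = 1 := by
        have := congrArg (fun x => g⁻¹ * x * g) h2
        simpa [mul_assoc] using this
      rw [this]; group
    · exact (mul_inv_eq_iff_eq_mul.1 h2)
  · intro h x
    have hg : g * u * g⁻¹ = u := by rw [h]; group
    constructor
    · intro hx
      rcases hz x hx with rfl | rfl
      · rw [mul_one, mul_inv_cancel]; exact one_mem _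
      · rw [hg]; exact mem_zpowers _
    · intro hx
      rcases hz _ hx with h2 | h2
      · have : x = 1 := by
          have := congrArg (fun x => g⁻¹ * x * g) h2
          simpa [mul_assoc] using this
        rw [this]; exact one_mem _
      · have : x = u := by
          have h3 : g * x * g⁻¹ = g * u * g⁻¹ := by rw [h2, hg]
          exact mul_left_cancel (mul_right_cancel h3)
        rw [this]; exact mem_zpowers _

/-- The 2-core of the centralizer of an involution in a group of characteristic 2 type. -/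
theorem exists_core {G : Type*} [Group G] [Finite G] (h2 : Cfsg.IsCharacteristicTwoType G) (u : G)
    (hu1 : u ≠ 1) (huu : u * u = 1) :
    ∃ Q : Subgroup G, IsPGroup 2 Q ∧ Q ≤ centralizer {u} ∧
      centralizer {u} ≤ normalizer (Q : Set G) ∧ centralizer {u} ⊓ centralizer (Q : Set G) ≤ Q := by
  have hz2 : IsPGroup 2 (zpowers u) := by
    apply IsPGroup.of_card (n := 1)
    rw [Nat.card_zpowers, pow_one]
    exact orderOf_eq_prime (by rw [pow_two]; exact huu) hu1
  have hz1 : zpowers u ≠ ⊥ := by rwa [Ne, zpowers_eq_bot]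
  have h := h2.2 _ hz2 hz1
  rw [normalizer_zpowers_eq u huu] at h
  refine ⟨(pCore 2 ↥(centralizer {u})).map (centralizer {u}).subtype,
    (Cfsg.Agent.Lib.Cores.pCore_isPGroup 2).map _, map_subtype_le _, ?_, ?_⟩
  · have hn := Cfsg.Agent.Lib.Cores.pCore_normal (G := ↥(centralizer ({u} : Set G))) 2
    intro g hg
    rw [mem_normalizer_iff]
    intro x
    constructor
    · rintro ⟨y, hy, rfl⟩
      exact ⟨⟨g, hg⟩ * y * ⟨g, hg⟩⁻¹, hn.conj_mem y hy ⟨g, hg⟩, rfl⟩
    · rintro ⟨y, hy, hy2⟩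
      refine ⟨⟨g, hg⟩⁻¹ * y * ⟨g, hg⟩, ?_, ?_⟩
      · have := hn.conj_mem y hy ⟨g, hg⟩⁻¹
        rwa [inv_inv] at this
      · have : (y : G) = g * x * g⁻¹ := hy2
        show g⁻¹ * (y : G) * g = x
        rw [this]; group
  · rintro x hx
    obtain ⟨hx1, hx2⟩ := mem_inf.1 hx
    refine ⟨⟨x, hx1⟩, h ?_, rfl⟩
    rw [mem_centralizer_iff]
    intro y hy
    apply Subtype.ext
    exact mem_centralizer_iff.1 hx2 (y : G) ⟨y, hy, rfl⟩

theorem cyc_unique {G : Type*} [Group G] [Finite G] (Z : Subgroup G) (hZ : IsCyclic Z) (x y : G)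
    (hx : x ∈ Z) (hy : y ∈ Z) (hx2 : x * x = 1) (hy2 : y * y = 1) (hx1 : x ≠ 1) (hy1 : y ≠ 1) :
    x = y := by
  classical
  by_contra hne
  haveI := Fintype.ofFinite Z
  have h := IsCyclic.card_pow_eq_one_le (α := Z) (n := 2) (by norm_num)
  have hsub : ({1, ⟨x, hx⟩, ⟨y, hy⟩} : Finset Z) ⊆ Finset.univ.filter (fun a : Z => a ^ 2 = 1) := by
    intro a ha
    simp only [Finset.mem_insert, Finset.mem_singleton] at ha
    rw [Finset.mem_filter]
    refine ⟨Finset.mem_univ _, ?_⟩
    rcases ha with rfl | rfl | rfl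
    · exact one_pow 2
    · apply Subtype.ext; show x ^ 2 = 1; rw [pow_two, hx2]
    · apply Subtype.ext; show y ^ 2 = 1; rw [pow_two, hy2]
  have hc : ({1, ⟨x, hx⟩, ⟨y, hy⟩} : Finset Z).card = 3 := by
    rw [Finset.card_eq_three]
    refine ⟨_, _, _, ?_, ?_, ?_, rfl⟩
    · intro h1; exact hx1 (congrArg Subtype.val h1).symm
    · intro h1; exact hy1 (congrArg Subtype.val h1).symm
    · intro h1; exact hne (congrArg Subtype.val h1)
  have := (Finset.card_le_card hsub).trans h
  omega

/-- A 2-subgroup contained in `C(u)` together with the 2-core of `C(u)`. -/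
theorem sup_isPGroup {G : Type*} [Group G] (R Q : Subgroup G) (u : G) (hR : IsPGroup 2 R)
    (hQ : IsPGroup 2 Q) (hRu : R ≤ centralizer {u}) (hn : centralizer {u} ≤ normalizer (Q : Set G)) :
    IsPGroup 2 ↥(R ⊔ Q) :=
  IsPGroup.to_sup_of_normal_right' hR hQ (hRu.trans hn)

/-- If the 2-core of `C(u)` lies in a subgroup centralizing `U`, all is well. -/
theorem good_of_core {G : Type*} [Group G] [Finite G] (u : G) (Q U D : Subgroup G)
    (hQ2 : IsPGroup 2 Q) (hQu : Q ≤ centralizer {u}) (hn : centralizer {u} ≤ normalizer (Q : Set G))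
    (hc : centralizer {u} ⊓ centralizer (Q : Set G) ≤ Q) (hUu : U ≤ centralizer {u})
    (hUQ : ∀ a ∈ U, ∀ q ∈ Q, a * q = q * a) (hDu : D ≤ centralizer {u}) (hD : Odd (Nat.card D))
    (hUD : U ≤ normalizer (D : Set G)) : ∀ a ∈ U, ∀ d ∈ D, a * d = d * a :=
  key Q (centralizer {u}) U D 1 hQ2 hQu hn hc (mul_one 1) (fun h _ => by simp) hUu
    (fun a ha q hq => Or.inl (by rw [hUQ a ha q hq]; group)) hDu hD hUD

/-- A subgroup of index two. -/
theorem normal_of_card {G : Type*} [Group G] [Finite G] (A B : Subgroup G) (hAB : A ≤ B)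
    (hc : Nat.card B = 2 * Nat.card A) : (∀ b ∈ B, ∀ a ∈ A, b * a * b⁻¹ ∈ A) ∧
      (∀ b ∈ B, b * b ∈ A) ∧ ∀ t ∈ B, t ∉ A → ∀ b ∈ B, b ∉ A → t⁻¹ * b ∈ A := by
  have hidx : (A.subgroupOf B).index = 2 := by
    have h1 := (A.subgroupOf B).card_mul_index
    have h2 : Nat.card (A.subgroupOf B) = Nat.card A := Nat.card_congr (subgroupOfEquivOfLe hAB).toEquiv
    rw [h2, hc, mul_comm 2] at h1
    exact Nat.eq_of_mul_eq_mul_left Nat.card_pos h1
  have hn := normal_of_index_eq_two hidx
  refine ⟨fun b hb a ha => ?_, fun b hb => ?_, fun t ht htA b hb hbA => ?_⟩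
  · exact hn.conj_mem ⟨a, hAB ha⟩ ha ⟨b, hb⟩
  · exact mul_self_mem_of_index_two hidx ⟨b, hb⟩
  · have h1 := (mul_mem_iff_of_index_two hidx (a := ⟨t, ht⟩⁻¹) (b := ⟨b, hb⟩)).2
    refine h1 ⟨fun h => absurd ?_ htA, fun h => absurd h hbA⟩
    exact (inv_mem_iff (x := (⟨t, ht⟩ : B))).1 h

theorem card_two_mul_le {G : Type*} [Group G] [Finite G] (A B : Subgroup G) (hAB : A < B) :
    2 * Nat.card A ≤ Nat.card B := by
  have h1 := (A.subgroupOf B).card_mul_index
  have h2 : Nat.card (A.subgroupOf B) = Nat.card A :=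
    Nat.card_congr (subgroupOfEquivOfLe hAB.le).toEquiv
  rw [h2] at h1
  have h3 : (A.subgroupOf B).index ≠ 1 := by
    intro h
    rw [index_eq_one, subgroupOf_eq_top] at h
    exact absurd h hAB.not_ge
  have h4 : (A.subgroupOf B).index ≠ 0 := by
    intro h
    rw [h, mul_zero] at h1
    exact Nat.card_pos.ne h1
  have h5 : 2 ≤ (A.subgroupOf B).index := by omega
  rw [← h1, mul_comm]
  exact Nat.mul_le_mul_left _ h5

theorem main {G : Type*} [Group G] [Finite G] (h2 : Cfsg.IsCharacteristicTwoType G)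
    (P : Sylow 2 G) (U : Subgroup G) (hUP : U ≤ (P : Subgroup G))
    (hUn : (P : Subgroup G) ≤ Subgroup.normalizer (U : Set G)) (hUc : ∀ a ∈ U, ∀ b ∈ U, a * b = b * a)
    (hUe : ∀ a ∈ U, a * a = 1) (hU4 : Nat.card U = 4)
    (hUZ : ¬ IsCyclic ↥((P : Subgroup G) ⊓ Subgroup.centralizer ((P : Subgroup G) : Set G)) →
      U ≤ Subgroup.centralizer ((P : Subgroup G) : Set G)) (a : G) (haU : a ∈ U) (ha1 : a ≠ 1) :
    ∀ D : Subgroup G, D ≤ centralizer {a} → Odd (Nat.card D) → U ≤ normalizer (D : Set G) →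
      ∀ x ∈ U, ∀ d ∈ D, x * d = d * x := by
  have hUca : ∀ b ∈ U, U ≤ centralizer {b} := fun b hb x hx =>
    mem_centralizer_singleton_iff.2 (hUc x hx b hb)
  have hPconj : ∀ t ∈ (P : Subgroup G), ∀ x ∈ U, t * x * t⁻¹ ∈ U := fun t ht x hx =>
    (mem_normalizer_iff.1 (hUn ht) x).1 hx
  by_cases hcyc : IsCyclic ↥((P : Subgroup G) ⊓ Subgroup.centralizer ((P : Subgroup G) : Set G))
  swap
  · -- `U ≤ Z(P)`
    have hUZ' := hUZ hcyc
    intro D hDa hD hUD
    obtain ⟨Q, hQ2, hQa, hn, hc⟩ := exists_core h2 a ha1 (hUe a haU)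
    have hPa : (P : Subgroup G) ≤ centralizer {a} := by
      intro t ht
      rw [mem_centralizer_singleton_iff]
      exact mem_centralizer_iff.1 (hUZ' haU) t ht
    have hPQ := sup_isPGroup (P : Subgroup G) Q a P.2 hQ2 hPa hn
    have hQP : Q ≤ P := by
      have := P.is_maximal' hPQ le_sup_left
      rw [← this]; exact le_sup_right
    exact good_of_core a Q U D hQ2 hQa hn hc (hUca a haU)
      (fun x hx q hq => (mem_centralizer_iff.1 (hUZ' hx) q (hQP hq)).symm) hDa hD hUD
  -- `Z(P)` is cyclic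
  set ZP : Subgroup G := (P : Subgroup G) ⊓ Subgroup.centralizer ((P : Subgroup G) : Set G) with hZP
  have hZPuniq := cyc_unique ZP hcyc
  have hU1 : U ≠ ⊥ := by
    rintro rfl
    rw [Subgroup.card_bot] at hU4
    omega
  obtain ⟨z, hzU, hz1, hzP⟩ : ∃ z ∈ U, z ≠ 1 ∧ ∀ t ∈ (P : Subgroup G), t * z = z * t := by
    haveI hnorm : (U.subgroupOf (P : Subgroup G)).Normal := by
      constructor
      rintro ⟨x, hx⟩ hx' ⟨t, ht⟩
      rw [mem_subgroupOf] at hx' ⊢
      exact hPconj t ht x hx'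
    have hne : U.subgroupOf (P : Subgroup G) ≠ ⊥ := by
      intro h
      rw [subgroupOf_eq_bot] at h
      exact hU1 (by rw [← inf_eq_left.2 hUP]; exact disjoint_iff.1 h)
    obtain ⟨z, hz, hzc, hz1⟩ := Cfsg.Agent.GTwoFour.Tools.exists_mem_center_of_normal P.2
      (U.subgroupOf (P : Subgroup G)) hne
    refine ⟨z, mem_subgroupOf.1 hz, fun h => hz1 (Subtype.ext h), fun t ht => ?_⟩
    have := mem_center_iff.1 hzc ⟨t, ht⟩
    exact congrArg Subtype.val this
  have hzz := hUe z hzU
  have hzP' : z ∈ ZP := by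
    rw [hZP]
    exact mem_inf.2 ⟨hUP hzU, mem_centralizer_iff.2 fun t ht => hzP t ht⟩
  have hUel : ∀ u ∈ U, u ≠ 1 → u ≠ z → ∀ x ∈ U, x = 1 ∨ x = z ∨ x = u ∨ x = u * z := by
    intro u hu hu1 huz x hx
    have hsub : ({1, z, u, u * z} : Set G) ⊆ (U : Set G) := by
      intro y hy
      rcases hy with rfl | rfl | rfl | rfl
      · exact U.one_mem
      · exact hzU
      · exact hu
      · exact U.mul_mem hu hzU
    have hcard : ({1, z, u, u * z} : Set G).ncard = 4 := by
      have h1 : u * z ≠ u := by rwa [Ne, mul_eq_left]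
      have h2 : u * z ≠ z := by rwa [Ne, mul_eq_right]
      have h3 : u * z ≠ 1 := by
        intro h
        apply huz
        have : u * z * z = z := by rw [h, one_mul]
        rwa [mul_assoc, hzz, mul_one] at this
      rw [Set.ncard_insert_of_notMem (by
          rintro (h | h | h)
          · exact hz1 h.symm
          · exact hu1 h.symm
          · exact h3 h.symm) (Set.toFinite _),
        Set.ncard_insert_of_notMem (by
          rintro (h | h)
          · exact huz h.symm
          · exact h2 h.symm) (Set.toFinite _), Set.ncard_pair h1.symm]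
    have heq : ({1, z, u, u * z} : Set G) = (U : Set G) := by
      apply Set.eq_of_subset_of_ncard_le hsub
      rw [hcard]
      have : (U : Set G).ncard = 4 := hU4
      rw [this]
    have hx' : x ∈ ({1, z, u, u * z} : Set G) := by rw [heq]; exact hx
    exact hx'
  -- `t x t⁻¹ ∈ {x, x z}` for `t ∈ P`, `x ∈ U`
  have hPU : ∀ t ∈ (P : Subgroup G), ∀ x ∈ U, t * x * t⁻¹ = x ∨ t * x * t⁻¹ = x * z := by
    intro t ht x hx
    have htz : t * z * t⁻¹ = z := by rw [hzP t ht]; group
    by_cases hx1 : x = 1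
    · left; rw [hx1]; group
    by_cases hxz : x = z
    · left; rw [hxz, htz]
    rcases hUel x hx hx1 hxz _ (hPconj t ht x hx) with h | h | h | h
    · exfalso; apply hx1
      have := congrArg (fun y => t⁻¹ * y * t) h
      simpa [mul_assoc] using this
    · exfalso; apply hxz
      have h3 : t * x * t⁻¹ = t * z * t⁻¹ := by rw [h, htz]
      exact mul_left_cancel (mul_right_cancel h3)
    · left; exact h
    · right; exact h
  have hUPq : ∀ x ∈ U, ∀ q ∈ (P : Subgroup G), x * q * x⁻¹ = q ∨ x * q * x⁻¹ = q * z := by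
    intro x hx q hq
    have hxi : x⁻¹ = x := inv_eq_of_mul_eq_one_left (hUe x hx)
    rcases hPU q hq x hx with h | h
    · left
      have h1 : q * x = x * q := mul_inv_eq_iff_eq_mul.1 h
      rw [← h1]; group
    · right
      have h1 : q * x = x * z * q := mul_inv_eq_iff_eq_mul.1 h
      have h2 : q * z = z * q := hzP q hq
      have h3 : x * q = q * x * z := by
        rw [h1, mul_assoc (x * z), h2]
        calc x * q = x * (z * z) * q := by rw [hzz, mul_one]
          _ = x * z * (z * q) := by group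
      rw [h3, mul_assoc q x z, hUc x hx z hzU]; group
  -- the involution `z`
  have goodz : ∀ D : Subgroup G, D ≤ centralizer {z} → Odd (Nat.card D) →
      U ≤ normalizer (D : Set G) → ∀ x ∈ U, ∀ d ∈ D, x * d = d * x := by
    intro D hDa hD hUD
    obtain ⟨Q, hQ2, hQa, hn, hc⟩ := exists_core h2 z hz1 hzz
    have hPa : (P : Subgroup G) ≤ centralizer {z} := by
      intro t ht
      rw [mem_centralizer_singleton_iff]
      exact hzP t ht
    have hPQ := sup_isPGroup (P : Subgroup G) Q z P.2 hQ2 hPa hn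
    have hQP : Q ≤ P := by
      have := P.is_maximal' hPQ le_sup_left
      rw [← this]; exact le_sup_right
    refine key Q (centralizer {z}) U D z hQ2 hQa hn hc hzz
      (fun h hh => mem_centralizer_singleton_iff.1 hh) (hUca z hzU)
      (fun x hx q hq => hUPq x hx q (hQP hq)) hDa hD hUD
  by_cases haz : a = z
  · rw [haz]; exact goodz
  -- some element of `P` moves `a`
  obtain ⟨t, htP, hta⟩ : ∃ t ∈ (P : Subgroup G), t * a * t⁻¹ = a * z := by
    by_contra hcon
    push Not at hcon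
    apply haz
    apply hZPuniq a z _ hzP' (hUe a haU) hzz ha1 hz1
    rw [hZP]
    refine mem_inf.2 ⟨hUP haU, mem_centralizer_iff.2 fun t ht => ?_⟩
    rcases hPU t ht a haU with h | h
    · exact mul_inv_eq_iff_eq_mul.1 h
    · exact absurd h (hcon t ht)
  have htz : t * z * t⁻¹ = z := by rw [hzP t htP]; group
  obtain ⟨Q, hQ2, hQa, hn, hc⟩ := exists_core h2 a ha1 (hUe a haU)
  set P0 : Subgroup G := (P : Subgroup G) ⊓ centralizer {a} with hP0
  have hP0P : P0 ≤ P := inf_le_left
  have hP0a : P0 ≤ centralizer {a} := inf_le_right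
  have hP02 : IsPGroup 2 P0 := P.2.to_le hP0P
  have hUP0 : U ≤ P0 := le_inf hUP (hUca a haU)
  -- `P0` centralizes `U`
  have hP0U : ∀ x ∈ U, ∀ q ∈ P0, x * q = q * x := by
    intro x hx q hq
    have hqa : q * a = a * q := mem_centralizer_singleton_iff.1 (hP0a hq)
    have hqz : q * z = z * q := hzP q (hP0P hq)
    rcases hUel a haU ha1 haz x hx with rfl | rfl | rfl | rfl
    · simp
    · exact hqz.symm
    · exact hqa.symm
    · calc a * z * q = a * (q * z) := by rw [hqz]; group
        _ = q * (a * z) := by rw [← mul_assoc, ← hqa]; group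
  -- `P0` has index two in `P`
  have hP0t : ∀ s ∈ (P : Subgroup G), s ∉ P0 → ∃ r ∈ P0, s = t * r := by
    intro s hs hs0
    refine ⟨t⁻¹ * s, ?_, by group⟩
    rw [hP0]
    refine mem_inf.2 ⟨mul_mem (inv_mem htP) hs, mem_centralizer_singleton_iff.2 ?_⟩
    rcases hPU s hs a haU with h | h
    · exfalso; apply hs0
      exact mem_inf.2 ⟨hs, mem_centralizer_singleton_iff.2 (mul_inv_eq_iff_eq_mul.1 h)⟩
    · have h3 : s * a * s⁻¹ = t * a * t⁻¹ := by rw [h, hta]
      have h4 : t⁻¹ * (s * a * s⁻¹) * s = t⁻¹ * (t * a * t⁻¹) * s := by rw [h3]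
      have e1 : t⁻¹ * (s * a * s⁻¹) * s = t⁻¹ * s * a := by group
      have e2 : t⁻¹ * (t * a * t⁻¹) * s = a * (t⁻¹ * s) := by group
      rw [e1, e2] at h4
      exact h4
  have hcardP : Nat.card (P : Subgroup G) ≤ 2 * Nat.card P0 := by
    have hsub : ((P : Subgroup G) : Set G) ⊆ (P0 : Set G) ∪ (fun r => t * r) '' (P0 : Set G) := by
      intro s hs
      by_cases hs0 : s ∈ P0
      · exact Or.inl hs0
      · obtain ⟨r, hr, rfl⟩ := hP0t s hs hs0
        exact Or.inr ⟨r, hr, rfl⟩
    have h1 := Set.ncard_le_ncard hsub (Set.toFinite _)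
    have h2 := Set.ncard_union_le (P0 : Set G) ((fun r => t * r) '' (P0 : Set G))
    have h3 := Set.ncard_image_le (f := fun r => t * r) (Set.toFinite (P0 : Set G))
    have e1 : ((P : Subgroup G) : Set G).ncard = Nat.card (P : Subgroup G) := rfl
    have e2 : (P0 : Set G).ncard = Nat.card P0 := rfl
    omega
  have htP0 : t ∉ P0 := by
    intro h
    have h1 : t * a = a * t := mem_centralizer_singleton_iff.1 (hP0a h)
    have h2 : t * a * t⁻¹ = a := by rw [h1]; group
    rw [h2] at hta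
    exact hz1 (left_eq_mul.1 hta)
  have hltP : P0 < (P : Subgroup G) := lt_of_le_of_ne hP0P (fun h => htP0 (h ▸ htP))
  have hcardP' : Nat.card (P : Subgroup G) = 2 * Nat.card P0 :=
    le_antisymm hcardP (card_two_mul_le _ _ hltP)
  obtain ⟨hPn, hPsq, _⟩ := normal_of_card P0 (P : Subgroup G) hP0P hcardP'
  -- the 2-group `T`
  have hT2 := sup_isPGroup P0 Q a hP02 hQ2 hP0a hn
  set T : Subgroup G := P0 ⊔ Q with hT
  have hTa : T ≤ centralizer {a} := sup_le hP0a hQa
  by_cases hTP0 : T = P0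
  · intro D hDa hD hUD
    have hQP0 : Q ≤ P0 := by rw [← hTP0]; exact le_sup_right
    exact good_of_core a Q U D hQ2 hQa hn hc (hUca a haU)
      (fun x hx q hq => hP0U x hx q (hQP0 hq)) hDa hD hUD
  have hltT : P0 < T := lt_of_le_of_ne le_sup_left (Ne.symm hTP0)
  obtain ⟨P', hTP'⟩ := hT2.exists_le_sylow
  have hcardPP' : Nat.card (P' : Subgroup G) = Nat.card (P : Subgroup G) :=
    P'.card_eq_multiplicity.trans P.card_eq_multiplicity.symm
  have hcardT : 2 * Nat.card P0 ≤ Nat.card T := card_two_mul_le _ _ hltT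
  have hTeq : T = (P' : Subgroup G) := by
    apply Subgroup.eq_of_le_of_card_ge hTP'
    rw [hcardPP', hcardP']; exact hcardT
  have hcardT' : Nat.card T = 2 * Nat.card P0 := by rw [hTeq, hcardPP', hcardP']
  obtain ⟨hTn, hTsq, _⟩ := normal_of_card P0 T hltT.le hcardT'
  obtain ⟨g, hg⟩ := MulAction.exists_smul_eq G P P'
  have hmem : ∀ x ∈ T, g⁻¹ * x * g ∈ (P : Subgroup G) := by
    intro x hx
    have hx' : x ∈ (P' : Subgroup G) := hTeq ▸ hx
    rw [← hg, Sylow.coe_subgroup_smul, Subgroup.mem_pointwise_smul_iff_inv_smul_mem] at hx'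
    simpa [MulAut.smul_def] using hx'
  have hmem' : ∀ x ∈ (P : Subgroup G), g * x * g⁻¹ ∈ T := by
    intro x hx
    rw [hTeq, ← hg, Sylow.coe_subgroup_smul, Subgroup.mem_pointwise_smul_iff_inv_smul_mem]
    simpa [MulAut.smul_def, mul_assoc] using hx
  have hP0T : P0 ≤ T := hltT.le
  -- some element of `T` moves `z`
  obtain ⟨s, hsT, hsz⟩ : ∃ s ∈ T, s * z * s⁻¹ ≠ z := by
    by_contra hcon
    push Not at hcon
    apply haz
    have hin : ∀ y ∈ T, (∀ s ∈ T, s * y = y * s) → g⁻¹ * y * g ∈ ZP := by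
      intro y hy hyc
      rw [hZP]
      refine mem_inf.2 ⟨hmem y hy, mem_centralizer_iff.2 fun r hr => ?_⟩
      have h1 := hyc _ (hmem' r hr)
      have h3 : g⁻¹ * (g * r * g⁻¹ * y) * g = g⁻¹ * (y * (g * r * g⁻¹)) * g := by rw [h1]
      have e1 : g⁻¹ * (g * r * g⁻¹ * y) * g = r * (g⁻¹ * y * g) := by group
      have e2 : g⁻¹ * (y * (g * r * g⁻¹)) * g = g⁻¹ * y * g * r := by group
      rw [e1, e2] at h3
      exact h3
    have h1 := hin a (hP0T (hUP0 haU)) (fun s hs => mem_centralizer_singleton_iff.1 (hTa hs))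
    have h2 := hin z (hP0T (hUP0 hzU)) (fun s hs => mul_inv_eq_iff_eq_mul.1 (hcon s hs))
    have hsq : ∀ y, y * y = 1 → (g⁻¹ * y * g) * (g⁻¹ * y * g) = 1 := by
      intro y hy
      calc (g⁻¹ * y * g) * (g⁻¹ * y * g) = g⁻¹ * (y * y) * g := by group
        _ = 1 := by rw [hy]; group
    have hne : ∀ y, y ≠ 1 → g⁻¹ * y * g ≠ 1 := by
      intro y hy h
      apply hy
      have := congrArg (fun x => g * x * g⁻¹) h
      simpa [mul_assoc] using this
    have h3 := hZPuniq _ _ h1 h2 (hsq a (hUe a haU)) (hsq z hzz) (hne a ha1) (hne z hz1)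
    exact mul_left_cancel (mul_right_cancel h3)
  have hsa : s * a * s⁻¹ = a := by
    rw [mem_centralizer_singleton_iff.1 (hTa hsT)]; group
  -- elements of `Z(P0)` of order two lie in `U`
  have hZ0 : ∀ y ∈ P0, y * y = 1 → (∀ r ∈ P0, r * y = y * r) → y ∈ U := by
    intro y hy hyy hyc
    -- elements of `Z(P0)` fixed by `t` are in `{1, z}`
    have hfix : ∀ x ∈ P0, x * x = 1 → (∀ r ∈ P0, r * x = x * r) → t * x * t⁻¹ = x →
        x = 1 ∨ x = z := by
      intro x hx hxx hxc hxt
      by_cases hx1 : x = 1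
      · exact Or.inl hx1
      right
      apply hZPuniq x z _ hzP' hxx hzz hx1 hz1
      rw [hZP]
      refine mem_inf.2 ⟨hP0P hx, mem_centralizer_iff.2 fun r hr => ?_⟩
      by_cases hr0 : r ∈ P0
      · exact hxc r hr0
      · obtain ⟨r', hr', rfl⟩ := hP0t r hr hr0
        have h1 : t * x = x * t := mul_inv_eq_iff_eq_mul.1 hxt
        calc t * r' * x = t * (r' * x) := by group
          _ = t * x * r' := by rw [hxc r' hr']; group
          _ = x * (t * r') := by rw [h1]; group
    have hty : t * y * t⁻¹ ∈ P0 := hPn t htP y hy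
    have hycomm : y * (t * y * t⁻¹) = (t * y * t⁻¹) * y := (hyc _ hty).symm
    have htt : t * (t * y * t⁻¹) * t⁻¹ = y := by
      have h1 := hyc _ (hPsq t htP)
      calc t * (t * y * t⁻¹) * t⁻¹ = (t * t * y) * t⁻¹ * t⁻¹ := by group
        _ = (y * (t * t)) * t⁻¹ * t⁻¹ := by rw [h1]
        _ = y := by group
    have htyc : ∀ r ∈ P0, r * (t * y * t⁻¹) = (t * y * t⁻¹) * r := by
      intro r hr
      have h0 : t⁻¹ * r * t ∈ P0 := by
        have := hPn t⁻¹ (inv_mem htP) r hr
        rwa [inv_inv] at this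
      have h1 := hyc _ h0
      calc r * (t * y * t⁻¹) = t * ((t⁻¹ * r * t) * y) * t⁻¹ := by group
        _ = t * (y * (t⁻¹ * r * t)) * t⁻¹ := by rw [h1]
        _ = (t * y * t⁻¹) * r := by group
    have htysq : (t * y * t⁻¹) * (t * y * t⁻¹) = 1 := by
      calc (t * y * t⁻¹) * (t * y * t⁻¹) = t * (y * y) * t⁻¹ := by group
        _ = 1 := by rw [hyy]; group
    have h1 := hfix (y * (t * y * t⁻¹)) (mul_mem hy hty)
      (by
        calc y * (t * y * t⁻¹) * (y * (t * y * t⁻¹))
            = y * ((t * y * t⁻¹) * y) * (t * y * t⁻¹) := by group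
          _ = y * (y * (t * y * t⁻¹)) * (t * y * t⁻¹) := by rw [hycomm]
          _ = (y * y) * ((t * y * t⁻¹) * (t * y * t⁻¹)) := by group
          _ = 1 := by rw [hyy, htysq, mul_one])
      (fun r hr => by
        calc r * (y * (t * y * t⁻¹)) = (r * y) * (t * y * t⁻¹) := by group
          _ = y * (r * (t * y * t⁻¹)) := by rw [hyc r hr]; group
          _ = y * (t * y * t⁻¹) * r := by rw [htyc r hr]; group)
      (by
        calc t * (y * (t * y * t⁻¹)) * t⁻¹ = (t * y * t⁻¹) * (t * (t * y * t⁻¹) * t⁻¹) := by group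
          _ = (t * y * t⁻¹) * y := by rw [htt]
          _ = y * (t * y * t⁻¹) := hycomm.symm)
    have hyi : y⁻¹ = y := inv_eq_of_mul_eq_one_left hyy
    rcases h1 with h1 | h1
    · -- `t` fixes `y`
      have h2 : t * y * t⁻¹ = y := (eq_inv_of_mul_eq_one_right h1).trans hyi
      rcases hfix y hy hyy hyc h2 with rfl | rfl
      · exact U.one_mem
      · exact hzU
    · have h2 : t * y * t⁻¹ = y * z := by
        rw [← h1, ← mul_assoc, hyy, one_mul]
      have h3 : t * (y * a) * t⁻¹ = y * a := by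
        calc t * (y * a) * t⁻¹ = (t * y * t⁻¹) * (t * a * t⁻¹) := by group
          _ = (y * z) * (a * z) := by rw [h2, hta]
          _ = y * (z * a) * z := by group
          _ = y * (a * z) * z := by rw [hUc z hzU a haU]
          _ = y * a * (z * z) := by group
          _ = y * a := by rw [hzz, mul_one]
      have hya : y * a = a * y := (hP0U a haU y hy).symm
      have h4 := hfix (y * a) (mul_mem hy (hUP0 haU))
        (by
          calc y * a * (y * a) = y * a * (a * y) := by rw [hya]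
            _ = y * (a * a) * y := by group
            _ = 1 := by rw [hUe a haU, mul_one, hyy])
        (fun r hr => by
          calc r * (y * a) = (r * y) * a := by group
            _ = y * (r * a) := by rw [hyc r hr]; group
            _ = y * (a * r) := by rw [hP0U a haU r hr]
            _ = y * a * r := by group) h3
      have h5 : y = (y * a) * a := by rw [mul_assoc, hUe a haU, mul_one]
      rw [h5]
      rcases h4 with h4 | h4
      · rw [h4, one_mul]; exact haU
      · rw [h4]; exact mul_mem hzU haU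
  -- `s` maps `z` to `a z`
  have hzP0 : z ∈ P0 := hUP0 hzU
  have hszU : s * z * s⁻¹ ∈ U := by
    apply hZ0
    · exact hTn s hsT z hzP0
    · calc s * z * s⁻¹ * (s * z * s⁻¹) = s * (z * z) * s⁻¹ := by group
        _ = 1 := by rw [hzz]; group
    · intro r hr
      have h0 : s⁻¹ * r * s ∈ P0 := by
        have := hTn s⁻¹ (inv_mem hsT) r hr
        rwa [inv_inv] at this
      have h1 := hzP _ (hP0P h0)
      calc r * (s * z * s⁻¹) = s * ((s⁻¹ * r * s) * z) * s⁻¹ := by group
        _ = s * (z * (s⁻¹ * r * s)) * s⁻¹ := by rw [h1]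
        _ = (s * z * s⁻¹) * r := by group
  have hsz2 : s * z * s⁻¹ = a * z := by
    rcases hUel a haU ha1 haz _ hszU with h | h | h | h
    · exfalso; apply hz1
      have := congrArg (fun y => s⁻¹ * y * s) h
      simpa [mul_assoc] using this
    · exact absurd h hsz
    · exfalso; apply haz
      have h3 : s * a * s⁻¹ = s * z * s⁻¹ := by rw [h, hsa]
      exact mul_left_cancel (mul_right_cancel h3)
    · exact h
  -- `n = s⁻¹ t` maps `a` to `z` and normalizes `U`
  have hna : (s⁻¹ * t) * a * (s⁻¹ * t)⁻¹ = z := by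
    calc (s⁻¹ * t) * a * (s⁻¹ * t)⁻¹ = s⁻¹ * (t * a * t⁻¹) * s := by group
      _ = s⁻¹ * (s * z * s⁻¹) * s := by rw [hta, ← hsz2]
      _ = z := by group
  have hnU : ∀ x ∈ U, (s⁻¹ * t) * x * (s⁻¹ * t)⁻¹ ∈ U := by
    have hnz : (s⁻¹ * t) * z * (s⁻¹ * t)⁻¹ = a * z := by
      have h1 : s⁻¹ * z * s = a * z := by
        have h2 : s * (a * z) * s⁻¹ = z := by
          calc s * (a * z) * s⁻¹ = (s * a * s⁻¹) * (s * z * s⁻¹) := by group
            _ = a * (a * z) := by rw [hsa, hsz2]
            _ = z := by rw [← mul_assoc, hUe a haU, one_mul]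
        conv_lhs => rw [← h2]
        group
      calc (s⁻¹ * t) * z * (s⁻¹ * t)⁻¹ = s⁻¹ * (t * z * t⁻¹) * s := by group
        _ = a * z := by rw [htz, h1]
    intro x hx
    rcases hUel a haU ha1 haz x hx with rfl | rfl | rfl | rfl
    · rw [mul_one, mul_inv_cancel]; exact one_mem _
    · rw [hnz]; exact mul_mem haU hzU
    · rw [hna]; exact hzU
    · have : (s⁻¹ * t) * (a * z) * (s⁻¹ * t)⁻¹
          = ((s⁻¹ * t) * a * (s⁻¹ * t)⁻¹) * ((s⁻¹ * t) * z * (s⁻¹ * t)⁻¹) := by group
      rw [this, hna, hnz]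
      exact mul_mem hzU (mul_mem haU hzU)
  intro D hDa hD hUD x hx d hd
  set n : G := s⁻¹ * t with hn'
  have hinj : Function.Injective (fun x : U => (⟨n * x * n⁻¹, hnU x x.2⟩ : U)) := by
    intro x y hxy
    have h1 : n * (x : G) * n⁻¹ = n * (y : G) * n⁻¹ := congrArg Subtype.val hxy
    exact Subtype.ext (mul_left_cancel (mul_right_cancel h1))
  have hsurj := Finite.surjective_of_injective hinj
  have hD' : ∀ x ∈ U, ∀ d ∈ D.map (MulAut.conj n).toMonoidHom, x * d = d * x := by
    apply goodz (D.map (MulAut.conj n).toMonoidHom)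
    · rintro _ ⟨d, hd, rfl⟩
      rw [mem_centralizer_singleton_iff]
      have h1 := mem_centralizer_singleton_iff.1 (hDa hd)
      show n * d * n⁻¹ * z = z * (n * d * n⁻¹)
      rw [← hna]
      calc n * d * n⁻¹ * (n * a * n⁻¹) = n * (d * a) * n⁻¹ := by group
        _ = n * (a * d) * n⁻¹ := by rw [h1]
        _ = n * a * n⁻¹ * (n * d * n⁻¹) := by group
    · have : Nat.card (D.map (MulAut.conj n).toMonoidHom) = Nat.card D :=
        (Nat.card_congr (D.equivMapOfInjective _ (MulAut.conj n).injective).toEquiv).symm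
      rw [this]; exact hD
    · intro x hx
      obtain ⟨y, hy⟩ := hsurj ⟨x, hx⟩
      have hy' : n * (y : G) * n⁻¹ = x := congrArg Subtype.val hy
      have hyD := hUD y.2
      rw [mem_normalizer_iff] at hyD ⊢
      intro w
      have e1 : ∀ w, w ∈ D.map (MulAut.conj n).toMonoidHom ↔ n⁻¹ * w * n ∈ D := by
        intro w
        constructor
        · rintro ⟨d, hd, rfl⟩
          have : n⁻¹ * (n * d * n⁻¹) * n = d := by group
          show n⁻¹ * (n * d * n⁻¹) * n ∈ D
          rw [this]; exact hd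
        · intro h
          refine ⟨_, h, ?_⟩
          show n * (n⁻¹ * w * n) * n⁻¹ = w
          group
      rw [e1, e1, hyD]
      have : n⁻¹ * (x * w * x⁻¹) * n = (y : G) * (n⁻¹ * w * n) * (y : G)⁻¹ := by
        rw [← hy']; group
      rw [this]
  have h1 := hD' _ (hnU x hx) (n * d * n⁻¹) ⟨d, hd, rfl⟩
  have h2 : n⁻¹ * (n * x * n⁻¹ * (n * d * n⁻¹)) * n = n⁻¹ * (n * d * n⁻¹ * (n * x * n⁻¹)) * n := by
    rw [h1]
  have e1 : n⁻¹ * (n * x * n⁻¹ * (n * d * n⁻¹)) * n = x * d := by group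
  have e2 : n⁻¹ * (n * d * n⁻¹ * (n * x * n⁻¹)) * n = d * x := by group
  rw [e1, e2] at h2
  exact h2


/-- Let `G` be a finite non-abelian simple group in which every local subgroup is solvable and which is of characteristic 2 type. Let `P` be a Sylow 2-subgroup of `G` and `U` a normal subgroup of `P` that is a four-group, with `U` central in `P` if the centre of `P` is not cyclic. Then `U` centralizes every subgroup of odd order of `G` that it normalizes. -/
theorem result {G : Type*} [Group G] [Finite G]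
    [IsSimpleGroup G] (hna : ¬ IsMulCommutative G) (hN : Cfsg.IsNGroup G) (h2 : Cfsg.IsCharacteristicTwoType G)
    (P : Sylow 2 G) (U : Subgroup G) (hUP : U ≤ (P : Subgroup G)) (hUn : (P : Subgroup G) ≤ Subgroup.normalizer (U : Set G))
    (hU4 : IsKleinFour ↥U)
    (hUZ : ¬ IsCyclic ↥((P : Subgroup G) ⊓ Subgroup.centralizer ((P : Subgroup G) : Set G)) →
      U ≤ Subgroup.centralizer ((P : Subgroup G) : Set G))
    (K : Subgroup G) (hK : Odd (Nat.card K)) (hUK : U ≤ Subgroup.normalizer (K : Set G)) :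
    U ≤ Subgroup.centralizer (K : Set G) := by
  haveI := hU4
  have hc4 : Nat.card U = 4 := IsKleinFour.card_four
  have hee : ∀ a ∈ U, a * a = 1 := fun a ha =>
    congrArg Subtype.val (IsKleinFour.mul_self (⟨a, ha⟩ : U))
  have hcm : ∀ a ∈ U, ∀ b ∈ U, a * b = b * a := by
    intro a ha b hb
    have h := (IsKleinFour.isMulCommutative (G := U)).is_comm.comm (⟨a, ha⟩ : U) ⟨b, hb⟩
    exact congrArg Subtype.val h
  have hmain := main h2 P U hUP hUn hcm hee hc4 hUZ
  have hEA : Cfsg.IsElementaryAbelian 2 U :=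
    ⟨IsKleinFour.isMulCommutative, fun a ha => by rw [pow_two]; exact hee a ha⟩
  have hgen := Cfsg.Agent.SignalizersComponents.CoprimeGen.le_iSup_centralizer_ne_one (p := 2) hEA
    (by rw [hc4]; norm_num) (Z := K) hK.not_two_dvd_nat hUK
  have hK' : K ≤ Subgroup.centralizer (U : Set G) := by
    refine hgen.trans (iSup_le ?_)
    rintro ⟨a, haU, ha1⟩
    intro d hd
    rw [Subgroup.mem_centralizer_iff]
    intro x hx
    refine hmain a haU ha1 (K ⊓ Subgroup.centralizer {a}) inf_le_right ?_ ?_ x hx d hd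
    · exact hK.of_dvd_nat (Subgroup.card_dvd_of_le inf_le_left)
    · intro y hy
      have h1 := hUK hy
      rw [Subgroup.mem_normalizer_iff] at h1 ⊢
      intro w
      rw [Subgroup.mem_inf, Subgroup.mem_inf, ← h1 w, Subgroup.mem_centralizer_singleton_iff,
        Subgroup.mem_centralizer_singleton_iff]
      have hya : y * a = a * y := hcm y hy a haU
      have hya' : y⁻¹ * a = a * y⁻¹ := by
        calc y⁻¹ * a = y⁻¹ * (a * y) * y⁻¹ := by group
          _ = y⁻¹ * (y * a) * y⁻¹ := by rw [hya]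
          _ = a * y⁻¹ := by group
      refine and_congr_right fun _ => ⟨fun h => ?_, fun h => ?_⟩
      · calc y * w * y⁻¹ * a = y * w * (y⁻¹ * a) := by group
          _ = y * (w * a) * y⁻¹ := by rw [hya']; group
          _ = (y * a) * w * y⁻¹ := by rw [h]; group
          _ = a * (y * w * y⁻¹) := by rw [hya]; group
      · calc w * a = y⁻¹ * (y * w * y⁻¹ * (y * a)) := by group
          _ = y⁻¹ * (y * w * y⁻¹ * a * y) := by rw [hya]; group
          _ = y⁻¹ * (a * (y * w * y⁻¹) * y) := by rw [h]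
          _ = (y⁻¹ * a) * y * w := by group
          _ = a * w := by rw [hya']; group
  exact Subgroup.le_centralizer_iff.1 hK'

end Cfsg.Agent.S1957
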