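import Cfsg.Statements.S1966
import Cfsg.Agent.H42.Chain
import Cfsg.Agent.Lib.Cores

set_option autoImplicit false
open Cfsg

namespace Cfsg.Agent.S1966

open Cfsg.Agent.H42.Chain in
/-- In a chain starting with a set containing `O_p(G)` all the members contain `O_p(G)`. -/
theorem chain_filter {G : Type*} [Group G] {p : ℕ} {𝓕 : Set (Subgroup G)} {B : Set G} {g : G}
    (h : FChain 𝓕 B g) : ((Cfsg.pCore p G : Subgroup G) : Set G) ⊆ B →
      FChain {T : Subgroup G | T ∈ 𝓕 ∧ Cfsg.pCore p G ≤ T} B g := by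
  have hOn := Cfsg.Agent.Lib.Cores.pCore_normal (G := G) p
  induction h with
  | nil A => intro _; exact FChain.nil A
  | cons A T x g hT hx hA h ih =>
    intro hO
    refine FChain.cons A T x g ⟨hT, fun y hy => hA (hO hy)⟩ hx hA (ih ?_)
    intro y hy
    refine ⟨x * y * x⁻¹, hO (hOn.conj_mem y hy x), ?_⟩
    show x⁻¹ * (x * y * x⁻¹) * x = y
    group

/-- Let p be a prime, G a finite group with Sylow p-subgroup S and 𝓕 a conjugation family for S in G. Then the members of 𝓕 containing O_p(G) still form a conjugation family for S in G. -/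
theorem result {G : Type*} [Group G] [Finite G] {p : ℕ} [Fact p.Prime] (S : Sylow p G) (𝓕 : Set (Subgroup G)) (h : Cfsg.IsConjugationFamily 𝓕 (S : Subgroup G)) : Cfsg.IsConjugationFamily {T : Subgroup G | T ∈ 𝓕 ∧ Cfsg.pCore p G ≤ T} (S : Subgroup G) := by
  have hO : Cfsg.pCore p G ≤ (S : Subgroup G) := Cfsg.Agent.Lib.Cores.pCore_le_sylow S
  have hOn := Cfsg.Agent.Lib.Cores.pCore_normal (G := G) p
  rw [Cfsg.Agent.H42.Chain.isConjugationFamily_iff] at h ⊢
  refine ⟨fun T hT => h.1 T hT.1, fun A g hne hA hAg => ?_⟩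
  have h1 := h.2 (A ∪ (Cfsg.pCore p G : Subgroup G)) g (hne.inl) (Set.union_subset hA hO) (by
    rw [Set.image_union]
    refine Set.union_subset hAg ?_
    rintro _ ⟨a, ha, rfl⟩
    apply hO
    have := hOn.conj_mem a ha g⁻¹
    simpa using this)
  have h2 := chain_filter h1 Set.subset_union_right
  exact h2.mono _ Set.subset_union_left

end Cfsg.Agent.S1966
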