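import Cfsg.Statements.S1987
import Cfsg.Agent.S1969
import Cfsg.Agent.H37.KInf
import Cfsg.Agent.H37.SecControl

set_option autoImplicit false
universe u
open Cfsg

namespace Cfsg.Agent.S1987

/-- `K_∞` controls strong fusion in every section. -/
theorem sections {G : Type u} [Group G] [Finite G] {p : ℕ} [Fact p.Prime]
    (hst : ∀ (K R : Subgroup G) [hR : (R.subgroupOf K).Normal], Cfsg.IsNormalizerPStable p (↥K ⧸ R.subgroupOf K))
    (K R : Subgroup G) [hR : (R.subgroupOf K).Normal] (T : Sylow p (↥K ⧸ R.subgroupOf K)) :
    Cfsg.ControlsStrongFusion p (Cfsg.inducedFunctor (G := (↥K ⧸ R.subgroupOf K)) Cfsg.kInfLower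
      (T : Subgroup (↥K ⧸ R.subgroupOf K))) := by
  refine Cfsg.Agent.S1969.result Cfsg.kInfLower (H35.KSeq.isCharPFunctor_kInfLower p) ?_ K R T
  intro K R hR hc T
  refine H37.KInf.kInf_normal hc ?_ T
  intro N hN
  exact H37.KInf.quotient_stable hst ((H37.KInf.isSection_quotient K R).quotient N)

/-- Let p be an odd prime and G a finite group every section of which is p-stable in the normalizer form (in each section, an element of the normalizer of a p-subgroup Q acting quadratically on Q maps into O_p of N(Q)/C(Q)). Then for every Sylow p-subgroup S of G the lower K-infinity subgroup of S controls strong fusion in G. -/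
theorem result {G : Type u} [Group G] [Finite G] {p : ℕ} [Fact p.Prime] (hp : p ≠ 2) (hst : ∀ (K R : Subgroup G) [hR : (R.subgroupOf K).Normal], Cfsg.IsNormalizerPStable p (↥K ⧸ R.subgroupOf K)) (S : Sylow p G) : Cfsg.ControlsStrongFusion p (Cfsg.inducedFunctor Cfsg.kInfLower (S : Subgroup G)) := by
  exact H37.SecControl.controls_section Cfsg.kInfLower (H35.KSeq.isCharPFunctor_kInfLower p)
    (H41.Functor.IsSection.refl G) (fun K R _ T => sections hst K R T) S

end Cfsg.Agent.S1987
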