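import Cfsg.Statements.S1989
import Cfsg.Agent.S1987
import Cfsg.Agent.H37.QdK
import Cfsg.Agent.H37.Stable

set_option autoImplicit false
universe u
open Cfsg

namespace Cfsg.Agent.S1989

/-- In a group isomorphic to `Qd(p)` the lower K-infinity subgroup does not control strong fusion. -/
theorem not_controls {X : Type u} [Group X] [Finite X] {p : ℕ} [Fact p.Prime] (hp : p ≠ 2)
    (e : X ≃* ↥(Cfsg.qd p)) (T : Sylow p X) :
    ¬ Cfsg.ControlsStrongFusion p (Cfsg.inducedFunctor (G := X) Cfsg.kInfLower (T : Subgroup X)) := by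
  intro h
  have hc := H37.QdK.card_sylow_of_equiv e T
  have h1 : Cfsg.inducedFunctor (G := X) Cfsg.kInfLower (T : Subgroup X) = T := by
    rw [H41.Functor.inducedFunctor_def, H37.QdK.kInfLower_eq_top_of_card hc, ← MonoidHom.range_eq_map,
      Subgroup.range_subtype]
  rw [h1] at h
  have h2 := H37.Control.controlsStrongFusion_congr e h
  obtain ⟨T', hT'⟩ := H37.SecControl.exists_sylow_comap e.symm T
  have h3 : (T : Subgroup X).comap e.symm.toMonoidHom = (T : Subgroup X).map e.toMonoidHom := by
    ext y
    constructor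
    · intro hy
      exact ⟨e.symm y, hy, e.apply_symm_apply y⟩
    · rintro ⟨x, hx, rfl⟩
      change e.symm (e x) ∈ (T : Subgroup X)
      rw [e.symm_apply_apply]; exact hx
  rw [← h3, ← hT'] at h2
  exact H37.QdK.not_controls_sylow hp T' h2

/-- Let p be an odd prime and G a finite group. Then Qd(p) (the natural semidirect product of an elementary abelian group of order p² by SL₂(p)) is not involved in G if and only if, in every section K/R of G and for every Sylow p-subgroup T of K/R, the lower K-infinity subgroup of T controls strong fusion in K/R. -/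
theorem result {G : Type u} [Group G] [Finite G] {p : ℕ} [Fact p.Prime] (hp : p ≠ 2) : ¬ Cfsg.Involves ↥(Cfsg.qd p) G ↔ ∀ (K R : Subgroup G) [hR : (R.subgroupOf K).Normal], ∀ T : Sylow p (↥K ⧸ R.subgroupOf K), Cfsg.ControlsStrongFusion p (Cfsg.inducedFunctor (G := (↥K ⧸ R.subgroupOf K)) Cfsg.kInfLower (T : Subgroup (↥K ⧸ R.subgroupOf K))) := by
  constructor
  · intro h K R hR T
    refine Cfsg.Agent.S1987.sections ?_ K R T
    intro K' R' hR'
    refine H37.Stable.section_stable_of_qdFree hp ?_ K' R'
    intro h'
    exact h (Lib.Involves.involves_iff.1 h')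
  · intro h hinv
    obtain ⟨K, R, hR, ⟨e⟩⟩ := hinv
    obtain ⟨T⟩ : Nonempty (Sylow p (↥K ⧸ R.subgroupOf K)) := inferInstance
    exact not_controls hp e T (h K R T)

end Cfsg.Agent.S1989
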