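import Cfsg.Statements.S1993
import Cfsg.Agent.S1972
import Cfsg.Agent.H39.Single
import Cfsg.Agent.H35.Quartic
import Cfsg.Agent.H37.Stable

set_option autoImplicit false
universe u
open Cfsg

namespace Cfsg.Agent.S1993

open Subgroup

/-- Transport of the transfer identity along an isomorphism. -/
theorem transport {X Y : Type u} [Group X] [Group Y] {p : ℕ} {W : ∀ (Q : Type u) [Group Q], Subgroup Q}
    (hW : IsCharPFunctor.{u} p W) (f : X ≃* Y) (T : Subgroup X) [Finite T] (hT : IsPGroup p T)
    (h : T ⊓ ⁅(⊤ : Subgroup X), (⊤ : Subgroup X)⁆ = T ⊓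
      ⁅⊤ ⊓ normalizer ((inducedFunctor (G := X) W T : Subgroup X) : Set X),
        ⊤ ⊓ normalizer ((inducedFunctor (G := X) W T : Subgroup X) : Set X)⁆) :
    (T.map f.toMonoidHom) ⊓ commutator Y = (T.map f.toMonoidHom) ⊓
      ⁅normalizer ((inducedFunctor (G := Y) W (T.map f.toMonoidHom) : Subgroup Y) : Set Y),
        normalizer ((inducedFunctor (G := Y) W (T.map f.toMonoidHom) : Subgroup Y) : Set Y)⁆ := by
  have hinj : Function.Injective f.toMonoidHom := f.injective
  have hsur : Function.Surjective f.toMonoidHom := f.surjective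
  have h1 : commutator Y = (⁅(⊤ : Subgroup X), (⊤ : Subgroup X)⁆).map f.toMonoidHom := by
    rw [map_commutator, map_top_of_surjective _ hsur]; rfl
  have h2 : normalizer ((inducedFunctor (G := Y) W (T.map f.toMonoidHom) : Subgroup Y) : Set Y) =
      (⊤ ⊓ normalizer ((inducedFunctor (G := X) W T : Subgroup X) : Set X)).map f.toMonoidHom := by
    rw [H39.induced_map_equiv hW f hT, top_inf_eq]
    exact (map_equiv_normalizer_eq _ f).symm
  rw [h2, ← map_commutator, h1, ← map_inf_eq _ _ _ hinj, ← map_inf_eq _ _ _ hinj, h]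

/-- Control of transfer in the section `⊤ / ⊥` gives the transfer identity for every Sylow subgroup. -/
theorem of_section {G : Type u} [Group G] [Finite G] {p : ℕ} [Fact p.Prime]
    {W : ∀ (Q : Type u) [Group Q], Subgroup Q} (hW : IsCharPFunctor.{u} p W)
    (h : ∀ (K R : Subgroup G) [hR : (R.subgroupOf K).Normal],
      ControlsTransferIn p (inducedFunctor (G := (↥K ⧸ R.subgroupOf K)) W) ⊤) (S : Sylow p G) :
    (S : Subgroup G) ⊓ commutator G = (S : Subgroup G) ⊓
      ⁅normalizer ((inducedFunctor (G := G) W (S : Subgroup G) : Subgroup G) : Set G),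
        normalizer ((inducedFunctor (G := G) W (S : Subgroup G) : Subgroup G) : Set G)⁆ := by
  obtain ⟨T, -, hTp, hTi, hT⟩ := h ⊤ ⊥
  have e1 : (⊥ : Subgroup G).subgroupOf ⊤ = ⊥ := by simp
  let e : (↥(⊤ : Subgroup G) ⧸ (⊥ : Subgroup G).subgroupOf ⊤) ≃* G :=
    ((QuotientGroup.quotientMulEquivOfEq e1).trans QuotientGroup.quotientBot).trans Subgroup.topEquiv
  -- the image of `T` is a Sylow subgroup of `G`
  have hTe : IsPGroup p ↥(T.map e.toMonoidHom) := hTp.map e.toMonoidHom
  have hidx : ¬ p ∣ (T.map e.toMonoidHom).index := by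
    rw [relIndex_top_right] at hTi
    have : (T.map e.toMonoidHom).index = T.index := index_map_equiv T e
    rwa [this]
  obtain ⟨g, hg⟩ := MulAction.exists_smul_eq G (hTe.toSylow hidx) S
  have hS : (S : Subgroup G) = T.map (e.trans (MulAut.conj g)).toMonoidHom := by
    rw [← hg]
    ext x
    rw [Sylow.coe_subgroup_smul, mem_smul_pointwise_iff_exists]
    constructor
    · rintro ⟨y, hy, rfl⟩
      obtain ⟨t, ht, rfl⟩ := (hy : y ∈ T.map e.toMonoidHom)
      exact ⟨t, ht, rfl⟩
    · rintro ⟨t, ht, rfl⟩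
      exact ⟨e t, ⟨t, ht, rfl⟩, rfl⟩
  rw [hS]
  exact transport hW _ T hTp hT

/-- Let p be a prime, G a finite group with Sylow p-subgroup S, and K the upper K-infinity subgroup of S. If p ≥ 5 then S ∩ G' = S ∩ (N_G(K))'; and if p is odd and every section of G is p-stable in the normalizer form, then K controls strong fusion in G. -/
theorem result {G : Type u} [Group G] [Finite G] {p : ℕ} [Fact p.Prime] (S : Sylow p G) : (5 ≤ p → (S : Subgroup G) ⊓ commutator G = (S : Subgroup G) ⊓ ⁅Subgroup.normalizer ((Cfsg.inducedFunctor Cfsg.kInfUpper (S : Subgroup G) : Subgroup G) : Set G), Subgroup.normalizer ((Cfsg.inducedFunctor Cfsg.kInfUpper (S : Subgroup G) : Subgroup G) : Set G)⁆) ∧ (p ≠ 2 → (∀ (K R : Subgroup G) [hR : (R.subgroupOf K).Normal], Cfsg.IsNormalizerPStable p (↥K ⧸ R.subgroupOf K)) → Cfsg.ControlsStrongFusion p (Cfsg.inducedFunctor Cfsg.kInfUpper (S : Subgroup G))) := by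
  have hW := H35.KSeq.isCharPFunctor_kInfUpper.{u} p
  constructor
  · intro hp5
    refine of_section hW ?_ S
    refine S1972.result (fun (Q : Type u) [Group Q] => kInfUpper Q) hW ?_
    intro K R hR hC T hT
    obtain ⟨g, hgT, hgO, hg4, -, -⟩ := H35.Quartic.exists_quartic
      (Cfsg.Agent.Lib.Cores.pCore_le_sylow T) (Or.inr hT)
    refine ⟨g, hgT, hgO, fun U V hUV hU => ?_⟩
    have hV : V.Normal := hUV.2.2.1
    exact H35.Chief.iter_le_of_le (by rw [normalizer_eq_top]; exact le_top)
      (Nat.le_sub_of_add_le hp5) (hg4 U V hUV hU)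
  · intro hp2 hst
    have hfc := H39.fc_of_constrained' (G := G) (p := p)
      (𝓦 := {fun (Q : Type u) [Group Q] => kInfUpper Q}) (by rintro W' rfl; exact hW)
      (fun K R _ hc => by
        obtain ⟨T⟩ : Nonempty (Sylow p (↥K ⧸ R.subgroupOf K)) := inferInstance
        refine H39.fc_of_normal hW T (H35.Cubic2.stable_normal_sylow T hc fun N hN => ?_).2
        obtain ⟨K', R', hn, ⟨e⟩⟩ := ((H39.IsSec.of_quotient K R).trans
          (H39.IsSec.quotient N)).exists_quotient
        exact H37.Stable.isNormalizerPStable_congr e (hst K' R')) G (H39.IsSec.refl G)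
    exact H39.controlsStrongFusion_of_fc hfc S

end Cfsg.Agent.S1993
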