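import Cfsg.Statements.S1999
import Cfsg.Agent.H39.FusionThm
import Cfsg.Agent.H40.ZJe
import Cfsg.Agent.H40.SFourFactor

set_option autoImplicit false
open Cfsg

namespace Cfsg.Agent.S1999

/-- Let G be a finite group. The symmetric group of degree 4 is not involved in G if and only if, in every section K/R of G, the pair of conjugacy functors {Z, J_e} controls strong fusion (for the prime 2): here Z(P) is the centre and J_e(P) the subgroup generated by the elementary abelian subgroups of P of largest order, and control by the pair means that 2-fusion of tuples inside a Sylow 2-subgroup T of the section is generated, staying inside T, by conjugation inside N(Z(T)) and N(J_e(T)). -/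
theorem result {G : Type*} [Group G] [Finite G] : ¬ Cfsg.Involves (Equiv.Perm (Fin 4)) G ↔ ∀ (K R : Subgroup G) [hR : (R.subgroupOf K).Normal], Cfsg.FamilyControlsStrongFusionIn 2 ({fun P : Subgroup (↥K ⧸ R.subgroupOf K) => P ⊓ Subgroup.centralizer ((P : Subgroup (↥K ⧸ R.subgroupOf K)) : Set (↥K ⧸ R.subgroupOf K)), fun P : Subgroup (↥K ⧸ R.subgroupOf K) => Cfsg.thompsonSubgroupOf 2 P} : Set (Subgroup (↥K ⧸ R.subgroupOf K) → Subgroup (↥K ⧸ R.subgroupOf K))) ⊤ := by
  constructor
  · intro h4 K R hR
    have : Fact (Nat.Prime 2) := ⟨Nat.prime_two⟩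
    have h𝓦 : ∀ W ∈ ({@H40.ZJe.zf, @H40.ZJe.jf} : Set H39.Fn), IsCharPFunctor 2 W := by
      rintro W (rfl | rfl)
      · exact H40.ZJe.charP_zf
      · exact H40.ZJe.charP_jf
    have key := (H39.fc_iff (X := ↥K ⧸ R.subgroupOf K) h𝓦).2
      (H39.fc_of_constrained (G := G) h𝓦 (fun X _ _ hX hc => by
        have h4X : ¬ ∃ (K R : Subgroup X) (hR : (R.subgroupOf K).Normal),
            Nonempty ((K ⧸ R.subgroupOf K) ≃* Equiv.Perm (Fin 4)) := by
          obtain ⟨L, f, hf⟩ := hX
          exact (PLocal.S4FreeSection.S4Free.subgroup (G := G) h4 L).of_surjective f hf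
        refine H39.fc_of_factor H40.ZJe.charP_zf H40.ZJe.charP_jf ?_
        intro T x
        obtain ⟨c, hc', n, hn, rfl⟩ := H40.SFourFactor.factor h4X T hc x
        refine ⟨c, ?_, n, ?_, rfl⟩
        · rw [H40.ZJe.induced_zf]
          exact Subgroup.centralizer_le_normalizer _ hc'
        · rw [H40.ZJe.induced_jf]
          exact hn) (↥K ⧸ R.subgroupOf K) (H39.IsSec.of_quotient K R))
    rw [Set.image_pair, H40.ZJe.induced_zf, H40.ZJe.induced_jf] at key
    exact key
  · intro h
    exact H40.ZJe.not_involves_of_family h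

end Cfsg.Agent.S1999
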