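import Cfsg.Statements.S2000
import Cfsg.Agent.S1999
import Cfsg.Agent.H40.ZJe
import Cfsg.Agent.H40.ZJFunctor

set_option autoImplicit false
universe u
open Cfsg

namespace Cfsg.Agent.S2000

open Cfsg.Agent H40.ZJe

/-- Let p be a prime and G a finite group. Then Qd(p) (the natural semidirect product of an elementary abelian group of order p² by SL₂(p)) is not involved in G if and only if there is a set 𝓦 of isomorphism-invariant p-group functors (each nontrivial on nontrivial finite p-groups and carried onto W(R) by every isomorphism from a finite p-group Q onto R, hence with characteristic values on finite p-groups) whose induced conjugacy functors control strong fusion in every section of G. -/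
theorem result {G : Type u} [Group G] [Finite G] {p : ℕ} [Fact p.Prime] : ¬ Cfsg.Involves ↥(Cfsg.qd p) G ↔ ∃ 𝓦 : Set (∀ (Q : Type u) [Group Q], Subgroup Q), (∀ W ∈ 𝓦, Cfsg.IsCharPFunctor.{u} p W) ∧ ∀ (K R : Subgroup G) [hR : (R.subgroupOf K).Normal], Cfsg.FamilyControlsStrongFusionIn p ((fun W => Cfsg.inducedFunctor (G := (↥K ⧸ R.subgroupOf K)) W) '' 𝓦) ⊤ := by
  constructor
  · intro hG
    by_cases hp : p = 2
    · subst hp
      refine ⟨{@zf.{u}, @jf.{u}}, ?_, ?_⟩
      · rintro W (rfl | rfl)
        · exact charP_zf
        · exact charP_jf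
      · have hG' : ¬ Cfsg.Involves (Equiv.Perm (Fin 4)) G := by
          intro h
          obtain ⟨e⟩ := H40.QdTwo.qd_two
          apply hG
          obtain ⟨K, R, hR, ⟨f⟩⟩ := h
          exact ⟨K, R, hR, ⟨f.trans e.symm⟩⟩
        intro K R hR
        have h1 := S1999.result.mp hG' K R
        rw [Set.image_pair, induced_zf, induced_jf]
        exact h1
    · refine ⟨{@H40.ZJFunctor.zj.{u}}, ?_, ?_⟩
      · rintro W rfl
        exact H40.ZJFunctor.isCharPFunctor_zj p
      · intro K R hR
        refine H40.ZJFunctor.family_zj hp ?_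
        intro h
        apply hG
        refine Lib.Involves.involves_iff.mp (Lib.Involves.trans ?_ h)
        exact ⟨K, QuotientGroup.mk' _, QuotientGroup.mk'_surjective _⟩
  · rintro ⟨𝓦, h𝓦, hc⟩ ⟨K, R, hR, ⟨e⟩⟩
    exact H40.QdNoControl.not_family_charP e 𝓦 h𝓦 (hc K R)

end Cfsg.Agent.S2000
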