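import Cfsg.Statements.S2005
import Cfsg.Agent.H41.SecReduction
import Cfsg.Agent.H41.Functor
import Cfsg.Agent.PLocal.PConstrained

set_option autoImplicit false
universe u
open Cfsg

namespace Cfsg.Agent.S2005

open Cfsg.Agent.H41.Functor

/-- The local hypothesis for the group `H`. -/
def Loc (p : ℕ) [Fact p.Prime] (W : ∀ (Q : Type u) [Group Q], Subgroup Q) (H : Type u) [Group H] : Prop :=
  Subgroup.centralizer ((Cfsg.pCore p H : Subgroup H) : Set H) ≤ Cfsg.pCore p H →
  Cfsg.HasNormalPComplement p (H ⧸ Cfsg.pCore p H) → ∀ T : Sylow p H, IsCoatom (T : Subgroup H) →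
  (Cfsg.inducedFunctor (G := H) W ((T : Subgroup H))).Normal

theorem loc_congr {p : ℕ} [Fact p.Prime] {W : ∀ (Q : Type u) [Group Q], Subgroup Q}
    (hW : Cfsg.IsCharPFunctor.{u} p W) {H H' : Type u} [Group H] [Group H'] [Finite H]
    (e : H ≃* H') (h : Loc p W H) : Loc p W H' := by
  have : Finite H' := Finite.of_equiv H e.toEquiv
  intro h1 h2 T hT
  have h1' : Subgroup.centralizer ((Cfsg.pCore p H : Subgroup H) : Set H) ≤ Cfsg.pCore p H :=
    PLocal.PConstrained.charP_congr e.symm h1
  have h2' : Cfsg.HasNormalPComplement p (H ⧸ Cfsg.pCore p H) :=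
    Transfer.NormalPComplement.of_surjective (QuotientGroup.congr (Cfsg.pCore p H') (Cfsg.pCore p H) e.symm
      (Lib.Cores.map_equiv_pCore e.symm p)).toMonoidHom (MulEquiv.surjective _) h2
  have hTr : (T : Subgroup H') ≤ e.toMonoidHom.range := by
    rw [MonoidHom.range_eq_top.mpr e.surjective]
    exact le_top
  have hinj : Function.Injective e.toMonoidHom := e.injective
  obtain ⟨T0, hT0⟩ : ∃ T0 : Sylow p H, (T0 : Subgroup H) = (T : Subgroup H').comap e.toMonoidHom :=
    ⟨T.comapOfInjective e.toMonoidHom hinj hTr, Sylow.coe_comapOfInjective _ _ _ _⟩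
  have hT' : IsCoatom (T0 : Subgroup H) := by
    rw [hT0]
    exact (OrderIso.isCoatom_iff e.comapSubgroup (T : Subgroup H')).mpr hT
  have h3 := h h1' h2' _ hT'
  have h4 : (Cfsg.inducedFunctor (G := H) W (T0 : Subgroup H)).map e.toMonoidHom =
      Cfsg.inducedFunctor (G := H') W (T : Subgroup H') := by
    rw [map_inducedFunctor W hW e.toMonoidHom _ hinj.injOn (Sylow.isPGroup' _)]
    congr 1
    rw [hT0, Subgroup.map_comap_eq_self hTr]
  rw [← h4]
  exact h3.map _ e.surjective

/-- Thompson's normal p-complement criterion in functor form. Let p be a prime, G a finite group with Sylow p-subgroup S, and W an isomorphism-invariant p-group functor (W assigns to every group Q a subgroup W(Q), nontrivial whenever Q is a nontrivial finite p-group, and every isomorphism from a finite p-group Q onto a group R carries W(Q) onto W(R)). Suppose N_G(W(S)) has a normal p-complement, and that W(S*) is normal in G* whenever G* = K/R is a section of G with C_{G*}(O_p(G*)) ≤ O_p(G*) such that G*/O_p(G*) has a normal p-complement,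 and S* is a Sylow p-subgroup of G* that is a maximal subgroup of G*. Then G has a normal p-complement. -/
theorem result {G : Type u} [Group G] [Finite G] {p : ℕ} [Fact p.Prime] (W : ∀ (Q : Type u) [Group Q], Subgroup Q) (hW : Cfsg.IsCharPFunctor.{u} p W) (S : Sylow p G) (hN : Cfsg.HasNormalPComplement p ↥(Subgroup.normalizer ((Cfsg.inducedFunctor (G := G) W (S : Subgroup G) : Subgroup G) : Set G))) (hloc : ∀ (K R : Subgroup G) [hR : (R.subgroupOf K).Normal], Subgroup.centralizer ((Cfsg.pCore p (↥K ⧸ R.subgroupOf K) : Subgroup (↥K ⧸ R.subgroupOf K)) : Set (↥K ⧸ R.subgroupOf K)) ≤ Cfsg.pCore p (↥K ⧸ R.subgroupOf K) → Cfsg.HasNormalPComplement p ((↥K ⧸ R.subgroupOf K) ⧸ Cfsg.pCore p (↥K ⧸ R.subgroupOf K)) → ∀ T : Sylow p (↥K ⧸ R.subgroupOf K), IsCoatom (T : Subgroup (↥K ⧸ R.subgroupOf K)) → (Cfsg.inducedFunctor (G := (↥K ⧸ R.subgroupOf K)) W ((T : Subgroup (↥K ⧸ R.subgroupOf K)))).Normal) : Cfsg.HasNormalPComplement p G := by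
  refine H41.SecReduction.hasNormalPComplement_of_functor_class (p := p)
    (fun G _ P => Cfsg.inducedFunctor W P) (fun H _ => IsSection G H) ?_ ?_ ?_ ?_ ?_ ?_ G
    (IsSection.refl G) S hN
  · intro H _ L hH
    exact hH.subgroup L
  · intro H _ N _ hH
    exact hH.quotient N
  · intro G G' _ _ _ _ f P hf hP
    exact map_inducedFunctor W hW f P hf hP
  · intro G _ _ P _
    exact inducedFunctor_le W P
  · intro G _ _ P hP hP1
    exact inducedFunctor_ne_bot W hW P hP hP1
  · intro H _ _ hH P A _ _ _ _ _ hcent hmax hPne hq hN'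
    obtain ⟨K, R, hR, ⟨e⟩⟩ := hH.exists_equiv
    have hL : Loc p W (↥K ⧸ R.subgroupOf K) := by
      intro h1 h2 T hT
      exact hloc K R h1 h2 T hT
    have hL' : Loc p W H := loc_congr hW e hL
    have hco : IsCoatom (P : Subgroup H) := by
      refine ⟨?_, ?_⟩
      · intro h0
        apply hPne
        have h1 : IsPGroup p H := by
          have := P.isPGroup'
          rw [h0] at this
          exact this.of_equiv Subgroup.topEquiv
        rw [h0, (Lib.Cores.pCore_eq_top_iff p).mpr h1]
      · intro M hM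
        rcases hmax M hM.le with h1 | h1
        · exact absurd h1 hM.ne'
        · exact h1
    have h5 := hL' hcent hq P hco
    have h6 : Subgroup.normalizer ((Cfsg.inducedFunctor (G := H) W (P : Subgroup H) : Subgroup H) : Set H) = ⊤ :=
      Subgroup.normalizer_eq_top_iff.mpr h5
    change Cfsg.HasNormalPComplement p
      ↥(Subgroup.normalizer ((Cfsg.inducedFunctor (G := H) W (P : Subgroup H) : Subgroup H) : Set H)) at hN'
    rw [h6] at hN'
    exact (Transfer.NormalPComplement.congr Subgroup.topEquiv).mp hN'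

end Cfsg.Agent.S2005
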