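import Cfsg.Statements.S2009
import Cfsg.Agent.S2008

set_option autoImplicit false
open Cfsg

namespace Cfsg.Agent.S2009

/-- Let H be a finite group and z an involution such that every proper normal subgroup of H meets the centralizer of z trivially, and suppose z lies in a Klein four-subgroup E of H all three of whose involutions are conjugate to z in H. Then H is simple. -/
theorem result {H : Type*} [Group H] [Finite H] (z : H) (hz : orderOf z = 2) (hN : ∀ N : Subgroup H, N.Normal → N ≠ ⊤ → N ⊓ Subgroup.centralizer ({z} : Set H) = ⊥) (E : Subgroup H) (hE : IsKleinFour ↥E) (hzE : z ∈ E) (hc : ∀ e ∈ E, e ≠ 1 → IsConj z e) : IsSimpleGroup H := by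
  have hz1 : z ≠ 1 := by
    rintro rfl
    rw [orderOf_one] at hz
    omega
  have hzz : z * z = 1 := by
    have := pow_orderOf_eq_one z
    rwa [hz, pow_two] at this
  have : Nontrivial H := ⟨⟨z, 1, hz1⟩⟩
  refine ⟨fun N hNn => ?_⟩
  by_cases htop : N = ⊤
  · exact Or.inr htop
  · left
    have hinv := Cfsg.Agent.S2008.inverts z hzz N hNn (hN N hNn htop)
    have hab : IsMulCommutative ↥N := by
      refine ⟨⟨fun a b => ?_⟩⟩
      apply Subtype.ext
      have h1 := hinv a a.2
      have h2 := hinv b b.2
      have h3 := hinv ((b : H) * a) (N.mul_mem b.2 a.2)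
      have h4 : z * ((b : H) * a) * z⁻¹ = (b : H)⁻¹ * (a : H)⁻¹ := by
        calc z * ((b : H) * a) * z⁻¹ = (z * b * z⁻¹) * (z * a * z⁻¹) := by group
          _ = _ := by rw [h1, h2]
      rw [h3] at h4
      change (a : H) * b = b * a
      calc (a : H) * b = (((b : H)⁻¹ * (a : H)⁻¹))⁻¹ := by group
        _ = (((b : H) * a)⁻¹)⁻¹ := by rw [← h4]
        _ = b * a := by group
    exact Cfsg.Agent.S2008.result z hz hN E hE hzE hc N hab

end Cfsg.Agent.S2009
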