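import Cfsg.Statements.S2137
import Cfsg.Agent.H73.ExcRow
import Cfsg.Agent.Schreier.Assembly
import Cfsg.Agent.S0000

set_option autoImplicit false
open Cfsg

namespace Cfsg.Agent.S2137

/-- Layers of involution centralisers in almost simple known groups: let X be a finite group whose generalized Fitting subgroup Y is a non-abelian simple group isomorphic to one of the known finite simple groups, let t be an involution of X lying in Y, and let C be the centraliser of t in X. Then the layer of C is trivial or quasisimple; or Y is of Lie type in odd characteristic and C has exactly two components; or Y is an orthogonal group (of odd dimension at least 7, or of even dimension at least 8 of plus or minus type) over a field of odd characteristic and C has exactly three or four components. -/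
theorem result {X : Type*} [Group X] [Finite X] (hs : IsSimpleGroup ↥(Cfsg.generalizedFittingSubgroup X)) (hna : ¬ IsMulCommutative ↥(Cfsg.generalizedFittingSubgroup X)) (hK : Cfsg.IsKnownSimple' ↥(Cfsg.generalizedFittingSubgroup X)) (t : X) (ht : orderOf t = 2) (htY : t ∈ Cfsg.generalizedFittingSubgroup X) : Cfsg.layer ↥(Subgroup.centralizer ({t} : Set X)) = ⊥ ∨ Cfsg.IsQuasisimple ↥(Cfsg.layer ↥(Subgroup.centralizer ({t} : Set X))) ∨ ((∃ p : ℕ, p.Prime ∧ p ≠ 2 ∧ Cfsg.IsLieTypeChar p ↥(Cfsg.generalizedFittingSubgroup X)) ∧ {K : Subgroup ↥(Subgroup.centralizer ({t} : Set X)) | Cfsg.IsComponent K}.ncard = 2) ∨ ((∃ p : ℕ, p.Prime ∧ p ≠ 2 ∧ (Cfsg.IsPOmegaOddChar p ↥(Cfsg.generalizedFittingSubgroup X) ∨ Cfsg.IsPOmegaPlusChar p ↥(Cfsg.generalizedFittingSubgroup X) ∨ Cfsg.IsPOmegaMinusChar p ↥(Cfsg.generalizedFittingSubgroup X))) ∧ ({K : Subgroup ↥(Subgroup.centralizer ({t} : Set X)) | Cfsg.IsComponent K}.ncard = 3 ∨ {K : Subgroup ↥(Subgroup.centralizer ({t} : Set X)) | Cfsg.IsComponent K}.ncard = 4)) := by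
  exact Cfsg.Agent.H73.TwoComp.main (Cfsg.Agent.H73.TwoComp.inp_of
    (Cfsg.Agent.H73.ExcRow.exc Cfsg.Agent.Schreier.Assembly.known (fun _ _ _ _ => Cfsg.Agent.S0000.result))
    (Cfsg.Agent.H73.ExcRow.twE6 Cfsg.Agent.Schreier.Assembly.known (fun _ _ _ _ => Cfsg.Agent.S0000.result)))
    Cfsg.Agent.Schreier.Assembly.known (fun _ _ _ _ => Cfsg.Agent.S0000.result)
    Cfsg.Agent.Schreier.Assembly.known hs hna hK t ht htY

end Cfsg.Agent.S2137
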