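import Cfsg.Statements.S2138
import Cfsg.Agent.H73.ModLayer
import Cfsg.Agent.Schreier.Assembly
import Cfsg.Agent.S0000

set_option autoImplicit false
open Cfsg

namespace Cfsg.Agent.S2138

/-- Let X be a finite group whose generalized Fitting subgroup Y is a non-abelian simple group isomorphic to one of the known finite simple groups, t an involution of X lying in Y, and C the centraliser of t in X. If the layer of C is non-trivial, then either C modulo its layer is solvable or Y is isomorphic to an alternating group. -/
theorem result {X : Type*} [Group X] [Finite X] (hs : IsSimpleGroup ↥(Cfsg.generalizedFittingSubgroup X)) (hna : ¬ IsMulCommutative ↥(Cfsg.generalizedFittingSubgroup X)) (hK : Cfsg.IsKnownSimple' ↥(Cfsg.generalizedFittingSubgroup X)) (t : X) (ht : orderOf t = 2) (htY : t ∈ Cfsg.generalizedFittingSubgroup X) (hL : Cfsg.layer ↥(Subgroup.centralizer ({t} : Set X)) ≠ ⊥) : (∃ _ : (Cfsg.layer ↥(Subgroup.centralizer ({t} : Set X))).Normal, Group.IsSolvable (↥(Subgroup.centralizer ({t} : Set X)) ⧸ Cfsg.layer ↥(Subgroup.centralizer ({t} : Set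 X)))) ∨ Cfsg.IsAlternating ↥(Cfsg.generalizedFittingSubgroup X) := by
  exact Cfsg.Agent.H73.modLayer Cfsg.Agent.Schreier.Assembly.known (fun _ _ _ _ => Cfsg.Agent.S0000.result)
    Cfsg.Agent.Schreier.Assembly.known (fun _ _ _ _ => Cfsg.Agent.S0000.result) hs hna hK t ht htY hL

end Cfsg.Agent.S2138
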