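import Cfsg.Statements.S2139
import Cfsg.Agent.H73.Red
import Cfsg.Agent.H73.OddCent
import Cfsg.Agent.H73.One
import Cfsg.Agent.H73.Alt
import Cfsg.Agent.Schreier.Assembly
import Cfsg.Agent.KFacts.He.Outer
import Cfsg.Agent.CTwoTab.He
import Cfsg.Agent.UGT.FL34.Main
import Cfsg.Agent.SporadicA.FieldFour
import Cfsg.Agent.S1311

set_option autoImplicit false
open Cfsg

namespace Cfsg.Agent.S2139

open Subgroup Cfsg.Agent.Lib Cfsg.Agent.SignalizersComponents Cfsg.Agent.SignalizersComponents.Components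
open Cfsg.Agent.H73 Equiv Equiv.Perm

section

variable {X : Type*} [Group X] [Finite X]

/-- the perfect subgroups lie in `F*(X)` -/
theorem perfect_le (hs : IsSimpleGroup ↥(generalizedFittingSubgroup X))
    (hna : ¬ IsMulCommutative ↥(generalizedFittingSubgroup X))
    (hK : IsKnownSimple' ↥(generalizedFittingSubgroup X)) : ∀ D : Subgroup X, ⁅D, D⁆ = D →
      D ≤ generalizedFittingSubgroup X :=
  fun _ hD => Red.perfect_le (Schreier.Assembly.known _ hna hK) hD

/-- a perfect subgroup of `C_X(t)` as a subgroup of `C_Y(t)` -/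
theorem solvable_of {Y : Subgroup X} (hp : ∀ D : Subgroup X, ⁅D, D⁆ = D → D ≤ Y) {t : X} (ht : t ∈ Y)
    (h : ∀ L : Subgroup ↥(centralizer ({(⟨t, ht⟩ : ↥Y)} : Set ↥Y)), ⁅L, L⁆ = L → L = ⊥) :
    Group.IsSolvable ↥(centralizer ({t} : Set X)) := by
  refine Red.solvable_of_perfect hp fun D hDC hDY hD => ?_
  have h1 : (D.subgroupOf Y).subgroupOf (centralizer ({(⟨t, ht⟩ : ↥Y)} : Set ↥Y)) = ⊥ := by
    apply h
    apply Subgroup.map_injective (subtype_injective _)
    apply Subgroup.map_injective (subtype_injective _)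
    have h2 : (((D.subgroupOf Y).subgroupOf (centralizer ({(⟨t, ht⟩ : ↥Y)} : Set ↥Y))).map
        (Subgroup.subtype _)).map Y.subtype = D := by
      rw [subgroupOf_map_subtype, inf_eq_left.2, subgroupOf_map_subtype, inf_eq_left.2 hDY]
      intro x hx
      rw [mem_centralizer_singleton_iff]
      exact Subtype.ext (mem_centralizer_singleton_iff.1 (hDC (mem_subgroupOf.1 hx)))
    rw [Subgroup.map_commutator, Subgroup.map_commutator, h2, hD]
  rw [eq_bot_iff]
  intro x hx
  have h3 : (⟨⟨x, hDY hx⟩, mem_centralizer_singleton_iff.2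
      (Subtype.ext (mem_centralizer_singleton_iff.1 (hDC hx)))⟩ :
      ↥(centralizer ({(⟨t, ht⟩ : ↥Y)} : Set ↥Y))) ∈
      (D.subgroupOf Y).subgroupOf (centralizer ({(⟨t, ht⟩ : ↥Y)} : Set ↥Y)) := hx
  rw [h1, mem_bot] at h3
  exact congrArg (fun c : ↥(centralizer ({(⟨t, ht⟩ : ↥Y)} : Set ↥Y)) => ((c : ↥Y) : X)) h3

theorem sq_one {G : Type*} [Group G] {t : G} (ht : orderOf t = 2) : t * t = 1 := by
  rw [← pow_two, ← ht]; exact pow_orderOf_eq_one t

/-- **odd characteristic** -/
theorem solvable_odd (hs : IsSimpleGroup ↥(generalizedFittingSubgroup X))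
    (hp : ∀ D : Subgroup X, ⁅D, D⁆ = D → D ≤ generalizedFittingSubgroup X)
    {p : ℕ} (hp2 : p ≠ 2) (hG : IsLieTypeChar p ↥(generalizedFittingSubgroup X)) {t : X} (ht : orderOf t = 2)
    (htY : t ∈ generalizedFittingSubgroup X) (hL : layer ↥(centralizer ({t} : Set X)) = ⊥) :
    Group.IsSolvable ↥(centralizer ({t} : Set X)) := by
  have hn : (generalizedFittingSubgroup X).Normal := GenFitting.genFitting_normal
  have hnc := Red.no_component htY hL
  have h2 : (⟨t, htY⟩ : ↥(generalizedFittingSubgroup X)) * ⟨t, htY⟩ = 1 := Subtype.ext (sq_one ht)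
  refine solvable_of hp htY fun L hLL => ?_
  rcases OC.oddCent hp2 hG h2 with h | h
  · exact h.eq_bot hnc hLL
  · exfalso
    have h1 : (⟨t, htY⟩ : ↥(generalizedFittingSubgroup X)) ≠ 1 := by
      intro h1
      have h3 : t = 1 := congrArg Subtype.val h1
      rw [h3, orderOf_one] at ht
      omega
    obtain ⟨K, hK, hq, -⟩ := H73.ree_cent h h2 h1
    exact hnc K ⟨Subgroup.Normal.isSubnormal hK, hq⟩

/-- **`L₃(4)`** -/
theorem solvable_l34 {t : X} (ht : orderOf t = 2)
    (htY : t ∈ generalizedFittingSubgroup X)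
    (h34 : ∃ (F : Type) (_ : Field F) (_ : Fintype F), Fintype.card F = 4 ∧
      Nonempty (↥(generalizedFittingSubgroup X) ≃* Matrix.ProjectiveSpecialLinearGroup (Fin 3) F))
    (hna : ¬ IsMulCommutative ↥(generalizedFittingSubgroup X))
    (hs : IsSimpleGroup ↥(generalizedFittingSubgroup X)) :
    Group.IsSolvable ↥(centralizer ({t} : Set X)) := by
  have hn : (generalizedFittingSubgroup X).Normal := GenFitting.genFitting_normal
  set Y := generalizedFittingSubgroup X with hY
  obtain ⟨F, _, _, hF, ⟨e⟩⟩ := h34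
  obtain ⟨e'⟩ := Cfsg.Agent.SporadicA.FieldFour.nonempty_psl_equiv (n := Fin 3) F hF
  have e0 : Cfsg.Agent.ONType.Psl.PSL3 ≃* ↥Y := e'.trans e.symm
  have h1 := UGT.FL34.sols e0 (⟨t, htY⟩ : ↥Y) (Subtype.ext (sq_one ht)) (by
    intro h1
    have h3 : t = 1 := congrArg Subtype.val h1
    rw [h3, orderOf_one] at ht
    omega)
  have hcY : center ↥Y = ⊥ := CTwoTab.center_eq_bot_of_simple hna
  let φ : X →* MulAut ↥Y := MulAut.conjNormal
  have hφ : Function.Injective φ := by
    rw [injective_iff_map_eq_one]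
    intro x hx
    have h1 : x ∈ Subgroup.centralizer (Y : Set X) := by
      rw [mem_centralizer_iff]
      intro y hy
      have h2 := congrArg (fun f : MulAut ↥Y => ((f ⟨y, hy⟩ : ↥Y) : X)) hx
      simp only [φ, MulAut.conjNormal_apply, MulAut.one_apply] at h2
      rw [mul_inv_eq_iff_eq_mul] at h2
      exact h2.symm
    have h2 : x ∈ Y := GenFitting.centralizer_genFitting_le h1
    have h3 : (⟨x, h2⟩ : ↥Y) ∈ center ↥Y := by
      rw [mem_center_iff]
      intro y
      exact Subtype.ext (mem_centralizer_iff.mp h1 y y.2)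
    rw [hcY, mem_bot] at h3
    exact congrArg Subtype.val h3
  have hφt : φ t = MulAut.conj (⟨t, htY⟩ : ↥Y) := by
    ext z
    simp [φ, MulAut.conjNormal_apply, MulAut.conj_apply]
  let f : ↥(centralizer ({t} : Set X)) →* ↥(centralizer ({MulAut.conj (⟨t, htY⟩ : ↥Y)} : Set (MulAut ↥Y))) :=
    { toFun := fun c => ⟨φ c, mem_centralizer_singleton_iff.2 (by
        rw [← hφt, ← map_mul, ← map_mul, mem_centralizer_singleton_iff.1 c.2])⟩
      map_one' := Subtype.ext (map_one φ)
      map_mul' := fun a b => Subtype.ext (map_mul φ _ _) }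
  refine Group.isSolvable_of_isSolvable_injective (f := f) ?_
  intro a b hab
  exact Subtype.ext (hφ (congrArg Subtype.val hab))

/-- **He** -/
theorem core_he (hHe : Spor.IsoHe ↥(generalizedFittingSubgroup X)) {t : X} (ht : orderOf t = 2)
    (htY : t ∈ generalizedFittingSubgroup X) : centralizerPPrimeCore 2 t = ⊥ := by
  have hn : (generalizedFittingSubgroup X).Normal := GenFitting.genFitting_normal
  set Y := generalizedFittingSubgroup X with hY
  let φ : X →* MulAut ↥Y := MulAut.conjNormal
  rw [eq_bot_iff]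
  have hcop := Cores.pPrimeCore_coprime (G := ↥(centralizer ({t} : Set X))) 2
  set W := pPrimeCore 2 ↥(centralizer ({t} : Set X)) with hW
  have hWn : W.Normal := Cores.pPrimeCore_normal 2
  have hodd : Odd (Nat.card W) := by rwa [Nat.coprime_comm, Nat.coprime_two_left] at hcop
  -- the core lies in `Y`
  have hWY : ∀ w ∈ W, ((w : ↥(centralizer ({t} : Set X))) : X) ∈ Y := by
    intro w hw
    have h1 : (w : ↥(centralizer ({t} : Set X))) ^ Nat.card W = 1 := by
      have := pow_card_eq_one' (G := ↥W) (x := ⟨w, hw⟩)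
      exact congrArg Subtype.val this
    have h2 : (φ w) ^ Nat.card W ∈ (MulAut.conj : ↥Y →* MulAut ↥Y).range := by
      rw [← map_pow, ← Subgroup.coe_pow, h1, Subgroup.coe_one, map_one]
      exact one_mem _
    obtain ⟨y, hy⟩ := KFacts.He.Outer.inner_of_odd hHe (φ w) hodd h2
    have h3 : φ (((w : ↥(centralizer ({t} : Set X))) : X) * (y : X)⁻¹) = 1 := by
      rw [map_mul, map_inv, ← hy]
      have h3 : φ (y : X) = MulAut.conj y := by
        ext z
        simp [φ, MulAut.conjNormal_apply, MulAut.conj_apply]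
      rw [h3, mul_inv_cancel]
    have h4 : ((w : ↥(centralizer ({t} : Set X))) : X) * (y : X)⁻¹ ∈ Y := by
      apply GenFitting.centralizer_genFitting_le
      rw [mem_centralizer_iff]
      intro z hz
      have h2 := congrArg (fun f : MulAut ↥Y => ((f ⟨z, hz⟩ : ↥Y) : X)) h3
      simp only [φ, MulAut.conjNormal_apply, MulAut.one_apply] at h2
      rw [mul_inv_eq_iff_eq_mul] at h2
      exact h2.symm
    have h5 := Y.mul_mem h4 y.2
    rwa [inv_mul_cancel_right] at h5
  have hO := (CTwoTab.He.compC2_of_iso hHe).bal (⟨t, htY⟩ : ↥Y) (by rw [← orderOf_coe]; exact ht)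
  rw [CTwoTab.centralizerPPrimeCore_eq_bot_iff] at hO
  -- the corresponding subgroup
  let e := Red.centEquiv Y t htY
  have hle : W ≤ Y.subgroupOf (centralizer ({t} : Set X)) := fun w hw => mem_subgroupOf.2 (hWY w hw)
  have h6 : (W.subgroupOf (Y.subgroupOf (centralizer ({t} : Set X)))).map e.symm.toMonoidHom ≤
      pPrimeCore 2 ↥(centralizer ({(⟨t, htY⟩ : ↥Y)} : Set ↥Y)) := by
    refine Cores.le_pPrimeCore ?_ ?_
    · exact (inferInstance : (W.subgroupOf (Y.subgroupOf (centralizer ({t} : Set X)))).Normal).map _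
        e.symm.surjective
    · rw [Nat.card_congr ((W.subgroupOf (Y.subgroupOf (centralizer ({t} : Set X)))).equivMapOfInjective
        e.symm.toMonoidHom e.symm.injective).toEquiv.symm,
        Nat.card_congr (subgroupOfEquivOfLe hle).toEquiv]
      exact hcop
  rw [hO, le_bot_iff, Subgroup.map_eq_bot_iff_of_injective _ (show Function.Injective e.symm.toMonoidHom from
    e.symm.injective), subgroupOf_eq_bot] at h6
  have h7 : W = ⊥ := by rw [disjoint_iff, inf_eq_left.2 hle] at h6; exact h6
  unfold centralizerPPrimeCore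
  rw [← hW, h7, Subgroup.map_bot]

/-- **Alternating groups of odd degree** -/
theorem alt_odd (hs : IsSimpleGroup ↥(generalizedFittingSubgroup X))
    (hna : ¬ IsMulCommutative ↥(generalizedFittingSubgroup X)) {n : ℕ} (hno : Odd n) (hn7 : 7 ≤ n)
    (e : ↥(generalizedFittingSubgroup X) ≃* ↥(alternatingGroup (Fin n))) {t : X} (ht : orderOf t = 2)
    (htY : t ∈ generalizedFittingSubgroup X) (hL : layer ↥(centralizer ({t} : Set X)) = ⊥)
    (W : Subgroup ↥(centralizer ({t} : Set X))) (hW : W.Normal) (hodd : Odd (Nat.card W)) :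
    Nat.card W = 1 ∨ Nat.card W = 3 := by
  have hn : (generalizedFittingSubgroup X).Normal := GenFitting.genFitting_normal
  have hnc := Red.no_component htY hL
  set Y := generalizedFittingSubgroup X with hY
  have hcY : center ↥Y = ⊥ := CTwoTab.center_eq_bot_of_simple hna
  let φ : X →* MulAut ↥Y := MulAut.conjNormal
  have hφ : Function.Injective φ := by
    rw [injective_iff_map_eq_one]
    intro x hx
    have h1 : x ∈ Subgroup.centralizer (Y : Set X) := by
      rw [mem_centralizer_iff]
      intro y hy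
      have h2 := congrArg (fun f : MulAut ↥Y => ((f ⟨y, hy⟩ : ↥Y) : X)) hx
      simp only [φ, MulAut.conjNormal_apply, MulAut.one_apply] at h2
      rw [mul_inv_eq_iff_eq_mul] at h2
      exact h2.symm
    have h2 : x ∈ Y := GenFitting.centralizer_genFitting_le h1
    have h3 : (⟨x, h2⟩ : ↥Y) ∈ center ↥Y := by
      rw [mem_center_iff]
      intro y
      exact Subtype.ext (mem_centralizer_iff.mp h1 y y.2)
    rw [hcY, mem_bot] at h3
    exact congrArg Subtype.val h3
  obtain ⟨ψ, hψ⟩ := StandardComponent.AltAut.exists_autHom n hn7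
  -- the homomorphism to the symmetric group
  let Φ : X →* Perm (Fin n) := (ψ.comp (MulAut.congr e).toMonoidHom).comp φ
  have hΦ : ∀ (x : X) (y : ↥Y), ((e (φ x y) : ↥(alternatingGroup (Fin n))) : Perm (Fin n)) =
      Φ x * (e y : Perm (Fin n)) * (Φ x)⁻¹ := by
    intro x y
    have h1 := hψ (MulAut.congr e (φ x)) (e y)
    have h2 : (MulAut.congr e (φ x)) (e y) = e (φ x y) := by
      change e (φ x (e.symm (e y))) = _
      rw [e.symm_apply_apply]
    rw [h2] at h1
    exact h1
  have hΦi : Function.Injective Φ := by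
    rw [injective_iff_map_eq_one]
    intro x hx
    have h1 : φ x = 1 := by
      ext1 y
      apply e.injective
      apply Subtype.ext
      rw [hΦ, hx, one_mul, inv_one, mul_one]
      rfl
    exact hφ (h1.trans (map_one φ).symm)
  have hΦY : ∀ y : ↥Y, Φ (y : X) = (e y : Perm (Fin n)) := by
    intro y
    obtain ⟨m, rfl⟩ : ∃ m, n = m + 2 := ⟨n - 2, by omega⟩
    refine StandardComponent.AltAut.conj_unique (m := m) (by omega) fun x => ?_
    have h1 := hΦ (y : X) (e.symm x)
    rw [e.apply_symm_apply] at h1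
    rw [← h1]
    have h2 : φ (y : X) = MulAut.conj y := by
      ext z
      simp [φ, MulAut.conjNormal_apply, MulAut.conj_apply]
    rw [h2, MulAut.conj_apply, map_mul, map_mul, map_inv, e.apply_symm_apply]
    rfl
  -- the involution and the group `W`
  set x : ↥(alternatingGroup (Fin n)) := e ⟨t, htY⟩ with hx
  have hx2 : orderOf x = 2 := by
    rw [hx, MulEquiv.orderOf_eq, ← Subgroup.orderOf_coe]
    exact ht
  have hxx : x * x = 1 := sq_one hx2
  have hxs : ∀ a, (x : Perm (Fin n)) ((x : Perm (Fin n)) a) = a := by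
    intro a
    exact congrArg (fun g : ↥(alternatingGroup (Fin n)) => (g : Perm (Fin n)) a) hxx
  have hΦt : Φ t = (x : Perm (Fin n)) := hΦY ⟨t, htY⟩
  set W' : Subgroup (Perm (Fin n)) := (W.map (Subgroup.subtype _)).map Φ with hW'
  have hcard : Nat.card W' = Nat.card W := by
    rw [hW', Nat.card_congr ((W.map (Subgroup.subtype _)).equivMapOfInjective Φ hΦi).toEquiv.symm,
      Nat.card_congr (W.equivMapOfInjective _ (subtype_injective _)).toEquiv.symm]
  have hWs : ∀ w ∈ W', w * (x : Perm (Fin n)) = x * w := by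
    rintro _ ⟨_, ⟨w, hw, rfl⟩, rfl⟩
    rw [← hΦt, ← map_mul, ← map_mul]
    exact congrArg Φ (mem_centralizer_singleton_iff.1 w.2)
  have hWn : ∀ β ∈ alternatingGroup (Fin n), β * (x : Perm (Fin n)) = x * β → ∀ w ∈ W', β * w * β⁻¹ ∈ W' := by
    rintro β hβ hβx _ ⟨_, ⟨w, hw, rfl⟩, rfl⟩
    have h1 : Φ ((e.symm ⟨β, hβ⟩ : ↥Y) : X) = β := by
      rw [hΦY, e.apply_symm_apply]
    have h2 : ((e.symm ⟨β, hβ⟩ : ↥Y) : X) ∈ centralizer ({t} : Set X) := by
      rw [mem_centralizer_singleton_iff]
      apply hΦi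
      rw [map_mul, map_mul, h1, hΦt, hβx]
    refine ⟨_, ⟨_, hW.conj_mem w hw ⟨_, h2⟩, rfl⟩, ?_⟩
    change Φ (((e.symm ⟨β, hβ⟩ : ↥Y) : X) * (w : ↥(centralizer ({t} : Set X))) *
      ((e.symm ⟨β, hβ⟩ : ↥Y) : X)⁻¹) = _
    rw [map_mul, map_mul, map_inv, h1]
    rfl
  have h1 := Alt.card_dvd hxs hWs fun w hw a ha => Alt.fix_of_odd hxs (by rwa [hcard]) hWs hWn hw ha
  rw [hcard] at h1
  -- the number of fixed points
  have h4 : Fintype.card (GenType.Fx x) ≤ 4 := by
    by_contra hcon
    have h5 := Alt.component_ker x (by omega)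
    have h6 := isComponent_map_equiv (OC.centCongr e ⟨t, htY⟩).symm h5
    exact hnc _ h6
  obtain ⟨⟨j, hj⟩, -⟩ := GenType.card_moved x hx2
  have h5 := GenType.card_split x
  rw [Fintype.card_fin] at h5
  have h6 : Fintype.card (GenType.Fx x) = 1 ∨ Fintype.card (GenType.Fx x) = 3 := by
    obtain ⟨k, hk⟩ := hno
    omega
  have h7 : Nat.card W ∣ 6 := by
    rcases h6 with h6 | h6
    · have h8 : Fintype.card {i : Fin n // (x : Perm (Fin n)) i = i} = 1 := by
        rw [← h6]
      rw [h8] at h1
      exact h1.trans (by decide)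
    · have h8 : Fintype.card {i : Fin n // (x : Perm (Fin n)) i = i} = 3 := by
        rw [← h6]
      rw [h8] at h1
      exact h1.trans (by decide)
  have h8 : Nat.card W ≤ 6 := Nat.le_of_dvd (by norm_num) h7
  interval_cases (Nat.card W)
  · simp at h7
  · left; rfl
  · exact absurd hodd (by decide)
  · right; rfl
  · exact absurd hodd (by decide)
  · exact absurd h7 (by decide)
  · exact absurd hodd (by decide)

end

/-- Let X be a finite group whose generalized Fitting subgroup Y is a non-abelian simple group isomorphic to one of the known finite simple groups, t an involution of X lying in Y, and C the centraliser of t in X. If the layer of C is trivial, then C is solvable; or the generalized Fitting subgroup of C is its largest normal 2-subgroup; or Y is isomorphic to an alternating group of degree n with n ≡ 1 or 3 (mod 4) and the generalized Fitting subgroup of C is the product of its largest normal 2-subgroup and its largest normal 3-subgroup, the latter of order 1 or 3. -/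
theorem result {X : Type*} [Group X] [Finite X] (hs : IsSimpleGroup ↥(Cfsg.generalizedFittingSubgroup X)) (hna : ¬ IsMulCommutative ↥(Cfsg.generalizedFittingSubgroup X)) (hK : Cfsg.IsKnownSimple' ↥(Cfsg.generalizedFittingSubgroup X)) (t : X) (ht : orderOf t = 2) (htY : t ∈ Cfsg.generalizedFittingSubgroup X) (hL : Cfsg.layer ↥(Subgroup.centralizer ({t} : Set X)) = ⊥) : Group.IsSolvable ↥(Subgroup.centralizer ({t} : Set X)) ∨ Cfsg.generalizedFittingSubgroup ↥(Subgroup.centralizer ({t} : Set X)) = Cfsg.pCore 2 ↥(Subgroup.centralizer ({t} : Set X)) ∨ ((∃ n : ℕ, (n % 4 = 1 ∨ n % 4 = 3) ∧ Nonempty (↥(Cfsg.generalizedFittingSubgroup X) ≃* ↥(alternatingGroup (Fin n)))) ∧ Cfsg.generalizedFittingSubgroup ↥(Subgroup.centralizer ({t} : Set X)) = Cfsg.pCore 2 ↥(Subgroup.centralizer ({t} : Set X)) ⊔ Cfsg.pCore 3 ↥(Subgroup.centralizer ({t} : Set X)) ∧ (Nat.card (Cfsg.pCore 3 ↥(Subgroup.centralizer ({t} : Set X))) = 1 ∨ Nat.card (Cfsg.pCore 3 ↥(Subgroup.centralizer ({t} : Set X))) = 3)) := by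
  by_cases hO : centralizerPPrimeCore 2 t = ⊥
  · right; left
    exact Red.genFitting_eq_pCore (CTwoTab.centralizerPPrimeCore_eq_bot_iff.1 hO) hL
  rcases S1311.result hs hna t ht hO with ⟨p, -, hp2, hG⟩ | ⟨n, hno, hn7, ⟨e⟩⟩ | h34 | hHe
  · left
    exact solvable_odd hs (perfect_le hs hna hK) hp2 hG ht htY hL
  · right; right
    have hW := alt_odd hs hna hno hn7 e ht htY hL
    have hc : ∀ q : ℕ, q.Prime → q ≠ 2 → Odd (Nat.card (pCore q ↥(centralizer ({t} : Set X)))) := by
      intro q hq hq2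
      have : Fact q.Prime := ⟨hq⟩
      obtain ⟨k, hk⟩ := (IsPGroup.iff_card (p := q)).1 (Cores.pCore_isPGroup (G := ↥(centralizer ({t} : Set X))) q)
      rw [hk]
      exact (hq.odd_of_ne_two hq2).pow
    refine ⟨⟨n, ?_, ⟨e⟩⟩, ?_, hW _ (Cores.pCore_normal 3) (hc 3 Nat.prime_three (by norm_num))⟩
    · obtain ⟨k, hk⟩ := hno
      omega
    · rw [GenFitting.genFitting_def, hL, bot_sup_eq, Cores.fittingSubgroup_eq_iSup_pCore]
      apply le_antisymm
      · refine iSup_le fun q => ?_
        have : Fact (q : ℕ).Prime := ⟨q.2⟩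
        by_cases hq2 : (q : ℕ) = 2
        · rw [hq2]; exact le_sup_left
        by_cases hq3 : (q : ℕ) = 3
        · rw [hq3]; exact le_sup_right
        have h1 := hW _ (Cores.pCore_normal (q : ℕ)) (hc q q.2 hq2)
        have h2 : Nat.card (pCore (q : ℕ) ↥(centralizer ({t} : Set X))) = 1 := by
          rcases h1 with h1 | h1
          · exact h1
          · exfalso
            obtain ⟨k, hk⟩ := (IsPGroup.iff_card (p := (q : ℕ))).1
              (Cores.pCore_isPGroup (G := ↥(centralizer ({t} : Set X))) (q : ℕ))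
            rw [hk] at h1
            have h3 : (q : ℕ) ∣ 3 := by
              rw [← h1]
              refine dvd_pow_self _ ?_
              rintro rfl
              norm_num at h1
            exact hq3 ((Nat.prime_dvd_prime_iff_eq q.2 Nat.prime_three).1 h3)
        rw [Subgroup.card_eq_one.1 h2]
        exact bot_le
      · exact sup_le (le_iSup (fun q : Nat.Primes => pCore (q : ℕ) ↥(centralizer ({t} : Set X))) ⟨2, Nat.prime_two⟩)
          (le_iSup (fun q : Nat.Primes => pCore (q : ℕ) ↥(centralizer ({t} : Set X))) ⟨3, Nat.prime_three⟩)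
  · left
    exact solvable_l34 ht htY h34 hna hs
  · exact absurd (core_he hHe ht htY) hO

end Cfsg.Agent.S2139
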