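import Cfsg.Statements.S2158
import Cfsg.Agent.H70.ChevFix
import Cfsg.Agent.H79.CharDiag

set_option autoImplicit false
open Cfsg

namespace Cfsg.Agent.S2158

open Cfsg.Lie Cfsg.Agent.ChevalleyStructure Cfsg.Agent.ChevalleyStructure.Elts Cfsg.Agent.H79.CharDiag
open Cfsg.Agent.Schreier.ChevLocal

/-- A subgroup generated by root elements is mapped into itself by the conjugation with `ĥ(χ)`. -/
theorem conj_mem {F : Type*} [Field F] {D : ChevalleyDatum} (hD : InList D) {χ : ℕ → Fˣ} (hχ : D.IsRootCharacter χ)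
    (P : ℕ → Prop) (hP : ∀ r, P r → r < D.nroots) {u : GL D.Idx F}
    (hu : u ∈ Subgroup.closure {g : GL D.Idx F | ∃ (r : ℕ) (t : F), P r ∧ (g : Matrix D.Idx D.Idx F) = D.x F r t}) :
    hatG D χ * u * (hatG D χ)⁻¹ ∈
      Subgroup.closure {g : GL D.Idx F | ∃ (r : ℕ) (t : F), P r ∧ (g : Matrix D.Idx D.Idx F) = D.x F r t} := by
  refine Subgroup.closure_induction (p := fun u _ => hatG D χ * u * (hatG D χ)⁻¹ ∈
      Subgroup.closure {g : GL D.Idx F | ∃ (r : ℕ) (t : F), P r ∧ (g : Matrix D.Idx D.Idx F) = D.x F r t}) ?_ ?_ ?_ ?_ hu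
  · rintro g ⟨r, t, hr, hg⟩
    have h1 : g = xG hD r t := (eq_xG_iff hD g r t).2 hg
    rw [h1, hatG_conj_xG hD hχ (hP r hr)]
    exact Subgroup.subset_closure ⟨r, _, hr, rfl⟩
  · rw [mul_one, mul_inv_cancel]
    exact Subgroup.one_mem _
  · intro a b _ _ ha hb
    have : hatG D χ * (a * b) * (hatG D χ)⁻¹ = (hatG D χ * a * (hatG D χ)⁻¹) * (hatG D χ * b * (hatG D χ)⁻¹) := by
      group
    rw [this]
    exact Subgroup.mul_mem _ ha hb
  · intro a _ ha
    have : hatG D χ * a⁻¹ * (hatG D χ)⁻¹ = (hatG D χ * a * (hatG D χ)⁻¹)⁻¹ := by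
      group
    rw [this]
    exact Subgroup.inv_mem _ ha

theorem mem_normalizer {F : Type*} [Field F] {D : ChevalleyDatum} (hD : InList D) {χ : ℕ → Fˣ}
    (hχ : D.IsRootCharacter χ) (P : ℕ → Prop) (hP : ∀ r, P r → r < D.nroots) (g : ↥(D.group F))
    (hg : (g : GL D.Idx F) = hatG D χ) :
    g ∈ Subgroup.normalizer (((Subgroup.closure {g : GL D.Idx F | ∃ (r : ℕ) (t : F), P r ∧
      (g : Matrix D.Idx D.Idx F) = D.x F r t}).subgroupOf (D.group F) : Subgroup ↥(D.group F)) : Set ↥(D.group F)) := by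
  rw [Subgroup.mem_normalizer_iff]
  intro u
  constructor
  · intro hu
    have h1 := conj_mem hD hχ P hP hu
    rw [← hg] at h1
    exact h1
  · intro hu
    have h1 := conj_mem hD (inv_isRootCharacter hχ) P hP hu
    rw [← hatG_inv, ← hg] at h1
    have h2 : (g : GL D.Idx F)⁻¹ * ((g * u * g⁻¹ : ↥(D.group F)) : GL D.Idx F) * (g : GL D.Idx F)⁻¹⁻¹ = u := by
      rw [Subgroup.coe_mul, Subgroup.coe_mul, Subgroup.coe_inv]
      group
    have h3 : (g : GL D.Idx F)⁻¹ * ((D.group F).subtype (g * u * g⁻¹)) * (g : GL D.Idx F)⁻¹⁻¹ = u := h2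
    rw [h3] at h1
    exact h1

/-- In a Chevalley group of type G₂, B₂, D₄, F₄, E₆, E₇ or E₈ over any field, an element of the group whose matrix is the diagonal matrix `ĥ(χ)` of a character `χ` of the root lattice already lies in the diagonal subgroup H (the non-trivial inclusion of the statement that the group meets the group of all such diagonal matrices in H). -/
theorem result {F : Type*} [Field F] (D : Cfsg.Lie.ChevalleyDatum) (hD : D ∈ [Cfsg.Lie.chevG2, Cfsg.Lie.chevB2, Cfsg.Lie.chevD4, Cfsg.Lie.chevF4, Cfsg.Lie.chevE6, Cfsg.Lie.chevE7, Cfsg.Lie.chevE8]) (χ : ℕ → Fˣ) (hχ : D.IsRootCharacter χ) (g : GL D.Idx F) (hg : g ∈ D.group F)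
    (hgχ : (g : Matrix D.Idx D.Idx F) = D.charDiag F χ) : g ∈ D.diagonalSubgroup F := by
  have h1 : g = hatG D χ := Units.ext hgχ
  have h2 := H70.ChevFix.normalizer_inf (F := F) hD
  have h3 : (⟨g, hg⟩ : ↥(D.group F)) ∈ HH D F := by
    rw [← h2, Subgroup.mem_inf]
    exact ⟨mem_normalizer hD hχ D.IsPosRoot (fun r h => h.1) _ h1, mem_normalizer hD hχ D.IsNegRoot (fun r h => h.1) _ h1⟩
  exact h3

end Cfsg.Agent.S2158
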