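import Cfsg.Statements.S2160
import Cfsg.Agent.H79.SimpleGen

set_option autoImplicit false
open Cfsg

namespace Cfsg.Agent.S2160

/-- In a Chevalley group of type G₂, B₂, D₄, F₄, E₆, E₇ or E₈ over a finite field, every field automorphism commutes with every graph automorphism. -/
theorem result {F : Type*} [Field F] [Finite F] (D : Cfsg.Lie.ChevalleyDatum) (hD : D ∈ [Cfsg.Lie.chevG2, Cfsg.Lie.chevB2, Cfsg.Lie.chevD4, Cfsg.Lie.chevF4, Cfsg.Lie.chevE6, Cfsg.Lie.chevE7, Cfsg.Lie.chevE8]) (f g : ↥(D.group F) ≃* ↥(D.group F))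
    (hf : D.IsFieldAut f) (hg : D.IsGraphAut g) (y : ↥(D.group F)) : f (g y) = g (f y) := by
  obtain ⟨σ, hσ⟩ := hf
  obtain ⟨π, -, hπ⟩ := hg
  have hf' : ∀ r < D.nroots, ∀ t : F, f (H79.SimpleGen.xS hD r t) = H79.SimpleGen.xS hD r (σ t) :=
    fun r hr t => H79.SimpleGen.field_apply hD hσ hr t
  have hg' := H79.SimpleGen.graph_apply hD (φ := g) (π := π) (e := fun i => D.graphExp (ringChar F) i (π i)) hπ
  have key : g.trans f = f.trans g := by
    apply H79.SimpleGen.equiv_ext hD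
    · intro i hi t
      have h1 := (hg' ⟨i, hi⟩ t).1
      have h2 := (hg' ⟨i, hi⟩ (σ t)).1
      simp only at h1 h2
      rw [MulEquiv.trans_apply, MulEquiv.trans_apply, h1, hf' _ (H79.SimpleGen.simple_lt hD (π ⟨i, hi⟩).isLt),
        hf' _ (H79.SimpleGen.simple_lt hD hi), h2, map_pow]
    · intro i hi t
      have h1 := (hg' ⟨i, hi⟩ t).2
      have h2 := (hg' ⟨i, hi⟩ (σ t)).2
      simp only at h1 h2
      rw [MulEquiv.trans_apply, MulEquiv.trans_apply, h1, hf' _ (H79.SimpleGen.neg_simple_lt hD (π ⟨i, hi⟩).isLt),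
        hf' _ (H79.SimpleGen.neg_simple_lt hD hi), h2, map_pow]
  exact congrArg (fun φ : ↥(D.group F) ≃* ↥(D.group F) => φ y) key

end Cfsg.Agent.S2160
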