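import Cfsg.Statements.S2305
import Cfsg.Agent.H113.BorelInd

set_option autoImplicit false
open Cfsg

namespace Cfsg.Agent.S2305

open Cfsg.Agent.H113.BorelInd Cfsg.Agent.Characters.Core Cfsg.Agent.Characters.Brauer

/-- Over a finite field F, for multiplicative characters α, β, α′, β′ of F, the characters of GL₂ induced from the linear characters b ↦ α(b₁₁) β(b₂₂) and b ↦ α′(b₁₁) β′(b₂₂) of the upper triangular subgroup coincide exactly when {α, β} = {α′, β′} as unordered pairs. -/
theorem result {F : Type*} [Field F] [Fintype F] [DecidableEq F] (α β α' β' : MulChar F ℂ) :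
    Cfsg.indFun (Cfsg.upperTriangularGL 2 F) (fun b => α (((b : Matrix.GeneralLinearGroup (Fin 2) F) : Matrix (Fin 2) (Fin 2) F) 0 0) * β (((b : Matrix.GeneralLinearGroup (Fin 2) F) : Matrix (Fin 2) (Fin 2) F) 1 1)) = Cfsg.indFun (Cfsg.upperTriangularGL 2 F) (fun b => α' (((b : Matrix.GeneralLinearGroup (Fin 2) F) : Matrix (Fin 2) (Fin 2) F) 0 0) * β' (((b : Matrix.GeneralLinearGroup (Fin 2) F) : Matrix (Fin 2) (Fin 2) F) 1 1)) ↔
      (α = α' ∧ β = β') ∨ (α = β' ∧ β = α') := by
  classical
  change indFun (upperTriangularGL 2 F) (fun b => glLin α β b) =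
    indFun (upperTriangularGL 2 F) (fun b => glLin α' β' b) ↔ _
  constructor
  · intro h
    have h1 := classInner_gl α β α β
    rw [← h.symm.trans rfl] at h1
    by_contra hno
    rw [not_or] at hno
    have h2 := classInner_gl α β α' β'
    rw [← h, if_neg hno.1, if_neg hno.2, add_zero] at h2
    have h3 := classInner_gl α β α β
    rw [h2, if_pos ⟨rfl, rfl⟩] at h3
    split_ifs at h3 <;> norm_num at h3
  · rintro (⟨rfl, rfl⟩ | ⟨rfl, rfl⟩)
    · rfl
    · rw [← sub_eq_zero]
      apply classInner_self_eq_zero
      rw [classInner_sub_left, classInner_sub_right, classInner_sub_right, classInner_gl, classInner_gl,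
        classInner_gl, classInner_gl]
      by_cases h : α = β
      · simp [h]
      · simp [h, Ne.symm h]

end Cfsg.Agent.S2305
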