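import Cfsg.Statements.S2308
import Cfsg.Agent.H113.BorelInd

set_option autoImplicit false
open Cfsg

namespace Cfsg.Agent.S2308

open Cfsg.Agent.H113.BorelInd

variable {F : Type*} [Field F]

/-- The cosets of the upper triangular subgroup. -/
noncomputable def cosetEquiv : Option F ≃ Matrix.GeneralLinearGroup (Fin 2) F ⧸ upperTriangularGL 2 F :=
  Equiv.ofBijective (fun o => (glRep o : Matrix.GeneralLinearGroup (Fin 2) F ⧸ upperTriangularGL 2 F)) (by
    constructor
    · intro o o' h
      have h1 : (glRep o)⁻¹ * glRep o' ∈ upperTriangularGL 2 F := QuotientGroup.eq.1 h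
      obtain ⟨l, _, hl⟩ := glRep_unique (glRep o')
      rw [hl o h1, hl o' (by simpa only [inv_mul_cancel] using (upperTriangularGL 2 F).one_mem)]
    · intro x
      induction x using QuotientGroup.induction_on with
      | H g =>
        obtain ⟨o, ho, _⟩ := glRep_unique g
        exact ⟨o, QuotientGroup.eq.2 ho⟩)

/-- Fixed cosets. -/
theorem card_fixed (g : Matrix.GeneralLinearGroup (Fin 2) F) :
    Nat.card (MulAction.fixedBy (Matrix.GeneralLinearGroup (Fin 2) F ⧸ upperTriangularGL 2 F) g) =
      Nat.card {o : Option F // (glRep o)⁻¹ * g * glRep o ∈ upperTriangularGL 2 F} := by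
  refine (Nat.card_congr (cosetEquiv.subtypeEquiv fun o => ?_)).symm
  rw [MulAction.mem_fixedBy]
  change _ ↔ ((g * glRep o : Matrix.GeneralLinearGroup (Fin 2) F) :
    Matrix.GeneralLinearGroup (Fin 2) F ⧸ upperTriangularGL 2 F) = (glRep o : _)
  rw [eq_comm, QuotientGroup.eq, mul_assoc]

theorem mem_none (g : Matrix.GeneralLinearGroup (Fin 2) F) :
    (glRep none)⁻¹ * g * glRep none ∈ upperTriangularGL 2 F ↔ (g : Matrix (Fin 2) (Fin 2) F) 1 0 = 0 := by
  rw [glRep_none, inv_one, one_mul, mul_one, mem_gl]

theorem mem_some (g : Matrix.GeneralLinearGroup (Fin 2) F) (t : F) :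
    (glRep (some t))⁻¹ * g * glRep (some t) ∈ upperTriangularGL 2 F ↔
      t * ((g : Matrix (Fin 2) (Fin 2) F) 1 0 * t + (g : Matrix (Fin 2) (Fin 2) F) 1 1) =
      (g : Matrix (Fin 2) (Fin 2) F) 0 0 * t + (g : Matrix (Fin 2) (Fin 2) F) 0 1 := by
  rw [mem_gl, gl_conj]
  simp [sub_eq_zero]

/-- Values of the permutation character of GL₂ over a finite field F with q elements on the cosets of its upper triangular subgroup (equivalently, the number of lines of F² that an element maps to themselves): q + 1 at a scalar matrix, 2 at a diagonal matrix with two different diagonal entries, 0 at an element with no eigenvector in F², and 1 at an upper triangular matrix with equal diagonal entries and non-zero upper right entry. -/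
theorem result {F : Type*} [Field F] [Fintype F] (g : Matrix.GeneralLinearGroup (Fin 2) F) :
    ((∃ a : F, (g : Matrix (Fin 2) (Fin 2) F) = a • (1 : Matrix (Fin 2) (Fin 2) F)) → Cfsg.fixedPointCharacter (Cfsg.upperTriangularGL 2 F) g = Fintype.card F + 1) ∧
    ((g : Matrix (Fin 2) (Fin 2) F) 0 1 = 0 → (g : Matrix (Fin 2) (Fin 2) F) 1 0 = 0 → (g : Matrix (Fin 2) (Fin 2) F) 0 0 ≠ (g : Matrix (Fin 2) (Fin 2) F) 1 1 →
      Cfsg.fixedPointCharacter (Cfsg.upperTriangularGL 2 F) g = 2) ∧
    ((∀ (c : F) (v : Fin 2 → F), v ≠ 0 → (g : Matrix (Fin 2) (Fin 2) F).mulVec v ≠ c • v) → Cfsg.fixedPointCharacter (Cfsg.upperTriangularGL 2 F) g = 0) ∧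
    ((g : Matrix (Fin 2) (Fin 2) F) 1 0 = 0 → (g : Matrix (Fin 2) (Fin 2) F) 0 0 = (g : Matrix (Fin 2) (Fin 2) F) 1 1 → (g : Matrix (Fin 2) (Fin 2) F) 0 1 ≠ 0 →
      Cfsg.fixedPointCharacter (Cfsg.upperTriangularGL 2 F) g = 1) := by
  classical
  unfold fixedPointCharacter
  rw [card_fixed]
  refine ⟨?_, ?_, ?_, ?_⟩
  · rintro ⟨a, ha⟩
    have : ∀ o : Option F, (glRep o)⁻¹ * g * glRep o ∈ upperTriangularGL 2 F := by
      rintro (_ | t)
      · rw [mem_none, ha]
        simp
      · rw [mem_some, ha]
        simp [mul_comm]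
    rw [Nat.card_congr (Equiv.subtypeUnivEquiv this), Nat.card_eq_fintype_card, Fintype.card_option]
    push_cast
    ring
  · intro h01 h10 hne
    have key : ∀ o : Option F, (glRep o)⁻¹ * g * glRep o ∈ upperTriangularGL 2 F ↔
        o ∈ ({none, some 0} : Finset (Option F)) := by
      rintro (_ | t)
      · rw [mem_none]
        simp [h10]
      · rw [mem_some, h01, h10]
        simp only [zero_mul, zero_add, add_zero, Finset.mem_insert, Finset.mem_singleton, reduceCtorEq,
          Option.some.injEq, false_or]
        constructor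
        · intro h
          by_contra ht
          apply hne
          rw [mul_comm] at h
          exact (mul_right_cancel₀ ht h).symm
        · rintro rfl
          simp
    rw [Nat.card_congr (Equiv.subtypeEquivRight key)]
    rw [Nat.card_eq_fintype_card, Fintype.card_coe]
    simp
  · intro hno
    have : ∀ o : Option F, (glRep o)⁻¹ * g * glRep o ∉ upperTriangularGL 2 F := by
      rintro (_ | t)
      · rw [mem_none]
        intro h
        apply hno ((g : Matrix (Fin 2) (Fin 2) F) 0 0) ![1, 0] (by simp)
        ext i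
        fin_cases i <;> simp [Matrix.mulVec, dotProduct, h]
      · rw [mem_some]
        intro h
        apply hno ((g : Matrix (Fin 2) (Fin 2) F) 1 0 * t + (g : Matrix (Fin 2) (Fin 2) F) 1 1) ![t, 1] (by simp)
        ext i
        fin_cases i
        · simp [Matrix.mulVec, dotProduct]
          linear_combination -h
        · simp [Matrix.mulVec, dotProduct]
    have : IsEmpty {o : Option F // (glRep o)⁻¹ * g * glRep o ∈ upperTriangularGL 2 F} :=
      ⟨fun o => this o.1 o.2⟩
    simp
  · intro h10 heq h01
    have key : ∀ o : Option F, (glRep o)⁻¹ * g * glRep o ∈ upperTriangularGL 2 F ↔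
        o ∈ ({none} : Finset (Option F)) := by
      rintro (_ | t)
      · rw [mem_none]
        simp [h10]
      · rw [mem_some, h10, heq]
        simp only [zero_mul, zero_add, Finset.mem_singleton, reduceCtorEq, iff_false]
        intro h
        apply h01
        linear_combination -h
    rw [Nat.card_congr (Equiv.subtypeEquivRight key)]
    rw [Nat.card_eq_fintype_card, Fintype.card_coe]
    simp

end Cfsg.Agent.S2308
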