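import Cfsg.Statements.S2310
import Cfsg.Agent.H114.GLTwo

set_option autoImplicit false
open Cfsg

namespace Cfsg.Agent.S2310

/-- Over a finite field F with q ≥ 3 elements, let u be the upper unitriangular matrix of GL₂ with off-diagonal entry 1. An irreducible complex character χ of GL₂ takes at u the value 1 if χ has degree 1 or q + 1, the value −1 if χ has degree q − 1, and the value 0 if χ has degree q. -/
theorem result {F : Type*} [Field F] [Fintype F] (hq : 3 ≤ Fintype.card F) (χ : Matrix.GeneralLinearGroup (Fin 2) F → ℂ) (hχ : Cfsg.IsIrrCharacter (Matrix.GeneralLinearGroup (Fin 2) F) χ)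
    (u : Matrix.GeneralLinearGroup (Fin 2) F) (hu : (u : Matrix (Fin 2) (Fin 2) F) = !![1, 1; 0, 1]) :
    (χ 1 = 1 → χ u = 1) ∧ (χ 1 = (Fintype.card F : ℂ) + 1 → χ u = 1) ∧
    (χ 1 = (Fintype.card F : ℂ) - 1 → χ u = -1) ∧ (χ 1 = (Fintype.card F : ℂ) → χ u = 0) := by
  classical
  obtain ⟨n, ρ, hρ, rfl⟩ := hχ
  obtain ⟨a, m, h1, h2, h3⟩ := H114.GLTwo.exists_nums
    (Characters.Core.isIrr_isCharacter (Characters.Core.isIrrCharacter_of_rep ρ hρ))
  have hu' : u = H114.GLTwo.up 1 := Units.ext hu
  rw [hu', h2]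
  have hm0 : m = 0 → ρ.character 1 = 1 := by
    intro hm
    apply H114.GLTwo.degree_one ρ hρ
    rw [h1, h2, hm]
    simp
  have hnat : ∀ d : ℕ, ρ.character 1 = (d : ℂ) → a + m * (Fintype.card F - 1) = d := by
    intro d hd
    rw [hd] at h1
    have : ((a + m * (Fintype.card F - 1) : ℕ) : ℂ) = (d : ℂ) := by
      push_cast [Nat.cast_sub (show 1 ≤ Fintype.card F by omega)]
      exact h1.symm
    exact_mod_cast this
  have hm1 : ∀ d : ℕ, ρ.character 1 = (d : ℂ) → d ≠ 1 → 1 ≤ m := by
    intro d hd hd1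
    rcases Nat.eq_zero_or_pos m with hm | hm
    · have := hm0 hm
      rw [hd] at this
      exact absurd (by exact_mod_cast this) hd1
    · exact hm
  obtain ⟨k, hk⟩ : ∃ k, Fintype.card F = k + 3 := ⟨Fintype.card F - 3, by omega⟩
  have hk' : Fintype.card F - 1 = k + 2 := by omega
  refine ⟨fun hd => ?_, fun hd => ?_, fun hd => ?_, fun hd => ?_⟩
  · have h4 := hnat 1 (by rw [hd, Nat.cast_one])
    rw [hk'] at h4
    have hm : m = 0 := by
      by_contra hm
      have : 1 * (k + 2) ≤ m * (k + 2) := Nat.mul_le_mul_right _ (Nat.pos_of_ne_zero hm)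
      omega
    subst hm
    have ha : a = 1 := by omega
    rw [ha]
    simp
  · have hd' : ρ.character 1 = ((Fintype.card F + 1 : ℕ) : ℂ) := by rw [hd]; push_cast; rfl
    have h4 := hnat _ hd'
    have h5 := hm1 _ hd' (by omega)
    rw [hk'] at h4
    have hm : m = 1 := by
      by_contra hm
      have hm2 : 2 ≤ m := by omega
      have h6 : 2 * (k + 2) ≤ m * (k + 2) := Nat.mul_le_mul_right _ hm2
      have hk0 : k = 0 := by omega
      have ha : a = 0 := by omega
      have hm3 : m = 2 := by
        rw [hk0, ha] at h4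
        omega
      rw [ha] at h1 h2
      rw [Nat.cast_zero, zero_add] at h1
      rw [Nat.cast_zero, zero_sub] at h2
      have hlt := H114.GLTwo.sq_lt ρ hρ h1 h2
      rw [hm3] at hlt
      omega
    rw [hm] at h4 ⊢
    have ha : a = 2 := by omega
    rw [ha]
    norm_num
  · have hd' : ρ.character 1 = ((Fintype.card F - 1 : ℕ) : ℂ) := by
      rw [hd, Nat.cast_sub (by omega), Nat.cast_one]
    have h4 := hnat _ hd'
    have h5 := hm1 _ hd' (by omega)
    rw [hk'] at h4
    have hm : m = 1 := by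
      by_contra hm
      have hm2 : 2 ≤ m := by omega
      have h6 : 2 * (k + 2) ≤ m * (k + 2) := Nat.mul_le_mul_right _ hm2
      omega
    rw [hm] at h4 ⊢
    have ha : a = 0 := by omega
    rw [ha]
    norm_num
  · have h4 := hnat _ hd
    have h5 := hm1 _ hd (by omega)
    rw [hk'] at h4
    have hm : m = 1 := by
      by_contra hm
      have hm2 : 2 ≤ m := by omega
      have h6 : 2 * (k + 2) ≤ m * (k + 2) := Nat.mul_le_mul_right _ hm2
      omega
    rw [hm] at h4 ⊢
    have ha : a = 1 := by omega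
    rw [ha]
    norm_num

end Cfsg.Agent.S2310
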