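import Cfsg.Statements.S2314
import Cfsg.Agent.H115.ChevPar
import Cfsg.Agent.S1027

set_option autoImplicit false
open Cfsg

namespace Cfsg.Agent.S2314

open Cfsg.Lie Cfsg.Agent.Nodes.RGDChev Cfsg.Agent.H115 Cfsg.Agent.Nodes.BNOf

universe u

theorem exists_type {D : ChevalleyDatum}
    (hD : D ∈ [Cfsg.Lie.chevG2, Cfsg.Lie.chevB2, Cfsg.Lie.chevD4, Cfsg.Lie.chevF4, Cfsg.Lie.chevE6, Cfsg.Lie.chevE7, Cfsg.Lie.chevE8]) :
    ∃ (l : ℕ) (M : CoxeterMatrix (Fin l)), IsType D l M := by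
  simp only [List.mem_cons, List.not_mem_nil, or_false] at hD
  rcases hD with rfl | rfl | rfl | rfl | rfl | rfl | rfl
  · exact ⟨2, CoxeterMatrix.G₂, by simp [IsType, typeList]⟩
  · exact ⟨2, CoxeterMatrix.B 2, by simp [IsType, typeList]⟩
  · exact ⟨4, coxeterD4, by simp [IsType, typeList]⟩
  · exact ⟨4, CoxeterMatrix.F₄, by simp [IsType, typeList]⟩
  · exact ⟨6, CoxeterMatrix.E₆, by simp [IsType, typeList]⟩
  · exact ⟨7, CoxeterMatrix.E₇, by simp [IsType, typeList]⟩
  · exact ⟨8, CoxeterMatrix.E₈, by simp [IsType, typeList]⟩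

theorem card_pel {D : ChevalleyDatum} {l : ℕ} {M : CoxeterMatrix (Fin l)} (hp : IsType D l M) {K : Type u} [Field K]
    [Fintype K] (p : ℕ) [hp' : Fact p.Prime] [CharP K p] :
    Nat.card {g : ↥(D.group K) // ∃ k : ℕ, orderOf g = p ^ k} = Fintype.card K ^ (2 * (D.nroots / 2)) := by
  have : Finite M.Group := finite_W hp M.toCoxeterSystem
  have hgen : Nodes.Bruhat.GG M.toCoxeterSystem hp.isCartan ((D.diagonalSubgroup K).subgroupOf (D.group K))
      (fun x => (XV D l K x).subgroupOf (D.group K)) = ⊤ := by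
    rw [eq_top_iff, ← G1_eq_top hp M.toCoxeterSystem (K := K)]
    exact RGD.Sup_le fun x hx =>
      Nodes.Bruhat.X_le_GG (X := fun x => (XV D l K x).subgroupOf (D.group K)) hx
  have h1 := card_pel_of_rgd_top (rgd (K := K) hp M.toCoxeterSystem p) hgen
  rw [h1, sup_pos_eq hp M.toCoxeterSystem, Nat.card_congr (Subgroup.subgroupOfEquivOfLe (pos_le_group hp)).toEquiv,
    Cfsg.Agent.S1027.result D hp.inList, ← pow_mul, mul_comm]


/-- Steinberg's count of unipotent elements: in a Chevalley group of type G₂, B₂, D₄, F₄, E₆, E₇ or E₈ over a finite field of characteristic p with q elements, the number of elements of p-power order is q^(2N), N the number of positive roots — the square of the order of a Sylow p-subgroup. -/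
theorem result {F : Type*} [Field F] [Fintype F] (p : ℕ) [Fact p.Prime] [CharP F p] (D : Cfsg.Lie.ChevalleyDatum) (hD : D ∈ [Cfsg.Lie.chevG2, Cfsg.Lie.chevB2, Cfsg.Lie.chevD4, Cfsg.Lie.chevF4, Cfsg.Lie.chevE6, Cfsg.Lie.chevE7, Cfsg.Lie.chevE8]) :
    Nat.card {g : ↥(D.group F) // ∃ k : ℕ, orderOf g = p ^ k} = Fintype.card F ^ (2 * (D.nroots / 2)) := by
  obtain ⟨l, M, h⟩ := exists_type hD
  exact card_pel h p

end Cfsg.Agent.S2314
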