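import Cfsg.Statements.S2316
import Cfsg.Agent.H115.PelQuot
import Cfsg.Agent.Nodes.WittInst
import Cfsg.Agent.LieClassical.SympCenter
import Cfsg.Agent.LieClassical.SympCount

set_option autoImplicit false
open Cfsg

namespace Cfsg.Agent.S2316

open Cfsg.Agent.H115 Cfsg.Agent.Nodes.RGDChev

theorem not_dvd_pow_sub_one {p e k : ℕ} (hp : p.Prime) (he : e ≠ 0) (hk : k ≠ 0) : ¬ p ∣ (p ^ e) ^ k - 1 := by
  intro h
  have h1 : p ∣ (p ^ e) ^ k := dvd_pow (dvd_pow_self p he) hk
  have h2 : 1 ≤ (p ^ e) ^ k := Nat.one_le_pow _ _ (pow_pos hp.pos _)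
  have h3 : p ∣ 1 := by
    have := (Nat.dvd_sub_iff_right h2 h1).1 h
    exact this
  exact hp.one_lt.ne' (Nat.dvd_one.1 h3)


/-- Steinberg's count of unipotent elements for the symplectic group: over a finite field with q elements of characteristic p, the number of elements of Sp_{2m} of p-power order is q^(2m²). -/
theorem result {F : Type*} [Field F] [Fintype F] (p : ℕ) [Fact p.Prime] [CharP F p] (m : ℕ) :
    Nat.card {g : ↥(Matrix.symplecticGroup (Fin m) F) // ∃ k : ℕ, orderOf g = p ^ k} = Fintype.card F ^ (2 * m ^ 2) := by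
  have hp : p.Prime := Fact.out
  obtain ⟨e, he, hq⟩ := FiniteField.card F p
  have he0 : (e : ℕ) ≠ 0 := e.2.ne'
  have hcard : Nat.card (Matrix.symplecticGroup (Fin m) F) =
      p ^ (e * m ^ 2) * ∏ i ∈ Finset.range m, (Fintype.card F ^ (2 * (i + 1)) - 1) := by
    rw [Cfsg.Agent.LieClassical.SympCount.card_symplecticGroup, hq, ← pow_mul]
  have hnd : ¬ p ∣ ∏ i ∈ Finset.range m, (Fintype.card F ^ (2 * (i + 1)) - 1) := by
    intro h
    obtain ⟨i, -, hi⟩ := (Prime.dvd_finsetProd_iff hp.prime _).1 h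
    rw [hq] at hi
    exact not_dvd_pow_sub_one hp he0 (by omega) hi
  have hres : Fintype.card F ^ (2 * m ^ 2) = (p ^ (e * m ^ 2)) ^ 2 := by
    rw [hq]; ring
  rw [hres]
  rcases Nat.eq_zero_or_pos m with rfl | hm
  · have h1 : Nat.card (Matrix.symplecticGroup (Fin 0) F) = 1 := by rw [hcard]; simp
    have : Subsingleton (Matrix.symplecticGroup (Fin 0) F) := (Nat.card_eq_one_iff_unique.1 h1).1
    have h2 : Nat.card {g : Matrix.symplecticGroup (Fin 0) F // ∃ k : ℕ, orderOf g = p ^ k} = 1 := by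
      rw [Nat.card_eq_one_iff_unique]
      exact ⟨⟨fun a b => Subtype.ext (Subsingleton.elim _ _)⟩, ⟨⟨1, 0, by simp⟩⟩⟩
    rw [h2]
    simp
  · refine card_pel_of_center (Subgroup.center (Matrix.symplecticGroup (Fin m) F)) le_rfl ?_
      (Cfsg.Agent.Nodes.WittInst.hasRGD_PSp hm) hcard hnd
    rw [Cfsg.Agent.LieClassical.SympCenter.card_center hm, Nat.coprime_comm, hp.coprime_iff_not_dvd]
    intro h
    have h1 : p ∣ Fintype.card F - 1 := h.trans (Nat.gcd_dvd_right _ _)
    rw [hq, ← pow_one (p ^ (e : ℕ))] at h1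
    exact not_dvd_pow_sub_one hp he0 one_ne_zero h1

end Cfsg.Agent.S2316
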