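import Cfsg.Statements.S2329
import Cfsg.Agent.H118.TwoByTwo

set_option autoImplicit false
open Cfsg

namespace Cfsg.Agent.S2329

open Matrix Cfsg.Agent.H118.TwoByTwo

theorem aux {F : Type*} [Field F] (p : ℕ) [Fact p.Prime] [CharP F p] (g : Matrix.GeneralLinearGroup (Fin 2) F)
    (hg : orderOf g = p) : (∀ a : F, (g : Matrix (Fin 2) (Fin 2) F) ≠ a • (1 : Matrix (Fin 2) (Fin 2) F)) ∧
      (g : Matrix (Fin 2) (Fin 2) F).trace = 2 ∧ (g : Matrix (Fin 2) (Fin 2) F).det = 1 := by
  have hp : p.Prime := Fact.out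
  have hgp : g ^ p = 1 := by rw [← hg]; exact pow_orderOf_eq_one g
  have hM : (g : Matrix (Fin 2) (Fin 2) F) ^ p = 1 := by
    have := congrArg (fun x : Matrix.GeneralLinearGroup (Fin 2) F => (x : Matrix (Fin 2) (Fin 2) F)) hgp
    simpa using this
  have hinj : ∀ a : F, a ^ p = 1 → a = 1 := by
    intro a ha
    have h1 : (a - 1) ^ p = 0 := by
      rw [sub_pow_char, ha, one_pow, sub_self]
    exact sub_eq_zero.1 (pow_eq_zero_iff hp.ne_zero |>.1 h1)
  refine ⟨?_, ?_, ?_⟩
  · intro a ha
    have h1 : a ^ p = 1 := by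
      rw [ha, smul_pow, one_pow] at hM
      have := congrFun (congrFun hM 0) 0
      simpa using this
    have h2 := hinj a h1
    have h3 : g = 1 := by
      apply Units.ext
      rw [ha, h2, one_smul]
      rfl
    rw [h3, orderOf_one] at hg
    exact hp.one_lt.ne hg
  · have h1 : IsNilpotent ((g : Matrix (Fin 2) (Fin 2) F) - 1) := by
      refine ⟨p, ?_⟩
      rw [sub_pow_char_of_commute p (Commute.one_right _), hM, one_pow, sub_self]
    have h2 := Matrix.isNilpotent_trace_of_isNilpotent h1
    have h3 := h2.eq_zero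
    rw [Matrix.trace_sub] at h3
    have h4 : (1 : Matrix (Fin 2) (Fin 2) F).trace = 2 := by
      simp
    rw [h4] at h3
    exact sub_eq_zero.1 h3
  · apply hinj
    rw [← Matrix.det_pow, hM, Matrix.det_one]

/-- Over a finite field of characteristic p, any two elements of order p of GL₂ are conjugate: there is a single conjugacy class of non-identity unipotent elements. -/
theorem result {F : Type*} [Field F] [Fintype F] (p : ℕ) [Fact p.Prime] [CharP F p] (g h : Matrix.GeneralLinearGroup (Fin 2) F)
    (hg : orderOf g = p) (hh : orderOf h = p) : IsConj g h := by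
  obtain ⟨g1, g2, g3⟩ := aux p g hg
  obtain ⟨h1, h2, h3⟩ := aux p h hh
  exact isConj_of_trace_det g h g1 h1 (g2.trans h2.symm) (g3.trans h3.symm)

end Cfsg.Agent.S2329
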