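import Cfsg.Statements.S2330
import Cfsg.Agent.H118.TwoByTwo

set_option autoImplicit false
open Cfsg

namespace Cfsg.Agent.S2330

open Matrix Cfsg.Agent.H118.TwoByTwo

open Classical in
/-- The complete invariant of an element of `GL₂` up to conjugacy. -/
noncomputable def inv {F : Type*} [Field F] (g : Matrix.GeneralLinearGroup (Fin 2) F) : Fˣ ⊕ (F × Fˣ) :=
  if h : ∃ a : Fˣ, (g : Matrix (Fin 2) (Fin 2) F) = (a : F) • (1 : Matrix (Fin 2) (Fin 2) F) then Sum.inl h.choose
  else Sum.inr ((g : Matrix (Fin 2) (Fin 2) F).trace, Matrix.GeneralLinearGroup.det g)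

theorem inv_scalar {F : Type*} [Field F] (g : Matrix.GeneralLinearGroup (Fin 2) F) (a : Fˣ)
    (h : (g : Matrix (Fin 2) (Fin 2) F) = (a : F) • (1 : Matrix (Fin 2) (Fin 2) F)) : inv g = Sum.inl a := by
  have hex : ∃ a : Fˣ, (g : Matrix (Fin 2) (Fin 2) F) = (a : F) • (1 : Matrix (Fin 2) (Fin 2) F) := ⟨a, h⟩
  rw [inv, dif_pos hex]
  have h2 := h.symm.trans hex.choose_spec
  have h3 := congrFun (congrFun h2 0) 0
  simp at h3
  rw [Sum.inl.injEq]
  exact Units.ext h3.symm

theorem inv_nonscalar {F : Type*} [Field F] (g : Matrix.GeneralLinearGroup (Fin 2) F)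
    (h : ¬ ∃ a : Fˣ, (g : Matrix (Fin 2) (Fin 2) F) = (a : F) • (1 : Matrix (Fin 2) (Fin 2) F)) :
    inv g = Sum.inr ((g : Matrix (Fin 2) (Fin 2) F).trace, Matrix.GeneralLinearGroup.det g) := by
  rw [inv, dif_neg h]

theorem nonscalar_iff {F : Type*} [Field F] (g : Matrix.GeneralLinearGroup (Fin 2) F) :
    (¬ ∃ a : Fˣ, (g : Matrix (Fin 2) (Fin 2) F) = (a : F) • (1 : Matrix (Fin 2) (Fin 2) F)) ↔
      ∀ a : F, (g : Matrix (Fin 2) (Fin 2) F) ≠ a • (1 : Matrix (Fin 2) (Fin 2) F) := by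
  constructor
  · intro h a ha
    have ha0 : a ≠ 0 := by
      rintro rfl
      have h1 : (g : Matrix (Fin 2) (Fin 2) F).det ≠ 0 := by
        have := g.det.ne_zero
        simpa using this
      apply h1
      rw [ha]
      simp
    exact h ⟨Units.mk0 a ha0, ha⟩
  · rintro h ⟨a, ha⟩
    exact h a ha

theorem inv_eq_iff {F : Type*} [Field F] (g h : Matrix.GeneralLinearGroup (Fin 2) F) :
    inv g = inv h ↔ IsConj g h := by
  have hconj : ∀ g h : Matrix.GeneralLinearGroup (Fin 2) F, IsConj g h → ∀ a : Fˣ,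
      (g : Matrix (Fin 2) (Fin 2) F) = (a : F) • (1 : Matrix (Fin 2) (Fin 2) F) →
      (h : Matrix (Fin 2) (Fin 2) F) = (a : F) • (1 : Matrix (Fin 2) (Fin 2) F) := by
    intro g h hgh a ha
    obtain ⟨c, rfl⟩ := isConj_iff.1 hgh
    rw [Units.val_mul, Units.val_mul, ha, Matrix.mul_smul, Matrix.smul_mul, mul_one]
    simp
  constructor
  · intro he
    by_cases hg : ∃ a : Fˣ, (g : Matrix (Fin 2) (Fin 2) F) = (a : F) • (1 : Matrix (Fin 2) (Fin 2) F)
    · obtain ⟨a, ha⟩ := hg
      by_cases hh : ∃ a : Fˣ, (h : Matrix (Fin 2) (Fin 2) F) = (a : F) • (1 : Matrix (Fin 2) (Fin 2) F)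
      · obtain ⟨b, hb⟩ := hh
        rw [inv_scalar g a ha, inv_scalar h b hb, Sum.inl.injEq] at he
        subst he
        have : g = h := Units.ext (ha.trans hb.symm)
        rw [this]
      · rw [inv_scalar g a ha, inv_nonscalar h hh] at he
        simp at he
    · by_cases hh : ∃ a : Fˣ, (h : Matrix (Fin 2) (Fin 2) F) = (a : F) • (1 : Matrix (Fin 2) (Fin 2) F)
      · obtain ⟨b, hb⟩ := hh
        rw [inv_scalar h b hb, inv_nonscalar g hg] at he
        simp at he
      · rw [inv_nonscalar g hg, inv_nonscalar h hh, Sum.inr.injEq, Prod.mk.injEq] at he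
        refine isConj_of_trace_det g h ((nonscalar_iff g).1 hg) ((nonscalar_iff h).1 hh) he.1 ?_
        have := congrArg (fun u : Fˣ => (u : F)) he.2
        simpa using this
  · intro hgh
    by_cases hg : ∃ a : Fˣ, (g : Matrix (Fin 2) (Fin 2) F) = (a : F) • (1 : Matrix (Fin 2) (Fin 2) F)
    · obtain ⟨a, ha⟩ := hg
      rw [inv_scalar g a ha, inv_scalar h a (hconj g h hgh a ha)]
    · have hh : ¬ ∃ a : Fˣ, (h : Matrix (Fin 2) (Fin 2) F) = (a : F) • (1 : Matrix (Fin 2) (Fin 2) F) := by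
        rintro ⟨a, ha⟩
        exact hg ⟨a, hconj h g hgh.symm a ha⟩
      rw [inv_nonscalar g hg, inv_nonscalar h hh, trace_eq_of_isConj hgh, det_eq_of_isConj hgh]

theorem inv_surjective {F : Type*} [Field F] :
    Function.Surjective (inv : Matrix.GeneralLinearGroup (Fin 2) F → Fˣ ⊕ (F × Fˣ)) := by
  rintro (a | ⟨t, d⟩)
  · have hdet : ((a : F) • (1 : Matrix (Fin 2) (Fin 2) F)).det ≠ 0 := by
      simp
    exact ⟨Matrix.GeneralLinearGroup.mkOfDetNeZero _ hdet, inv_scalar _ a rfl⟩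
  · have hdet : (cmat t (d : F)).det ≠ 0 := by
      simp [cmat, Matrix.det_fin_two_of]
    refine ⟨Matrix.GeneralLinearGroup.mkOfDetNeZero _ hdet, ?_⟩
    rw [inv_nonscalar]
    · rw [Sum.inr.injEq, Prod.mk.injEq]
      constructor
      · change (cmat t (d : F)).trace = t
        simp [cmat, Matrix.trace_fin_two]
      · apply Units.ext
        change (cmat t (d : F)).det = d
        simp [cmat, Matrix.det_fin_two_of]
    · rintro ⟨a, ha⟩
      change cmat t (d : F) = _ at ha
      have := congrFun (congrFun ha 1) 0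
      simp [cmat] at this

/-- Over a finite field with q elements, the general linear group GL₂ has exactly q² − 1 conjugacy classes. -/
theorem result {F : Type*} [Field F] [Fintype F] :
    Nat.card (ConjClasses (Matrix.GeneralLinearGroup (Fin 2) F)) = Fintype.card F ^ 2 - 1 := by
  rw [card_conjClasses_of_invariant inv inv_surjective inv_eq_iff, Nat.card_sum, Nat.card_prod,
    Nat.card_units, Nat.card_eq_fintype_card]
  have h : 1 ≤ Fintype.card F := Fintype.card_pos
  obtain ⟨m, hm⟩ := Nat.exists_eq_add_of_le h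
  rw [hm]
  have h1 : 1 + m - 1 = m := by omega
  rw [h1]
  have h2 : (1 + m) ^ 2 = m + (1 + m) * m + 1 := by ring
  rw [h2]
  omega

end Cfsg.Agent.S2330
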