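import Cfsg.Statements.S2364
import Cfsg.Agent.H127.CommPrimeLin
import Cfsg.Agent.H127.CommPrimeOrd

set_option autoImplicit false
open Cfsg

namespace Cfsg.Agent.S2364

/-- Let F be a finite field of characteristic p, n ≥ 4, and let a, b be commuting elements of PSL(n, F) with a of order p. Then every prime divisor of the order of b divides the order of SL(n − 2, F). -/
theorem result {F : Type*} [Field F] [Fintype F] (p : ℕ) [Fact p.Prime] [CharP F p] (n : ℕ) (hn : 4 ≤ n)
    (a b : Matrix.ProjectiveSpecialLinearGroup (Fin n) F) (ha : orderOf a = p) (hab : Commute a b) :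
    (orderOf b).primeFactors ⊆ (Nat.card (Matrix.SpecialLinearGroup (Fin (n - 2)) F)).primeFactors := by
  classical
  intro r hr
  have hrp : r.Prime := Nat.prime_of_mem_primeFactors hr
  have hrb : r ∣ orderOf b := Nat.dvd_of_mem_primeFactors hr
  have hp : p.Prime := Fact.out
  rw [Nat.mem_primeFactors]
  refine ⟨hrp, ?_, Nat.card_pos.ne'⟩
  by_cases h1 : r = p
  · rw [h1]
    exact H127.CommPrimeOrd.sl_dvd_char (by omega) p
  -- central elements of prime order
  have hcen : ∀ l : ℕ, l.Prime → l ∣ Nat.card (Subgroup.center (Matrix.SpecialLinearGroup (Fin n) F)) →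
      ∃ c : F, c ^ l = 1 ∧ c ≠ 1 := by
    intro l hl hd
    have : Fact l.Prime := ⟨hl⟩
    obtain ⟨⟨z, hz⟩, hzo⟩ := exists_prime_orderOf_dvd_card' l hd
    obtain ⟨c, -, hc⟩ := Matrix.SpecialLinearGroup.mem_center_iff.1 hz
    have hz1 : z ^ l = 1 := by
      have h2 := pow_orderOf_eq_one (⟨z, hz⟩ : Subgroup.center (Matrix.SpecialLinearGroup (Fin n) F))
      rw [hzo] at h2
      exact congrArg Subtype.val h2
    have hz2 : z ≠ 1 := by
      rintro rfl
      have h3 : (⟨1, hz⟩ : Subgroup.center (Matrix.SpecialLinearGroup (Fin n) F)) = 1 := rfl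
      rw [h3, orderOf_one] at hzo
      exact hl.one_lt.ne hzo
    refine ⟨c, ?_, ?_⟩
    · have h3 : (z : Matrix (Fin n) (Fin n) F) ^ l = 1 := by
        rw [← Matrix.SpecialLinearGroup.coe_pow, hz1, Matrix.SpecialLinearGroup.coe_one]
      rw [← hc, ← map_pow, ← map_one (Matrix.scalar (Fin n))] at h3
      have : Nonempty (Fin n) := ⟨⟨0, by omega⟩⟩
      exact Matrix.scalar_inj.1 h3
    · rintro rfl
      apply hz2
      apply Subtype.ext
      rw [← hc, map_one]
      rfl
  have hpZ : ¬ p ∣ Nat.card (Subgroup.center (Matrix.SpecialLinearGroup (Fin n) F)) := by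
    intro h
    obtain ⟨c, hc1, hc2⟩ := hcen p hp h
    apply hc2
    have h3 : (c - 1) ^ p = 0 := by rw [sub_pow_char, hc1, one_pow, sub_self]
    exact sub_eq_zero.1 (pow_eq_zero_iff hp.ne_zero |>.1 h3)
  by_cases hrZ : r ∣ Nat.card (Subgroup.center (Matrix.SpecialLinearGroup (Fin n) F))
  · obtain ⟨c, hc1, hc2⟩ := hcen r hrp hrZ
    have hc0 : c ≠ 0 := by
      rintro rfl
      rw [zero_pow hrp.ne_zero] at hc1
      exact zero_ne_one hc1
    have : Fact r.Prime := ⟨hrp⟩
    have h4 : orderOf c = r := orderOf_eq_prime hc1 hc2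
    have h5 : r ∣ Fintype.card F - 1 := by
      rw [← h4]
      exact orderOf_dvd_of_pow_eq_one (FiniteField.pow_card_sub_one_eq_one c hc0)
    refine H127.CommPrimeOrd.sl_dvd (by omega) (le_refl 1) (by omega) ?_
    have h6 : (1 : ℕ) ≤ Fintype.card F := Fintype.card_pos
    have h7 := (ZMod.natCast_eq_zero_iff (Fintype.card F - 1) r).2 h5
    rw [Nat.cast_sub h6, Nat.cast_one, sub_eq_zero] at h7
    rw [pow_one, h7]
  · have hb0 : orderOf b ≠ 0 := by
      intro h0
      rw [h0] at hr
      simp at hr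
    have hb' : orderOf (b ^ (orderOf b / r)) = r := by
      rw [orderOf_pow_of_dvd (Nat.div_pos (Nat.le_of_dvd (Nat.pos_of_ne_zero hb0) hrb) hrp.pos).ne'
        (Nat.div_dvd_of_dvd hrb)]
      exact Nat.div_div_self hrb hb0
    obtain ⟨A, B, hA, hA1, hB, hB1, hAB⟩ := H127.CommPrime.exists_lift hp hrp hpZ hrZ ha hb'
      (hab.pow_right _)
    obtain ⟨s, hs1, hs2, hs3⟩ := H127.CommPrimeLin.sl_period p hn
      (A := (A : Matrix (Fin n) (Fin n) F)) (B := (B : Matrix (Fin n) (Fin n) F))
      (by rw [← Matrix.SpecialLinearGroup.coe_pow, hA, Matrix.SpecialLinearGroup.coe_one])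
      (fun h => hA1 (Subtype.ext h)) hrp h1
      (by rw [← Matrix.SpecialLinearGroup.coe_pow, hB, Matrix.SpecialLinearGroup.coe_one])
      (fun h => hB1 (Subtype.ext h))
      (by rw [← Matrix.SpecialLinearGroup.coe_mul, hAB, Matrix.SpecialLinearGroup.coe_mul])
    exact H127.CommPrimeOrd.sl_dvd (by omega) hs1 (by omega) hs3

end Cfsg.Agent.S2364
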