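import Cfsg.Statements.S2367
import Mathlib

set_option autoImplicit false
open Cfsg

namespace Cfsg.Agent.S2367

/-- product of prime powers -/
def prodL (l : List (ℕ × ℕ)) : ℕ := (l.map fun x => x.1 ^ x.2).prod

/-- the exponent list determines the factorisation at every listed prime, and other primes do not divide -/
theorem factorization_prodL (l : List (ℕ × ℕ)) (hl : ∀ x ∈ l, x.1.Prime) (p : ℕ) :
    (prodL l).factorization p = (l.map fun x => if x.1 = p then x.2 else 0).sum := by
  induction l with
  | nil => simp [prodL]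
  | cons a l ih =>
    have ha : a.1.Prime := hl a (by simp)
    have hl' : ∀ x ∈ l, x.1.Prime := fun x hx => hl x (by simp [hx])
    have h0 : prodL l ≠ 0 := by
      unfold prodL
      apply List.prod_ne_zero
      intro h
      rw [List.mem_map] at h
      obtain ⟨x, hx, hx0⟩ := h
      exact (pow_pos (hl' x hx).pos _).ne' hx0
    have h1 : a.1 ^ a.2 ≠ 0 := (pow_pos ha.pos _).ne'
    have h2 : prodL (a :: l) = a.1 ^ a.2 * prodL l := by simp [prodL]
    rw [h2, Nat.factorization_mul h1 h0, Finsupp.add_apply, ih hl', List.map_cons, List.sum_cons,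
      ha.factorization_pow, Finsupp.single_apply]

/-- the check -/
def chk (l : List (ℕ × ℕ)) : Bool :=
  (l.all fun x => x.1 == 2 || ((l.map fun y => if y.1 = x.1 then y.2 else 0).sum != 3) ||
    decide (x.1 ^ 3 < 2 ^ (l.map fun y => if y.1 = 2 then y.2 else 0).sum))

theorem of_chk (N : ℕ) (l : List (ℕ × ℕ)) (hN : N = prodL l) (hl : ∀ x ∈ l, x.1.Prime) (hc : chk l = true)
    (p : ℕ) (hp : p.Prime) (hodd : p ≠ 2) (h3 : N.factorization p = 3) :
    p ^ 3 < 2 ^ N.factorization 2 := by
  subst hN
  rw [factorization_prodL l hl p] at h3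
  rw [factorization_prodL l hl 2]
  have hex : ∃ x ∈ l, x.1 = p := by
    by_contra h
    push Not at h
    have : (l.map fun x => if x.1 = p then x.2 else 0).sum = 0 := by
      apply List.sum_eq_zero
      intro y hy
      rw [List.mem_map] at hy
      obtain ⟨x, hx, rfl⟩ := hy
      rw [if_neg (h x hx)]
    omega
  obtain ⟨x, hx, rfl⟩ := hex
  unfold chk at hc
  rw [List.all_eq_true] at hc
  have := hc x hx
  simp only [Bool.or_eq_true, beq_iff_eq, bne_iff_ne, ne_eq, decide_eq_true_eq] at this
  rcases this with (h | h) | h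
  · exact absurd h hodd
  · exact absurd h3 h
  · exact h

theorem two_part_ge (n : ℕ) : n / 2 + n / 4 ≤ (n.factorial).factorization 2 := by
  induction n using Nat.strong_induction_on with
  | _ n ih =>
    rcases Nat.lt_or_ge n 4 with h | h
    · interval_cases n
      · simp
      · simp
      · have : (Nat.factorial 2) = 2 ^ 1 := rfl
        rw [this, Nat.prime_two.factorization_pow]; simp
      · have : (Nat.factorial 3) = 2 * 3 := rfl
        rw [this, Nat.factorization_mul (by norm_num) (by norm_num), Finsupp.add_apply,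
          Nat.prime_two.factorization_self]
        omega
    · obtain ⟨k, rfl⟩ : ∃ k, n = k + 4 := ⟨n - 4, by omega⟩
      have h1 := ih k (by omega)
      have h2 : (k + 4).factorial = (k + 4) * (k + 3) * (k + 2) * (k + 1) * k.factorial := by
        simp only [Nat.factorial_succ]; ring
      have h3 : 2 ^ 3 ∣ (k + 4) * (k + 3) * (k + 2) * (k + 1) := by
        have := Nat.factorial_dvd_descFactorial (k + 4) 4
        have h5 : (k + 4).descFactorial 4 = (k + 4) * (k + 3) * (k + 2) * (k + 1) := by
          simp only [Nat.descFactorial_succ, Nat.descFactorial_zero]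
          have e1 : k + 4 - 3 = k + 1 := by omega
          have e2 : k + 4 - 2 = k + 2 := by omega
          have e3 : k + 4 - 1 = k + 3 := by omega
          rw [e1, e2, e3]; simp; ring
        rw [h5] at this
        exact Dvd.dvd.trans (by decide) this
      have h6 : (k + 4) * (k + 3) * (k + 2) * (k + 1) ≠ 0 := by positivity
      rw [h2, Nat.factorization_mul h6 (Nat.factorial_ne_zero k), Finsupp.add_apply]
      have h7 := (Nat.prime_two.pow_dvd_iff_le_factorization h6).1 h3
      omega

theorem cube_bound (n : ℕ) (hn : 15 ≤ n) : n ^ 3 < 27 * 2 ^ (n / 2 + n / 4 - 1) := by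
  induction n using Nat.strong_induction_on with
  | _ n ih =>
    rcases Nat.lt_or_ge n 19 with h | h
    · interval_cases n <;> norm_num
    · obtain ⟨k, rfl⟩ : ∃ k, n = k + 4 := ⟨n - 4, by omega⟩
      have h1 := ih k (by omega) (by omega)
      have h2 : (k + 4) / 2 + (k + 4) / 4 - 1 = (k / 2 + k / 4 - 1) + 3 := by omega
      rw [h2, pow_add]
      have h3 : (k + 4) ^ 3 ≤ 8 * k ^ 3 := by
        have : k + 4 ≤ 2 * k := by omega
        calc (k + 4) ^ 3 ≤ (2 * k) ^ 3 := Nat.pow_le_pow_left this 3
          _ = 8 * k ^ 3 := by ring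
      omega

theorem alt_case (n : ℕ) (hn : 5 ≤ n) (p : ℕ) (hp : p.Prime) (hodd : p ≠ 2)
    (N : ℕ) (hN : 2 * N = n.factorial) (h3 : N.factorization p = 3) :
    p ^ 3 < 2 ^ N.factorization 2 := by
  have hN0 : N ≠ 0 := by
    rintro rfl
    exact (Nat.factorial_ne_zero n) (by omega)
  have h2p : (n.factorial).factorization p = 3 := by
    rw [← hN, Nat.factorization_mul (by norm_num) hN0, Finsupp.add_apply, h3,
      Nat.prime_two.factorization, Finsupp.single_apply, if_neg (Ne.symm hodd)]
  have h22 : (n.factorial).factorization 2 = N.factorization 2 + 1 := by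
    rw [← hN, Nat.factorization_mul (by norm_num) hN0, Finsupp.add_apply,
      Nat.prime_two.factorization_self, add_comm]
  -- 3p ≤ n
  have h3p : 3 * p ≤ n := by
    by_contra hcon
    push Not at hcon
    have hdvd : n.factorial ∣ (3 * p - 1).factorial := Nat.factorial_dvd_factorial (by omega)
    have hle : (n.factorial).factorization p ≤ ((3 * p - 1).factorial).factorization p :=
      (Nat.factorization_le_iff_dvd (Nat.factorial_ne_zero _) (Nat.factorial_ne_zero _)).2 hdvd p
    have hp3 : 3 ≤ p := by
      have := hp.two_le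
      omega
    have h4 : ((3 * p - 1).factorial).factorization p = (3 * p - 1) / p + (3 * p - 1) / p ^ 2 := by
      rw [Nat.factorization_factorial hp (b := 3)]
      · rw [show Finset.Ico 1 3 = {1, 2} by decide]
        simp
      · rw [Nat.log_lt_iff_lt_pow hp.one_lt (by omega)]
        have e1 : 3 * p ≤ p * p := Nat.mul_le_mul_right p hp3
        have e2 : p * p ≤ p ^ 3 := by
          rw [pow_succ, pow_two]
          exact Nat.le_mul_of_pos_right _ hp.pos
        omega
    have h5 : (3 * p - 1) / p = 2 := by
      rw [Nat.div_eq_iff hp.pos]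
      omega
    have h6 : (3 * p - 1) / p ^ 2 = 0 := by
      apply Nat.div_eq_of_lt
      have e1 : 3 * p ≤ p * p := Nat.mul_le_mul_right p hp3
      rw [pow_two]
      omega
    omega
  -- p ≠ 3
  have hp3 : p ≠ 3 := by
    rintro rfl
    rcases Nat.lt_or_ge n 9 with h | h
    · omega
    · have hdvd : (9).factorial ∣ n.factorial := Nat.factorial_dvd_factorial h
      have hle : ((9).factorial).factorization 3 ≤ (n.factorial).factorization 3 :=
        (Nat.factorization_le_iff_dvd (Nat.factorial_ne_zero _) (Nat.factorial_ne_zero _)).2 hdvd 3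
      have h9 : 3 ^ 4 ∣ (9).factorial := by decide
      have h10 := (hp.pow_dvd_iff_le_factorization (Nat.factorial_ne_zero 9)).1 h9
      omega
  have hp5 : 5 ≤ p := by
    have := hp.two_le
    have h4 : p ≠ 4 := by rintro rfl; exact absurd hp (by norm_num)
    omega
  have hn15 : 15 ≤ n := by omega
  have h7 := cube_bound n hn15
  have h8 := two_part_ge n
  have h9 : n / 2 + n / 4 - 1 ≤ N.factorization 2 := by omega
  have h10 : 2 ^ (n / 2 + n / 4 - 1) ≤ 2 ^ N.factorization 2 := Nat.pow_le_pow_right (by norm_num) h9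
  have h11 : (3 * p) ^ 3 ≤ n ^ 3 := Nat.pow_le_pow_left h3p 3
  have h12 : (3 * p) ^ 3 = 27 * p ^ 3 := by ring
  omega

/-- Let G be an alternating group of degree at least 5 or a simple group with the order of one of the 26 sporadic groups, and let p be an odd prime such that p³ is the exact power of p dividing the order of G. Then p³ is less than the 2-part of the order of G. -/
theorem result {G : Type*} [Group G] [Finite G] (hG : Cfsg.IsAlternating G ∨ Cfsg.IsSporadic G)
    (p : ℕ) (hp : p.Prime) (hodd : p ≠ 2) (h3 : (Nat.card G).factorization p = 3) :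
    p ^ 3 < 2 ^ (Nat.card G).factorization 2 := by
  rcases hG with ⟨n, hn, ⟨e⟩⟩ | hS
  · have hc : 2 * Nat.card G = n.factorial := by
      rw [Nat.card_congr e.toEquiv]
      have : Nontrivial (Fin n) := Fin.nontrivial_iff_two_le.2 (by omega)
      have h2 := two_mul_nat_card_alternatingGroup (α := Fin n)
      rw [h2, Nat.card_perm, Nat.card_fin]
    exact alt_case n hn p hp hodd _ hc h3
  · unfold IsSporadic at hS
    have key : ∀ l : List (ℕ × ℕ), Nat.card G = prodL l → (∀ x ∈ l, x.1.Prime) → chk l = true →
        p ^ 3 < 2 ^ (Nat.card G).factorization 2 := fun l h1 h2 h4 =>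
      of_chk _ l h1 h2 h4 p hp hodd h3
    rcases hS with h | h | h | h | h | h | h | h | h | h | h | h | h | h | h | h | h | h | h | h | h | h | h | h | h | h
    · exact key [(2, 4), (3, 2), (5, 1), (11, 1)] (by rw [h.2]; decide +kernel) (by intro x hx; fin_cases hx <;> norm_num) (by decide +kernel)
    · exact key [(2, 6), (3, 3), (5, 1), (11, 1)] (by rw [h.2]; decide +kernel) (by intro x hx; fin_cases hx <;> norm_num) (by decide +kernel)
    · exact key [(2, 7), (3, 2), (5, 1), (7, 1), (11, 1)] (by rw [h.2]; decide +kernel) (by intro x hx; fin_cases hx <;> norm_num) (by decide +kernel)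
    · exact key [(2, 7), (3, 2), (5, 1), (7, 1), (11, 1), (23, 1)] (by rw [h.2]; decide +kernel) (by intro x hx; fin_cases hx <;> norm_num) (by decide +kernel)
    · exact key [(2, 10), (3, 3), (5, 1), (7, 1), (11, 1), (23, 1)] (by rw [h.2]; decide +kernel) (by intro x hx; fin_cases hx <;> norm_num) (by decide +kernel)
    · exact key [(2, 3), (3, 1), (5, 1), (7, 1), (11, 1), (19, 1)] (by rw [h.2]; decide +kernel) (by intro x hx; fin_cases hx <;> norm_num) (by decide +kernel)
    · exact key [(2, 7), (3, 3), (5, 2), (7, 1)] (by rw [h.2]; decide +kernel) (by intro x hx; fin_cases hx <;> norm_num) (by decide +kernel)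
    · exact key [(2, 7), (3, 5), (5, 1), (17, 1), (19, 1)] (by rw [h.2]; decide +kernel) (by intro x hx; fin_cases hx <;> norm_num) (by decide +kernel)
    · exact key [(2, 21), (3, 3), (5, 1), (7, 1), (11, 3), (23, 1), (29, 1), (31, 1), (37, 1), (43, 1)] (by rw [h.2]; decide +kernel) (by intro x hx; fin_cases hx <;> norm_num) (by decide +kernel)
    · exact key [(2, 21), (3, 9), (5, 4), (7, 2), (11, 1), (13, 1), (23, 1)] (by rw [h.2]; decide +kernel) (by intro x hx; fin_cases hx <;> norm_num) (by decide +kernel)
    · exact key [(2, 18), (3, 6), (5, 3), (7, 1), (11, 1), (23, 1)] (by rw [h.2]; decide +kernel) (by intro x hx; fin_cases hx <;> norm_num) (by decide +kernel)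
    · exact key [(2, 10), (3, 7), (5, 3), (7, 1), (11, 1), (23, 1)] (by rw [h.2]; decide +kernel) (by intro x hx; fin_cases hx <;> norm_num) (by decide +kernel)
    · exact key [(2, 17), (3, 9), (5, 2), (7, 1), (11, 1), (13, 1)] (by rw [h.2]; decide +kernel) (by intro x hx; fin_cases hx <;> norm_num) (by decide +kernel)
    · exact key [(2, 18), (3, 13), (5, 2), (7, 1), (11, 1), (13, 1), (17, 1), (23, 1)] (by rw [h.2]; decide +kernel) (by intro x hx; fin_cases hx <;> norm_num) (by decide +kernel)
    · exact key [(2, 21), (3, 16), (5, 2), (7, 3), (11, 1), (13, 1), (17, 1), (23, 1), (29, 1)] (by rw [h.2]; decide +kernel) (by intro x hx; fin_cases hx <;> norm_num) (by decide +kernel)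
    · exact key [(2, 9), (3, 2), (5, 3), (7, 1), (11, 1)] (by rw [h.2]; decide +kernel) (by intro x hx; fin_cases hx <;> norm_num) (by decide +kernel)
    · exact key [(2, 7), (3, 6), (5, 3), (7, 1), (11, 1)] (by rw [h.2]; decide +kernel) (by intro x hx; fin_cases hx <;> norm_num) (by decide +kernel)
    · exact key [(2, 10), (3, 3), (5, 2), (7, 3), (17, 1)] (by rw [h.2]; decide +kernel) (by intro x hx; fin_cases hx <;> norm_num) (by decide +kernel)
    · exact key [(2, 14), (3, 3), (5, 3), (7, 1), (13, 1), (29, 1)] (by rw [h.2]; decide +kernel) (by intro x hx; fin_cases hx <;> norm_num) (by decide +kernel)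
    · exact key [(2, 13), (3, 7), (5, 2), (7, 1), (11, 1), (13, 1)] (by rw [h.2]; decide +kernel) (by intro x hx; fin_cases hx <;> norm_num) (by decide +kernel)
    · exact key [(2, 9), (3, 4), (5, 1), (7, 3), (11, 1), (19, 1), (31, 1)] (by rw [h.2]; decide +kernel) (by intro x hx; fin_cases hx <;> norm_num) (by decide +kernel)
    · exact key [(2, 14), (3, 6), (5, 6), (7, 1), (11, 1), (19, 1)] (by rw [h.2]; decide +kernel) (by intro x hx; fin_cases hx <;> norm_num) (by decide +kernel)
    · exact key [(2, 8), (3, 7), (5, 6), (7, 1), (11, 1), (31, 1), (37, 1), (67, 1)] (by rw [h.2]; decide +kernel) (by intro x hx; fin_cases hx <;> norm_num) (by decide +kernel)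
    · exact key [(2, 15), (3, 10), (5, 3), (7, 2), (13, 1), (19, 1), (31, 1)] (by rw [h.2]; decide +kernel) (by intro x hx; fin_cases hx <;> norm_num) (by decide +kernel)
    · exact key [(2, 41), (3, 13), (5, 6), (7, 2), (11, 1), (13, 1), (17, 1), (19, 1), (23, 1), (31, 1), (47, 1)] (by rw [h.2]; decide +kernel) (by intro x hx; fin_cases hx <;> norm_num) (by decide +kernel)
    · exact key [(2, 46), (3, 20), (5, 9), (7, 6), (11, 2), (13, 3), (17, 1), (19, 1), (23, 1), (29, 1), (31, 1), (41, 1), (47, 1), (59, 1), (71, 1)] (by rw [h.2]; decide +kernel) (by intro x hx; fin_cases hx <;> norm_num) (by decide +kernel)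

end Cfsg.Agent.S2367
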