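import Cfsg.Statements.S2368
import Mathlib.LinearAlgebra.Matrix.CharP
import Mathlib.LinearAlgebra.Matrix.Charpoly.Coeff
import Mathlib.Algebra.CharP.Lemmas

set_option autoImplicit false
open Cfsg

namespace Cfsg.Agent.S2368

/-- The nilpotent shift matrix: ones on the first superdiagonal. -/
def shiftM (F : Type*) [Field F] (m : ℕ) : Matrix (Fin m) (Fin m) F :=
  Matrix.of fun i j => if j.val = i.val + 1 then 1 else 0

theorem shiftM_pow (F : Type*) [Field F] (m k : ℕ) (i j : Fin m) :
    (shiftM F m ^ k) i j = if j.val = i.val + k then 1 else 0 := by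
  induction k generalizing i j with
  | zero =>
    simp only [pow_zero, add_zero, Matrix.one_apply]
    by_cases h : i = j
    · simp [h]
    · have h2 : ¬ (j.val = i.val) := fun h' => h (Fin.ext h'.symm)
      simp [h, h2]
  | succ k ih =>
    rw [pow_succ, Matrix.mul_apply]
    by_cases h : i.val + k < m
    · rw [Finset.sum_eq_single (⟨i.val + k, h⟩ : Fin m)]
      · rw [ih]
        simp only [shiftM, Matrix.of_apply, if_true, one_mul, add_assoc]
      · intro b _ hb
        rw [ih, if_neg, zero_mul]
        intro h'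
        exact hb (Fin.ext h')
      · intro h'
        exact absurd (Finset.mem_univ _) h'
    · have hj : ¬ (j.val = i.val + (k + 1)) := by
        have := j.isLt
        omega
      rw [if_neg hj]
      apply Finset.sum_eq_zero
      intro b _
      rw [ih, if_neg, zero_mul]
      have := b.isLt
      omega

theorem shiftM_pow_eq_zero (F : Type*) [Field F] (m : ℕ) : shiftM F m ^ m = 0 := by
  ext i j
  rw [shiftM_pow, if_neg]
  · rfl
  · have := j.isLt
    omega

theorem shiftM_pow_ne_zero (F : Type*) [Field F] (m k : ℕ) (h : k < m) : shiftM F m ^ k ≠ 0 := by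
  intro h0
  have h1 := congrFun (congrFun h0 ⟨0, by omega⟩) ⟨k, h⟩
  rw [shiftM_pow] at h1
  simp at h1

/-- Let F be a finite field of characteristic p and m ≥ 1. Every element of GL(m, F) of p-power order has order less than p·m, and GL(m, F) has an element of p-power order at least m; so the largest order of a p-element of GL(m, F) is the least power of p that is at least m. -/
theorem result {F : Type*} [Field F] [Fintype F] (p : ℕ) [Fact p.Prime] [CharP F p] (m : ℕ) (hm : 1 ≤ m) :
    (∀ g : Matrix.GeneralLinearGroup (Fin m) F, (∃ j : ℕ, orderOf g = p ^ j) → orderOf g < p * m) ∧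
      ∃ g : Matrix.GeneralLinearGroup (Fin m) F, (∃ j : ℕ, orderOf g = p ^ j) ∧ m ≤ orderOf g := by
  have hp : p.Prime := Fact.out
  have : Nonempty (Fin m) := ⟨⟨0, hm⟩⟩
  have hchar : CharP (Matrix (Fin m) (Fin m) F) p := by infer_instance
  constructor
  · rintro g ⟨j, hj⟩
    rw [hj]
    rcases Nat.eq_zero_or_pos j with rfl | hj0
    · have := hp.two_le
      nlinarith
    · obtain ⟨k, rfl⟩ : ∃ k, j = k + 1 := ⟨j - 1, by omega⟩
      by_contra hcon
      have hk : m ≤ p ^ k := by
        by_contra h'
        push Not at h'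
        apply hcon
        rw [pow_succ, mul_comm]
        exact Nat.mul_lt_mul_of_pos_left h' hp.pos
      -- g - 1 is nilpotent
      have h1 : ((g : Matrix (Fin m) (Fin m) F) - 1) ^ (p ^ (k + 1)) = 0 := by
        rw [sub_pow_char_pow_of_commute p _ (Commute.one_right _), one_pow]
        have h2 : g ^ (p ^ (k + 1)) = 1 := by rw [← hj]; exact pow_orderOf_eq_one g
        have h3 : ((g ^ (p ^ (k + 1)) : Matrix.GeneralLinearGroup (Fin m) F) : Matrix (Fin m) (Fin m) F) = 1 := by
          rw [h2]; rfl
        rw [Units.val_pow_eq_pow_val] at h3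
        rw [h3, sub_self]
      have hnil : IsNilpotent ((g : Matrix (Fin m) (Fin m) F) - 1) := ⟨_, h1⟩
      have h4 : ((g : Matrix (Fin m) (Fin m) F) - 1) ^ m = 0 := by
        have := Matrix.isNilpotent_charpoly_sub_pow_of_isNilpotent hnil
        have h5 := Matrix.aeval_self_charpoly ((g : Matrix (Fin m) (Fin m) F) - 1)
        have h6 : ((g : Matrix (Fin m) (Fin m) F) - 1).charpoly = Polynomial.X ^ m := by
          have h7 := this.eq_zero
          rw [sub_eq_zero] at h7
          simpa using h7
        rw [h6] at h5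
        simpa using h5
      have h8 : ((g : Matrix (Fin m) (Fin m) F) - 1) ^ (p ^ k) = 0 := pow_eq_zero_of_le hk h4
      rw [sub_pow_char_pow_of_commute p _ (Commute.one_right _), one_pow, sub_eq_zero] at h8
      have h9 : g ^ (p ^ k) = 1 := by
        apply Units.ext
        rw [Units.val_pow_eq_pow_val]
        exact h8
      have h10 := orderOf_dvd_of_pow_eq_one h9
      rw [hj] at h10
      have h11 := Nat.le_of_dvd (pow_pos hp.pos k) h10
      have h12 : p ^ k < p ^ (k + 1) := Nat.pow_lt_pow_right hp.one_lt (Nat.lt_succ_self k)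
      omega
  · -- the Jordan block
    obtain ⟨K, hK⟩ : ∃ K, m ≤ p ^ K := ⟨m, (Nat.lt_pow_self hp.one_lt).le⟩
    have hunit : (1 + shiftM F m) ^ (p ^ K) = 1 := by
      rw [add_pow_char_pow_of_commute p _ (Commute.one_left _), one_pow,
        pow_eq_zero_of_le hK (shiftM_pow_eq_zero F m), add_zero]
    have hpos : 0 < p ^ K := pow_pos hp.pos K
    let g : Matrix.GeneralLinearGroup (Fin m) F :=
      Units.ofPowEqOne (1 + shiftM F m) (p ^ K) hunit hpos.ne'
    have hgval : (g : Matrix (Fin m) (Fin m) F) = 1 + shiftM F m := rfl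
    have hgK : g ^ (p ^ K) = 1 := by
      apply Units.ext
      rw [Units.val_pow_eq_pow_val, hgval]
      exact hunit
    obtain ⟨j, _, hj⟩ := (Nat.dvd_prime_pow hp).1 (orderOf_dvd_of_pow_eq_one hgK)
    refine ⟨g, ⟨j, hj⟩, ?_⟩
    rw [hj]
    by_contra hcon
    push Not at hcon
    apply shiftM_pow_ne_zero F m (p ^ j) hcon
    have h1 : g ^ (p ^ j) = 1 := by rw [← hj]; exact pow_orderOf_eq_one g
    have h2 : (1 + shiftM F m) ^ (p ^ j) = 1 := by
      rw [← hgval, ← Units.val_pow_eq_pow_val, h1]; rfl
    rw [add_pow_char_pow_of_commute p _ (Commute.one_left _), one_pow] at h2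
    simpa using h2

end Cfsg.Agent.S2368
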