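import Cfsg.Statements.S2375
-- import your own Cfsg.Agent.* helpers here
import Cfsg.Agent.H129.UntwData
import Cfsg.Agent.H129.DataE8
import Cfsg.Agent.S1093

set_option autoImplicit false
open Cfsg

namespace Cfsg.Agent.S2375

/-- The group E₈(q) contains a cyclic subgroup of order q⁸ + q⁷ − q⁵ − q⁴ − q³ + q + 1 which is its own centralizer. -/
theorem result {F : Type*} [Field F] [Fintype F] (q : ℕ) (hF : Fintype.card F = q) :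
    ∃ H : Subgroup ↥(Cfsg.Lie.chevE8.group F), IsCyclic ↥H ∧ Nat.card ↥H = q ^ 8 + q ^ 7 - q ^ 5 - q ^ 4 - q ^ 3 + q + 1 ∧
      Subgroup.centralizer (H : Set ↥(Cfsg.Lie.chevE8.group F)) = H := by
  have hq2 : 2 ≤ q := by rw [← hF]; exact Fintype.one_lt_card
  have hp : Cfsg.Agent.Nodes.RGDChev.IsType Cfsg.Lie.chevE8 8 CoxeterMatrix.E₈ := by simp
  have hW : Nat.card CoxeterMatrix.E₈.Group = 696729600 :=
    Cfsg.Agent.S1093.result (⟨8, CoxeterMatrix.E₈⟩, 696729600) (by simp)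
  have : Finite CoxeterMatrix.E₈.Group := Nat.finite_of_card_ne_zero (by rw [hW]; norm_num)
  have hN : ((q ^ 8 + q ^ 7 - q ^ 5 - q ^ 4 - q ^ 3 + q + 1 : ℕ) : ℤ) =
      1 + (q : ℤ) - (q : ℤ) ^ 3 - (q : ℤ) ^ 4 - (q : ℤ) ^ 5 + (q : ℤ) ^ 7 + (q : ℤ) ^ 8 := by
    have h7 : q ^ 7 = q ^ 2 * q ^ 5 := by ring
    have h8 : q ^ 8 = q ^ 4 * q ^ 4 := by ring
    have h2 : 2 ≤ q ^ 2 := by nlinarith
    have h4 : 2 ≤ q ^ 4 := by nlinarith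
    have h3 : q ^ 3 ≤ q ^ 4 := Nat.pow_le_pow_right (by omega) (by norm_num)
    have h5 : q ^ 5 ≤ q ^ 7 := Nat.pow_le_pow_right (by omega) (by norm_num)
    have h6 : 2 * q ^ 4 ≤ q ^ 8 := by rw [h8]; exact Nat.mul_le_mul_right _ h4
    have e1 : q ^ 5 ≤ q ^ 8 + q ^ 7 := by omega
    have e2 : q ^ 4 ≤ q ^ 8 + q ^ 7 - q ^ 5 := by omega
    have e3 : q ^ 3 ≤ q ^ 8 + q ^ 7 - q ^ 5 - q ^ 4 := by omega
    push_cast [Nat.cast_sub e1, Nat.cast_sub e2, Nat.cast_sub e3]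
    ring
  generalize hNdef : q ^ 8 + q ^ 7 - q ^ 5 - q ^ 4 - q ^ 3 + q + 1 = N at hN ⊢
  have hN1 : N ≠ 1 := by
    rintro rfl
    push_cast at hN
    have h0 : (0 : ℤ) < (q : ℤ) := by positivity
    have h1 : (2 : ℤ) ≤ q := by exact_mod_cast hq2
    have h3 : 1 + (q : ℤ) - (q : ℤ) ^ 3 - (q : ℤ) ^ 4 - (q : ℤ) ^ 5 + (q : ℤ) ^ 7 + (q : ℤ) ^ 8 =
        1 + q + (q : ℤ) ^ 3 * ((q : ℤ) ^ 5 + (q : ℤ) ^ 4 - (q : ℤ) ^ 2 - q - 1) := by ring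
    have h4 : (0 : ℤ) ≤ (q : ℤ) ^ 5 + (q : ℤ) ^ 4 - (q : ℤ) ^ 2 - q - 1 := by
      have : (q : ℤ) ^ 5 + (q : ℤ) ^ 4 - (q : ℤ) ^ 2 - q - 1 = (q : ℤ) ^ 2 * ((q : ℤ) ^ 2 - 1) + (q ^ 5 - q - 1) := by ring
      nlinarith [pow_pos h0 2, pow_pos h0 3, pow_pos h0 4]
    nlinarith [pow_pos h0 3, mul_nonneg (pow_pos h0 3).le h4]
  obtain ⟨r, hr, hrN⟩ := Nat.exists_prime_and_dvd hN1
  have hrq : (r : ℤ) ∣ 1 + (q : ℤ) - (q : ℤ) ^ 3 - (q : ℤ) ^ 4 - (q : ℤ) ^ 5 + (q : ℤ) ^ 7 + (q : ℤ) ^ 8 := by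
    rw [← hN]; exact Int.natCast_dvd_natCast.2 hrN
  refine Cfsg.Agent.H129.UntwData.untw_data hp CoxeterMatrix.E₈.toCoxeterSystem (by norm_num) hF
    Cfsg.Agent.H129.TorusChar.invC_E8 one_ne_zero (fun a => ⟨a, pow_one a⟩) Cfsg.Agent.H129.DataE8.hA
    Cfsg.Agent.H129.DataE8.chainOK Cfsg.Agent.H129.DataE8.cycOK Cfsg.Agent.H129.DataE8.rootOK
    (N := N) (r := r) ?_ ?_ hr ?_ hrN ?_
  · rw [Cfsg.Agent.H129.DataE8.fN_eq, hN]
  · exact Cfsg.Agent.H129.UntwData.coprime_of_eq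
      (a := 1 - (q : ℤ) ^ 2 - (q : ℤ) ^ 3 - (q : ℤ) ^ 4 + (q : ℤ) ^ 6 + (q : ℤ) ^ 7) (by rw [hN]; ring)
  · rw [hW]
    intro h
    have h2 : (696729600 : ℕ) = 2 ^ 14 * 3 ^ 5 * 5 ^ 2 * 7 := by norm_num
    rw [h2] at h
    have h3 : r = 2 ∨ r = 3 ∨ r = 5 ∨ r = 7 := by
      rcases (Nat.Prime.dvd_mul hr).1 h with h | h
      · rcases (Nat.Prime.dvd_mul hr).1 h with h | h
        · rcases (Nat.Prime.dvd_mul hr).1 h with h | h
          · exact Or.inl ((Nat.prime_dvd_prime_iff_eq hr Nat.prime_two).1 (hr.dvd_of_dvd_pow h))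
          · exact Or.inr (Or.inl ((Nat.prime_dvd_prime_iff_eq hr Nat.prime_three).1 (hr.dvd_of_dvd_pow h)))
        · exact Or.inr (Or.inr (Or.inl ((Nat.prime_dvd_prime_iff_eq hr Nat.prime_five).1 (hr.dvd_of_dvd_pow h))))
      · exact Or.inr (Or.inr (Or.inr ((Nat.prime_dvd_prime_iff_eq hr (by norm_num)).1 h)))
    have h4 : ∀ n : ℕ, (n : ℤ) ∣ 1 + (q : ℤ) - (q : ℤ) ^ 3 - (q : ℤ) ^ 4 - (q : ℤ) ^ 5 + (q : ℤ) ^ 7 + (q : ℤ) ^ 8 →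
        (1 + (q : ZMod n) - (q : ZMod n) ^ 3 - (q : ZMod n) ^ 4 - (q : ZMod n) ^ 5 + (q : ZMod n) ^ 7 +
          (q : ZMod n) ^ 8 = 0) := by
      intro n hn
      have := (ZMod.intCast_zmod_eq_zero_iff_dvd _ n).2 hn
      push_cast at this
      exact this
    have h5 := h4 r hrq
    rcases h3 with rfl | rfl | rfl | rfl
    · generalize (q : ZMod 2) = x at h5; revert h5; revert x; decide
    · generalize (q : ZMod 3) = x at h5; revert h5; revert x; decide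
    · generalize (q : ZMod 5) = x at h5; revert h5; revert x; decide
    · generalize (q : ZMod 7) = x at h5; revert h5; revert x; decide
  · intro s hs
    have h1 := Cfsg.Agent.H129.DataE8.dvd_of_G hrq s hs
    exact hr.one_lt.ne' (Nat.dvd_one.1 (by exact_mod_cast h1))

end Cfsg.Agent.S2375
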