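import Cfsg.Statements.S2376
-- import your own Cfsg.Agent.* helpers here
import Cfsg.Agent.H129.TriD4
import Cfsg.Agent.H129.DataD4T
import Cfsg.Agent.H129.UntwData
import Cfsg.Agent.ChevalleyStructure.WeylData

set_option autoImplicit false
open Cfsg

namespace Cfsg.Agent.S2376

open Cfsg.Lie Cfsg.Agent.H129 Cfsg.Agent.Nodes Cfsg.Agent.Nodes.RGDChev Cfsg.Agent.H129.TorusTw
  Cfsg.Agent.H129.TorusMain Cfsg.Agent.Tits.Roots Cfsg.Agent.H129.TorusUntw Cfsg.Agent.H129.TriD4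
  Cfsg.Agent.ChevalleyStructure.CoxeterGeom

/-- a prime divisor of `q² + q + 1` -/
theorem exists_prime {q : ℕ} (hq : 2 ≤ q) : ∃ r : ℕ, r.Prime ∧ r ∣ q ^ 2 + q + 1 ∧ r ≠ 2 ∧ r ≠ 3 := by
  by_contra hno
  push Not at hno
  have h2 : ¬ 2 ∣ q ^ 2 + q + 1 := by
    intro h
    have : (q ^ 2 + q + 1) % 2 = 0 := Nat.mod_eq_zero_of_dvd h
    rcases Nat.even_or_odd q with ⟨m, hm⟩ | ⟨m, hm⟩ <;> subst hm <;> ring_nf at this <;> omega
  have h9 : ¬ 9 ∣ q ^ 2 + q + 1 := by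
    intro h
    have h3 : ((q : ZMod 9) ^ 2 + (q : ZMod 9) + 1 = 0) := by
      have := (ZMod.natCast_eq_zero_iff (q ^ 2 + q + 1) 9).2 h
      push_cast at this
      exact this
    generalize (q : ZMod 9) = x at h3; revert h3; revert x; decide
  have h1 : ∀ r : ℕ, r.Prime → r ∣ q ^ 2 + q + 1 → r = 3 := fun r hr hrq => by
    refine hno r hr hrq ?_
    rintro rfl
    exact h2 hrq
  have h4 : q ^ 2 + q + 1 = 3 ^ (q ^ 2 + q + 1).primeFactorsList.length :=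
    Nat.eq_prime_pow_of_unique_prime_dvd (by positivity) fun {d} hd hd' => h1 d hd hd'
  have h5 : (q ^ 2 + q + 1).primeFactorsList.length < 2 := by
    by_contra h6
    push Not at h6
    apply h9
    rw [h4]
    exact pow_dvd_pow 3 h6
  have h7 : 3 ^ (q ^ 2 + q + 1).primeFactorsList.length ≤ 3 := by
    interval_cases (q ^ 2 + q + 1).primeFactorsList.length <;> norm_num
  nlinarith

section

variable {W : Type*} [Group W] (cs : CoxeterSystem coxeterD4 W)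

theorem lin_tri : WData.Lin (theta RGDTwD4.hp cs (cs.wordProd (DataD4T.chain.map Prod.fst)) tri) DataD4T.Th := by
  intro j
  rw [theta_apply]
  have h1 : tri (sr j) = sr (DataD4T.pi j) := funext (tri_sr j)
  rw [h1, WData.chain_rep RGDTwD4.hp cs DataD4T.hA DataD4T.chainOK, DataD4T.hd_pi]

theorem isRoot_S (s : Fin 6) : IsRoot cs RGDTwD4.hp.isCartan (DataD4T.S s) := by
  obtain ⟨r, hr⟩ := DataD4T.S_root s
  exact (isRoot_iff RGDTwD4.hp cs _).2 ⟨r.val, r.2, funext hr⟩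

/-- The roots on which the functional is divisible by `r`. -/
theorem root_of_dvd {θ : (Fin 4 → ℤ) →+ (Fin 4 → ℤ)} (h : WData.Lin θ DataD4T.Th)
    (hc : Cyc 4 θ DataD4T.V DataD4T.B DataD4T.c) {q N r : ℕ} (hfN : fN DataD4T.c (q : ℤ) = N) (hr : r.Prime)
    (hrN : r ∣ N) (hqN : q.Coprime N) (hr1 : (r : ℤ) ∣ 1 + (q : ℤ) + (q : ℤ) ^ 2)
    {a : Fin 4 → ℤ} (ha : IsRoot cs RGDTwD4.hp.isCartan a) (hra : (r : ℤ) ∣ Gq DataD4T.B (q : ℤ) a) :
    ∃ s, a = DataD4T.S s := by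
  have key := WData.root_ind RGDTwD4.hp cs h DataD4T.rootOK
    (P := fun a => ¬ (r : ℤ) ∣ Gq DataD4T.B (q : ℤ) a ∨ ∃ s, a = DataD4T.S s) (fun s => ?_) (fun x hx => ?_) ha
  · exact key.resolve_left (fun h1 => h1 hra)
  · by_cases hs : s = 0 ∨ s = 3 ∨ s = 6
    · obtain ⟨s', hs'⟩ := DataD4T.S_R s hs
      exact Or.inr ⟨s', funext hs'⟩
    · push Not at hs
      refine Or.inl fun h1 => ?_
      have h2 := DataD4T.dvd_of_G hr1 s hs.1 hs.2.1 hs.2.2 h1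
      exact hr.one_lt.ne' (Nat.dvd_one.1 (by exact_mod_cast h2))
  · rcases hx with hx | ⟨s, rfl⟩
    · refine Or.inl fun h3 => hx ?_
      have h4 := hc.dvd_G (q : ℤ) x
      rw [hfN] at h4
      have h5 : (r : ℤ) ∣ (q : ℤ) * Gq DataD4T.B (q : ℤ) x := by
        have h6 := (Int.natCast_dvd_natCast.2 hrN).trans h4
        have h7 := dvd_sub h3 h6
        rwa [sub_sub_cancel] at h7
      rcases (Nat.prime_iff_prime_int.1 hr).dvd_or_dvd h5 with h6 | h6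
      · exfalso
        have h7 : r ∣ Nat.gcd q N := Nat.dvd_gcd (Int.natCast_dvd_natCast.1 h6) hrN
        rw [hqN] at h7
        exact hr.one_lt.ne' (Nat.dvd_one.1 h7)
      · exact h6
    · obtain ⟨s', hs'⟩ := DataD4T.S_succ s
      refine Or.inr ⟨s', ?_⟩
      funext m
      rw [h.apply, hs']

end

theorem G_S (x : ℤ) (s : Fin 6) : ∃ e : ℤ, (e = 1 ∨ e = x ∨ e = x - 1) ∧
    (Gq DataD4T.B x (DataD4T.S s) = e * (1 + x + x ^ 2) ∨ Gq DataD4T.B x (DataD4T.S s) = -(e * (1 + x + x ^ 2))) := by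
  fin_cases s
  · exact ⟨1, Or.inl rfl, Or.inl (by rw [show Gq DataD4T.B x (DataD4T.S ⟨0, by norm_num⟩) = _ from DataD4T.GS_0 x]; ring)⟩
  · exact ⟨x - 1, Or.inr (Or.inr rfl), Or.inl (by rw [show Gq DataD4T.B x (DataD4T.S ⟨1, by norm_num⟩) = _ from DataD4T.GS_1 x]; ring)⟩
  · exact ⟨x, Or.inr (Or.inl rfl), Or.inl (by rw [show Gq DataD4T.B x (DataD4T.S ⟨2, by norm_num⟩) = _ from DataD4T.GS_2 x]; ring)⟩
  · exact ⟨1, Or.inl rfl, Or.inr (by rw [show Gq DataD4T.B x (DataD4T.S ⟨3, by norm_num⟩) = _ from DataD4T.GS_3 x]; ring)⟩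
  · exact ⟨x - 1, Or.inr (Or.inr rfl), Or.inr (by rw [show Gq DataD4T.B x (DataD4T.S ⟨4, by norm_num⟩) = _ from DataD4T.GS_4 x]; ring)⟩
  · exact ⟨x, Or.inr (Or.inl rfl), Or.inr (by rw [show Gq DataD4T.B x (DataD4T.S ⟨5, by norm_num⟩) = _ from DataD4T.GS_5 x]; ring)⟩

theorem dvd_S {q r : ℕ} (hr1 : (r : ℤ) ∣ 1 + (q : ℤ) + (q : ℤ) ^ 2) (s : Fin 6) :
    (r : ℤ) ∣ Gq DataD4T.B (q : ℤ) (DataD4T.S s) := by
  obtain ⟨e, -, h | h⟩ := G_S (q : ℤ) s <;> rw [h]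
  · exact hr1.mul_left _
  · exact (hr1.mul_left _).neg_right

theorem not_dvd {q : ℕ} (hq : 2 ≤ q) {N : ℕ}
    (hN : (N : ℤ) = ((q : ℤ) ^ 2 - 1) * (1 + (q : ℤ) + (q : ℤ) ^ 2)) (s : Fin 6) :
    ¬ (N : ℤ) ∣ Gq DataD4T.B (q : ℤ) (DataD4T.S s) := by
  intro h
  have hq0 : (2 : ℤ) ≤ q := by exact_mod_cast hq
  have hΦ : 1 + (q : ℤ) + (q : ℤ) ^ 2 ≠ 0 := by positivity
  obtain ⟨e, he, hj⟩ := G_S (q : ℤ) s
  have h1 : (N : ℤ) ∣ e * (1 + (q : ℤ) + (q : ℤ) ^ 2) := by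
    rcases hj with hj | hj
    · rwa [hj] at h
    · rw [hj, dvd_neg] at h
      exact h
  rw [hN] at h1
  have h3 := (mul_dvd_mul_iff_right hΦ).1 h1
  have h4 : (0 : ℤ) < e ∧ e ≤ q := by
    rcases he with rfl | rfl | rfl
    · constructor <;> linarith
    · constructor <;> linarith
    · constructor <;> linarith
  have h5 := Int.le_of_dvd h4.1 h3
  nlinarith

/-- The group ³D₄(q) contains a cyclic subgroup of order (q³ − 1)(q + 1) which is its own centralizer. -/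
theorem result {K : Type*} [Field K] [Fintype K] (q : ℕ) (hq : IsPrimePow q) (hK : Fintype.card K = q ^ 3) :
    ∃ H : Subgroup ↥(Cfsg.Lie.twistedD4 K q), IsCyclic ↥H ∧ Nat.card ↥H = (q ^ 3 - 1) * (q + 1) ∧
      Subgroup.centralizer (H : Set ↥(Cfsg.Lie.twistedD4 K q)) = H := by
  have hq2 : 2 ≤ q := hq.two_le
  have hW : Nat.card coxeterD4.Group = 192 :=
    ChevalleyStructure.WeylData.certD4.card_group.trans ChevalleyStructure.WeylData.size_D4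
  have : Finite coxeterD4.Group := Nat.finite_of_card_ne_zero (by rw [hW]; norm_num)
  have h0 : 1 ≤ q ^ 3 := Nat.one_le_pow _ _ (by omega)
  have hN : (((q ^ 3 - 1) * (q + 1) : ℕ) : ℤ) = ((q : ℤ) ^ 2 - 1) * (1 + (q : ℤ) + (q : ℤ) ^ 2) := by
    push_cast [Nat.cast_sub h0]; ring
  have hfN : fN DataD4T.c (q : ℤ) = (((q ^ 3 - 1) * (q + 1) : ℕ) : ℤ) := by
    rw [DataD4T.fN_eq, hN]; ring
  obtain ⟨r, hr, hrq, hr2, hr3⟩ := exists_prime hq2
  have hr1 : (r : ℤ) ∣ 1 + (q : ℤ) + (q : ℤ) ^ 2 := by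
    have h1 := Int.natCast_dvd_natCast.2 hrq
    push_cast at h1
    have e : (1 : ℤ) + q + q ^ 2 = q ^ 2 + q + 1 := by ring
    rw [e]
    exact h1
  have hrN : r ∣ (q ^ 3 - 1) * (q + 1) := by
    have h1 : (r : ℤ) ∣ (((q ^ 3 - 1) * (q + 1) : ℕ) : ℤ) := by
      rw [hN]
      exact hr1.mul_left _
    exact Int.natCast_dvd_natCast.1 h1
  have hrW : ¬ r ∣ Nat.card coxeterD4.Group := by
    rw [hW]
    intro h
    have h2 : (192 : ℕ) = 2 ^ 6 * 3 := by norm_num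
    rw [h2] at h
    rcases (Nat.Prime.dvd_mul hr).1 h with h | h
    · exact hr2 ((Nat.prime_dvd_prime_iff_eq hr Nat.prime_two).1 (hr.dvd_of_dvd_pow h))
    · exact hr3 ((Nat.prime_dvd_prime_iff_eq hr Nat.prime_three).1 h)
  -- the algebraic closure
  obtain ⟨p, e', hpF, hpc, hpk, -, hpe, hk⟩ := exists_closure hK
  obtain ⟨p', e, hp', he, hqe'⟩ := id hq
  have hpp : p' = p := by
    have h1 : p' ∣ p ^ e' := by
      rw [← hpe, ← hqe']
      exact dvd_pow (dvd_pow_self p' he.ne') (by norm_num)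
    exact (Nat.prime_dvd_prime_iff_eq hp'.nat_prime hpF.out).1 (hp'.nat_prime.dvd_of_dvd_pow h1)
  subst hpp
  have hqe : q = p' ^ e := hqe'.symm
  have hqN : (q : ℕ).Coprime ((q ^ 3 - 1) * (q + 1)) := by
    rw [← Nat.isCoprime_iff_coprime]
    exact ⟨(q : ℤ) ^ 3 + (q : ℤ) ^ 2 - 1, -1, by rw [hN]; ring⟩
  have hpN : ¬ p' ∣ (q ^ 3 - 1) * (q + 1) := fun h1 => by
    have h2 : p' ∣ Nat.gcd q ((q ^ 3 - 1) * (q + 1)) := Nat.dvd_gcd (by rw [hqe]; exact dvd_pow_self p' he.ne') h1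
    rw [hqN] at h2
    exact hpF.out.one_lt.ne' (Nat.dvd_one.1 h2)
  let cs := coxeterD4.toCoxeterSystem
  have hlin := lin_tri cs
  have hc := WData.cyc_of hlin DataD4T.cycOK
  have hroot := fun {a : Fin 4 → ℤ} (ha : IsRoot cs RGDTwD4.hp.isCartan a) =>
    root_of_dvd cs hlin hc hfN hr hrN hqN hr1 (a := a) ha
  have hX : ∀ s, DataD4T.S s ∈ {a | IsRoot cs RGDTwD4.hp.isCartan a ∧ (r : ℤ) ∣ Gq DataD4T.B (q : ℤ) a} :=
    fun s => ⟨isRoot_S cs s, dvd_S hr1 s⟩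
  have h1 := StabGen.exists_cyclic' (k := AlgebraicClosure K) RGDTwD4.hp cs (by norm_num) hk
    (hN := nsys_of_locFin RGDTwD4.hp cs hk p') he isFrob_tau (fr_tau cs) TorusChar.invC_D4 (by norm_num)
    (cs.wordProd (DataD4T.chain.map Prod.fst)) hc (N := (q ^ 3 - 1) * (q + 1)) (d := 1) (r := r)
    (by rw [← hqe]; exact hfN) hpN
    (e0 := embT (algebraMap K (AlgebraicClosure K)) hq hK) (embT_injective _ hq hK)
    (tau_embT _ hqe hq hK) hr hrW (by rwa [one_mul]) ?_ (VW := StabTab.tabV RGDTwD4.hp cs DataD4T.grpOK)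
    ?_ ?_ ?_ ?_
  · simpa using h1
  · rw [← hqe]
    intro a ha h2 h3
    obtain ⟨s, rfl⟩ := hroot ha h2
    exact not_dvd hq2 hN s (by simpa using h3)
  · rw [← hqe]
    intro a ha h2
    obtain ⟨s, rfl⟩ := hroot ha h2
    exact StabTab.refl_mem RGDTwD4.hp cs DataD4T.hA DataD4T.connOK DataD4T.grpOK DataD4T.reflOK (isRoot_S cs s)
  · rw [← hqe]
    intro v hv x
    exact StabTab.sub_mem RGDTwD4.hp cs DataD4T.grpOK DataD4T.spanOK hX hv x
  · rw [← hqe]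
    intro v hv hv1
    obtain ⟨x, s, h2⟩ := StabTab.exists_move RGDTwD4.hp cs DataD4T.grpOK DataD4T.moveOK hv hv1
    refine ⟨x, fun h3 => ?_⟩
    rw [h2] at h3
    exact not_dvd hq2 hN s (by simpa using h3)
  · intro n z t u hn hz ht hτ _ _ s hs
    rw [pow_one]
    refine ⟨fun _ => hs, fun _ => ?_⟩
    exact tau_range _ hqe hq hK (conj_fixed hz hτ hs)

end Cfsg.Agent.S2376
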