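import Cfsg.Statements.S2389
import Cfsg.Agent.H176.SSDet
import Cfsg.Agent.S2589

set_option autoImplicit false
open Cfsg

namespace Cfsg.Agent.S2389

/-- In the symplectic group `Sp_{2n}(q)`, `q` a power of the prime `p`, two elements of order prime to `p` with the same characteristic polynomial are conjugate in `Sp_{2n}(q)`. -/
theorem result {F : Type*} [Field F] [Fintype F] (p : ℕ) [Fact p.Prime] [CharP F p] (n : ℕ)
    (g h : ↥(Matrix.symplecticGroup (Fin n) F)) (hg : (orderOf g).Coprime p) (hh : (orderOf h).Coprime p)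
    (hc : (g : Matrix (Fin n ⊕ Fin n) (Fin n ⊕ Fin n) F).charpoly = (h : Matrix (Fin n ⊕ Fin n) (Fin n ⊕ Fin n) F).charpoly) :
    IsConj g h := by
  rw [Cfsg.Agent.S2589.result (p := p) g h hg]
  have hN0 : ((orderOf g * orderOf h : ℕ) : F) ≠ 0 :=
    H176.SSDet.natCast_ne_zero p (hg.mul_left hh)
  have hpow : ∀ x : ↥(Matrix.symplecticGroup (Fin n) F), orderOf x ∣ orderOf g * orderOf h →
      (x : Matrix (Fin n ⊕ Fin n) (Fin n ⊕ Fin n) F) ^ (orderOf g * orderOf h) = 1 := by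
    intro x hx
    have h1 := orderOf_dvd_iff_pow_eq_one.1 hx
    exact congrArg (fun y : ↥(Matrix.symplecticGroup (Fin n) F) =>
      (y : Matrix (Fin n ⊕ Fin n) (Fin n ⊕ Fin n) F)) h1
  obtain ⟨P, hP⟩ := H176.SSConj.mat_isConj hN0 (hpow g (Dvd.intro _ rfl))
    (hpow h (Dvd.intro_left _ rfl)) hc
  exact ⟨P, hP⟩

end Cfsg.Agent.S2389
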