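import Cfsg.Statements.S2394
import Cfsg.Agent.H133.WeightCount
import Cfsg.Agent.H133.SLPower

set_option autoImplicit false
open scoped MatrixGroups
open Cfsg

namespace Cfsg.Agent.S2394

open Cfsg.Agent.H133.SLPower

/-- The linear action of `GL_d(F)` on `K ^ d`, `K` an extension of `F`. -/
def toEnd (F K : Type*) [Field F] [Field K] [Algebra F K] (d : ℕ) :
    GL (Fin d) F →* Module.End K (Fin d → K) where
  toFun g := Matrix.toLin' ((g : Matrix (Fin d) (Fin d) F).map (algebraMap F K))
  map_one' := by
    rw [Units.val_one, Matrix.map_one _ (map_zero _) (map_one _), Matrix.toLin'_one]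
    rfl
  map_mul' a b := by
    rw [Units.val_mul, Matrix.map_mul, Matrix.toLin'_mul]
    rfl

theorem toEnd_injective (F K : Type*) [Field F] [Field K] [Algebra F K] (d : ℕ) :
    Function.Injective (toEnd F K d) := by
  intro a b h
  have h1 : (a : Matrix (Fin d) (Fin d) F).map (algebraMap F K) = (b : Matrix (Fin d) (Fin d) F).map (algebraMap F K) :=
    Matrix.toLin'.injective h
  apply Units.ext
  ext i j
  exact (algebraMap F K).injective (congrFun (congrFun h1 i) j)

theorem aux {F K : Type*} [Field F] [Finite F] [Field K] [IsAlgClosed K] [Algebra F K] (n : ℕ) {d : ℕ}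
    (ρ : ↥(Matrix.symplecticGroup (Fin n) F) →* Module.End K (Fin d → K)) (hρ : Function.Injective ρ) : 2 * n ≤ d := by
  obtain ⟨s, w, m, hm, hsm, hs2, hinv⟩ := exists_pair F
  have key := Cfsg.Agent.H133.WeightCount.two_mul_le_finrank (K := K) ρ (fun i : Fin n => phi (Pi.mulSingle i s))
    (fun i => phi (Pi.mulSingle i w))
    (fun i j hij => (Pi.mulSingle_commute (f := fun _ : Fin n => Matrix.SpecialLinearGroup (Fin 2) F) hij s s).map phi)
    (fun i j hij => (Pi.mulSingle_commute (f := fun _ : Fin n => Matrix.SpecialLinearGroup (Fin 2) F) hij w s).map phi)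
    (fun i => by
      rw [← map_mul, ← map_inv, ← map_mul, ← Pi.mulSingle_mul, hinv, Pi.mulSingle_mul, Pi.mulSingle_inv])
    (m := m) (by
      have h1 := (algebraMap F K).injective.ne hm
      rwa [map_natCast, map_zero] at h1)
    (fun i => by
      rw [← map_pow, ← map_pow, ← Pi.mulSingle_pow, hsm, Pi.mulSingle_one, map_one, map_one])
    (fun i h => by
      rw [← map_pow, ← map_pow, ← map_one ρ] at h
      have h1 := hρ h
      rw [← map_one phi] at h1
      have h2 := phi_injective h1
      rw [← Pi.mulSingle_pow, Pi.mulSingle_eq_one_iff] at h2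
      exact hs2 h2)
  rwa [Module.finrank_fin_fun] at key

/-- The smallest degree of a faithful representation of the symplectic group `Sp_{2n}(q)` over its own field `F_q` is `2n`: every injective homomorphism from `Sp_{2n}(F)` to `GL_d(F)`, `F` the field with `q` elements, has `d ≥ 2n`. -/
theorem result {F : Type*} [Field F] [Fintype F] (n : ℕ) {d : ℕ}
    (ρ : ↥(Matrix.symplecticGroup (Fin n) F) →* GL (Fin d) F) (hρ : Function.Injective ρ) : 2 * n ≤ d := by
  exact aux (K := AlgebraicClosure F) n ((toEnd F (AlgebraicClosure F) d).comp ρ)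
    ((toEnd_injective F (AlgebraicClosure F) d).comp hρ)

end Cfsg.Agent.S2394
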