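import Cfsg.Statements.S2397
-- import your own Cfsg.Agent.* helpers here
import Cfsg.Agent.H134.CoverRankOne

set_option autoImplicit false
open Cfsg

namespace Cfsg.Agent.S2397

open Cfsg.Lie

/-- (R3) lies in the normal closure of (R1), (R2). -/
theorem normalClosure_eq {K : Type*} [Field K] [Finite K] {D : ChevalleyDatum}
    (hD : D ∈ [chevG2, chevB2, chevD4, chevF4, chevE6, chevE7, chevE8]) :
    Subgroup.normalClosure (D.steinbergRelsAB K) = Subgroup.normalClosure (D.steinbergRels K) := by
  apply le_antisymm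
  · exact Subgroup.normalClosure_mono fun g hg => Or.inl hg
  · refine Subgroup.normalClosure_le_normal ?_
    rintro g (hg | ⟨r, t₁, t₂, hr, h₁, h₂, rfl⟩)
    · exact Subgroup.subset_normalClosure hg
    · have h := Cfsg.Agent.H134.CoverRankOne.stH_mul (K := K) hD hr h₁ h₂
      have h' : PresentedGroup.mk (D.steinbergRelsAB K) (D.stH r t₁ * D.stH r t₂ * (D.stH r (t₁ * t₂))⁻¹) = 1 := by
        rw [map_mul, map_mul, map_inv]
        exact mul_inv_eq_one.2 h
      exact (QuotientGroup.eq_one_iff _).1 h'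

/-- Over a finite field the relators (R3) h̄_r(t₁) h̄_r(t₂) = h̄_r(t₁ t₂) are consequences of (R1) and (R2): for each of the types G₂, B₂, D₄, F₄, E₆, E₇, E₈ (for types B₂ and G₂ the field must have more than two elements — the cases where the Chevalley group is not simple are set aside) the group presented by (R1), (R2) is canonically isomorphic to the one presented by (R1)–(R3), by an isomorphism matching the generators x̄_r(t). -/
theorem result {K : Type*} [Field K] [Finite K] (D : Cfsg.Lie.ChevalleyDatum) (hD : D ∈ [Cfsg.Lie.chevG2, Cfsg.Lie.chevB2, Cfsg.Lie.chevD4, Cfsg.Lie.chevF4, Cfsg.Lie.chevE6, Cfsg.Lie.chevE7, Cfsg.Lie.chevE8]) (hK : D ∈ [Cfsg.Lie.chevB2, Cfsg.Lie.chevG2] → ∃ x : K, x ≠ 0 ∧ x ≠ 1) :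
    ∃ e : D.SteinbergCover K ≃* D.SteinbergGroup K, ∀ (r : ℕ) (t : K), e (D.scGen K r t) = D.stGen K r t :=
  ⟨QuotientGroup.quotientMulEquivOfEq (normalClosure_eq hD), fun _ _ => rfl⟩

end Cfsg.Agent.S2397
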