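import Cfsg.Statements.S2399
-- import your own Cfsg.Agent.* helpers here
import Cfsg.Agent.H134.Universal
import Cfsg.Agent.H134.TorsionFree

set_option autoImplicit false
open scoped MatrixGroups
open Cfsg

namespace Cfsg.Agent.S2399

/-- The centre of `GL_n` has no `p`-torsion in characteristic `p`. -/
theorem center_torsion {L : Type*} [Field L] {p : ℕ} [Fact p.Prime] [CharP L p] {n : ℕ} {g : GL (Fin n) L}
    (hg : g ∈ Subgroup.center (GL (Fin n) L)) (h : g ^ p = 1) : g = 1 := by
  obtain ⟨a, ha⟩ := Matrix.GeneralLinearGroup.mem_center_iff_val_mem_range_scalar.1 hg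
  apply Units.ext
  rcases Nat.eq_zero_or_pos n with rfl | hn
  · exact Subsingleton.elim _ _
  · have : Nonempty (Fin n) := ⟨⟨0, hn⟩⟩
    have h1 : (Matrix.scalar (Fin n) a) ^ p = 1 := by
      rw [ha, ← Units.val_pow_eq_pow_val, h, Units.val_one]
    rw [← map_pow, ← map_one (Matrix.scalar (Fin n))] at h1
    have h2 : a ^ p = 1 := Matrix.scalar_inj.1 h1
    have h3 : (a - 1) ^ p = 0 := by rw [sub_pow_char, h2, one_pow, sub_self]
    have h4 : a = 1 := sub_eq_zero.1 (pow_eq_zero_iff (Fact.out : p.Prime).ne_zero |>.1 h3)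
    rw [← ha, h4, map_one, Units.val_one]

/-- Projective representations in the natural characteristic lift: for each of the types G₂, B₂, D₄, F₄, E₆, E₇, E₈ over any field `K` (for types B₂ and G₂ the field must have more than two elements — the cases where the Chevalley group is not simple are set aside), every homomorphism from the Chevalley group to `PGL_n(L) = GL_n(L)/Z`, `L` a field of the same characteristic as `K`, lifts uniquely to a homomorphism from the group Δ presented by (R1), (R2) to `GL_n(L)`, compatibly with the projection Δ → Chevalley group sending x̄_r(t) to x_r(t). -/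
theorem result {K : Type*} [Field K] (D : Cfsg.Lie.ChevalleyDatum) (hD : D ∈ [Cfsg.Lie.chevG2, Cfsg.Lie.chevB2, Cfsg.Lie.chevD4, Cfsg.Lie.chevF4, Cfsg.Lie.chevE6, Cfsg.Lie.chevE7, Cfsg.Lie.chevE8]) (hK : D ∈ [Cfsg.Lie.chevB2, Cfsg.Lie.chevG2] → ∃ x : K, x ≠ 0 ∧ x ≠ 1)
    (θ : D.SteinbergCover K →* ↥(D.group K))
    (hθ : ∀ (r : ℕ) (t : K), r < D.nroots → ((θ (D.scGen K r t) : GL D.Idx K) : Matrix D.Idx D.Idx K) = D.x K r t)
    {L : Type*} [Field L] (hL : ringChar L = ringChar K) {n : ℕ}
    (φ : ↥(D.group K) →* GL (Fin n) L ⧸ Subgroup.center (GL (Fin n) L)) :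
    ∃! ψ : D.SteinbergCover K →* GL (Fin n) L, (QuotientGroup.mk' (Subgroup.center (GL (Fin n) L))).comp ψ = φ.comp θ := by
  have hperf := Cfsg.Agent.S2395.result D hD hK
  have hk : (QuotientGroup.mk' (Subgroup.center (GL (Fin n) L))).ker = Subgroup.center (GL (Fin n) L) :=
    QuotientGroup.ker_mk' _
  refine Cfsg.Agent.H134.LiftMain.lift_unique hperf (QuotientGroup.mk' (Subgroup.center (GL (Fin n) L)))
    (QuotientGroup.mk'_surjective _) hk.le (φ.comp θ) ?_
  intro P _ π hsurj hcen hf
  by_cases hK5 : ∃ s : Finset K, 4 < s.card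
  · exact Cfsg.Agent.H134.Universal.exists_section hD hK5 hsurj hcen
  · have hfin : Finite K := by
      by_contra h
      rw [not_finite_iff_infinite] at h
      obtain ⟨s, hs⟩ := Infinite.exists_subset_card_eq K 5
      exact hK5 ⟨s, by omega⟩
    have hp : Fact (ringChar K).Prime := ⟨CharP.prime_ringChar K⟩
    have hcL : CharP L (ringChar K) := by rw [← hL]; exact ringChar.charP L
    obtain ⟨f, hf⟩ := hf
    refine Cfsg.Agent.H134.TorsionFree.exists_section hD hperf hsurj hcen (p := ringChar K) ?_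
    intro z hz hzp
    have h1 : (f ⟨z, hz⟩ : GL (Fin n) L) ∈ Subgroup.center (GL (Fin n) L) := hk.le (f ⟨z, hz⟩).2
    have h2 : (f ⟨z, hz⟩ : GL (Fin n) L) ^ ringChar K = 1 := by
      have : (⟨z, hz⟩ : π.ker) ^ ringChar K = 1 := Subtype.ext hzp
      have h3 := congrArg f this
      rw [map_pow, map_one] at h3
      exact congrArg Subtype.val h3
    have h4 : f ⟨z, hz⟩ = 1 := Subtype.ext (center_torsion h1 h2)
    rw [← map_one f] at h4
    exact congrArg Subtype.val (hf h4)

end Cfsg.Agent.S2399
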