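import Cfsg.Statements.S2400
-- import your own Cfsg.Agent.* helpers here
import Cfsg.Agent.H134.B2Three
import Cfsg.Agent.H134.TorsionFree
import Cfsg.Agent.H65.MultE
import Cfsg.Agent.S2397

set_option autoImplicit false
open Cfsg

namespace Cfsg.Agent.S2400

open Cfsg.Lie Cfsg.Agent.KFacts.Mult.Calc

universe u

/-- A field with more than two elements. -/
theorem exists_elt {K : Type*} [Field K] [Fintype K] (hK : Fintype.card K ≠ 2) : ∃ x : K, x ≠ 0 ∧ x ≠ 1 := by
  classical
  by_contra hcon
  push Not at hcon
  apply hK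
  have h1 : (Finset.univ : Finset K) = {0, 1} := by
    ext x
    simp only [Finset.mem_univ, Finset.mem_insert, Finset.mem_singleton, true_iff]
    by_cases h : x = 0
    · exact Or.inl h
    · exact Or.inr (hcon x h)
  rw [← Finset.card_univ, h1, Finset.card_pair zero_ne_one]

/-- From the splitting of central extensions to the multiplier. -/
theorem of_split {K : Type u} [Field K] [Finite K] {D : ChevalleyDatum}
    (hD : D ∈ [chevG2, chevB2, chevD4, chevF4, chevE6, chevE7, chevE8])
    (hK : D ∈ [chevB2, chevG2] → ∃ x : K, x ≠ 0 ∧ x ≠ 1)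
    (hsplit : ∀ (X : Type u) [Group X] (π : X →* D.SteinbergCover K), Function.Surjective π →
      π.ker ≤ Subgroup.center X → ∃ τ : D.SteinbergCover K →* X, π.comp τ = MonoidHom.id _) :
    Cfsg.HasCyclicSchurMultiplier (D.SteinbergGroup K) 1 := by
  obtain ⟨e, -⟩ := Cfsg.Agent.S2397.result (K := K) D hD hK
  have hperf : commutator (D.SteinbergCover K) = ⊤ := Cfsg.Agent.S2395.result D hD hK
  have hid : (MonoidHom.id (D.SteinbergCover K)).ker ≤ Subgroup.center _ := by
    intro z hz
    have : z = 1 := hz
    rw [this]; exact one_mem _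
  have hfi := Cfsg.Agent.H134.TorsionFree.finiteIndex_center (π := MonoidHom.id (D.SteinbergCover K)) hD
    Function.surjective_id hid hperf
  have hfin : Finite (D.SteinbergCover K) := by
    have h := Cfsg.Agent.H134.TorsionFree.finite_commutator hfi
    rw [hperf] at h
    exact Finite.of_equiv _ Subgroup.topEquiv.toEquiv
  have hker : (e : D.SteinbergCover K →* D.SteinbergGroup K).ker = ⊥ :=
    (MonoidHom.ker_eq_bot_iff _).2 e.injective
  refine Cfsg.Agent.H65.UCover.hasCyclic (θ := (e : D.SteinbergCover K →* D.SteinbergGroup K)) e.surjective ?_ hperf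
    ?_ ?_ ?_
  · rw [hker]; exact bot_le
  · intro X _ _ π hπ
    obtain ⟨τ, hτ⟩ := hsplit X ((e.symm : D.SteinbergGroup K →* D.SteinbergCover K).comp π)
      (e.symm.surjective.comp hπ.1) (by
        intro z hz
        apply hπ.2
        have h1 : e.symm (π z) = 1 := hz
        rw [MonoidHom.mem_ker]
        exact (MulEquiv.map_eq_one_iff e.symm).1 h1)
    refine ⟨τ, MonoidHom.ext fun δ => ?_⟩
    have h1 := DFunLike.congr_fun hτ δ
    show π (τ δ) = e δ
    have h2 : e.symm (π (τ δ)) = δ := h1
    exact (e.symm_apply_eq).1 h2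
  · rw [hker]; infer_instance
  · rw [hker]; simp

/-- Type `D₄`. -/
theorem d4 {K : Type*} [Field K] [Fintype K] (hK : Fintype.card K ≠ 2) :
    Cfsg.HasCyclicSchurMultiplier (chevD4.SteinbergGroup K) 1 := by
  have hx := exists_elt hK
  exact of_split (by simp) (fun _ => hx) fun X _ π hs hc => Cfsg.Agent.H134.SmallD4.exists_section hs hc hx

/-- Type `B₂`. -/
theorem b2 {K : Type*} [Field K] [Fintype K] (hK : Fintype.card K ≠ 2) :
    Cfsg.HasCyclicSchurMultiplier (chevB2.SteinbergGroup K) 1 := by
  have hx := exists_elt hK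
  refine of_split (by simp) (fun _ => hx) fun X _ π hs hc => ?_
  have h0 : ((Fintype.card K : ℕ) : K) = 0 := FiniteField.cast_card_eq_zero K
  have hpow : ∀ x : K, x ≠ 0 → x ^ (Fintype.card K - 1) = 1 := fun x hx => FiniteField.pow_card_sub_one_eq_one x hx
  have hone : 1 < Fintype.card K := Fintype.one_lt_card
  by_cases h4 : 4 < Fintype.card K
  · exact Cfsg.Agent.H134.Universal.exists_section Cfsg.Agent.H134.SmallB2.inList
      ⟨Finset.univ, by rw [Finset.card_univ]; exact h4⟩ hs hc
  · have h34 : Fintype.card K = 3 ∨ Fintype.card K = 4 := by omega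
    rcases h34 with h | h
    · rw [h] at h0 hpow
      have h3 : (3 : K) = 0 := by exact_mod_cast h0
      have h2 : (2 : K) ≠ 0 := by
        intro h2
        have : (1 : K) = 0 := by linear_combination h3 - h2
        exact one_ne_zero this
      have hall : ∀ t : K, t = 0 ∨ t = 1 ∨ t = -1 := by
        intro t
        by_cases ht : t = 0
        · exact Or.inl ht
        · right
          have h5 : t ^ 2 = 1 := hpow t ht
          have h6 : (t - 1) * (t + 1) = 0 := by linear_combination h5
          rcases mul_eq_zero.1 h6 with h7 | h7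
          · exact Or.inl (sub_eq_zero.1 h7)
          · exact Or.inr (eq_neg_of_add_eq_zero_left h7)
      exact Cfsg.Agent.H134.B2Three.exists_section h2 h3 hall hs hc
    · rw [h] at h0 hpow
      have h2 : (2 : K) = 0 := by
        have h5 : (2 : K) * 2 = 0 := by
          have : (4 : K) = 0 := by exact_mod_cast h0
          linear_combination this
        rcases mul_eq_zero.1 h5 with h6 | h6 <;> exact h6
      obtain ⟨x, hx0, hx1⟩ := hx
      refine Cfsg.Agent.H134.SmallB2.exists_section_two h2 hx0 ?_ hs hc
      intro h5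
      apply hx1
      have h6 : x ^ 3 = 1 := hpow x hx0
      rw [pow_succ, h5, one_mul] at h6
      exact h6

/-- Over a finite field `K`, the group presented by Steinberg's relators (R1)–(R3) (the universal Chevalley group) of type E₆ or E₇, or of type B₂ or D₄ with `K` of more than two elements, has trivial Schur multiplier: every finite stem extension of it is an isomorphism (Schur multiplier described through stem extensions as in the definitions). Types G₂, F₄ and E₈ are not covered here. -/
theorem result {K : Type*} [Field K] [Fintype K] (e : Cfsg.Lie.ChevalleyDatum × ℕ)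
    (he : e ∈ [(Cfsg.Lie.chevE6, 0), (Cfsg.Lie.chevE7, 0), (Cfsg.Lie.chevB2, 2), (Cfsg.Lie.chevD4, 2)]) (hK : Fintype.card K ≠ e.2) :
    Cfsg.HasCyclicSchurMultiplier (e.1.SteinbergGroup K) 1 := by
  simp only [List.mem_cons, List.not_mem_nil, or_false] at he
  rcases he with rfl | rfl | rfl | rfl
  · exact (Cfsg.Agent.H65.MultE.multE6 K rfl).2
  · exact (Cfsg.Agent.H65.MultE.multE7 K rfl).2
  · exact b2 hK
  · exact d4 hK

end Cfsg.Agent.S2400
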