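import Cfsg.Statements.S2401
import Cfsg.Agent.H135.KTwoB

set_option autoImplicit false
open Cfsg

namespace Cfsg.Agent.S2401

open Matrix
open Cfsg.Agent.AGraded (SteinRel gens)
open scoped commutatorElement

universe u

/-- the relators -/
abbrev Rel (K : Type u) [Field K] (n : ℕ) : Set (FreeGroup ({ij : Fin n × Fin n // ij.1 ≠ ij.2} × K)) :=
  ({g : FreeGroup ({ij : Fin n × Fin n // ij.1 ≠ ij.2} × K) | ∃ (a : {ij : Fin n × Fin n // ij.1 ≠ ij.2}) (t u : K),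
            g = FreeGroup.of (a, t) * FreeGroup.of (a, u) * (FreeGroup.of (a, t + u))⁻¹} ∪
          {g | ∃ (a b : {ij : Fin n × Fin n // ij.1 ≠ ij.2}) (t u : K), a.1.1 ≠ b.1.2 ∧ a.1.2 ≠ b.1.1 ∧
            g = FreeGroup.of (a, t) * FreeGroup.of (b, u) * (FreeGroup.of (a, t))⁻¹ * (FreeGroup.of (b, u))⁻¹} ∪
          {g | ∃ (a b : {ij : Fin n × Fin n // ij.1 ≠ ij.2}) (h : a.1.1 ≠ b.1.2) (t u : K), a.1.2 = b.1.1 ∧
            g = FreeGroup.of (a, t) * FreeGroup.of (b, u) * (FreeGroup.of (a, t))⁻¹ * (FreeGroup.of (b, u))⁻¹ *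
              (FreeGroup.of (⟨(a.1.1, b.1.2), h⟩, t * u))⁻¹})

variable {K : Type u} [Field K] {n : ℕ}

/-- the generators of the presented group -/
noncomputable def gx (K : Type u) [Field K] (n : ℕ) (i j : Fin n) (a : K) : PresentedGroup (Rel K n) :=
  if h : i ≠ j then PresentedGroup.of (⟨(i, j), h⟩, a) else 1

theorem gx_eq {i j : Fin n} (h : i ≠ j) (a : K) : gx K n i j a = PresentedGroup.of (⟨(i, j), h⟩, a) := dif_pos h

theorem steinRel : SteinRel (gx K n) where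
  add i j hij a b := by
    rw [gx_eq hij, gx_eq hij, gx_eq hij]
    have h1 : (PresentedGroup.mk (Rel K n)) (FreeGroup.of ((⟨(i, j), hij⟩ : {ij : Fin n × Fin n // ij.1 ≠ ij.2}), a) *
        FreeGroup.of (⟨(i, j), hij⟩, b) * (FreeGroup.of (⟨(i, j), hij⟩, a + b))⁻¹) = 1 :=
      PresentedGroup.one_of_mem (Or.inl (Or.inl ⟨⟨(i, j), hij⟩, a, b, rfl⟩))
    rw [map_mul, map_mul, map_inv, mul_inv_eq_one] at h1
    exact h1.symm
  comm i j k l hij hkl hjk hil a b := by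
    rw [gx_eq hij, gx_eq hkl]
    have h1 : (PresentedGroup.mk (Rel K n)) (FreeGroup.of ((⟨(i, j), hij⟩ : {ij : Fin n × Fin n // ij.1 ≠ ij.2}), a) *
        FreeGroup.of (⟨(k, l), hkl⟩, b) * (FreeGroup.of (⟨(i, j), hij⟩, a))⁻¹ *
        (FreeGroup.of (⟨(k, l), hkl⟩, b))⁻¹) = 1 :=
      PresentedGroup.one_of_mem (Or.inl (Or.inr ⟨⟨(i, j), hij⟩, ⟨(k, l), hkl⟩, a, b, hil, hjk, rfl⟩))
    rw [map_mul, map_mul, map_mul, map_inv, map_inv, mul_inv_eq_one, mul_inv_eq_iff_eq_mul] at h1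
    exact h1
  br i j k hij hjk hik a b := by
    rw [gx_eq hij, gx_eq hjk, gx_eq hik]
    have h1 : (PresentedGroup.mk (Rel K n)) (FreeGroup.of ((⟨(i, j), hij⟩ : {ij : Fin n × Fin n // ij.1 ≠ ij.2}), a) *
        FreeGroup.of (⟨(j, k), hjk⟩, b) * (FreeGroup.of (⟨(i, j), hij⟩, a))⁻¹ *
        (FreeGroup.of (⟨(j, k), hjk⟩, b))⁻¹ * (FreeGroup.of (⟨(i, k), hik⟩, a * b))⁻¹) = 1 :=
      PresentedGroup.one_of_mem (Or.inr ⟨⟨(i, j), hij⟩, ⟨(j, k), hjk⟩, hik, a, b, rfl, rfl⟩)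
    rw [map_mul, map_mul, map_mul, map_mul, map_inv, map_inv, map_inv, mul_inv_eq_one] at h1
    exact h1

/-- the map to `SL_n` -/
theorem lift_rel : ∀ r ∈ Rel K n, FreeGroup.lift (fun p : {ij : Fin n × Fin n // ij.1 ≠ ij.2} × K =>
    (Matrix.SpecialLinearGroup.transvection p.1.2 p.2 : Matrix.SpecialLinearGroup (Fin n) K)) r = 1 := by
  rintro r ((⟨a, t, u, rfl⟩ | ⟨a, b, t, u, h1, h2, rfl⟩) | ⟨a, b, h, t, u, hab, rfl⟩)
  · simp only [map_mul, map_inv, FreeGroup.lift_apply_of]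
    rw [mul_inv_eq_one]
    apply Subtype.ext
    exact Matrix.transvection_mul_transvection_same _ _ a.2 _ _
  · simp only [map_mul, map_inv, FreeGroup.lift_apply_of]
    rw [mul_inv_eq_one, mul_inv_eq_iff_eq_mul]
    apply Subtype.ext
    change Matrix.transvection _ _ _ * Matrix.transvection _ _ _ = Matrix.transvection _ _ _ * Matrix.transvection _ _ _
    simp only [Matrix.transvection, mul_add, add_mul, mul_one, one_mul]
    rw [Matrix.single_mul_single_of_ne _ _ _ _ h2, Matrix.single_mul_single_of_ne _ _ _ _ (Ne.symm h1)]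
    abel
  · simp only [map_mul, map_inv, FreeGroup.lift_apply_of]
    rw [mul_inv_eq_one]
    obtain ⟨⟨i, j⟩, hij⟩ := a
    obtain ⟨⟨j', k⟩, hjk⟩ := b
    simp only at hab h hij hjk
    subst hab
    have := Cfsg.Agent.LieClassical.SLGen.commutator_transvection (F := K) h hij hjk t u
    rw [commutatorElement_def] at this
    exact this

/-- The Steinberg presentation of `SL_n` over a finite field for `n ≥ 3`: the group generated by symbols `x_ij(t)` (`i ≠ j`, `t` in the field) subject to `x_ij(t) x_ij(u) = x_ij(t + u)` and, for `i ≠ l`, `x_ij(t) x_kl(u) x_ij(t)⁻¹ x_kl(u)⁻¹ = x_il(tu)` if `j = k` and `= 1` if `j ≠ k`, is isomorphic to `SL_n` by an isomorphism sending `x_ij(t)` to the elementary matrix `1 + t E_ij`. -/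
theorem result {K : Type*} [Field K] [Finite K] (n : ℕ) (hn : 3 ≤ n) :
    ∃ e : PresentedGroup
        ({g : FreeGroup ({ij : Fin n × Fin n // ij.1 ≠ ij.2} × K) | ∃ (a : {ij : Fin n × Fin n // ij.1 ≠ ij.2}) (t u : K),
            g = FreeGroup.of (a, t) * FreeGroup.of (a, u) * (FreeGroup.of (a, t + u))⁻¹} ∪
          {g | ∃ (a b : {ij : Fin n × Fin n // ij.1 ≠ ij.2}) (t u : K), a.1.1 ≠ b.1.2 ∧ a.1.2 ≠ b.1.1 ∧
            g = FreeGroup.of (a, t) * FreeGroup.of (b, u) * (FreeGroup.of (a, t))⁻¹ * (FreeGroup.of (b, u))⁻¹} ∪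
          {g | ∃ (a b : {ij : Fin n × Fin n // ij.1 ≠ ij.2}) (h : a.1.1 ≠ b.1.2) (t u : K), a.1.2 = b.1.1 ∧
            g = FreeGroup.of (a, t) * FreeGroup.of (b, u) * (FreeGroup.of (a, t))⁻¹ * (FreeGroup.of (b, u))⁻¹ *
              (FreeGroup.of (⟨(a.1.1, b.1.2), h⟩, t * u))⁻¹}) ≃* Matrix.SpecialLinearGroup (Fin n) K,
      ∀ (a : {ij : Fin n × Fin n // ij.1 ≠ ij.2}) (t : K), ((e (PresentedGroup.of (a, t)) : Matrix (Fin n) (Fin n) K)) = Matrix.transvection a.1.1 a.1.2 t := by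
  obtain ⟨m, rfl⟩ : ∃ m, n = m + 1 := ⟨n - 1, by omega⟩
  let φ : PresentedGroup (Rel K (m + 1)) →* Matrix.SpecialLinearGroup (Fin (m + 1)) K :=
    PresentedGroup.toGroup lift_rel
  have hof : ∀ (a : {ij : Fin (m + 1) × Fin (m + 1) // ij.1 ≠ ij.2}) (t : K), φ (PresentedGroup.of (a, t)) =
      Matrix.SpecialLinearGroup.transvection a.2 t := fun a t => PresentedGroup.toGroup.of lift_rel
  have hφ : ∀ i j (hij : i ≠ j) (a : K), φ (gx K (m + 1) i j a) = Matrix.SpecialLinearGroup.transvection hij a := by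
    intro i j hij a
    rw [gx_eq hij]
    exact hof ⟨(i, j), hij⟩ a
  have hgen : Subgroup.closure (gens (gx K (m + 1))) = ⊤ := by
    rw [eq_top_iff, ← PresentedGroup.closure_range_of, Subgroup.closure_le]
    rintro _ ⟨⟨⟨⟨i, j⟩, hij⟩, a⟩, rfl⟩
    exact Subgroup.subset_closure ⟨i, j, hij, a, (gx_eq hij a).symm⟩
  have hker := Cfsg.Agent.H135.KTwo.ker_eq_bot_fin (m := m) steinRel (by omega) hgen hφ
  have hinj : Function.Injective φ := (MonoidHom.ker_eq_bot_iff φ).1 hker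
  have hsurj : Function.Surjective φ := by
    rw [← MonoidHom.range_eq_top, eq_top_iff, ← Cfsg.Agent.LieClassical.SLGen.closure_transvections,
      Subgroup.closure_le]
    rintro _ ⟨i, j, hij, c, rfl⟩
    exact ⟨_, hφ i j hij c⟩
  refine ⟨MulEquiv.ofBijective φ ⟨hinj, hsurj⟩, ?_⟩
  intro a t
  have h1 := hof a t
  exact congrArg (fun g : Matrix.SpecialLinearGroup (Fin (m + 1)) K =>
    (g : Matrix (Fin (m + 1)) (Fin (m + 1)) K)) h1

end Cfsg.Agent.S2401
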