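import Cfsg.Statements.S2410
import Cfsg.Agent.LieExceptional.SuzukiBasic

set_option autoImplicit false
open Cfsg

namespace Cfsg.Agent.S2410

open scoped MatrixGroups Matrix Pointwise
open Cfsg.Agent.LieExceptional.SuzukiBasic

variable {F : Type*} [Field F] [Fintype F] {m : ℕ}

theorem pow_surj (hF : Fintype.card F = 2 ^ (2 * m + 1)) (e : F) : ∃ a : F, a ^ (2 ^ (m + 1) + 1) = e := by
  have hinj : Function.Injective (fun a : F => a ^ (2 ^ (m + 1) + 1)) := by
    intro a b h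
    simp only at h
    by_cases hb : b = 0
    · rw [hb, zero_pow (by positivity)] at h
      rw [hb]
      exact (pow_eq_zero_iff (by positivity)).1 h
    · have h1 : (a / b) ^ (2 ^ (m + 1) + 1) = 1 := by
        rw [div_pow, h, div_self (pow_ne_zero _ hb)]
      have h2 := eq_one_of_pow_sigma_add_one hF h1
      rwa [div_eq_one_iff_eq hb] at h2
  exact (Finite.injective_iff_surjective.1 hinj) e

theorem main (hm : 1 ≤ m) (hF : Fintype.card F = 2 ^ (2 * m + 1)) :
    ∃ a b : SL(4, F), a ∈ Sz F m ∧ b ∈ Sz F m ∧ Sz F m ≤ Subgroup.closure {a, b} := by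
  obtain ⟨k, hk⟩ := IsCyclic.exists_generator (α := Fˣ)
  refine ⟨H m k, U m 1 0 * W F, H_mem hF k, Subgroup.mul_mem _ (U_mem hF 1 0) (W_mem hF), ?_⟩
  set M := Subgroup.closure {H m k, U m (1 : F) 0 * W F} with hM
  have ha : H m k ∈ M := Subgroup.subset_closure (by simp)
  have hb : U m (1 : F) 0 * W F ∈ M := Subgroup.subset_closure (by simp)
  -- the whole torus
  have hH : ∀ l : Fˣ, H m l ∈ M := by
    let f : Fˣ →* SL(4, F) := ⟨⟨H m, H_one m⟩, fun x y => (H_mul m x y).symm⟩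
    intro l
    obtain ⟨n, rfl⟩ := Subgroup.mem_zpowers_iff.1 (hk l)
    have : H m (k ^ n) = H m k ^ n := map_zpow f k n
    rw [this]
    exact Subgroup.zpow_mem _ ha n
  have hconj : ∀ (l : Fˣ) (c d : F), U m c d ∈ M → U m (l * c) ((l : F) ^ (2 ^ (m + 1) + 1) * d) ∈ M := by
    intro l c d h
    have h1 : U m (l * c) ((l : F) ^ (2 ^ (m + 1) + 1) * d) = H m l * U m c d * (H m l)⁻¹ := by
      rw [H_mul_U hF]; group
    rw [h1]
    exact M.mul_mem (M.mul_mem (hH l) h) (M.inv_mem (hH l))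
  -- a unipotent element with nonzero first coordinate
  have hk1 : (1 : F) + ((k⁻¹ : Fˣ) : F) ≠ 0 := by
    intro h
    have h2 := add_self hF (1 : F)
    have h3 : ((k⁻¹ : Fˣ) : F) = 1 := by
      have : (1 : F) + ((k⁻¹ : Fˣ) : F) = 1 + 1 := by rw [h, h2]
      exact add_left_cancel this
    have h4 : k = 1 := by
      rw [← inv_inv k, show k⁻¹ = 1 from Units.ext (h3.trans Units.val_one.symm), inv_one]
    have hcard : Nat.card Fˣ = 1 := by
      rw [Nat.card_eq_one_iff_unique]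
      refine ⟨⟨fun x y => ?_⟩, ⟨1⟩⟩
      obtain ⟨i, rfl⟩ := Subgroup.mem_zpowers_iff.1 (hk x)
      obtain ⟨j, rfl⟩ := Subgroup.mem_zpowers_iff.1 (hk y)
      rw [h4, one_zpow, one_zpow]
    rw [Nat.card_units, Nat.card_eq_fintype_card, hF] at hcard
    have : 2 ^ 3 ≤ 2 ^ (2 * m + 1) := Nat.pow_le_pow_right (by norm_num) (by omega)
    omega
  obtain ⟨c, d, hc, hcd⟩ : ∃ c d : F, c ≠ 0 ∧ U m c d ∈ M := by
    have h1 : (U m (1 : F) 0 * W F) * H m k * (U m (1 : F) 0 * W F)⁻¹ * H m k ∈ M :=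
      M.mul_mem (M.mul_mem (M.mul_mem hb ha) (M.inv_mem hb)) ha
    have h2 : (U m (1 : F) 0 * W F) * H m k * (U m (1 : F) 0 * W F)⁻¹ * H m k =
        U m 1 0 * (H m k⁻¹ * (U m 1 0)⁻¹ * H m k) := by
      rw [mul_inv_rev, W_inv]
      calc U m (1 : F) 0 * W F * H m k * (W F * (U m 1 0)⁻¹) * H m k
          = U m 1 0 * (W F * H m k) * W F * (U m 1 0)⁻¹ * H m k := by group
        _ = U m 1 0 * H m k⁻¹ * (W F * W F) * (U m 1 0)⁻¹ * H m k := by rw [W_mul_H]; group
        _ = U m 1 0 * (H m k⁻¹ * (U m 1 0)⁻¹ * H m k) := by rw [W_mul_W]; group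
    rw [h2, U_inv hF, H_mul_U hF, mul_assoc (U m _ _) (H m k⁻¹) (H m k), H_mul, inv_mul_cancel, H_one, mul_one,
      U_mul hF, mul_one] at h1
    exact ⟨_, _, hk1, h1⟩
  -- all elements of `U`
  have h1 : ∀ a : F, ∃ b : F, U m a b ∈ M := by
    intro a
    by_cases ha0 : a = 0
    · exact ⟨0, by rw [ha0, U_zero_zero]; exact M.one_mem⟩
    · have := hconj (Units.mk0 (a / c) (div_ne_zero ha0 hc)) c d hcd
      rw [Units.val_mk0, div_mul_cancel₀ a hc] at this
      exact ⟨_, this⟩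
  have h2 : ∀ e : F, U m 0 e ∈ M := by
    intro e
    obtain ⟨a, rfl⟩ := pow_surj hF e
    obtain ⟨b, hb⟩ := h1 a
    have h3 := M.mul_mem hb hb
    rw [U_mul hF, add_self hF, add_self hF, zero_add, ← pow_succ] at h3
    exact h3
  have h3 : ∀ a b : F, U m a b ∈ M := by
    intro a b
    obtain ⟨b', hb'⟩ := h1 a
    have h4 := M.mul_mem hb' (h2 (b - b'))
    rw [U_mul hF] at h4
    simpa using h4
  have hW : W F ∈ M := by
    have h4 := M.mul_mem (M.inv_mem (h3 1 0)) hb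
    rwa [inv_mul_cancel_left] at h4
  intro g hg
  rcases bruhat hm hF hg with ⟨a, b, l, rfl⟩ | ⟨a, b, l, c, d, rfl⟩
  · exact M.mul_mem (h3 a b) (hH l)
  · exact M.mul_mem (M.mul_mem (M.mul_mem (h3 a b) hW) (hH l)) (h3 c d)

/-- from generation inside the ambient group to generation of the subgroup -/
theorem of_ambient {X : Type*} [Group X] (S : Subgroup X) (h : ∃ a b : X, a ∈ S ∧ b ∈ S ∧ S ≤ Subgroup.closure {a, b}) :
    ∃ a b : ↥S, Subgroup.closure ({a, b} : Set ↥S) = ⊤ := by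
  obtain ⟨a, b, ha, hb, hS⟩ := h
  refine ⟨⟨a, ha⟩, ⟨b, hb⟩, ?_⟩
  apply Subgroup.map_injective S.subtype_injective
  rw [MonoidHom.map_closure]
  have h1 : S.subtype '' {⟨a, ha⟩, ⟨b, hb⟩} = {a, b} := by
    rw [Set.image_pair]; rfl
  rw [h1, ← MonoidHom.range_eq_map, Subgroup.range_subtype]
  apply le_antisymm _ hS
  rw [Subgroup.closure_le]
  rintro x (rfl | rfl)
  · exact ha
  · exact hb

/-- The Suzuki group over the field with `2^(2m+1)` elements, `m ≥ 1` (realised as the stabiliser in `SL₄` of the Suzuki–Tits ovoid), is generated by two of its elements. -/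
theorem result {F : Type*} [Field F] [Fintype F] {m : ℕ} (hm : 1 ≤ m) (hF : Fintype.card F = 2 ^ (2 * m + 1)) :
    ∃ a b : ↥(Cfsg.Sz F m), Subgroup.closure ({a, b} : Set ↥(Cfsg.Sz F m)) = ⊤ :=
  of_ambient _ (main hm hF)

end Cfsg.Agent.S2410
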