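import Cfsg.Statements.S2416
import Cfsg.Agent.H138.RootReach

set_option autoImplicit false
open scoped MatrixGroups
open Cfsg

namespace Cfsg.Agent.S2416

open Cfsg.Lie Cfsg.Agent.H138.RootReach

set_option maxRecDepth 100000 in
theorem cB2 : ∀ i < 2, chevB2.isLong (chevB2.simple i) = false → coverComm chevB2 2 i 1 2 0 = true := by decide +kernel
set_option maxRecDepth 100000 in
theorem cF4 : ∀ i < 4, chevF4.isLong (chevF4.simple i) = false → coverComm chevF4 2 i 3 18 0 = true := by decide +kernel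
set_option maxRecDepth 100000 in
theorem cG2 : ∀ i < 2, chevG2.isLong (chevG2.simple i) = false → coverComm chevG2 3 i 2 3 0 = true := by decide +kernel

/-! ### Spanning trees: one reflection for each root -/

/-- Follow a list of pairs `(i, s)`: the reflection in the `i`-th fundamental root of the root `s`, already visited. -/
def walk (D : ChevalleyDatum) : List (ℕ × ℕ) → ℕ → ℕ
  | [], m => m
  | p :: l, m =>
    if p.1 < D.rank ∧ p.2 < D.nroots ∧ m.testBit p.2 = true then walk D l (m ||| (1 <<< D.reflectRoot p.1 p.2)) else 0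

theorem walk_sound {D : ChevalleyDatum} {P : ℕ → Prop}
    (hP : ∀ i < D.rank, ∀ r < D.nroots, P r → P (D.reflectRoot i r)) (l : List (ℕ × ℕ)) (m : ℕ)
    (h : ∀ s, m.testBit s = true → P s) : ∀ s, (walk D l m).testBit s = true → P s := by
  induction l generalizing m with
  | nil => exact h
  | cons p l ih =>
    intro s hs
    rw [walk] at hs
    split_ifs at hs with hc
    · refine ih _ (fun k hk => ?_) s hs
      rw [Nat.testBit_or, Bool.or_eq_true] at hk
      rcases hk with hk | hk
      · exact h k hk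
      · rw [Nat.one_shiftLeft, Nat.testBit_two_pow] at hk
        rw [← of_decide_eq_true hk]
        exact hP _ hc.1 _ hc.2.1 (h _ hc.2.2)
    · rw [Nat.zero_testBit] at hs
      exact absurd hs (by decide)

/-- All roots are reached. -/
def full (D : ChevalleyDatum) (m : ℕ) : Bool := (List.range D.nroots).all fun k => m.testBit k

/-- One tree starting at the root `j`, which is joined to the root `i` by a list of reflections. -/
theorem le_of_walk {F : Type*} [Field F] {D : ChevalleyDatum}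
    (hD : D ∈ [chevG2, chevB2, chevD4, chevF4, chevE6, chevE7, chevE8]) {i j : ℕ} {T : List (ℕ × ℕ)}
    (hc : full D (walk D T (1 <<< D.simple j)) = true) {l : List ℕ}
    (hl : path D l (D.simple i) = some (D.simple j)) :
    D.group F ≤ D.monomialSubgroup F ⊔ D.rootSubgroup F (D.simple i) := by
  refine group_le fun k hk => ?_
  rw [full, List.all_eq_true] at hc
  refine walk_sound (P := Has _) (fun _ hi _ hr h => has_reflect hD le_sup_left hi hr h) T _ ?_ k
    (hc k (List.mem_range.2 hk))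
  intro s hs
  rw [Nat.one_shiftLeft, Nat.testBit_two_pow] at hs
  rw [← of_decide_eq_true hs]
  exact path_sound (P := Has _) (fun _ hi _ hr h => has_reflect hD le_sup_left hi hr h) l _ _
    (has_of_le le_sup_right) hl

set_option maxRecDepth 100000 in
theorem cD4 : cover chevD4 0 = true := by decide +kernel

/-- Lists of reflections joining the fundamental roots of `D4` to the first one. -/
def pD4 : List (List ℕ) := [[], [0, 1], [1, 2, 0, 1], [1, 3, 0, 1]]

set_option maxRecDepth 100000 in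
theorem dD4 : ∀ i < 4, path chevD4 (pD4.getD i []) (chevD4.simple i) = some (chevD4.simple 0) := by decide +kernel

/-- A spanning tree of the roots of `E6`. -/
def tE6 : List (ℕ × ℕ) :=
  [(0, 56), (2, 56), (2, 15), (0, 57), (3, 57), (0, 14), (3, 14), (3, 42), (1, 58), (4, 58), (3, 29), (1, 13),
   (4, 13), (1, 43), (2, 43), (4, 43), (4, 61), (5, 59), (1, 28), (2, 28), (4, 28), (4, 10), (5, 12), (2, 50),
   (4, 50), (4, 39), (5, 44), (3, 62), (5, 62), (2, 21), (4, 21), (4, 32), (5, 27), (3, 9), (5, 9), (3, 47),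
   (4, 47), (3, 51), (5, 51), (3, 40), (5, 40), (2, 64), (5, 64), (3, 24), (4, 24), (3, 20), (5, 20), (3, 31),
   (5, 31), (2, 7), (5, 7), (5, 48), (5, 53), (5, 37), (5, 67), (4, 65), (5, 23), (5, 18), (5, 34), (5, 4),
   (4, 6), (4, 54), (4, 38), (4, 68), (4, 17), (4, 33), (4, 3), (3, 69), (3, 2), (1, 70), (1, 1)]

set_option maxRecDepth 100000 in
theorem cE6 : full chevE6 (walk chevE6 tE6 (1 <<< chevE6.simple 0)) = true := by decide +kernel

/-- Lists of reflections joining the fundamental roots of `E6` to the first one. -/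
def pE6 : List (List ℕ) := [[], [3, 2, 1, 3, 0, 2], [0, 2], [2, 3, 0, 2], [3, 4, 2, 3, 0, 2], [4, 5, 3, 4, 2, 3, 0, 2]]

set_option maxRecDepth 100000 in
theorem dE6 : ∀ i < 6, path chevE6 (pE6.getD i []) (chevE6.simple i) = some (chevE6.simple 0) := by decide +kernel

/-- A spanning tree of the roots of `E7`. -/
def tE7 : List (ℕ × ℕ) :=
  [(0, 93), (2, 93), (2, 32), (0, 94), (3, 94), (0, 31), (3, 31), (3, 73), (1, 95), (4, 95), (3, 52), (1, 30),
   (4, 30), (1, 74), (2, 74), (4, 74), (4, 99), (5, 96), (1, 51), (2, 51), (4, 51), (4, 26), (5, 29), (2, 83),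
   (4, 83), (4, 69), (5, 75), (3, 100), (5, 100), (6, 97), (2, 42), (4, 42), (4, 56), (5, 50), (3, 25), (5, 25),
   (6, 28), (3, 79), (4, 79), (3, 84), (5, 84), (3, 70), (5, 70), (6, 76), (2, 103), (5, 103), (6, 101), (3, 46),
   (4, 46), (3, 41), (5, 41), (3, 55), (5, 55), (6, 49), (2, 22), (5, 22), (6, 24), (5, 80), (5, 87), (6, 85),
   (5, 66), (6, 71), (5, 109), (4, 104), (6, 104), (5, 45), (5, 38), (6, 40), (5, 59), (6, 54), (5, 16), (4, 21),
   (6, 21), (6, 81), (4, 88), (6, 88), (4, 67), (6, 67), (4, 110), (6, 110), (6, 106), (6, 44), (4, 37), (6, 37),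
   (4, 58), (6, 58), (4, 15), (6, 15), (6, 19), (6, 90), (6, 64), (3, 112), (6, 112), (5, 107), (6, 35), (6, 61),
   (3, 13), (6, 13), (5, 18), (5, 91), (5, 65), (1, 115), (6, 115), (5, 113), (5, 34), (5, 60), (1, 10), (6, 10),
   (5, 12), (6, 119), (5, 116), (6, 6), (5, 9), (5, 120), (4, 117), (5, 5), (4, 8), (4, 121), (4, 4), (3, 122),
   (3, 3), (2, 123), (2, 2), (0, 124), (0, 1)]

set_option maxRecDepth 100000 in
theorem cE7 : full chevE7 (walk chevE7 tE7 (1 <<< chevE7.simple 0)) = true := by decide +kernel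

/-- Lists of reflections joining the fundamental roots of `E7` to the first one. -/
def pE7 : List (List ℕ) := [[], [3, 2, 1, 3, 0, 2], [0, 2], [2, 3, 0, 2], [3, 4, 2, 3, 0, 2], [4, 5, 3, 4, 2, 3, 0, 2], [5, 6, 4, 5, 3, 4, 2, 3, 0, 2]]

set_option maxRecDepth 100000 in
theorem dE7 : ∀ i < 7, path chevE7 (pE7.getD i []) (chevE7.simple i) = some (chevE7.simple 0) := by decide +kernel

/-- A spanning tree of the roots of `E8`. -/
def tE8 : List (ℕ × ℕ) :=
  [(0, 162), (2, 162), (2, 77), (0, 163), (3, 163), (0, 76), (3, 76), (3, 135), (1, 164), (4, 164), (3, 104),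
   (1, 75), (4, 75), (1, 136), (2, 136), (4, 136), (4, 169), (5, 165), (1, 103), (2, 103), (4, 103), (4, 70),
   (5, 74), (2, 147), (4, 147), (4, 130), (5, 137), (3, 170), (5, 170), (6, 166), (2, 92), (4, 92), (4, 109),
   (5, 102), (3, 69), (5, 69), (6, 73), (3, 142), (4, 142), (3, 148), (5, 148), (3, 131), (5, 131), (6, 138),
   (2, 174), (5, 174), (6, 171), (7, 167), (3, 97), (4, 97), (3, 91), (5, 91), (3, 108), (5, 108), (6, 101),
   (2, 65), (5, 65), (6, 68), (7, 72), (5, 143), (5, 152), (6, 149), (5, 126), (6, 132), (7, 139), (5, 184),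
   (4, 175), (6, 175), (7, 172), (5, 96), (5, 87), (6, 90), (5, 113), (6, 107), (7, 100), (5, 55), (4, 64),
   (6, 64), (7, 67), (6, 144), (4, 153), (6, 153), (7, 150), (4, 127), (6, 127), (7, 133), (4, 185), (6, 185),
   (6, 178), (7, 176), (6, 95), (4, 86), (6, 86), (7, 89), (4, 112), (6, 112), (7, 106), (4, 54), (6, 54),
   (6, 61), (7, 63), (7, 145), (6, 156), (7, 154), (6, 123), (7, 128), (3, 188), (6, 188), (7, 186), (5, 179),
   (7, 179), (7, 94), (6, 83), (7, 85), (6, 116), (7, 111), (3, 51), (6, 51), (7, 53), (5, 60), (7, 60), (5, 157),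
   (7, 157), (5, 124), (7, 124), (1, 194), (6, 194), (5, 189), (7, 189), (7, 181), (5, 82), (7, 82), (5, 115),
   (7, 115), (1, 45), (6, 45), (5, 50), (7, 50), (7, 58), (7, 159), (7, 121), (6, 204), (5, 195), (7, 195),
   (7, 191), (6, 182), (7, 80), (7, 118), (6, 35), (5, 44), (7, 44), (7, 48), (6, 57), (6, 160), (6, 122),
   (5, 205), (7, 205), (4, 197), (7, 197), (6, 192), (6, 79), (6, 117), (5, 34), (7, 34), (4, 42), (7, 42),
   (6, 47), (4, 207), (7, 207), (7, 200), (6, 198), (4, 32), (7, 32), (7, 39), (6, 41), (3, 210), (7, 210),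
   (6, 208), (6, 201), (3, 29), (7, 29), (6, 31), (6, 38), (2, 214), (7, 214), (6, 211), (5, 202), (2, 25),
   (7, 25), (6, 28), (5, 37), (0, 219), (7, 219), (6, 215), (5, 212), (0, 20), (7, 20), (6, 24), (5, 27),
   (7, 226), (6, 220), (5, 216), (7, 13), (6, 19), (5, 23), (6, 227), (5, 221), (4, 217), (6, 12), (5, 18),
   (4, 22), (5, 228), (4, 222), (5, 11), (4, 17), (4, 229), (3, 223), (4, 10), (3, 16), (3, 230), (1, 224),
   (3, 9), (1, 15), (1, 231), (2, 231), (1, 8), (2, 8), (2, 233), (2, 6), (3, 234), (3, 5), (4, 235), (4, 4),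
   (5, 236), (5, 3), (6, 237), (6, 2), (7, 238), (7, 1)]

set_option maxRecDepth 100000 in
theorem cE8 : full chevE8 (walk chevE8 tE8 (1 <<< chevE8.simple 0)) = true := by decide +kernel

/-- Lists of reflections joining the fundamental roots of `E8` to the first one. -/
def pE8 : List (List ℕ) := [[], [3, 2, 1, 3, 0, 2], [0, 2], [2, 3, 0, 2], [3, 4, 2, 3, 0, 2], [4, 5, 3, 4, 2, 3, 0, 2], [5, 6, 4, 5, 3, 4, 2, 3, 0, 2], [6, 7, 5, 6, 4, 5, 3, 4, 2, 3, 0, 2]]

set_option maxRecDepth 100000 in
theorem dE8 : ∀ i < 8, path chevE8 (pE8.getD i []) (chevE8.simple i) = some (chevE8.simple 0) := by decide +kernel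

theorem natCast_ne {K : Type*} [Field K] {p : ℕ} (hp : p.Prime) (h : ringChar K ≠ p) : ((p : ℤ) : K) ≠ 0 := by
  rw [Int.cast_natCast]
  intro h0
  have h1 := (ringChar.spec K p).1 h0
  rcases (Nat.dvd_prime hp).1 h1 with h2 | h2
  · exact CharP.ringChar_ne_one h2
  · exact h h2

/-- A Chevalley group of type G₂, B₂, D₄, F₄, E₆, E₇ or E₈ over a finite field lies in (indeed equals) the subgroup generated by its monomial subgroup `N` and a single fundamental root subgroup `X_p`, where `p` is a short fundamental root if there are two root lengths (any fundamental root otherwise), provided the characteristic is not 2 for types B₂, F₄ and not 3 for type G₂ (and the field has more than two elements for B₂, G₂). -/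
theorem result {K : Type*} [Field K] [Finite K] (D : Cfsg.Lie.ChevalleyDatum) (hD : D ∈ [Cfsg.Lie.chevG2, Cfsg.Lie.chevB2, Cfsg.Lie.chevD4, Cfsg.Lie.chevF4, Cfsg.Lie.chevE6, Cfsg.Lie.chevE7, Cfsg.Lie.chevE8])
    (hK : D ∈ [Cfsg.Lie.chevB2, Cfsg.Lie.chevG2] → ∃ x : K, x ≠ 0 ∧ x ≠ 1)
    (h2 : D ∈ [Cfsg.Lie.chevB2, Cfsg.Lie.chevF4] → ringChar K ≠ 2) (h3 : D = Cfsg.Lie.chevG2 → ringChar K ≠ 3)
    (i : ℕ) (hi : i < D.rank) (hshort : D.isLong (D.simple i) = false) :
    D.group K ≤ D.monomialSubgroup K ⊔ D.rootSubgroup K (D.simple i) := by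
  have hm := hD
  simp only [List.mem_cons, List.not_mem_nil, or_false] at hm
  rcases hm with rfl | rfl | rfl | rfl | rfl | rfl | rfl
  · exact le_of_coverComm hD (c := 3) (natCast_ne Nat.prime_three (h3 rfl)) (cG2 i hi hshort)
  · exact le_of_coverComm hD (c := 2) (natCast_ne Nat.prime_two (h2 (by simp))) (cB2 i hi hshort)
  · exact le_of_path hD cD4 (dD4 i hi)
  · exact le_of_coverComm hD (c := 2) (natCast_ne Nat.prime_two (h2 (by simp))) (cF4 i hi hshort)
  · exact le_of_walk hD cE6 (dE6 i hi)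
  · exact le_of_walk hD cE7 (dE7 i hi)
  · exact le_of_walk hD cE8 (dE8 i hi)

end Cfsg.Agent.S2416
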