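import Cfsg.Statements.S2425
import Cfsg.Agent.H140.SteinVal

set_option autoImplicit false
open scoped MatrixGroups
open Cfsg

namespace Cfsg.Agent.S2425

open Polynomial Cfsg.Agent.H140.SemiMu Cfsg.Agent.H140.SteinVal

theorem natDegree_prod_list {F : Type*} [Field F] (l : List F[X]) (hl : ∀ g ∈ l, g.Monic) :
    l.prod.natDegree = (l.map natDegree).sum := by
  induction l with
  | nil => simp
  | cons f l ih =>
    have hl' : ∀ g ∈ l, g.Monic := fun g hg => hl g (List.mem_cons_of_mem _ hg)
    have h1 : (l.prod).Monic := by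
      have := monic_multiset_prod_of_monic (l : Multiset F[X]) (fun g => g) (by simpa using hl')
      simpa using this
    rw [List.prod_cons, (hl f List.mem_cons_self).natDegree_mul h1, ih hl', List.map_cons,
      List.sum_cons]

/-- the local factor -/
noncomputable def fac {F : Type*} [Field F] (q : ℕ) (f : F[X]) (c : ℕ) : ℂ :=
  (-1 : ℂ) ^ ((f.natDegree - 1) * c) * (q : ℂ) ^ (f.natDegree * c * (c - 1) / 2)

theorem fac_succ {F : Type*} [Field F] (q : ℕ) (f : F[X]) (c : ℕ) :
    fac q f (c + 1) = (-1) ^ (f.natDegree - 1) * ((q : ℂ) ^ f.natDegree) ^ c * fac q f c := by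
  unfold fac
  have h1 : f.natDegree * (c + 1) * (c + 1 - 1) / 2 = f.natDegree * c + f.natDegree * c * (c - 1) / 2 := by
    rcases Nat.eq_zero_or_pos c with rfl | hc
    · simp
    · obtain ⟨d, rfl⟩ : ∃ d, c = d + 1 := ⟨c - 1, by omega⟩
      have e : f.natDegree * (d + 1 + 1) * (d + 1 + 1 - 1) =
          f.natDegree * (d + 1) * (d + 1 - 1) + (f.natDegree * (d + 1)) * 2 := by
        simp only [Nat.add_sub_cancel]
        ring
      rw [e, Nat.add_mul_div_right _ _ (by norm_num), add_comm]
  rw [h1, mul_add, mul_one, pow_add, pow_add, pow_mul, pow_mul]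
  ring

theorem val_eq {F : Type*} [Field F] [DecidableEq F[X]] (q : ℕ) (l : List F[X])
    (hl : ∀ g ∈ l, 1 ≤ g.natDegree) :
    (-1 : ℂ) ^ (l.map natDegree).sum * ((val q l : ℤ) : ℂ) =
      ∏ f ∈ l.toFinset, fac q f (l.count f) := by
  induction l with
  | nil => simp [val]
  | cons f l ih =>
    have hl' : ∀ g ∈ l, 1 ≤ g.natDegree := fun g hg => hl g (List.mem_cons_of_mem _ hg)
    have hf := hl f List.mem_cons_self
    have ih' := ih hl'
    have e1 : (-1 : ℂ) ^ f.natDegree * (-1) = (-1) ^ (f.natDegree - 1) := by
      obtain ⟨d, hd⟩ : ∃ d, f.natDegree = d + 1 := ⟨f.natDegree - 1, by omega⟩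
      rw [hd, pow_succ, Nat.add_sub_cancel]
      ring
    have hlhs : (-1 : ℂ) ^ ((f :: l).map natDegree).sum * ((val q (f :: l) : ℤ) : ℂ) =
        (-1) ^ (f.natDegree - 1) * ((q : ℂ) ^ f.natDegree) ^ (l.count f) *
          ∏ g ∈ l.toFinset, fac q g (l.count g) := by
      rw [← ih', val, List.map_cons, List.sum_cons, pow_add, ← e1]
      push_cast
      ring
    rw [hlhs]
    by_cases hfl : f ∈ l.toFinset
    · have hs : (f :: l).toFinset = l.toFinset := by
        rw [List.toFinset_cons, Finset.insert_eq_self.mpr hfl]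
      rw [hs, ← Finset.mul_prod_erase _ _ hfl, ← Finset.mul_prod_erase _ _ hfl,
        List.count_cons_self, fac_succ q f]
      have h2 : ∏ g ∈ l.toFinset.erase f, fac q g ((f :: l).count g) =
          ∏ g ∈ l.toFinset.erase f, fac q g (l.count g) := by
        apply Finset.prod_congr rfl
        intro g hg
        rw [List.count_cons_of_ne (Finset.ne_of_mem_erase hg).symm]
      rw [h2]
      ring
    · rw [List.toFinset_cons, Finset.prod_insert hfl, List.count_cons_self, fac_succ q f]
      have h0 : l.count f = 0 := List.count_eq_zero.mpr (by simpa using hfl)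
      have h2 : ∏ g ∈ l.toFinset, fac q g ((f :: l).count g) =
          ∏ g ∈ l.toFinset, fac q g (l.count g) := by
        apply Finset.prod_congr rfl
        intro g hg
        rw [List.count_cons_of_ne]
        rintro rfl
        exact hfl hg
      rw [h2, h0]
      simp [fac]

/-- Values of the Steinberg character of `GL_n(q)` (the partition-indexed character for `ν = (1,…,1)`, of degree `q^(n(n−1)/2)`) at elements of order prime to the characteristic: if the characteristic polynomial of such an element is `∏ f^(m_f)` over distinct monic irreducible `f`, the value is `∏_f (−1)^((deg f − 1) m_f) q^(deg f · m_f (m_f − 1)/2)`. (At elements of order divisible by the characteristic the value is 0; that is not part of this statement.) -/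
theorem result {F : Type*} [Field F] [Fintype F] [DecidableEq F] {q : ℕ} (hq : Fintype.card F = q) (p : ℕ) [Fact p.Prime] [CharP F p]
    {n : ℕ} (x : GL (Fin n) F) (hx : (orderOf x).Coprime p) :
    Cfsg.unipotentCharacterGL n F (fun _ => 1) x =
      ∏ f ∈ (UniqueFactorizationMonoid.normalizedFactors (x : Matrix (Fin n) (Fin n) F).charpoly).toFinset,
        (-1 : ℂ) ^ ((f.natDegree - 1) * (UniqueFactorizationMonoid.normalizedFactors (x : Matrix (Fin n) (Fin n) F).charpoly).count f) *
          (q : ℂ) ^ (f.natDegree * (UniqueFactorizationMonoid.normalizedFactors (x : Matrix (Fin n) (Fin n) F).charpoly).count f *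
            ((UniqueFactorizationMonoid.normalizedFactors (x : Matrix (Fin n) (Fin n) F).charpoly).count f - 1) / 2) := by
  rcases n with _ | n
  · -- degree zero
    have h1 : (x : Matrix (Fin 0) (Fin 0) F).charpoly = 1 := by
      rw [Matrix.charpoly]
      exact Matrix.det_isEmpty
    rw [h1, UniqueFactorizationMonoid.normalizedFactors_one, Multiset.toFinset_zero,
      Finset.prod_empty]
    unfold Cfsg.unipotentCharacterGL
    rw [Fintype.sum_subsingleton _ (1 : Equiv.Perm (Fin 0)), if_pos (fun i => i.elim0)]
    have hs : Subsingleton (GL (Fin 0) F) := ⟨fun a b => Units.ext (by ext i; exact i.elim0)⟩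
    have h2 : Nat.card (MulAction.fixedBy (GL (Fin 0) F ⧸ Cfsg.parabolicGL 0 F
        fun i => 1 + i.val - ((1 : Equiv.Perm (Fin 0)) i).val) x) = 1 := by
      rw [Nat.card_eq_one_iff_unique]
      refine ⟨⟨fun a b => ?_⟩, ⟨⟨((1 : GL (Fin 0) F) : GL (Fin 0) F ⧸ _), ?_⟩⟩⟩
      · apply Subtype.ext
        obtain ⟨g, hg⟩ := QuotientGroup.mk_surjective a.1
        obtain ⟨h, hh⟩ := QuotientGroup.mk_surjective b.1
        rw [← hg, ← hh, Subsingleton.elim g h]
      · rw [MulAction.mem_fixedBy, Subsingleton.elim x 1, one_smul]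
    unfold Cfsg.fixedPointCharacter
    rw [h2]
    simp
  · -- the module is semisimple
    have hsemi : IsSemisimpleModule F[X] (A x) := by
      have h1 : Module.End.IsSemisimple (En x) := by
        have hdeg : ((orderOf x : ℕ) : F) ≠ 0 := by
          rw [Ne, CharP.cast_eq_zero_iff F p]
          intro h
          have h2 := Nat.dvd_gcd h (dvd_refl p)
          rw [hx.gcd_eq_one] at h2
          exact (Fact.out : p.Prime).one_lt.ne' (Nat.dvd_one.mp h2)
        refine Module.End.isSemisimple_of_squarefree_aeval_eq_zero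
          (p := (X ^ (orderOf x) - C (1 : F))) (separable_X_pow_sub_C 1 hdeg one_ne_zero).squarefree ?_
        rw [map_sub, map_pow, aeval_X, aeval_C, map_one, sub_eq_zero, En,
          ← Matrix.toLin'_pow, ← Units.val_pow_eq_pow_val, pow_orderOf_eq_one, Units.val_one,
          Matrix.toLin'_one]
        rfl
      exact h1
    obtain ⟨l, hl, hM⟩ := exists_type (F := F) (A x)
    have hcp : (x : Matrix (Fin (n + 1)) (Fin (n + 1)) F).charpoly = l.prod := by
      rw [← charpoly_eq l hl (A x) hM]
      have h2 : xend F (A x) = (Module.AEval'.of (En x)).conj (En x) := by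
        apply LinearMap.ext
        intro v
        obtain ⟨w, rfl⟩ := (Module.AEval'.of (En x)).surjective v
        rw [xend_apply, Module.AEval'.X_smul_of, LinearEquiv.conj_apply_apply,
          LinearEquiv.symm_apply_apply]
      rw [h2, LinearEquiv.charpoly_conj, ← LinearMap.charpoly_toMatrix (En x) (Pi.basisFun F _),
        LinearMap.toMatrix_eq_toMatrix', LinearMap.toMatrix'_toLin']
    have hirr : ∀ g ∈ l, 1 ≤ g.natDegree := by
      intro g hg
      exact (hl g hg).2.natDegree_pos
    have hnf : UniqueFactorizationMonoid.normalizedFactors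
        (x : Matrix (Fin (n + 1)) (Fin (n + 1)) F).charpoly = (l : Multiset F[X]) := by
      rw [hcp, ← Multiset.prod_coe, UniqueFactorizationMonoid.normalizedFactors_prod_eq _
        (fun g hg => (hl g (by simpa using hg)).2)]
      rw [Multiset.map_congr rfl (fun g hg => (hl g (by simpa using hg)).1.normalize_eq_self)]
      exact Multiset.map_id' _
    have hsum : (l.map natDegree).sum = n + 1 := by
      rw [← natDegree_prod_list l (fun g hg => (hl g hg).1), ← hcp,
        Matrix.charpoly_natDegree_eq_dim, Fintype.card_fin]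
    rw [unipotent_eq, mu_top l hl (A x) hM, hnf, ← hsum, val_eq _ l hirr]
    simp only [List.toFinset_coe, Multiset.coe_count, Nat.card_eq_fintype_card, hq, fac]

end Cfsg.Agent.S2425
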