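import Cfsg.Statements.S2426
import Cfsg.Agent.H140.Pres
import Cfsg.Agent.H140.SLTwo

set_option autoImplicit false
open Cfsg

namespace Cfsg.Agent.S2426

open Cfsg.Agent.ONan.SL2Hom Cfsg.Agent.HKS.SLRel Cfsg.Agent.H140.Pres

variable {K : Type*} [Field K]

/-- the relators -/
abbrev rels (K : Type*) [Field K] : Set (FreeGroup (Bool × K)) :=
  ({g : FreeGroup (Bool × K) | ∃ (b : Bool) (t u : K), g = FreeGroup.of (b, t) * FreeGroup.of (b, u) * (FreeGroup.of (b, t + u))⁻¹} ∪
          {g | ∃ (b : Bool) (t u : K), t ≠ 0 ∧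
            g = (FreeGroup.of (b, t) * FreeGroup.of (!b, -t⁻¹) * FreeGroup.of (b, t)) * FreeGroup.of (b, u) *
                  (FreeGroup.of (b, t) * FreeGroup.of (!b, -t⁻¹) * FreeGroup.of (b, t))⁻¹ * (FreeGroup.of (!b, -(t⁻¹ ^ 2 * u)))⁻¹})

/-- the images of the generators -/
def gen (x : Bool × K) : Matrix.SpecialLinearGroup (Fin 2) K :=
  if x.1 then tM x.2 else lM x.2

theorem conj_t (t u : K) (ht : t ≠ 0) :
    (tM t * lM (-t⁻¹) * tM t) * tM u = lM (-(t⁻¹ ^ 2 * u)) * (tM t * lM (-t⁻¹) * tM t) := by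
  apply ext'
  all_goals
    simp only [mul_apply', lM, mk_00, mk_01, mk_10, mk_11, tM_00, tM_01, tM_10, tM_11]
    field_simp
    ring

theorem conj_l (t u : K) (ht : t ≠ 0) :
    (lM t * tM (-t⁻¹) * lM t) * lM u = tM (-(t⁻¹ ^ 2 * u)) * (lM t * tM (-t⁻¹) * lM t) := by
  apply ext'
  all_goals
    simp only [mul_apply', lM, mk_00, mk_01, mk_10, mk_11, tM_00, tM_01, tM_10, tM_11]
    field_simp
    ring

theorem add_t (t u : K) : tM t * tM u = tM (t + u) := by
  apply ext'
  all_goals
    simp only [mul_apply', tM_00, tM_01, tM_10, tM_11]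
    ring

theorem add_l (t u : K) : lM t * lM u = lM (t + u) := by
  apply ext'
  all_goals
    simp only [mul_apply', lM, mk_00, mk_01, mk_10, mk_11]
    ring

theorem gen_rels (r : FreeGroup (Bool × K)) (hr : r ∈ rels K) : FreeGroup.lift gen r = 1 := by
  rcases hr with ⟨b, t, u, rfl⟩ | ⟨b, t, u, ht, rfl⟩
  · simp only [map_mul, map_inv, FreeGroup.lift_apply_of]
    rw [mul_inv_eq_one]
    cases b
    · exact add_l t u
    · exact add_t t u
  · simp only [map_mul, map_inv, FreeGroup.lift_apply_of]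
    rw [mul_inv_eq_one, mul_inv_eq_iff_eq_mul]
    cases b
    · exact conj_l t u ht
    · exact conj_t t u ht

/-- the homomorphism onto `SL₂` -/
def psi (K : Type*) [Field K] : PresentedGroup (rels K) →* Matrix.SpecialLinearGroup (Fin 2) K :=
  PresentedGroup.toGroup gen_rels

theorem psi_t (t : K) : psi K (PresentedGroup.of (true, t)) = tM t := PresentedGroup.toGroup.of gen_rels

theorem psi_l (t : K) : psi K (PresentedGroup.of (false, t)) = lM t := PresentedGroup.toGroup.of gen_rels

theorem psi_surjective : Function.Surjective (psi K) := by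
  rw [← MonoidHom.range_eq_top]
  apply Cfsg.Agent.LieClassical.SLTwoUnipotent.eq_top_of_u_mem_of_l_mem
  · intro x
    refine ⟨PresentedGroup.of (true, x), ?_⟩
    rw [psi_t]
    apply ext' <;> rfl
  · intro x
    refine ⟨PresentedGroup.of (false, x), ?_⟩
    rw [psi_l]
    apply ext' <;> rfl

theorem add_rel (b : Bool) (t u : K) : (PresentedGroup.of (b, t + u) : PresentedGroup (rels K)) =
    PresentedGroup.of (b, t) * PresentedGroup.of (b, u) := by
  have h : (PresentedGroup.mk (rels K)) (FreeGroup.of (b, t) * FreeGroup.of (b, u) * (FreeGroup.of (b, t + u))⁻¹) = 1 :=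
    PresentedGroup.one_of_mem (Or.inl ⟨b, t, u, rfl⟩)
  rw [map_mul, map_mul, map_inv, mul_inv_eq_one] at h
  exact h.symm

theorem w_rel (b : Bool) (t u : K) (ht : t ≠ 0) :
    (PresentedGroup.of (b, t) * PresentedGroup.of (!b, -t⁻¹) * PresentedGroup.of (b, t)) * PresentedGroup.of (b, u) =
    (PresentedGroup.of (!b, -(t⁻¹ ^ 2 * u)) : PresentedGroup (rels K)) *
      (PresentedGroup.of (b, t) * PresentedGroup.of (!b, -t⁻¹) * PresentedGroup.of (b, t)) := by
  have h : (PresentedGroup.mk (rels K)) ((FreeGroup.of (b, t) * FreeGroup.of (!b, -t⁻¹) * FreeGroup.of (b, t)) * FreeGroup.of (b, u) *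
                  (FreeGroup.of (b, t) * FreeGroup.of (!b, -t⁻¹) * FreeGroup.of (b, t))⁻¹ * (FreeGroup.of (!b, -(t⁻¹ ^ 2 * u)))⁻¹) = 1 :=
    PresentedGroup.one_of_mem (Or.inr ⟨b, t, u, ht, rfl⟩)
  simp only [map_mul, map_inv] at h
  rw [mul_inv_eq_one, mul_inv_eq_iff_eq_mul] at h
  exact h

theorem prel (K : Type*) [Field K] : PRel (fun t : K => (PresentedGroup.of (true, t) : PresentedGroup (rels K)))
    (fun t : K => (PresentedGroup.of (false, t) : PresentedGroup (rels K))) where
  T_add a b := add_rel true a b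
  L_add a b := add_rel false a b
  wT s hs r := w_rel true s r hs

theorem gen_top : Subgroup.closure (Set.range (fun t : K => (PresentedGroup.of (true, t) : PresentedGroup (rels K))) ∪
    Set.range (fun t : K => (PresentedGroup.of (false, t) : PresentedGroup (rels K)))) = ⊤ := by
  rw [eq_top_iff, ← PresentedGroup.closure_range_of, Subgroup.closure_le]
  rintro _ ⟨⟨b, t⟩, rfl⟩
  apply Subgroup.subset_closure
  cases b
  · exact Or.inr ⟨t, rfl⟩
  · exact Or.inl ⟨t, rfl⟩

theorem psi_injective [Finite K] : Function.Injective (psi K) := by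
  obtain ⟨φ, hT, hL⟩ := exists_hom ((prel K).srel gen_top)
  have h : φ.comp (psi K) = MonoidHom.id _ := by
    apply PresentedGroup.ext
    rintro ⟨b, t⟩
    cases b
    · change φ (psi K (PresentedGroup.of (false, t))) = _
      rw [psi_l, hL]
      rfl
    · change φ (psi K (PresentedGroup.of (true, t))) = _
      rw [psi_t, hT]
      rfl
  intro x y hxy
  have h1 := congrArg (fun f : PresentedGroup (rels K) →* PresentedGroup (rels K) => f x) h
  have h2 := congrArg (fun f : PresentedGroup (rels K) →* PresentedGroup (rels K) => f y) h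
  change φ (psi K x) = x at h1
  change φ (psi K y) = y at h2
  rw [← h1, ← h2, hxy]

/-- The rank-one Steinberg presentation of `SL₂` over a finite field `K`: generators `x(t)`, `y(t)` (`t ∈ K`; the two opposite root subgroups) subject to additivity `x(t)x(u) = x(t+u)`, `y(t)y(u) = y(t+u)` and, with `w(t) = x(t) y(−t⁻¹) x(t)` and `w'(t) = y(t) x(−t⁻¹) y(t)` for `t ≠ 0`, the relations `w(t) x(u) w(t)⁻¹ = y(−t⁻² u)` and `w'(t) y(u) w'(t)⁻¹ = x(−t⁻² u)`, present `SL₂(K)`, with `x(t) ↦ (1 t; 0 1)` and `y(t) ↦ (1 0; t 1)`. -/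
theorem result {K : Type*} [Field K] [Finite K] :
    ∃ e : PresentedGroup
        ({g : FreeGroup (Bool × K) | ∃ (b : Bool) (t u : K), g = FreeGroup.of (b, t) * FreeGroup.of (b, u) * (FreeGroup.of (b, t + u))⁻¹} ∪
          {g | ∃ (b : Bool) (t u : K), t ≠ 0 ∧
            g = (FreeGroup.of (b, t) * FreeGroup.of (!b, -t⁻¹) * FreeGroup.of (b, t)) * FreeGroup.of (b, u) *
                  (FreeGroup.of (b, t) * FreeGroup.of (!b, -t⁻¹) * FreeGroup.of (b, t))⁻¹ * (FreeGroup.of (!b, -(t⁻¹ ^ 2 * u)))⁻¹})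
        ≃* Matrix.SpecialLinearGroup (Fin 2) K,
      (∀ t : K, ((e (PresentedGroup.of (true, t)) : Matrix (Fin 2) (Fin 2) K)) = !![1, t; 0, 1]) ∧
      (∀ t : K, ((e (PresentedGroup.of (false, t)) : Matrix (Fin 2) (Fin 2) K)) = !![1, 0; t, 1]) := by
  refine ⟨MulEquiv.ofBijective (psi K) ⟨psi_injective, psi_surjective⟩, ?_, ?_⟩
  · intro t
    have h := congrArg Subtype.val (psi_t t)
    exact h
  · intro t
    have h := congrArg Subtype.val (psi_l t)
    exact h

end Cfsg.Agent.S2426
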