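import Cfsg.Statements.S2428
import Cfsg.Agent.H140.SLTwo

set_option autoImplicit false
open Cfsg

namespace Cfsg.Agent.S2428

open Cfsg.Agent.H140.SLTwo Cfsg.Agent.H140.Tori

/-- Let F be a finite field with q elements, q odd, and let d be a diagonal element of SL₂ over F whose diagonal entry a has a² ≠ 1 (such d exist exactly when q > 3). Then the centraliser of d is precisely the diagonal subgroup T; the normaliser of T has order 2(q − 1) and exactly (q + 5)/2 conjugacy classes; and every element of that normaliser outside T has square equal to −1. -/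
theorem result {F : Type*} [Field F] [Fintype F] (hodd : Odd (Fintype.card F))
    (d : Matrix.SpecialLinearGroup (Fin 2) F) (hd01 : (d : Matrix (Fin 2) (Fin 2) F) 0 1 = 0) (hd10 : (d : Matrix (Fin 2) (Fin 2) F) 1 0 = 0) (hda : (d : Matrix (Fin 2) (Fin 2) F) 0 0 ^ 2 ≠ 1) :
    (∀ g : Matrix.SpecialLinearGroup (Fin 2) F, g ∈ Subgroup.centralizer ({d} : Set (Matrix.SpecialLinearGroup (Fin 2) F)) ↔ ((g : Matrix (Fin 2) (Fin 2) F) 0 1 = 0 ∧ (g : Matrix (Fin 2) (Fin 2) F) 1 0 = 0)) ∧
    Nat.card (Subgroup.normalizer ((Subgroup.centralizer ({d} : Set (Matrix.SpecialLinearGroup (Fin 2) F))) : Set (Matrix.SpecialLinearGroup (Fin 2) F))) = 2 * (Fintype.card F - 1) ∧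
    Nat.card (ConjClasses (Subgroup.normalizer ((Subgroup.centralizer ({d} : Set (Matrix.SpecialLinearGroup (Fin 2) F))) : Set (Matrix.SpecialLinearGroup (Fin 2) F)))) = (Fintype.card F + 5) / 2 ∧
    ∀ g : Matrix.SpecialLinearGroup (Fin 2) F, g ∈ Subgroup.normalizer ((Subgroup.centralizer ({d} : Set (Matrix.SpecialLinearGroup (Fin 2) F))) : Set (Matrix.SpecialLinearGroup (Fin 2) F)) →
      g ∉ Subgroup.centralizer ({d} : Set (Matrix.SpecialLinearGroup (Fin 2) F)) → ((g * g) : Matrix (Fin 2) (Fin 2) F) = -1 := by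
  have h2 := two_ne_zero_of_odd hodd
  have H := split_data (F := F) h2
  have hd : d ∈ split F := ⟨hd01, hd10⟩
  have hd1 : d ≠ 1 := by
    rintro rfl
    apply hda
    simp
  have hd2 : d ≠ -1 := by
    rintro rfl
    apply hda
    simp
  have hC : Subgroup.centralizer ({d} : Set (Matrix.SpecialLinearGroup (Fin 2) F)) = split F :=
    H.centralizer_eq (Set.singleton_subset_iff.mpr hd) (Set.mem_singleton d) hd1 hd2
  rw [hC]
  have hN := H.mem_normalizer_iff le_rfl hd hd1 hd2
  have hT := card_split (F := F)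
  -- `q ≥ 5`
  have hq : 5 ≤ Fintype.card F := by
    have hodd' := Nat.odd_iff.mp hodd
    have h1 : 1 < Fintype.card F := Fintype.one_lt_card
    by_contra hlt
    have h3 : Fintype.card F = 3 := by omega
    rw [h3] at hT
    have h4 := orderOf_dvd_natCard (⟨d, hd⟩ : split F)
    rw [hT] at h4
    have h5 : (⟨d, hd⟩ : split F) ^ 2 = 1 := orderOf_dvd_iff_pow_eq_one.mp h4
    have h6 : d ^ 2 = 1 := congrArg Subtype.val h5
    rw [pow_two] at h6
    rcases sq_eq_one h2 h6 with h | h
    · exact hd1 h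
    · exact hd2 h
  have hodd' := Nat.odd_iff.mp hodd
  obtain ⟨k, hk⟩ : ∃ k, Fintype.card F = 2 * k + 5 := ⟨(Fintype.card F - 5) / 2, by omega⟩
  refine ⟨fun g => Iff.rfl, ?_, ?_, ?_⟩
  · rw [H.card_eq _ hN, hT]
  · rw [H.card_conjClasses _ hN k (by rw [hT, hk]; omega), hk]
    omega
  · intro g hg hgT
    have h3 := H.sq_of (((hN g).mp hg).resolve_left hgT)
    have h4 := congrArg Subtype.val h3
    simpa using h4

end Cfsg.Agent.S2428
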