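import Cfsg.Statements.S2429
import Cfsg.Agent.H140.SLTwo

set_option autoImplicit false
open Cfsg

namespace Cfsg.Agent.S2429

open Cfsg.Agent.H140.SLTwo Cfsg.Agent.H140.Tori

/-- Let F be a finite field with q elements, q odd. Then SL₂ over F contains a cyclic subgroup T′ of order q + 1 (a non-split torus) with the following properties: T′ is its own centraliser, and indeed the centraliser of each element of T′ other than 1 and −1 is exactly T′; every element of SL₂ having no eigenvector in F² is conjugate to an element of T′; the normaliser of T′ has order 2(q + 1) and exactly (q + 7)/2 conjugacy classes; and every element of that normaliser outside T′ has square −1. -/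
theorem result {F : Type*} [Field F] [Fintype F] (hodd : Odd (Fintype.card F)) :
    ∃ T' : Subgroup (Matrix.SpecialLinearGroup (Fin 2) F), IsCyclic T' ∧ Nat.card T' = Fintype.card F + 1 ∧
      Subgroup.centralizer ((T' : Set (Matrix.SpecialLinearGroup (Fin 2) F))) = T' ∧
      (∀ g : Matrix.SpecialLinearGroup (Fin 2) F, g ∈ T' → (g : Matrix (Fin 2) (Fin 2) F) ≠ 1 → (g : Matrix (Fin 2) (Fin 2) F) ≠ -1 → Subgroup.centralizer ({g} : Set (Matrix.SpecialLinearGroup (Fin 2) F)) = T') ∧
      (∀ g : Matrix.SpecialLinearGroup (Fin 2) F, (∀ (c : F) (v : Fin 2 → F), v ≠ 0 → (g : Matrix (Fin 2) (Fin 2) F).mulVec v ≠ c • v) → ∃ h : Matrix.SpecialLinearGroup (Fin 2) F, h * g * h⁻¹ ∈ T') ∧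
      Nat.card (Subgroup.normalizer (T' : Set (Matrix.SpecialLinearGroup (Fin 2) F))) = 2 * (Fintype.card F + 1) ∧
      Nat.card (ConjClasses (Subgroup.normalizer (T' : Set (Matrix.SpecialLinearGroup (Fin 2) F)))) = (Fintype.card F + 7) / 2 ∧
      ∀ g : Matrix.SpecialLinearGroup (Fin 2) F, g ∈ Subgroup.normalizer (T' : Set (Matrix.SpecialLinearGroup (Fin 2) F)) → g ∉ T' → ((g * g) : Matrix (Fin 2) (Fin 2) F) = -1 := by
  have h2 := two_ne_zero_of_odd hodd
  obtain ⟨a, s, ha, H, hE⟩ := exists_nonsplit hodd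
  have hodd' := Nat.odd_iff.mp hodd
  have hq1 : 1 < Fintype.card F := Fintype.one_lt_card
  have haT : a ∈ Subgroup.zpowers a := Subgroup.mem_zpowers a
  have ha1 : a ≠ 1 := by
    rintro rfl
    rw [orderOf_one] at ha
    omega
  have ha2 : a ≠ -1 := by
    rintro rfl
    have h3 : (-1 : Matrix.SpecialLinearGroup (Fin 2) F) ^ 2 = 1 := by simp
    have h4 := Nat.le_of_dvd (by norm_num) (orderOf_dvd_of_pow_eq_one h3)
    rw [ha] at h4
    omega
  have hN := H.mem_normalizer_iff le_rfl haT ha1 ha2
  have hT : Nat.card (Subgroup.zpowers a) = Fintype.card F + 1 := by rw [Nat.card_zpowers, ha]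
  obtain ⟨k, hk⟩ : ∃ k, Fintype.card F = 2 * k + 3 := ⟨(Fintype.card F - 3) / 2, by omega⟩
  refine ⟨Subgroup.zpowers a, inferInstance, hT, H.centralizer_eq le_rfl haT ha1 ha2, ?_, ?_, ?_, ?_, ?_⟩
  · intro g hg hg1 hg2
    refine H.centralizer_eq (Set.singleton_subset_iff.mpr hg) (Set.mem_singleton g) ?_ ?_
    · rintro rfl
      exact hg1 (by simp)
    · rintro rfl
      exact hg2 (by simp)
  · intro g hg
    exact conj_into_nonsplit hodd (hE a haT ha1 ha2) (H.cent a haT ha1 ha2) hg
  · rw [H.card_eq _ hN, hT]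
  · rw [H.card_conjClasses _ hN k (by rw [hT, hk]; omega), hk]
    omega
  · intro g hg hgT
    have h3 := H.sq_of (((hN g).mp hg).resolve_left hgT)
    have h4 := congrArg Subtype.val h3
    simpa using h4

end Cfsg.Agent.S2429
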