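import Cfsg.Statements.S2438
import Cfsg.Agent.H670.SL2Odd

set_option autoImplicit false
open Cfsg

namespace Cfsg.Agent.S2438

open Cfsg.Agent.H670 Cfsg.Agent.H670.RankOne Cfsg.Agent.Characters.Core

theorem sum_eq {F : Type*} [Field F] [Fintype F] [DecidableEq F]
    (χ : Matrix.SpecialLinearGroup (Fin 2) F → ℂ) :
    (∑ g : Matrix.SpecialLinearGroup (Fin 2) F, if (g : Matrix (Fin 2) (Fin 2) F) 1 0 = 0 ∧
      (g : Matrix (Fin 2) (Fin 2) F) 0 0 = 1 ∧ (g : Matrix (Fin 2) (Fin 2) F) 1 1 = 1 then χ g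
      else 0) = ∑ s : F, χ (SL2.x s) := by
  rw [← Finset.sum_filter]
  symm
  refine Finset.sum_bij (fun s _ => SL2.x s) ?_ ?_ ?_ ?_
  · intro s _
    rw [Finset.mem_filter]
    exact ⟨Finset.mem_univ _, SL2.x10 s, SL2.x00 s, SL2.x11 s⟩
  · intro s _ r _ h
    exact (SL2.data F).X_inj h
  · intro g hg
    rw [Finset.mem_filter] at hg
    refine ⟨SL2.e01 g, Finset.mem_univ _, ?_⟩
    apply SL2.ext4
    · exact (SL2.x00 _).trans hg.2.2.1.symm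
    · rfl
    · exact (SL2.x10 _).trans hg.2.1.symm
    · exact (SL2.x11 _).trans hg.2.2.2.symm
  · intro s _
    rfl

/-- Let F be a finite field with q elements, q odd, q ≥ 5, U the upper unitriangular subgroup of SL₂ over F, and χ an irreducible complex character. The sum of the values of χ over U equals 2q, q, 0, q, 0 according as the degree of χ is q + 1, q, q − 1, (q + 1)/2, (q − 1)/2; so among these five degrees the sum vanishes exactly for the degrees q − 1 and (q − 1)/2, i.e. the irreducible characters of those two degrees are the ones whose restriction to U does not contain the trivial character (the cuspidal characters), while those of degree q + 1, q and (q + 1)/2 are not cuspidal. -/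
theorem result {F : Type*} [Field F] [Fintype F] [DecidableEq F] (hodd : Odd (Fintype.card F)) (hq : 5 ≤ Fintype.card F)
    (χ : Matrix.SpecialLinearGroup (Fin 2) F → ℂ) (hχ : Cfsg.IsIrrCharacter (Matrix.SpecialLinearGroup (Fin 2) F) χ) :
    (χ 1 = (Fintype.card F : ℂ) + 1 →
      (∑ g : Matrix.SpecialLinearGroup (Fin 2) F, if (g : Matrix (Fin 2) (Fin 2) F) 1 0 = 0 ∧ (g : Matrix (Fin 2) (Fin 2) F) 0 0 = 1 ∧ (g : Matrix (Fin 2) (Fin 2) F) 1 1 = 1 then χ g else 0) = 2 * (Fintype.card F : ℂ)) ∧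
    (χ 1 = (Fintype.card F : ℂ) →
      (∑ g : Matrix.SpecialLinearGroup (Fin 2) F, if (g : Matrix (Fin 2) (Fin 2) F) 1 0 = 0 ∧ (g : Matrix (Fin 2) (Fin 2) F) 0 0 = 1 ∧ (g : Matrix (Fin 2) (Fin 2) F) 1 1 = 1 then χ g else 0) = (Fintype.card F : ℂ)) ∧
    (χ 1 = (Fintype.card F : ℂ) - 1 →
      (∑ g : Matrix.SpecialLinearGroup (Fin 2) F, if (g : Matrix (Fin 2) (Fin 2) F) 1 0 = 0 ∧ (g : Matrix (Fin 2) (Fin 2) F) 0 0 = 1 ∧ (g : Matrix (Fin 2) (Fin 2) F) 1 1 = 1 then χ g else 0) = 0) ∧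
    (χ 1 = (((Fintype.card F + 1) / 2 : ℕ) : ℂ) →
      (∑ g : Matrix.SpecialLinearGroup (Fin 2) F, if (g : Matrix (Fin 2) (Fin 2) F) 1 0 = 0 ∧ (g : Matrix (Fin 2) (Fin 2) F) 0 0 = 1 ∧ (g : Matrix (Fin 2) (Fin 2) F) 1 1 = 1 then χ g else 0) = (Fintype.card F : ℂ)) ∧
    (χ 1 = (((Fintype.card F - 1) / 2 : ℕ) : ℂ) →
      (∑ g : Matrix.SpecialLinearGroup (Fin 2) F, if (g : Matrix (Fin 2) (Fin 2) F) 1 0 = 0 ∧ (g : Matrix (Fin 2) (Fin 2) F) 0 0 = 1 ∧ (g : Matrix (Fin 2) (Fin 2) F) 1 1 = 1 then χ g else 0) = 0) := by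
  obtain ⟨nu, hnu⟩ := SL2.exists_not_square hodd
  obtain ⟨h, hqh⟩ : ∃ h, Fintype.card F = 2 * h + 1 := by
    obtain ⟨m, hm⟩ := hodd
    exact ⟨m, hm⟩
  have hd : χ 1 = (((SL2.ty nu ⟨χ, hχ⟩).1 + h * ((SL2.ty nu ⟨χ, hχ⟩).2.1 +
    (SL2.ty nu ⟨χ, hχ⟩).2.2) : ℕ) : ℂ) := SL2.degree_eq_ty hnu ⟨χ, hχ⟩ hqh
  have ht := SL2.ty_mem hnu ⟨χ, hχ⟩
  have e0 : (Fintype.card F : ℂ) = ((2 * h + 1 : ℕ) : ℂ) := by rw [hqh]
  have e1 : (Fintype.card F : ℂ) + 1 = ((2 * h + 2 : ℕ) : ℂ) := by rw [hqh]; push_cast; ring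
  have e2 : (Fintype.card F : ℂ) - 1 = ((2 * h : ℕ) : ℂ) := by rw [hqh]; push_cast; ring
  have e3 : (Fintype.card F + 1) / 2 = h + 1 := by omega
  have e4 : (Fintype.card F - 1) / 2 = h := by omega
  have hs : ∑ s : F, χ (SL2.x s) = (Fintype.card F : ℂ) * (SL2.data F).n ⟨χ, hχ⟩ 0 := by
    have h1 := (SL2.data F).sum_X χ
    rw [← (SL2.data F).cf_eq_n ⟨χ, hχ⟩ 0]
    exact h1
  rw [sum_eq, hs, e1, e2, e3, e4, hd, e0]
  simp only [Nat.cast_inj]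
  simp only [SL2.ty, SL2.tys, Finset.mem_insert, Finset.mem_singleton, Prod.mk.injEq] at ht ⊢
  rcases ht with ⟨a1, a2, a3⟩ | ⟨a1, a2, a3⟩ | ⟨a1, a2, a3⟩ | ⟨a1, a2, a3⟩ | ⟨a1, a2, a3⟩ |
    ⟨a1, a2, a3⟩ | ⟨a1, a2, a3⟩ | ⟨a1, a2, a3⟩ <;> rw [a1, a2, a3] <;>
    refine ⟨fun hh => ?_, fun hh => ?_, fun hh => ?_, fun hh => ?_, fun hh => ?_⟩ <;>
    first
    | (exfalso; omega)
    | (push_cast; ring)

end Cfsg.Agent.S2438
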