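import Cfsg.Statements.S2441
import Cfsg.Agent.H143.ChevBlocks

set_option autoImplicit false
open Cfsg

namespace Cfsg.Agent.S2441

/-- For a prime p, the Chevalley groups of types G₂, F₄ and E₈ over the field with p elements (types for which the simply connected and adjoint groups coincide, so the group has trivial centre) each have exactly two p-blocks relative to any maximal ideal of the algebraic integers containing p (only the count is asserted; it arises as the defect-zero block of the Steinberg character plus a single block of maximal defect). -/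
theorem result (p : ℕ) [Fact p.Prime] (M : Ideal Cfsg.AlgInt) (hM : Cfsg.IsPModular p M) :
    Nat.card {B : Set (Cfsg.IrrCharacter (Cfsg.Lie.chevG2.group (ZMod p))) // Cfsg.IsPBlock M B} = 2 ∧
    Nat.card {B : Set (Cfsg.IrrCharacter (Cfsg.Lie.chevF4.group (ZMod p))) // Cfsg.IsPBlock M B} = 2 ∧
    Nat.card {B : Set (Cfsg.IrrCharacter (Cfsg.Lie.chevE8.group (ZMod p))) // Cfsg.IsPBlock M B} = 2 := by
  refine ⟨?_, ?_, ?_⟩
  · exact H143.ChevBlocks.card_blocks (D := Lie.chevG2) (l := 2) (M := CoxeterMatrix.G₂)
      (by simp [Nodes.RGDChev.IsType, Nodes.RGDChev.typeList]) p (by norm_num)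
      H143.ChevBlocks.conn_G2 hM
  · exact H143.ChevBlocks.card_blocks (D := Lie.chevF4) (l := 4) (M := CoxeterMatrix.F₄)
      (by simp [Nodes.RGDChev.IsType, Nodes.RGDChev.typeList]) p (by norm_num)
      H143.ChevBlocks.conn_F4 hM
  · exact H143.ChevBlocks.card_blocks (D := Lie.chevE8) (l := 8) (M := CoxeterMatrix.E₈)
      (by simp [Nodes.RGDChev.IsType, Nodes.RGDChev.typeList]) p (by norm_num)
      H143.ChevBlocks.conn_E8 hM

end Cfsg.Agent.S2441
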