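import Cfsg.Statements.S2442
import Cfsg.Agent.H139.Cusp.Main

set_option autoImplicit false
open scoped MatrixGroups
open Cfsg

namespace Cfsg.Agent.S2442

open Classical in
/-- Let F be a finite field with q elements and n ≥ 2. Call a complex character χ of GL_n over F cuspidal when, for every 0 < m < n, the sum of χ over the subgroup of matrices that agree with the identity outside the upper right m × (n − m) block vanishes (the restriction of χ to the unipotent radical of each maximal standard parabolic subgroup contains no principal constituent). Then GL_n has at least φ(qⁿ − 1)/n distinct cuspidal irreducible characters of degree (q − 1)(q² − 1)⋯(q^(n−1) − 1), φ being Euler's function (in particular at least one). -/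
theorem result {F : Type*} [Field F] [Fintype F] [DecidableEq F] (n : ℕ) (hn : 2 ≤ n) :
    Nat.totient (Fintype.card F ^ n - 1) / n ≤
      Nat.card {χ : Cfsg.IrrCharacter (GL (Fin n) F) //
        (χ : GL (Fin n) F → ℂ) 1 = ∏ i ∈ Finset.Ico 1 n, ((Fintype.card F : ℂ) ^ i - 1) ∧
        ∀ m : ℕ, 0 < m → m < n →
          (∑ g : GL (Fin n) F,
            if (∀ i j : Fin n, ¬ (i.val < m ∧ m ≤ j.val) → (g : Matrix (Fin n) (Fin n) F) i j = (1 : Matrix (Fin n) (Fin n) F) i j)
            then (χ : GL (Fin n) F → ℂ) g else 0) = 0} := by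
  rw [← Nat.card_eq_fintype_card (α := F)]
  obtain ⟨χ, h1, h2, h3⟩ := H139.Cusp.exists_family F n hn
  have hq : 2 ≤ Nat.card F := Finite.one_lt_card
  have hM1 : 1 < Nat.card F ^ n - 1 := by
    have := H139.Cusp.lt_pow_sub_one hq hn (i := 0) (by omega)
    rwa [pow_zero] at this
  have hM : NeZero (Nat.card F ^ n - 1) := ⟨by omega⟩
  have hfin : Finite (Cfsg.IrrCharacter (GL (Fin n) F)) := Characters.Core.finite_irr
  refine Nat.div_le_of_le_mul ?_
  rw [← ZMod.card_units_eq_totient]
  let P : Cfsg.IrrCharacter (GL (Fin n) F) → Prop := fun χ =>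
        (χ : GL (Fin n) F → ℂ) 1 = ∏ i ∈ Finset.Ico 1 n, ((Nat.card F : ℂ) ^ i - 1) ∧
        ∀ m : ℕ, 0 < m → m < n →
          (∑ g : GL (Fin n) F,
            if (∀ i j : Fin n, ¬ (i.val < m ∧ m ≤ j.val) → (g : Matrix (Fin n) (Fin n) F) i j = (1 : Matrix (Fin n) (Fin n) F) i j)
            then (χ : GL (Fin n) F → ℂ) g else 0) = 0
  change Fintype.card _ ≤ n * Nat.card {χ // P χ}
  have hft : Fintype {χ // P χ} := Fintype.ofFinite _
  let f : (ZMod (Nat.card F ^ n - 1))ˣ → {χ // P χ} := fun a => ⟨χ a, h1 a, h2 a⟩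
  rw [Nat.card_eq_fintype_card (α := {χ // P χ}), ← Finset.card_univ, ← Finset.card_univ]
  refine Finset.card_le_mul_card_image_of_maps_to (f := f)
    (fun a _ => Finset.mem_univ _) n fun c _ => ?_
  by_cases hne : (Finset.univ.filter fun a : (ZMod (Nat.card F ^ n - 1))ˣ => f a = c).Nonempty
  · obtain ⟨a₀, ha₀⟩ := hne
    have ha₀' := (Finset.mem_filter.1 ha₀).2
    have hinj : Function.Injective (fun u : (ZMod (Nat.card F ^ n - 1))ˣ => (u : ZMod (Nat.card F ^ n - 1))) :=
      fun u v h => Units.ext h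
    rw [← Finset.card_image_of_injective _ hinj]
    refine (Finset.card_le_card (t := (Finset.range n).image fun k =>
      (a₀ : ZMod (Nat.card F ^ n - 1)) * (Nat.card F : ZMod (Nat.card F ^ n - 1)) ^ k) ?_).trans
      (Finset.card_image_le.trans (Finset.card_range n).le)
    intro x hx
    obtain ⟨b, hb, rfl⟩ := Finset.mem_image.1 hx
    have hb' := (Finset.mem_filter.1 hb).2
    obtain ⟨k, hk, hk'⟩ := h3 a₀ b (congrArg Subtype.val (ha₀'.trans hb'.symm))
    exact Finset.mem_image.2 ⟨k, Finset.mem_range.2 hk, hk'.symm⟩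
  · rw [Finset.not_nonempty_iff_eq_empty.1 hne, Finset.card_empty]
    exact Nat.zero_le _

end Cfsg.Agent.S2442
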