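import Cfsg.Statements.S2531
-- import your own Cfsg.Agent.* helpers here
import Mathlib

set_option autoImplicit false
open Cfsg

namespace Cfsg.Agent.S2531

open Equiv Module

/-- The abstract double count. -/
theorem sum_card {P : Type*} [Fintype P] [DecidableEq P] (S : Finset (Perm P))
    (hS : ∀ a b c d : P, a ≠ b → c ≠ d → ∃! s, s ∈ S ∧ s a = c ∧ s b = d)
    (c : P) (k : Finset P) (hc : c ∉ k) :
    ∑ s ∈ S.filter (fun s => s c = c), (k.filter (fun d => s d ∈ k)).card = k.card * k.card := by
  have h1 : ∀ s ∈ S.filter (fun s => s c = c), (k.filter (fun d => s d ∈ k)).card =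
      ∑ d ∈ k, ∑ b ∈ k, if s d = b then 1 else 0 := by
    intro s _
    rw [Finset.card_filter]
    refine Finset.sum_congr rfl fun d _ => ?_
    simp
  rw [Finset.sum_congr rfl h1, Finset.sum_comm]
  have h2 : ∀ d ∈ k, (∑ s ∈ S.filter (fun s => s c = c), ∑ b ∈ k, if s d = b then 1 else 0)
      = k.card := by
    intro d hd
    rw [Finset.sum_comm]
    have h3 : ∀ b ∈ k, (∑ s ∈ S.filter (fun s => s c = c), if s d = b then 1 else 0) = 1 := by
      intro b hb
      rw [← Finset.card_filter, Finset.card_eq_one]
      obtain ⟨s, hs, hu⟩ := hS c d c b (fun h => hc (h ▸ hd)) (fun h => hc (h ▸ hb))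
      refine ⟨s, ?_⟩
      ext t
      simp only [Finset.mem_filter, Finset.mem_singleton]
      constructor
      · rintro ⟨⟨h1, h2⟩, h3⟩
        exact hu t ⟨h1, h2, h3⟩
      · rintro rfl
        exact ⟨⟨hs.1, hs.2.1⟩, hs.2.2⟩
    rw [Finset.sum_congr rfl h3]
    simp
  rw [Finset.sum_congr rfl h2]
  simp

theorem card_stab {P : Type*} [Fintype P] [DecidableEq P] (S : Finset (Perm P))
    (hS : ∀ a b c d : P, a ≠ b → c ≠ d → ∃! s, s ∈ S ∧ s a = c ∧ s b = d)
    (c d : P) (hd : c ≠ d) :
    (S.filter (fun s => s c = c)).card + 1 = Fintype.card P := by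
  have h1 : (S.filter (fun s => s c = c)).card = (Finset.univ.erase c).card := by
    refine Finset.card_bij (fun s _ => s d) ?_ ?_ ?_
    · intro s hs
      simp only [Finset.mem_filter] at hs
      simp only [Finset.mem_erase, Finset.mem_univ, and_true]
      intro h
      have : s c = s d := by rw [hs.2, h]
      exact hd (s.injective this)
    · intro s hs t ht hst
      simp only [Finset.mem_filter] at hs ht
      have hne : c ≠ s d := by
        intro h
        have : s c = s d := by rw [hs.2, h]
        exact hd (s.injective this)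
      obtain ⟨u, _, huu⟩ := hS c d c (s d) hd hne
      rw [huu s ⟨hs.1, hs.2, rfl⟩, huu t ⟨ht.1, ht.2, hst.symm⟩]
    · intro b hb
      simp only [Finset.mem_erase, Finset.mem_univ, and_true] at hb
      obtain ⟨u, hu, _⟩ := hS c d c b hd hb.symm
      exact ⟨u, by simp [hu.1, hu.2.1], hu.2.2⟩
  rw [h1, Finset.card_erase_of_mem (Finset.mem_univ _), Finset.card_univ]
  have : 0 < Fintype.card P := Fintype.card_pos_iff.mpr ⟨c⟩
  omega

/-- The set of points of a subspace. -/
def pts {F V : Type*} [Field F] [AddCommGroup V] [Module F V] (W : Submodule F V) :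
    Set (Projectivization F V) := {x | x.submodule ≤ W}

theorem mk_mem_pts {F V : Type*} [Field F] [AddCommGroup V] [Module F V] (W : Submodule F V)
    (v : V) (hv : v ≠ 0) : Projectivization.mk F v hv ∈ pts W ↔ v ∈ W := by
  simp [pts, Projectivization.submodule_mk, Submodule.span_singleton_le_iff_mem]

theorem card_pts {F V : Type*} [Field F] [Finite F] [AddCommGroup V] [Module F V] [Finite V]
    (W : Submodule F V) : Nat.card W = Nat.card (pts W) * (Nat.card F - 1) + 1 := by
  have h : pts W = Set.range (Projectivization.map W.subtype W.injective_subtype) := by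
    ext x
    induction x using Projectivization.ind with
    | h v hv =>
    rw [mk_mem_pts]
    constructor
    · intro hvW
      refine ⟨Projectivization.mk F (⟨v, hvW⟩ : W) (by simpa using hv), ?_⟩
      rw [Projectivization.map_mk]
      rfl
    · rintro ⟨y, hy⟩
      induction y using Projectivization.ind with
      | h w hw =>
      rw [Projectivization.map_mk, Projectivization.mk_eq_mk_iff'] at hy
      obtain ⟨a, ha⟩ := hy
      -- a • v = w
      have hw' : (w : V) ∈ W := w.2
      have ha' : a • v = (w : V) := ha
      have ha0 : a ≠ 0 := by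
        rintro rfl
        apply hw
        apply Subtype.ext
        rw [← ha', zero_smul]
        rfl
      rw [← ha'] at hw'
      exact (Submodule.smul_mem_iff W ha0).mp hw'
  rw [h, Nat.card_range_of_injective (Projectivization.map_injective _ _)]
  exact Projectivization.card' F W

theorem card_inf {F V : Type*} [Field F] [Finite F] [AddCommGroup V] [Module F V] [Finite V]
    [FiniteDimensional F V]
    {m : ℕ} (hV : finrank F V = m + 2) (W W' : Submodule F V)
    (hW : Nat.card W = Nat.card F ^ (m + 1)) (hW' : Nat.card W' = Nat.card F ^ (m + 1))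
    (hne : W ≠ W') : Nat.card (W ⊓ W' : Submodule F V) = Nat.card F ^ m := by
  have hq : 1 < Nat.card F := Finite.one_lt_card
  have h1 : finrank F W = m + 1 := by
    rw [Module.natCard_eq_pow_finrank (K := F)] at hW
    exact Nat.pow_right_injective hq hW
  have h2 : finrank F W' = m + 1 := by
    rw [Module.natCard_eq_pow_finrank (K := F)] at hW'
    exact Nat.pow_right_injective hq hW'
  have h3 := Submodule.finrank_sup_add_finrank_inf_eq W W'
  have h4 : finrank F W < finrank F (W ⊔ W' : Submodule F V) := by
    apply Submodule.finrank_lt_finrank_of_lt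
    refine lt_of_le_of_ne le_sup_left ?_
    intro h
    apply hne
    have : W' ≤ W := by rw [h]; exact le_sup_right
    exact (Submodule.eq_of_le_of_finrank_eq this (by rw [h1, h2])).symm
  have h5 : finrank F (W ⊔ W' : Submodule F V) ≤ m + 2 := hV ▸ Submodule.finrank_le _
  rw [Module.natCard_eq_pow_finrank (K := F)]
  congr 1
  omega

theorem arith {q m K l N x : ℕ} (hq : 2 ≤ q) (hm : 1 ≤ m) (hK : q ^ (m + 1) = K * (q - 1) + 1)
    (hl : q ^ m = l * (q - 1) + 1) (hN : q ^ (m + 2) = N * (q - 1) + 1)
    (y : ℕ) (hxy : x + y + 1 = N) (h : l * y + K * x = K * K) : False := by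
  obtain ⟨r, rfl⟩ : ∃ r, q = r + 1 := ⟨q - 1, by omega⟩
  have hr : 0 < r := by omega
  simp only [Nat.add_sub_cancel] at hK hl hN
  have e1 : K = (r + 1) * l + 1 := by
    have : (r + 1) ^ (m + 1) = ((r + 1) * l + 1) * r + 1 := by
      rw [pow_succ, hl]; ring
    rw [hK] at this
    have := Nat.add_right_cancel this
    exact Nat.eq_of_mul_eq_mul_right hr this
  have e2 : N = (r + 1) * K + 1 := by
    have : (r + 1) ^ (m + 2) = ((r + 1) * K + 1) * r + 1 := by
      rw [pow_succ, hK]; ring
    rw [hN] at this
    have := Nat.add_right_cancel this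
    exact Nat.eq_of_mul_eq_mul_right hr this
  have e3 : K = l + (r + 1) ^ m := by
    rw [hl, e1]; ring
  have e4 : x + y = (r + 1) * K := by omega
  have e5 : K = (r + 1) ^ m * x := by
    -- l * y + K * x = K * K
    have h1 : l * y + K * x = l * (x + y) + (r + 1) ^ m * x := by
      rw [e3]; ring
    rw [h1, e4] at h
    have h2 : K * K = l * ((r + 1) * K) + K := by
      nth_rewrite 1 [e1]; ring
    rw [h2] at h
    exact (Nat.add_left_cancel h).symm
  have e6 : (r + 1) ∣ K := by
    rw [e5]
    exact Dvd.dvd.mul_right (dvd_pow_self _ (by omega)) _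
  rw [e1] at e6
  have e7 : (r + 1) ∣ 1 := (Nat.dvd_add_right (Dvd.intro _ rfl)).mp e6
  have := Nat.le_of_dvd one_pos e7
  omega

theorem main {F : Type*} [Field F] [Finite F]
    (n : ℕ) (hn : 3 ≤ n) (S : Set (Equiv.Perm (Projectivization F (Fin n → F))))
    (hS : ∀ s ∈ S, ∃ (σ : F ≃+* F) (f : (Fin n → F) →ₛₗ[(σ : F →+* F)] (Fin n → F)) (hf : Function.Injective f),
      ∀ x, s x = Projectivization.map f hf x)
    (h2 : ∀ a b c d : Projectivization F (Fin n → F), a ≠ b → c ≠ d →
        ∃! s, s ∈ S ∧ s a = c ∧ s b = d) : False := by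
  classical
  obtain ⟨m, rfl⟩ : ∃ m, n = m + 2 := ⟨n - 2, by omega⟩
  have hm : 1 ≤ m := by omega
  have : Finite (Projectivization F (Fin (m + 2) → F)) :=
    (Projectivization.finite_iff_of_finite F (Fin (m + 2) → F)).mpr inferInstance
  have : Fintype (Projectivization F (Fin (m + 2) → F)) := Fintype.ofFinite _
  have : Fintype (Equiv.Perm (Projectivization F (Fin (m + 2) → F))) := inferInstance
  set V := Fin (m + 2) → F with hVdef
  set q := Nat.card F with hqdef
  have hq : 1 < q := Finite.one_lt_card
  -- the hyperplane
  let W : Submodule F V := LinearMap.ker (LinearMap.proj (R := F) (φ := fun _ : Fin (m + 2) => F) 0)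
  have hWfin : finrank F W = m + 1 := by
    have h1 := LinearMap.finrank_range_add_finrank_ker
      (LinearMap.proj (R := F) (φ := fun _ : Fin (m + 2) => F) 0)
    have h3 : LinearMap.range (LinearMap.proj (R := F) (φ := fun _ : Fin (m + 2) => F) 0) = ⊤ :=
      LinearMap.range_eq_top.mpr (LinearMap.proj_surjective 0)
    rw [h3] at h1
    simp at h1
    have h4 : finrank F W = finrank F (LinearMap.ker (LinearMap.proj (R := F) (φ := fun _ : Fin (m + 2) => F) 0)) := rfl
    omega
  have hW : Nat.card W = q ^ (m + 1) := by
    rw [Module.natCard_eq_pow_finrank (K := F), hWfin]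
  let e0 : V := Pi.single 0 1
  have he0 : e0 ≠ 0 := by
    intro h
    have : e0 0 = (0 : F) := congrFun h 0
    simp [e0] at this
  let c : Projectivization F V := Projectivization.mk F e0 he0
  let k : Finset (Projectivization F V) := (pts W).toFinset
  have hc : c ∉ k := by
    simp only [k, Set.mem_toFinset, c]
    rw [mk_mem_pts]
    intro h
    have : e0 0 = 0 := h
    simp [e0] at this
  let S' : Finset (Perm (Projectivization F V)) := S.toFinset
  have hS' : ∀ a b c d : Projectivization F V, a ≠ b → c ≠ d →
      ∃! s, s ∈ S' ∧ s a = c ∧ s b = d := by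
    intro a b c d hab hcd
    simpa [S'] using h2 a b c d hab hcd
  have hcount := sum_card S' hS' c k hc
  -- numbers
  have hkcard : k.card = Nat.card (pts W) := by
    simp [k, Nat.card_eq_fintype_card, Set.toFinset_card]
  have hKeq : q ^ (m + 1) = k.card * (q - 1) + 1 := by
    rw [← hW, hkcard]; exact card_pts W
  have hkpos : 0 < k.card := by
    by_contra h0
    have : k.card = 0 := by omega
    rw [this] at hKeq
    have h5 : 1 < q ^ (m + 1) := Nat.one_lt_pow (by omega) hq
    omega
  obtain ⟨d, hd⟩ := Finset.card_pos.mp hkpos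
  have hstab := card_stab S' hS' c d (fun h => hc (h ▸ hd))
  have hNeq : q ^ (m + 2) = Fintype.card (Projectivization F V) * (q - 1) + 1 := by
    have h1 := Projectivization.card' F V
    rw [← Nat.card_eq_fintype_card, ← h1, Module.natCard_eq_pow_finrank (K := F), hqdef]
    simp [V]
  -- pick l
  have hterm : ∀ s ∈ S', (k.filter (fun d => s d ∈ k)).card = k.card ∨
      q ^ m = (k.filter (fun d => s d ∈ k)).card * (q - 1) + 1 := by
    intro s hs
    obtain ⟨σ, f, hf, hsf⟩ := hS s (by simpa [S'] using hs)
    have hfs : Function.Surjective f := Finite.injective_iff_surjective.mp hf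
    let W' : Submodule F V := W.comap f
    have hW' : Nat.card W' = q ^ (m + 1) := by
      rw [← hW]
      exact Nat.card_preimage_of_injective (f := f) (s := (W : Set V)) hf (fun y _ => hfs y)
    have hset : (k.filter (fun d => s d ∈ k)) = (pts (W ⊓ W')).toFinset := by
      ext x
      simp only [k, Finset.mem_filter, Set.mem_toFinset, hsf]
      induction x using Projectivization.ind with
      | h v hv =>
      rw [Projectivization.map_mk, mk_mem_pts, mk_mem_pts, mk_mem_pts]
      rfl
    by_cases hWW : W = W'
    · left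
      rw [hset, ← hWW, inf_idem]
    · right
      have h3 := card_inf (m := m) (by simp [V]) W W' hW hW' hWW
      rw [hset, ← h3, card_pts (W ⊓ W'), Set.toFinset_card, Nat.card_eq_fintype_card]
  obtain ⟨l, hl⟩ : ∃ l, q ^ m = l * (q - 1) + 1 := by
    have : (q - 1) ∣ q ^ m - 1 := by simpa using Nat.sub_dvd_pow_sub_pow q 1 m
    obtain ⟨l, hl⟩ := this
    refine ⟨l, ?_⟩
    have : 0 < q ^ m := pow_pos (by omega) m
    rw [mul_comm l, ← hl]
    omega
  have hterm' : ∀ s ∈ S'.filter (fun s => s c = c), (k.filter (fun d => s d ∈ k)).card =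
      if (k.filter (fun d => s d ∈ k)).card = k.card then k.card else l := by
    intro s hs
    rcases hterm s (Finset.mem_filter.mp hs).1 with h | h
    · rw [if_pos h, h]
    · split_ifs with h'
      · exact h'
      · rw [hl] at h
        exact (Nat.eq_of_mul_eq_mul_right (by omega) (Nat.add_right_cancel h)).symm
  rw [Finset.sum_congr rfl hterm', Finset.sum_ite, Finset.sum_const, Finset.sum_const,
    smul_eq_mul, smul_eq_mul] at hcount
  have hsplit := Finset.card_filter_add_card_filter_not (s := S'.filter (fun s => s c = c))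
    (fun s => (k.filter (fun d => s d ∈ k)).card = k.card)
  refine arith (q := q) (m := m) (K := k.card) (l := l) (N := Fintype.card (Projectivization F V))
    (by omega) hm hKeq hl hNeq _ (by rw [hsplit]; exact hstab) ?_
  rw [← hcount]
  ring

/-- Let `F` be a finite field and `n ≥ 3`. No set of permutations of the points of the projective space of `Fⁿ`, each induced by an invertible semilinear transformation of `Fⁿ` (so a subset of the full projective semilinear group), is sharply 2-transitive on the points: it is impossible that for all pairs of distinct points `(a, b)` and `(c, d)` exactly one member of the set sends `a` to `c` and `b` to `d`. -/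
theorem result {F : Type*} [Field F] [Finite F]
    (n : ℕ) (hn : 3 ≤ n) (S : Set (Equiv.Perm (Projectivization F (Fin n → F))))
    (hS : ∀ s ∈ S, ∃ (σ : F ≃+* F) (f : (Fin n → F) →ₛₗ[(σ : F →+* F)] (Fin n → F)) (hf : Function.Injective f),
      ∀ x, s x = Projectivization.map f hf x) :
    ¬ (∀ a b c d : Projectivization F (Fin n → F), a ≠ b → c ≠ d →
        ∃! s, s ∈ S ∧ s a = c ∧ s b = d) := by
  exact fun h2 => main n hn S hS h2

end Cfsg.Agent.S2531
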