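import Cfsg.Statements.S2532
-- import your own Cfsg.Agent.* helpers here
import Mathlib

set_option autoImplicit false
open Cfsg

namespace Cfsg.Agent.S2532

open Equiv

/-- Any homomorphism from `Perm (Fin r)` to `Perm (Fin m)` maps even permutations to even ones. -/
theorem map_alternating_le {r m : ℕ} (Φ : Perm (Fin r) →* Perm (Fin m)) :
    (alternatingGroup (Fin r)).map Φ ≤ alternatingGroup (Fin m) := by
  rw [Subgroup.map_le_iff_le_comap, ← Equiv.Perm.closure_three_cycles_eq_alternating,
    Subgroup.closure_le]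
  intro σ hσ
  have h3 : σ ^ 3 = 1 := by
    have := pow_orderOf_eq_one σ
    rwa [Equiv.Perm.IsThreeCycle.orderOf hσ] at this
  have h4 : (Perm.sign (Φ σ)) ^ 3 = 1 := by
    rw [← map_pow, ← map_pow, h3, map_one, map_one]
  simp only [SetLike.mem_coe, Subgroup.mem_comap, Perm.mem_alternatingGroup]
  rcases Int.units_eq_one_or (Perm.sign (Φ σ)) with h | h
  · exact h
  · rw [h] at h4
    exact absurd h4 (by decide)

/-- The permutation of `X × Fin r` given by a permutation of the second factor. -/
def prodHom (X : Type*) (r : ℕ) : Perm (Fin r) →* Perm (X × Fin r) where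
  toFun σ := Equiv.prodCongr (Equiv.refl X) σ
  map_one' := by ext x <;> rfl
  map_mul' σ τ := by ext x <;> rfl

theorem main {m r : ℕ} (H : Subgroup ↥(alternatingGroup (Fin m)))
    (hm : Nat.card H * 2 ^ (Nat.card H) * r ≤ m) :
      ∃ K : Subgroup ↥(alternatingGroup (Fin m)), Nonempty (↥K ≃* ↥(alternatingGroup (Fin r))) ∧
        K ≤ Subgroup.centralizer (H : Set ↥(alternatingGroup (Fin m))) := by
  classical
  have hpos : 0 < Nat.card H := Nat.card_pos
  -- orbits
  let Q := MulAction.orbitRel.Quotient H (Fin m)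
  have : Fintype Q := Fintype.ofFinite _
  have hQ : m ≤ Nat.card H * Fintype.card Q := by
    have hsurj : Function.Surjective (fun p : H × Q => p.1 • (Quotient.out p.2 : Fin m)) := by
      intro y
      have h1 : (Quotient.out (Quotient.mk'' y : Q) : Fin m) ∈ MulAction.orbit H y := by
        exact MulAction.orbitRel_apply.mp (Quotient.mk_out (s := MulAction.orbitRel H (Fin m)) y)
      obtain ⟨g, hg⟩ := h1
      refine ⟨(g⁻¹, (Quotient.mk'' y : Q)), ?_⟩
      simp only
      rw [← hg]
      simp
    have := Nat.card_le_card_of_surjective _ hsurj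
    simpa [Nat.card_prod] using this
  -- subgroups
  have : Fintype (Subgroup H) := Fintype.ofFinite _
  have hS : Fintype.card (Subgroup H) ≤ 2 ^ Nat.card H := by
    have : Fintype H := Fintype.ofFinite _
    have h1 : Function.Injective (fun L : Subgroup H => (L : Set H)) := SetLike.coe_injective
    have h2 := Nat.card_le_card_of_injective _ h1
    rw [Nat.card_eq_fintype_card] at h2
    refine h2.trans (le_of_eq ?_)
    rw [Nat.card_eq_fintype_card, Fintype.card_set, Nat.card_eq_fintype_card]
  have hQ2 : Fintype.card (Subgroup H) * r ≤ Fintype.card Q := by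
    have h1 : Nat.card H * (2 ^ (Nat.card H) * r) ≤ Nat.card H * Fintype.card Q := by
      calc _ = Nat.card H * 2 ^ (Nat.card H) * r := by ring
        _ ≤ m := hm
        _ ≤ _ := hQ
    have h2 := Nat.le_of_mul_le_mul_left h1 hpos
    exact le_trans (Nat.mul_le_mul_right r hS) h2
  obtain ⟨L, hL⟩ := Fintype.exists_le_card_fiber_of_mul_le_card
    (fun q : Q => MulAction.stabilizer H (Quotient.out q : Fin m)) hQ2
  obtain ⟨T, hTsub, hTcard⟩ := Finset.exists_subset_card_eq hL
  let eT : Fin r ≃ T := (Fintype.equivFinOfCardEq (by simpa using hTcard)).symm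
  let x : Fin r → Fin m := fun i => Quotient.out ((eT i : Q))
  have hxL : ∀ i, MulAction.stabilizer H (x i) = L := by
    intro i
    have := hTsub (eT i).2
    simpa using this
  have hxorb : ∀ i j, ∀ h : H, h • x i = x j → i = j := by
    intro i j h hh
    have h1 : (Quotient.mk'' (x i) : Q) = Quotient.mk'' (x j) := by
      refine Quotient.sound ?_
      exact MulAction.orbitRel_apply.mpr ⟨h⁻¹, by simp [← hh]⟩
    have h2 : ∀ i, (Quotient.mk'' (x i) : Q) = eT i := fun i => Quotient.out_eq' _
    rw [h2, h2] at h1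
    exact eT.injective (Subtype.ext h1)
  -- the embedding
  let e0 : (H ⧸ L) × Fin r → Fin m := fun p =>
    Quotient.liftOn' p.1 (fun h => h • x p.2) (by
      intro a b hab
      rw [QuotientGroup.leftRel_apply] at hab
      have : a⁻¹ * b ∈ MulAction.stabilizer H (x p.2) := by rw [hxL]; exact hab
      rw [MulAction.mem_stabilizer_iff, mul_smul, inv_smul_eq_iff] at this
      exact this.symm)
  have he0 : ∀ (h : H) (i : Fin r), e0 ((h : H ⧸ L), i) = h • x i := fun h i => rfl
  have he0inj : Function.Injective e0 := by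
    rintro ⟨q, i⟩ ⟨q', j⟩ hq
    induction q using QuotientGroup.induction_on with
    | H a =>
    induction q' using QuotientGroup.induction_on with
    | H b =>
    rw [he0, he0] at hq
    have hij : i = j := by
      refine hxorb i j (b⁻¹ * a) ?_
      rw [mul_smul, hq, inv_smul_smul]
    subst hij
    have : a⁻¹ * b ∈ MulAction.stabilizer H (x i) := by
      rw [MulAction.mem_stabilizer_iff, mul_smul, ← hq, inv_smul_smul]
    rw [hxL] at this
    rw [QuotientGroup.eq.mpr this]
  let e : (H ⧸ L) × Fin r ↪ Fin m := ⟨e0, he0inj⟩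
  let Φ : Perm (Fin r) →* Perm (Fin m) := (Perm.viaEmbeddingHom e).comp (prodHom (H ⧸ L) r)
  have hΦin : ∀ σ (q : H ⧸ L) i, Φ σ (e (q, i)) = e (q, σ i) := by
    intro σ q i
    simp only [Φ, MonoidHom.comp_apply, Perm.viaEmbeddingHom_apply, Perm.viaEmbedding_apply]
    rfl
  have hΦout : ∀ σ y, y ∉ Set.range e → Φ σ y = y := by
    intro σ y hy
    simp only [Φ, MonoidHom.comp_apply, Perm.viaEmbeddingHom_apply]
    exact Perm.viaEmbedding_apply_of_notMem _ _ _ hy
  have hΦinj : Function.Injective Φ := by
    intro σ τ h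
    ext i
    have h1 := hΦin σ ((1 : H) : H ⧸ L) i
    have h2 := hΦin τ ((1 : H) : H ⧸ L) i
    rw [h] at h1
    rw [h1] at h2
    have := e.injective h2
    exact congrArg (fun p => (p.2 : ℕ)) this
  have hequiv : ∀ (h : H) (q : H ⧸ L) i, h • e (q, i) = e (h • q, i) := by
    intro h q i
    induction q using QuotientGroup.induction_on with
    | H a =>
    change h • (a • x i) = (h * a) • x i
    rw [mul_smul]
  have hcomm : ∀ (h : H) (σ : Perm (Fin r)) (y : Fin m), Φ σ (h • y) = h • (Φ σ y) := by
    intro h σ y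
    by_cases hy : y ∈ Set.range e
    · obtain ⟨⟨q, i⟩, rfl⟩ := hy
      rw [hequiv, hΦin, hΦin, hequiv]
    · have hy' : h • y ∉ Set.range e := by
        rintro ⟨⟨q, i⟩, hq⟩
        apply hy
        refine ⟨(h⁻¹ • q, i), ?_⟩
        rw [← hequiv, hq, inv_smul_smul]
      rw [hΦout _ _ hy, hΦout _ _ hy']
  let Ψ : ↥(alternatingGroup (Fin r)) →* ↥(alternatingGroup (Fin m)) :=
    (Φ.comp (alternatingGroup (Fin r)).subtype).codRestrict (alternatingGroup (Fin m))
      (fun σ => map_alternating_le Φ ⟨σ, σ.2, rfl⟩)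
  have hΨinj : Function.Injective Ψ := by
    intro σ τ h
    have h1 : Φ σ = Φ τ := congrArg Subtype.val h
    exact Subtype.ext (hΦinj h1)
  refine ⟨Ψ.range, ⟨(MonoidHom.ofInjective hΨinj).symm⟩, ?_⟩
  rintro _ ⟨σ, rfl⟩
  rw [Subgroup.mem_centralizer_iff]
  intro h hh
  apply Subtype.ext
  ext y
  have := hcomm ⟨h, hh⟩ σ y
  have h2 : (((h * Ψ σ : ↥(alternatingGroup (Fin m))) : Perm (Fin m)) y) = ((h : Perm (Fin m)) (Φ σ y)) := rfl
  have h3 : (((Ψ σ * h : ↥(alternatingGroup (Fin m))) : Perm (Fin m)) y) = (Φ σ ((h : Perm (Fin m)) y)) := rfl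
  rw [h2, h3]
  exact congrArg Fin.val this.symm

/-- There is a function `f` of two natural-number arguments such that, whenever `m ≥ f(n, r)`, every subgroup of order `n` of the alternating group of degree `m` centralizes some subgroup of that alternating group isomorphic to the alternating group of degree `r`. -/
theorem result :
    ∃ f : ℕ → ℕ → ℕ, ∀ (m r : ℕ) (H : Subgroup ↥(alternatingGroup (Fin m))), f (Nat.card H) r ≤ m →
      ∃ K : Subgroup ↥(alternatingGroup (Fin m)), Nonempty (↥K ≃* ↥(alternatingGroup (Fin r))) ∧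
        K ≤ Subgroup.centralizer (H : Set ↥(alternatingGroup (Fin m))) := by
  exact ⟨fun n r => n * 2 ^ n * r, fun m r H hm => main H hm⟩

end Cfsg.Agent.S2532
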