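import Cfsg.Statements.S2533
-- import your own Cfsg.Agent.* helpers here
import Mathlib

set_option autoImplicit false
open Cfsg

namespace Cfsg.Agent.S2533

open Matrix

/-- The generalized dihedral group over the elementary abelian group of order `p ^ 3`. -/
@[ext]
structure HH (p : ℕ) : Type where
  fst : Fin 3 → ZMod p
  snd : ℤˣ

/-- sign acting on a ring -/
def sg (R : Type*) [Ring R] (e : ℤˣ) : R := ((e : ℤ) : R)

theorem sg_mul {R : Type*} [Ring R] (e f : ℤˣ) : sg R (e * f) = sg R e * sg R f := by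
  simp [sg]

theorem sg_one {R : Type*} [Ring R] : sg R 1 = 1 := by simp [sg]

theorem sg_mul_self {R : Type*} [Ring R] (e : ℤˣ) : sg R e * sg R e = 1 := by
  rw [← sg_mul]
  rcases Int.units_eq_one_or e with rfl | rfl <;> simp [sg]

/-- group structure -/
instance groupHH (p : ℕ) : Group (HH p) :=
  letI : Mul (HH p) := ⟨fun x y => ⟨x.1 + sg (ZMod p) x.2 • y.1, x.2 * y.2⟩⟩
  letI : One (HH p) := ⟨⟨0, 1⟩⟩
  letI : Inv (HH p) := ⟨fun x => ⟨-(sg (ZMod p) x.2 • x.1), x.2⁻¹⟩⟩
  Group.ofLeftAxioms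
    (by
      intro x y z
      refine HH.ext ?_ ?_
      · change (x.1 + sg (ZMod p) x.2 • y.1) + sg (ZMod p) (x.2 * y.2) • z.1
          = x.1 + sg (ZMod p) x.2 • (y.1 + sg (ZMod p) y.2 • z.1)
        rw [sg_mul, smul_add, mul_smul, add_assoc]
      · exact mul_assoc x.2 y.2 z.2)
    (by
      intro x
      refine HH.ext ?_ ?_
      · change 0 + sg (ZMod p) 1 • x.1 = x.1
        rw [sg_one, one_smul, zero_add]
      · exact one_mul x.2)
    (by
      intro x
      refine HH.ext ?_ ?_
      · change (-(sg (ZMod p) x.2 • x.1)) + sg (ZMod p) (x.2⁻¹) • x.1 = 0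
        rw [Int.units_inv_eq_self, neg_add_cancel]
      · exact inv_mul_cancel x.2)

theorem mul_def' {p : ℕ} (x y : HH p) : x * y = ⟨x.1 + sg (ZMod p) x.2 • y.1, x.2 * y.2⟩ := rfl

theorem one_def' {p : ℕ} : (1 : HH p) = ⟨0, 1⟩ := rfl

def equivHH (p : ℕ) : HH p ≃ (Fin 3 → ZMod p) × ℤˣ where
  toFun x := (x.1, x.2)
  invFun x := ⟨x.1, x.2⟩
  left_inv _ := rfl
  right_inv _ := rfl

theorem card_HH (p : ℕ) [Fact p.Prime] : Nat.card (HH p) = 2 * p ^ 3 := by
  rw [Nat.card_congr (equivHH p), Nat.card_prod, Nat.card_eq_fintype_card,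
    Nat.card_eq_fintype_card]
  simp [ZMod.card, mul_comm]

section

variable (p m : ℕ)

/-- The lower left block. -/
def NN (x : Fin 3 → ZMod p) : Matrix (Fin (m + 1)) (Fin m) (ZMod p) :=
  fun i j => (if i = j.castSucc then x 0 else 0) + (if i = j.succ then x 1 else 0)
    + (if i = Fin.last m ∧ (j : ℕ) = 0 then x 2 else 0)

theorem NN_add (x y : Fin 3 → ZMod p) : NN p m (x + y) = NN p m x + NN p m y := by
  ext i j
  simp only [NN, Matrix.add_apply, Pi.add_apply]
  split_ifs <;> ring

theorem NN_smul (c : ZMod p) (x : Fin 3 → ZMod p) : NN p m (c • x) = c • NN p m x := by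
  ext i j
  simp only [NN, Matrix.smul_apply, Pi.smul_apply, smul_eq_mul]
  split_ifs <;> ring

/-- The matrix representation -/
def rep : HH p →* Matrix (Fin m ⊕ Fin (m + 1)) (Fin m ⊕ Fin (m + 1)) (ZMod p) where
  toFun x := fromBlocks 1 0 (NN p m x.1) (sg (ZMod p) x.2 • 1)
  map_one' := by
    rw [one_def']
    have : NN p m 0 = 0 := by
      have := NN_smul p m 0 0
      simpa using this
    simp only [this, sg_one, one_smul, fromBlocks_one]
  map_mul' x y := by
    simp only [mul_def', fromBlocks_multiply, NN_add, NN_smul, sg_mul]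
    congr 1 <;> simp [smul_smul, mul_comm]

theorem rep_apply (x : HH p) :
    rep p m x = fromBlocks 1 0 (NN p m x.1) (sg (ZMod p) x.2 • 1) := rfl

theorem det_rep (hm : Odd m) (x : HH p) : (rep p m x).det = 1 := by
  rw [rep_apply, det_fromBlocks_zero₁₂, det_one, one_mul, det_smul, det_one, mul_one,
    Fintype.card_fin]
  obtain ⟨k, rfl⟩ := hm
  have : 2 * k + 1 + 1 = 2 * (k + 1) := by ring
  rw [this, pow_mul, pow_two, sg_mul_self, one_pow]

theorem trace_rep (x : Fin 3 → ZMod p) : (rep p m (⟨x, -1⟩ : HH p)).trace = -1 := by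
  rw [rep_apply, Matrix.trace, Fintype.sum_sum_type]
  simp [sg]

theorem commute_rep [Fact p.Prime] (hp : p ≠ 2)
    (g : Matrix (Fin m ⊕ Fin (m + 1)) (Fin m ⊕ Fin (m + 1)) (ZMod p))
    (hg : ∀ x : Fin 3 → ZMod p, g * rep p m (⟨x, -1⟩ : HH p) = rep p m (⟨x, -1⟩ : HH p) * g) :
    ∃ c : ZMod p, g = c • 1 := by
  have h2 : (2 : ZMod p) ≠ 0 := by
    have : ((2 : ℕ) : ZMod p) ≠ 0 := by
      rw [Ne, ZMod.natCast_eq_zero_iff]
      intro h
      have := (Nat.prime_dvd_prime_iff_eq Fact.out Nat.prime_two).mp h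
      exact hp this
    exact_mod_cast this
  obtain ⟨a, b, c, d, rfl⟩ : ∃ a b c d, g = fromBlocks a b c d :=
    ⟨_, _, _, _, (fromBlocks_toBlocks g).symm⟩
  have h1 : ∀ x, fromBlocks a b c d * rep p m (⟨x, -1⟩ : HH p) =
      fromBlocks (a + b * NN p m x) (-b) (c + d * NN p m x) (-d) := by
    intro x
    rw [rep_apply, fromBlocks_multiply]
    congr 1 <;> simp [sg]
  have h1' : ∀ x, rep p m (⟨x, -1⟩ : HH p) * fromBlocks a b c d =
      fromBlocks a b (NN p m x * a - c) (NN p m x * b - d) := by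
    intro x
    rw [rep_apply, fromBlocks_multiply]
    congr 1 <;> simp [sg, sub_eq_add_neg]
  have h3 : ∀ x, -b = b ∧ c + d * NN p m x = NN p m x * a - c := by
    intro x
    have := hg x
    rw [h1, h1', fromBlocks_inj] at this
    exact ⟨this.2.1, this.2.2.1⟩
  have hN0 : NN p m 0 = 0 := by
    have := NN_smul p m 0 0
    simpa using this
  have hb : b = 0 := by
    have h4 := (h3 0).1
    ext i j
    have h5 : -(b i j) = b i j := congrFun (congrFun h4 i) j
    have h6 : 2 * b i j = 0 := by linear_combination (-1 : ZMod p) * h5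
    simpa [h2] using h6
  have hc : c = 0 := by
    have h4 := (h3 0).2
    rw [hN0] at h4
    simp only [Matrix.mul_zero, Matrix.zero_mul, add_zero, zero_sub] at h4
    ext i j
    have h5 : (c i j) = -c i j := congrFun (congrFun h4 i) j
    have h6 : 2 * c i j = 0 := by linear_combination h5
    simpa [h2] using h6
  subst hb hc
  have h4 : ∀ x, d * NN p m x = NN p m x * a := by
    intro x
    simpa using (h3 x).2
  -- entries
  have hA : ∀ i j, NN p m ![1, 0, 0] i j = if i = j.castSucc then 1 else 0 := by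
    intro i j
    simp [NN]
  have hB : ∀ i j, NN p m ![0, 1, 0] i j = if i = j.succ then 1 else 0 := by
    intro i j
    simp [NN]
  have e1 : ∀ i j, d (Fin.castSucc i) (Fin.castSucc j) = a i j := by
    intro i j
    have := congrFun (congrFun (h4 ![1, 0, 0]) i.castSucc) j
    simpa [Matrix.mul_apply, hA] using this
  have e2 : ∀ j : Fin m, d (Fin.last m) (Fin.castSucc j) = 0 := by
    intro j
    have := congrFun (congrFun (h4 ![1, 0, 0]) (Fin.last m)) j
    simpa [Matrix.mul_apply, hA, (Fin.castSucc_ne_last _).symm] using this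
  have e3 : ∀ i j, d (Fin.succ i) (Fin.succ j) = a i j := by
    intro i j
    have := congrFun (congrFun (h4 ![0, 1, 0]) i.succ) j
    simpa [Matrix.mul_apply, hB] using this
  have e4 : ∀ j : Fin m, d 0 (Fin.succ j) = 0 := by
    intro j
    have := congrFun (congrFun (h4 ![0, 1, 0]) 0) j
    simpa [Matrix.mul_apply, hB, Fin.succ_ne_zero, (Fin.succ_ne_zero _).symm] using this
  have up : ∀ (i k : ℕ) (hk : i + k + 1 < m + 1),
      d ⟨i, by omega⟩ ⟨i + k + 1, hk⟩ = 0 := by
    intro i
    induction i with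
    | zero =>
      intro k hk
      have := e4 ⟨k, by omega⟩
      simpa [Fin.succ] using this
    | succ i ih =>
      intro k hk
      have h5 := ih k (by omega)
      have h6 := e1 ⟨i, by omega⟩ ⟨i + k + 1, by omega⟩
      have h7 := e3 ⟨i, by omega⟩ ⟨i + k + 1, by omega⟩
      have h8 : d ⟨i + 1, by omega⟩ ⟨i + k + 1 + 1, by omega⟩ = 0 := by
        have h9 : d ⟨i + 1, by omega⟩ ⟨i + k + 1 + 1, by omega⟩ = a ⟨i, by omega⟩ ⟨i + k + 1, by omega⟩ := h7
        have h10 : d ⟨i, by omega⟩ ⟨i + k + 1, by omega⟩ = a ⟨i, by omega⟩ ⟨i + k + 1, by omega⟩ := h6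
        rw [h9, ← h10, h5]
      have h11 : (⟨i + 1 + k + 1, hk⟩ : Fin (m + 1)) = ⟨i + k + 1 + 1, by omega⟩ := by
        apply Fin.ext; simp only; omega
      rw [h11]; exact h8
  have dn : ∀ (t i k : ℕ) (hk : i + k + 1 + t = m),
      d ⟨i + k + 1, by omega⟩ ⟨i, by omega⟩ = 0 := by
    intro t
    induction t with
    | zero =>
      intro i k hk
      have := e2 ⟨i, by omega⟩
      have h11 : (⟨i + k + 1, by omega⟩ : Fin (m + 1)) = Fin.last m := by
        apply Fin.ext; simp only [Fin.val_last]; omega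
      rw [h11]; exact this
    | succ t ih =>
      intro i k hk
      have h5 := ih (i + 1) k (by omega)
      have h6 := e1 ⟨i + k + 1, by omega⟩ ⟨i, by omega⟩
      have h7 := e3 ⟨i + k + 1, by omega⟩ ⟨i, by omega⟩
      have h9 : d ⟨i + k + 1 + 1, by omega⟩ ⟨i + 1, by omega⟩ = a ⟨i + k + 1, by omega⟩ ⟨i, by omega⟩ := h7
      have h10 : d ⟨i + k + 1, by omega⟩ ⟨i, by omega⟩ = a ⟨i + k + 1, by omega⟩ ⟨i, by omega⟩ := h6
      have h11 : (⟨i + 1 + k + 1, by omega⟩ : Fin (m + 1)) = ⟨i + k + 1 + 1, by omega⟩ := by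
        apply Fin.ext; simp only; omega
      rw [h10, ← h9, ← h11, h5]
  have dg : ∀ (i : ℕ) (hi : i < m + 1), d ⟨i, hi⟩ ⟨i, hi⟩ = d 0 0 := by
    intro i
    induction i with
    | zero => intro hi; rfl
    | succ i ih =>
      intro hi
      have h5 := ih (by omega)
      have h6 : d ⟨i, by omega⟩ ⟨i, by omega⟩ = a ⟨i, by omega⟩ ⟨i, by omega⟩ :=
        e1 ⟨i, by omega⟩ ⟨i, by omega⟩
      have h7 : d ⟨i + 1, by omega⟩ ⟨i + 1, by omega⟩ = a ⟨i, by omega⟩ ⟨i, by omega⟩ :=
        e3 ⟨i, by omega⟩ ⟨i, by omega⟩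
      rw [h7, ← h6, h5]
  have hd : d = (d 0 0) • 1 := by
    ext i j
    rw [Matrix.smul_apply, Matrix.one_apply]
    rcases lt_trichotomy (i : ℕ) (j : ℕ) with h | h | h
    · rw [if_neg (fun h' => by rw [h'] at h; exact lt_irrefl _ h)]
      have h5 := up i (j - i - 1) (by have := j.2; omega)
      have h6 : (⟨(i : ℕ) + (j - i - 1) + 1, by have := j.2; omega⟩ : Fin (m + 1)) = j := by
        apply Fin.ext; simp only; omega
      rw [h6] at h5
      simpa using h5
    · have h6 : i = j := Fin.ext h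
      subst h6
      simpa using dg i i.2
    · rw [if_neg (fun h' => by rw [h'] at h; exact lt_irrefl _ h)]
      have h5 := dn (m - i) j (i - j - 1) (by have := i.2; omega)
      have h6 : (⟨(j : ℕ) + (i - j - 1) + 1, by have := i.2; omega⟩ : Fin (m + 1)) = i := by
        apply Fin.ext; simp only; omega
      rw [h6] at h5
      simpa using h5
  have ha : a = (d 0 0) • 1 := by
    ext i j
    rw [← e1 i j, hd, Matrix.smul_apply, Matrix.smul_apply, Matrix.smul_apply, Matrix.one_apply,
      Matrix.one_apply, Matrix.one_apply]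
    simp
  refine ⟨d 0 0, ?_⟩
  rw [← fromBlocks_one, fromBlocks_smul, smul_zero, smul_zero, ← ha, ← hd]

end


theorem key {K : Type*} [Field K] {n : ℕ} {H : Type*} [Group H]
    (ρ : H →* Matrix (Fin n) (Fin n) K) (hdet : ∀ h, (ρ h).det = 1)
    (hinj : ∀ h (r : K), ρ h = r • 1 → h = 1)
    (T : Set H) (htr : ∀ h ∈ T, (ρ h).trace ≠ 0)
    (hcomm : ∀ g : Matrix (Fin n) (Fin n) K, (∀ h ∈ T, g * ρ h = ρ h * g) → ∃ c : K, g = c • 1) :
    ∃ φ : H →* Matrix.ProjectiveSpecialLinearGroup (Fin n) K,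
        Function.Injective φ ∧ Subgroup.centralizer
          (φ.range : Set (Matrix.ProjectiveSpecialLinearGroup (Fin n) K)) = ⊥ := by
  let ρ' : H →* Matrix.SpecialLinearGroup (Fin n) K :=
    { toFun := fun h => ⟨ρ h, hdet h⟩
      map_one' := Subtype.ext (map_one ρ)
      map_mul' := fun x y => Subtype.ext (map_mul ρ x y) }
  have hρ' : ∀ h, ((ρ' h : Matrix.SpecialLinearGroup (Fin n) K) : Matrix (Fin n) (Fin n) K) = ρ h :=
    fun h => rfl
  refine ⟨(QuotientGroup.mk' _).comp ρ', ?_, ?_⟩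
  · rw [injective_iff_map_eq_one]
    intro h hh
    have h1 : ρ' h ∈ Subgroup.center (Matrix.SpecialLinearGroup (Fin n) K) := by
      rw [← QuotientGroup.eq_one_iff]; exact hh
    rw [Matrix.SpecialLinearGroup.mem_center_iff] at h1
    obtain ⟨r, _, hr⟩ := h1
    refine hinj h r ?_
    rw [← hρ', ← hr, Matrix.scalar_apply, Matrix.smul_one_eq_diagonal]
  · rw [eq_bot_iff]
    intro x hx
    obtain ⟨g, rfl⟩ := QuotientGroup.mk_surjective x
    rw [Subgroup.mem_centralizer_iff] at hx
    have h1 : ∀ h : H, ∃ r : K, (g : Matrix (Fin n) (Fin n) K) * ρ h = r • (ρ h * g) := by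
      intro h
      have h2 := hx ((QuotientGroup.mk' _).comp ρ' h) ⟨h, rfl⟩
      have h3 : ((ρ' h * g : Matrix.SpecialLinearGroup (Fin n) K) :
          Matrix.ProjectiveSpecialLinearGroup (Fin n) K) =
          ((g * ρ' h : Matrix.SpecialLinearGroup (Fin n) K) :
            Matrix.ProjectiveSpecialLinearGroup (Fin n) K) := h2
      rw [QuotientGroup.eq, Matrix.SpecialLinearGroup.mem_center_iff] at h3
      obtain ⟨r, _, hr⟩ := h3
      refine ⟨r, ?_⟩
      have h4 : g * ρ' h = (ρ' h * g) * ((ρ' h * g)⁻¹ * (g * ρ' h)) := by group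
      have h5 : ((g * ρ' h : Matrix.SpecialLinearGroup (Fin n) K) : Matrix (Fin n) (Fin n) K) =
          (((ρ' h * g) * ((ρ' h * g)⁻¹ * (g * ρ' h)) : Matrix.SpecialLinearGroup (Fin n) K) :
            Matrix (Fin n) (Fin n) K) := congrArg _ h4
      rw [Matrix.SpecialLinearGroup.coe_mul (ρ' h * g), ← hr, Matrix.SpecialLinearGroup.coe_mul,
        Matrix.SpecialLinearGroup.coe_mul, hρ', Matrix.scalar_apply,
        ← Matrix.smul_one_eq_diagonal, Matrix.mul_smul, Matrix.mul_one] at h5
      exact h5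
    have h2 : ∀ h ∈ T, (g : Matrix (Fin n) (Fin n) K) * ρ h = ρ h * g := by
      intro h hT
      obtain ⟨r, hr⟩ := h1 h
      have hgg : (g : Matrix (Fin n) (Fin n) K) * ((g⁻¹ : Matrix.SpecialLinearGroup (Fin n) K) :
          Matrix (Fin n) (Fin n) K) = 1 := by
        rw [← Matrix.SpecialLinearGroup.coe_mul, mul_inv_cancel, Matrix.SpecialLinearGroup.coe_one]
      have hgg' : ((g⁻¹ : Matrix.SpecialLinearGroup (Fin n) K) :
          Matrix (Fin n) (Fin n) K) * (g : Matrix (Fin n) (Fin n) K) = 1 := by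
        rw [← Matrix.SpecialLinearGroup.coe_mul, inv_mul_cancel, Matrix.SpecialLinearGroup.coe_one]
      have h3 : (g : Matrix (Fin n) (Fin n) K) * ρ h * ((g⁻¹ : Matrix.SpecialLinearGroup (Fin n) K) :
          Matrix (Fin n) (Fin n) K) = r • ρ h := by
        rw [hr, Matrix.smul_mul, Matrix.mul_assoc, hgg, Matrix.mul_one]
      have h4 := congrArg Matrix.trace h3
      rw [Matrix.trace_mul_comm, ← Matrix.mul_assoc, hgg', Matrix.one_mul, Matrix.trace_smul,
        smul_eq_mul] at h4
      have h5 : r = 1 := by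
        have := htr h hT
        exact mul_right_cancel₀ this (by rw [one_mul]; exact h4.symm)
      rw [hr, h5, one_smul]
    obtain ⟨c, hc⟩ := hcomm g h2
    rw [Subgroup.mem_bot, QuotientGroup.eq_one_iff, Subgroup.mem_center_iff]
    intro y
    apply Subtype.ext
    change (y : Matrix (Fin n) (Fin n) K) * g = g * y
    rw [hc]
    simp

theorem main (p : ℕ) [Fact p.Prime] (hp : p ≠ 2) (m : ℕ) (hm : Odd m) (hm2 : 2 ≤ m) :
    ∃ φ : HH p →* Matrix.ProjectiveSpecialLinearGroup (Fin (m + (m + 1))) (ZMod p),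
        Function.Injective φ ∧ Subgroup.centralizer
          (φ.range : Set (Matrix.ProjectiveSpecialLinearGroup (Fin (m + (m + 1))) (ZMod p))) = ⊥ := by
  let E := Matrix.reindexAlgEquiv (ZMod p) (ZMod p) (finSumFinEquiv (m := m) (n := m + 1))
  refine key (((E : _ ≃ₐ[ZMod p] _) : _ →* _).comp (rep p m)) ?_ ?_
    (Set.range fun x : Fin 3 → ZMod p => (⟨x, -1⟩ : HH p)) ?_ ?_
  · intro h
    change (E (rep p m h)).det = 1
    rw [Matrix.det_reindexAlgEquiv, det_rep p m hm]
  · intro h r hr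
    have h1 : E (rep p m h) = r • 1 := hr
    have h2 : rep p m h = r • 1 := by
      apply E.injective
      rw [h1, map_smul, map_one]
    rw [rep_apply, ← fromBlocks_one, fromBlocks_smul, fromBlocks_inj] at h2
    obtain ⟨h3, _, h4, h5⟩ := h2
    have hr1 : r = 1 := by
      have := congrFun (congrFun h3 ⟨0, by omega⟩) ⟨0, by omega⟩
      simpa using this.symm
    rw [smul_zero] at h4
    have hs : sg (ZMod p) h.snd = 1 := by
      have := congrFun (congrFun h5 ⟨0, by omega⟩) ⟨0, by omega⟩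
      simpa [hr1] using this
    have h0 : h.fst 0 = 0 := by
      have := congrFun (congrFun h4 ⟨0, by omega⟩) ⟨0, by omega⟩
      have hm0 : (0 : ℕ) ≠ m := by omega
      simpa [NN, Fin.ext_iff, hm0] using this
    have h1' : h.fst 1 = 0 := by
      have := congrFun (congrFun h4 ⟨1, by omega⟩) ⟨0, by omega⟩
      have hm0 : (1 : ℕ) ≠ m := by omega
      simpa [NN, Fin.ext_iff, hm0] using this
    have h2' : h.fst 2 = 0 := by
      have := congrFun (congrFun h4 (Fin.last m)) ⟨0, by omega⟩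
      have hm0 : m ≠ 0 := by omega
      have hm1 : m ≠ 1 := by omega
      simpa [NN, Fin.ext_iff, hm0, hm1] using this
    refine HH.ext ?_ ?_
    · change h.fst = 0
      ext i
      fin_cases i
      · exact h0
      · exact h1'
      · exact h2'
    · change h.snd = 1
      rcases Int.units_eq_one_or h.snd with h6 | h6
      · exact h6
      · exfalso
        rw [h6] at hs
        have h7 : (-1 : ZMod p) = 1 := by simpa [sg] using hs
        have h8 : (2 : ZMod p) = 0 := by linear_combination (-1 : ZMod p) * h7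
        have h9 : ((2 : ℕ) : ZMod p) = 0 := by exact_mod_cast h8
        rw [ZMod.natCast_eq_zero_iff] at h9
        exact hp ((Nat.prime_dvd_prime_iff_eq Fact.out Nat.prime_two).mp h9)
  · rintro _ ⟨x, rfl⟩
    change (E (rep p m ⟨x, -1⟩)).trace ≠ 0
    have h1 : (E (rep p m ⟨x, -1⟩)).trace = (rep p m ⟨x, -1⟩).trace := by
      rw [Matrix.trace, Matrix.trace]
      refine (Equiv.sum_comp (finSumFinEquiv (m := m) (n := m + 1)).symm
        (fun i => (rep p m ⟨x, -1⟩).diag i))
    rw [h1, trace_rep]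
    simp
  · intro g hg
    have h1 : ∀ x : Fin 3 → ZMod p, E.symm g * rep p m (⟨x, -1⟩ : HH p) =
        rep p m (⟨x, -1⟩ : HH p) * E.symm g := by
      intro x
      apply E.injective
      rw [map_mul, map_mul, AlgEquiv.apply_symm_apply]
      exact hg _ ⟨x, rfl⟩
    obtain ⟨c, hc⟩ := commute_rep p m hp _ h1
    refine ⟨c, ?_⟩
    have h2 := congrArg E hc
    rw [AlgEquiv.apply_symm_apply, map_smul, map_one] at h2
    exact h2

/-- For every odd prime `p` there is a finite group `H` of order `2p³` which, for infinitely many `n`, embeds in the projective special linear group `PSL(n, p)` as a subgroup with trivial centralizer. -/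
theorem result
    (p : ℕ) [Fact p.Prime] (hp : p ≠ 2) :
    ∃ (H : Type) (_ : Group H) (_ : Finite H), Nat.card H = 2 * p ^ 3 ∧
      ∀ N : ℕ, ∃ n, N ≤ n ∧ ∃ φ : H →* Matrix.ProjectiveSpecialLinearGroup (Fin n) (ZMod p),
        Function.Injective φ ∧ Subgroup.centralizer (φ.range : Set (Matrix.ProjectiveSpecialLinearGroup (Fin n) (ZMod p))) = ⊥ := by
  refine ⟨HH p, groupHH p, ?_, card_HH p, fun N => ⟨(2 * N + 3) + (2 * N + 3 + 1), by omega,
    main p hp (2 * N + 3) ⟨N + 1, by ring⟩ (by omega)⟩⟩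
  have : Nat.card (HH p) ≠ 0 := by
    rw [card_HH p]
    have := (Fact.out : p.Prime).pos
    positivity
  exact Nat.finite_of_card_ne_zero this

end Cfsg.Agent.S2533
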