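import Cfsg.Statements.S2537
import Cfsg.Agent.S0799
import Cfsg.Agent.S0802
import Cfsg.Agent.S0803
import Cfsg.Agent.S0812
import Cfsg.Agent.S0265
import Cfsg.Agent.S0242
import Cfsg.Agent.ClassicalGeometry.PSLTorus
import Cfsg.Agent.ClassicalGeometry.PSL2Solvable
import Cfsg.Agent.OddOrderLocal.HallPi
import Cfsg.Agent.SmallSimple.PSLTwoPart

set_option autoImplicit false
open Cfsg

namespace Cfsg.Agent.S2537

open Cfsg.Agent.LieClassical.SLTwoUnipotent Cfsg.Agent.ClassicalGeometry.PSL2Basic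
open Cfsg.Agent.ClassicalGeometry.PSL2Solvable

section aux

variable {F : Type*} [Field F]

/-- The order of the Borel subgroup of `SL(2, F)` divides `q (q - 1)`. -/
theorem card_borel_dvd [Fintype F] :
    Nat.card (borel F) ∣ Fintype.card F * (Fintype.card F - 1) := by
  have hdet : ∀ c : borel F, (c : Matrix.SpecialLinearGroup (Fin 2) F) 0 0 *
      (c : Matrix.SpecialLinearGroup (Fin 2) F) 1 1 = 1 := by
    intro c
    have h1 : (c : Matrix.SpecialLinearGroup (Fin 2) F) 0 0 * (c : Matrix.SpecialLinearGroup (Fin 2) F) 1 1 -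
      (c : Matrix.SpecialLinearGroup (Fin 2) F) 0 1 * (c : Matrix.SpecialLinearGroup (Fin 2) F) 1 0 = 1 := by
      rw [← Matrix.det_fin_two, Matrix.SpecialLinearGroup.det_coe]
    rw [mem_borel_iff.mp c.2, mul_zero, sub_zero] at h1
    exact h1
  let g : borel F →* Fˣ :=
    { toFun := fun c => ⟨(c : Matrix.SpecialLinearGroup (Fin 2) F) 0 0,
        (c : Matrix.SpecialLinearGroup (Fin 2) F) 1 1, hdet c, by rw [mul_comm]; exact hdet c⟩
      map_one' := by
        apply Units.ext
        simp
      map_mul' := fun a b => by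
        apply Units.ext
        have hb := mem_borel_iff.mp b.2
        change ((a : Matrix.SpecialLinearGroup (Fin 2) F) * (b : Matrix.SpecialLinearGroup (Fin 2) F)) 0 0 = _
        rw [Matrix.SpecialLinearGroup.coe_mul, Matrix.mul_apply, Fin.sum_univ_two, hb, mul_zero, add_zero]
        rfl }
  have hker : g.ker.map (borel F).subtype = upperUnipSL F := by
    ext c
    constructor
    · rintro ⟨c, hc, rfl⟩
      have h1 : (c : Matrix.SpecialLinearGroup (Fin 2) F) 0 0 = 1 := congrArg Units.val hc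
      have h2 := hdet c
      rw [h1, one_mul] at h2
      have h3 := mem_borel_iff.mp c.2
      exact mem_upperUnipSL_iff.mpr ⟨h1, h3, h2⟩
    · intro hc
      obtain ⟨h1, h2, h3⟩ := mem_upperUnipSL_iff.mp hc
      refine ⟨⟨c, mem_borel_iff.mpr h2⟩, ?_, rfl⟩
      apply Units.ext
      exact h1
  have hk : Nat.card g.ker = Fintype.card F := by
    rw [← Subgroup.card_map_of_injective (K := g.ker) (borel F).subtype_injective, hker,
      card_upperUnipSL, Nat.card_eq_fintype_card]
  rw [← Subgroup.card_mul_index g.ker, hk, Subgroup.index_ker]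
  apply mul_dvd_mul_left
  have h1 := Subgroup.card_subgroup_dvd_card g.range
  rwa [Nat.card_units, Nat.card_eq_fintype_card (α := F)] at h1

/-- A solvable subgroup of index prime to the primes of `π` gives a Hall `π`-subgroup. -/
theorem exists_hall_of_solvable {G : Type*} [Group G] [Finite G] (π : Set ℕ) (K : Subgroup G)
    (hK : Group.IsSolvable K) (hi : ∀ p : ℕ, p.Prime → p ∈ π → ¬ p ∣ K.index) :
    ∃ H : Subgroup G, Cfsg.IsPiHall π H := by
  obtain ⟨H, hH⟩ := Cfsg.Agent.OddOrderLocal.HallPi.exists_isPiHallOf hK π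
  refine ⟨H, hH.2.1, ?_⟩
  intro p hp hpπ hd
  rw [← Subgroup.relIndex_mul_index hH.1] at hd
  rcases (Nat.Prime.dvd_mul hp).mp hd with h | h
  · exact hH.2.2 p hp hpπ h
  · exact hi p hp hpπ h

theorem prime_mem_iff {r : ℕ} (hr : r ∈ ({2, 3} : Set ℕ)) : r = 2 ∨ r = 3 := by
  simpa using hr

/-- From `2 ^ a * 3 ^ b = 24`. -/
theorem exps_24 {a b : ℕ} (h : 2 ^ a * 3 ^ b = 24) : a = 3 ∧ b = 1 := by
  have ha : a < 5 := by
    by_contra hc
    have h1 : 2 ^ 5 ≤ 2 ^ a := Nat.pow_le_pow_right (by norm_num) (by omega)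
    have h2 : 1 ≤ 3 ^ b := Nat.one_le_pow _ _ (by norm_num)
    nlinarith
  have hb : b < 3 := by
    by_contra hc
    have h1 : 3 ^ 3 ≤ 3 ^ b := Nat.pow_le_pow_right (by norm_num) (by omega)
    have h2 : 1 ≤ 2 ^ a := Nat.one_le_pow _ _ (by norm_num)
    nlinarith
  interval_cases a <;> interval_cases b <;> simp_all

theorem exps_48 {a b : ℕ} (h : 2 ^ a * 3 ^ b = 48) : a = 4 ∧ b = 1 := by
  have ha : a < 6 := by
    by_contra hc
    have h1 : 2 ^ 6 ≤ 2 ^ a := Nat.pow_le_pow_right (by norm_num) (by omega)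
    have h2 : 1 ≤ 3 ^ b := Nat.one_le_pow _ _ (by norm_num)
    nlinarith
  have hb : b < 4 := by
    by_contra hc
    have h1 : 3 ^ 4 ≤ 3 ^ b := Nat.pow_le_pow_right (by norm_num) (by omega)
    have h2 : 1 ≤ 2 ^ a := Nat.one_le_pow _ _ (by norm_num)
    nlinarith
  interval_cases a <;> interval_cases b <;> simp_all

/-- A number with prime divisors 2, 3 only. -/
theorem eq_two_three {h : ℕ} (h0 : h ≠ 0) (hp : ∀ p : ℕ, p.Prime → p ∣ h → p = 2 ∨ p = 3) :
    h = 2 ^ h.factorization 2 * 3 ^ h.factorization 3 := by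
  apply Nat.eq_of_factorization_eq h0 (by positivity)
  intro p
  rw [Nat.factorization_mul (by positivity) (by positivity),
    Nat.factorization_pow, Nat.factorization_pow]
  simp only [Finsupp.add_apply, Finsupp.smul_apply, smul_eq_mul]
  by_cases h2 : p = 2
  · subst h2
    rw [Nat.Prime.factorization_self Nat.prime_two,
      Nat.factorization_eq_zero_of_not_dvd (n := 3) (p := 2) (by norm_num)]
    simp
  · by_cases h3 : p = 3
    · subst h3
      rw [Nat.Prime.factorization_self Nat.prime_three,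
        Nat.factorization_eq_zero_of_not_dvd (n := 2) (p := 3) (by norm_num)]
      simp
    · by_cases hpp : p.Prime
      · rw [Nat.factorization_eq_zero_of_not_dvd (n := h) (p := p) (fun hd => by
          rcases hp p hpp hd with h | h <;> contradiction)]
        rw [Nat.factorization_eq_zero_of_not_dvd (n := 2) (p := p) (fun hd => by
            have := (Nat.prime_dvd_prime_iff_eq hpp Nat.prime_two).mp hd
            contradiction),
          Nat.factorization_eq_zero_of_not_dvd (n := 3) (p := p) (fun hd => by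
            have := (Nat.prime_dvd_prime_iff_eq hpp Nat.prime_three).mp hd
            contradiction)]
        simp
      · rw [Nat.factorization_eq_zero_of_not_prime _ hpp, Nat.factorization_eq_zero_of_not_prime _ hpp,
          Nat.factorization_eq_zero_of_not_prime _ hpp]
        simp

variable [Fintype F]

theorem twelve_dvd {q : ℕ} (h2 : q % 2 = 1) (h3 : ¬ 3 ∣ q) : 24 ∣ q ^ 2 - 1 := by
  obtain ⟨k, hk⟩ : ∃ k, q = 24 * k + q % 24 := ⟨q / 24, by omega⟩
  have hr : q % 24 < 24 := Nat.mod_lt _ (by norm_num)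
  generalize q % 24 = r at hk hr
  have h4 : r % 2 = 1 := by omega
  have h5 : ¬ 3 ∣ r := by omega
  have hq : q ^ 2 = 24 * (24 * k ^ 2 + 2 * k * r) + r ^ 2 := by rw [hk]; ring
  interval_cases r <;> omega

/-- The Hall subgroup exists in the torus cases and for `A₄`, `S₄`. -/
theorem easy (q : ℕ) (hq : Fintype.card F = q) (h2 : q % 2 = 1) (h3 : ¬ 3 ∣ q)
    (h : (3 ∣ q - 1 ∧ q % 4 = 1) ∨ (3 ∣ q + 1 ∧ q % 4 = 3) ∨
        2 ^ (q ^ 2 - 1).factorization 2 * 3 ^ (q ^ 2 - 1).factorization 3 = 24 ∨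
        2 ^ (q ^ 2 - 1).factorization 2 * 3 ^ (q ^ 2 - 1).factorization 3 = 48) :
    ∃ H : Subgroup (Matrix.ProjectiveSpecialLinearGroup (Fin 2) F),
      Cfsg.IsPiHall ({2, 3} : Set ℕ) H := by
  have hodd : Odd (Fintype.card F) := by rw [hq, Nat.odd_iff]; exact h2
  have hcard := Cfsg.Agent.SmallSimple.PSLTwoPart.card_psl_two_odd hodd
  rw [hq] at hcard
  have hq1 : 1 < q := hq ▸ Fintype.one_lt_card
  have hm : q ^ 2 - 1 = (q - 1) * (q + 1) := by
    obtain ⟨k, rfl⟩ : ∃ k, q = k + 1 := ⟨q - 1, by omega⟩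
    simp only [Nat.add_sub_cancel]
    have : (k + 1) ^ 2 = k * (k + 1 + 1) + 1 := by ring
    omega
  have hgcd : Nat.gcd 2 (q - 1) = 2 := Nat.gcd_eq_left (by omega)
  rcases h with ⟨h31, h41⟩ | ⟨h31, h41⟩ | h24 | h48
  · obtain ⟨e⟩ := Cfsg.Agent.S0812.nonempty_mulEquiv_pmono hq
    have hs : Group.IsSolvable (Cfsg.Agent.S0812.pmono F) := by
      have := isSolvable_dihedral ((q - 1) / Nat.gcd 2 (q - 1))
      exact Group.isSolvable_of_isSolvable_injective (f := e.toMonoidHom) e.injective
    have hc : Nat.card (Cfsg.Agent.S0812.pmono F) = q - 1 := by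
      rw [Nat.card_congr e.toEquiv, DihedralGroup.nat_card, hgcd]
      omega
    apply exists_hall_of_solvable _ _ hs
    have h5 := Subgroup.card_mul_index (Cfsg.Agent.S0812.pmono F)
    rw [hc] at h5
    have h6 : 2 * (Cfsg.Agent.S0812.pmono F).index = q * (q + 1) := by
      apply Nat.eq_of_mul_eq_mul_left (show 0 < q - 1 by omega)
      calc (q - 1) * (2 * (Cfsg.Agent.S0812.pmono F).index)
          = 2 * ((q - 1) * (Cfsg.Agent.S0812.pmono F).index) := by ring
        _ = q * (q ^ 2 - 1) := by rw [h5, hcard]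
        _ = (q - 1) * (q * (q + 1)) := by rw [hm]; ring
    intro p hp hpπ hd
    rcases prime_mem_iff hpπ with rfl | rfl
    · obtain ⟨c, hc⟩ := hd
      rw [hc] at h6
      have h7 : 4 ∣ q * (q + 1) := ⟨c, by rw [← h6]; ring⟩
      have h8 : Nat.Coprime 4 q := by
        rw [show 4 = 2 ^ 2 by norm_num]
        apply Nat.Coprime.pow_left
        rw [Nat.Prime.coprime_iff_not_dvd Nat.prime_two]
        omega
      have h9 := h8.dvd_of_dvd_mul_left h7
      omega
    · have h7 : 3 ∣ q * (q + 1) := by rw [← h6]; exact Dvd.dvd.mul_left hd 2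
      rcases (Nat.Prime.dvd_mul Nat.prime_three).mp h7 with h | h
      · exact h3 h
      · omega
  · obtain ⟨C, H, -, -, -, -, ⟨e⟩, -⟩ := Cfsg.Agent.ClassicalGeometry.PSLTorus.exists_psl_torus F
    rw [hq] at e
    have hs : Group.IsSolvable H := by
      have := isSolvable_dihedral ((q + 1) / Nat.gcd 2 (q - 1))
      exact Group.isSolvable_of_isSolvable_injective (f := e.toMonoidHom) e.injective
    have hc : Nat.card H = q + 1 := by
      rw [Nat.card_congr e.toEquiv, DihedralGroup.nat_card, hgcd]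
      omega
    apply exists_hall_of_solvable _ _ hs
    have h5 := Subgroup.card_mul_index H
    rw [hc] at h5
    have h6 : 2 * H.index = q * (q - 1) := by
      apply Nat.eq_of_mul_eq_mul_left (show 0 < q + 1 by omega)
      calc (q + 1) * (2 * H.index) = 2 * ((q + 1) * H.index) := by ring
        _ = q * (q ^ 2 - 1) := by rw [h5, hcard]
        _ = (q + 1) * (q * (q - 1)) := by rw [hm]; ring
    intro p hp hpπ hd
    rcases prime_mem_iff hpπ with rfl | rfl
    · obtain ⟨c, hc⟩ := hd
      rw [hc] at h6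
      have h7 : 4 ∣ q * (q - 1) := ⟨c, by rw [← h6]; ring⟩
      have h8 : Nat.Coprime 4 q := by
        rw [show 4 = 2 ^ 2 by norm_num]
        apply Nat.Coprime.pow_left
        rw [Nat.Prime.coprime_iff_not_dvd Nat.prime_two]
        omega
      have h9 := h8.dvd_of_dvd_mul_left h7
      omega
    · have h7 : 3 ∣ q * (q - 1) := by rw [← h6]; exact Dvd.dvd.mul_left hd 2
      rcases (Nat.Prime.dvd_mul Nat.prime_three).mp h7 with h | h
      · exact h3 h
      · omega
  · obtain ⟨ha, hb⟩ := exps_24 h24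
    obtain ⟨n, hn⟩ : ∃ n : ℕ, Fintype.card F = (ringChar F) ^ n := by
      obtain ⟨n, hp, hn⟩ := FiniteField.card F (ringChar F)
      exact ⟨n, hn⟩
    have : Fact (ringChar F).Prime := ⟨CharP.char_is_prime F (ringChar F)⟩
    obtain ⟨H, ⟨e⟩⟩ := (Cfsg.Agent.S0802.result (ringChar F) n hn).mpr (by
      rintro ⟨hp2, -⟩
      rw [hp2] at hn
      rcases Nat.eq_zero_or_pos n with rfl | hn0
      · rw [pow_zero, hq] at hn; omega
      · have : 2 ∣ q := by rw [← hq, hn]; exact dvd_pow_self 2 (by omega)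
        omega)
    have hc : Nat.card H = 12 := by
      have h6 := nat_card_alternatingGroup (α := Fin 4)
      rw [Nat.card_congr e.toEquiv, h6]
      simp [Nat.factorial]
    refine ⟨H, ?_, ?_⟩
    · intro p hp hd
      rw [hc, show 12 = 2 ^ 2 * 3 by norm_num] at hd
      rcases (Nat.Prime.dvd_mul hp).mp hd with h | h
      · left; exact (Nat.prime_dvd_prime_iff_eq hp Nat.prime_two).mp (hp.dvd_of_dvd_pow h)
      · right; exact (Nat.prime_dvd_prime_iff_eq hp Nat.prime_three).mp h
    · have h5 := Subgroup.card_mul_index H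
      rw [hc] at h5
      have h6 : 24 * H.index = q * (q ^ 2 - 1) := by
        rw [← hcard, ← h5]; ring
      have hm0 : q ^ 2 - 1 ≠ 0 := by
        rw [hm]; exact Nat.mul_ne_zero (by omega) (by omega)
      intro p hp hpπ hd
      rcases prime_mem_iff hpπ with rfl | rfl
      · obtain ⟨c, hc⟩ := hd
        rw [hc] at h6
        have h7 : 2 ^ 4 ∣ q * (q ^ 2 - 1) := ⟨3 * c, by rw [← h6]; ring⟩
        have h8 : Nat.Coprime (2 ^ 4) q := by
          apply Nat.Coprime.pow_left
          rw [Nat.Prime.coprime_iff_not_dvd Nat.prime_two]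
          omega
        have h9 := h8.dvd_of_dvd_mul_left h7
        rw [Nat.prime_two.pow_dvd_iff_le_factorization hm0] at h9
        omega
      · obtain ⟨c, hc⟩ := hd
        rw [hc] at h6
        have h7 : 3 ^ 2 ∣ q * (q ^ 2 - 1) := ⟨8 * c, by rw [← h6]; ring⟩
        have h8 : Nat.Coprime (3 ^ 2) q := by
          apply Nat.Coprime.pow_left
          rw [Nat.Prime.coprime_iff_not_dvd Nat.prime_three]
          exact h3
        have h9 := h8.dvd_of_dvd_mul_left h7
        rw [Nat.prime_three.pow_dvd_iff_le_factorization hm0] at h9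
        omega
  · obtain ⟨ha, hb⟩ := exps_48 h48
    have hm0 : q ^ 2 - 1 ≠ 0 := by
      rw [hm]; exact Nat.mul_ne_zero (by omega) (by omega)
    obtain ⟨H, ⟨e⟩⟩ := (Cfsg.Agent.S0803.result hq).mpr (by
      have h1 : 2 ^ 4 ∣ q ^ 2 - 1 := by
        rw [Nat.prime_two.pow_dvd_iff_le_factorization hm0]
        omega
      omega)
    have hc : Nat.card H = 24 := by
      rw [Nat.card_congr e.toEquiv, Nat.card_perm]
      simp [Nat.factorial]
    refine ⟨H, ?_, ?_⟩
    · intro p hp hd
      rw [hc, show 24 = 2 ^ 3 * 3 by norm_num] at hd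
      rcases (Nat.Prime.dvd_mul hp).mp hd with h | h
      · left; exact (Nat.prime_dvd_prime_iff_eq hp Nat.prime_two).mp (hp.dvd_of_dvd_pow h)
      · right; exact (Nat.prime_dvd_prime_iff_eq hp Nat.prime_three).mp h
    · have h5 := Subgroup.card_mul_index H
      rw [hc] at h5
      have h6 : 48 * H.index = q * (q ^ 2 - 1) := by
        rw [← hcard, ← h5]; ring
      intro p hp hpπ hd
      rcases prime_mem_iff hpπ with rfl | rfl
      · obtain ⟨c, hc⟩ := hd
        rw [hc] at h6
        have h7 : 2 ^ 5 ∣ q * (q ^ 2 - 1) := ⟨3 * c, by rw [← h6]; ring⟩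
        have h8 : Nat.Coprime (2 ^ 5) q := by
          apply Nat.Coprime.pow_left
          rw [Nat.Prime.coprime_iff_not_dvd Nat.prime_two]
          omega
        have h9 := h8.dvd_of_dvd_mul_left h7
        rw [Nat.prime_two.pow_dvd_iff_le_factorization hm0] at h9
        omega
      · obtain ⟨c, hc⟩ := hd
        rw [hc] at h6
        have h7 : 3 ^ 2 ∣ q * (q ^ 2 - 1) := ⟨16 * c, by rw [← h6]; ring⟩
        have h8 : Nat.Coprime (3 ^ 2) q := by
          apply Nat.Coprime.pow_left
          rw [Nat.Prime.coprime_iff_not_dvd Nat.prime_three]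
          exact h3
        have h9 := h8.dvd_of_dvd_mul_left h7
        rw [Nat.prime_three.pow_dvd_iff_le_factorization hm0] at h9
        omega

/-- The converse. -/
theorem hard {p : ℕ} [Fact p.Prime] [CharP F p] (hp5 : 5 ≤ p)
    (q : ℕ) (hq : Fintype.card F = q)
    (H : Subgroup (Matrix.ProjectiveSpecialLinearGroup (Fin 2) F))
    (hH : Cfsg.IsPiHall ({2, 3} : Set ℕ) H) :
    (3 ∣ q - 1 ∧ q % 4 = 1) ∨ (3 ∣ q + 1 ∧ q % 4 = 3) ∨
        2 ^ (q ^ 2 - 1).factorization 2 * 3 ^ (q ^ 2 - 1).factorization 3 = 24 ∨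
        2 ^ (q ^ 2 - 1).factorization 2 * 3 ^ (q ^ 2 - 1).factorization 3 = 48 := by
  have hpp : p.Prime := Fact.out
  obtain ⟨n, -, hn⟩ := FiniteField.card F p
  have hpq : p ∣ q := by rw [← hq, hn]; exact dvd_pow_self p n.ne_zero
  have hprime : ∀ r : ℕ, r.Prime → r ∣ q → r = p := by
    intro r hr hd
    rw [← hq, hn] at hd
    exact (Nat.prime_dvd_prime_iff_eq hr hpp).mp (hr.dvd_of_dvd_pow hd)
  have h2 : q % 2 = 1 := by
    by_contra hc
    have := hprime 2 Nat.prime_two (by omega)
    omega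
  have h3 : ¬ 3 ∣ q := by
    intro hc
    have := hprime 3 Nat.prime_three hc
    omega
  have hodd : Odd (Fintype.card F) := by rw [hq, Nat.odd_iff]; exact h2
  have hcard := Cfsg.Agent.SmallSimple.PSLTwoPart.card_psl_two_odd hodd
  rw [hq] at hcard
  have hq1 : 1 < q := hq ▸ Fintype.one_lt_card
  have hm : q ^ 2 - 1 = (q - 1) * (q + 1) := by
    obtain ⟨k, rfl⟩ : ∃ k, q = k + 1 := ⟨q - 1, by omega⟩
    simp only [Nat.add_sub_cancel]
    have : (k + 1) ^ 2 = k * (k + 1 + 1) + 1 := by ring
    omega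
  have hm0 : q ^ 2 - 1 ≠ 0 := by
    rw [hm]; exact Nat.mul_ne_zero (by omega) (by omega)
  have h24 := twelve_dvd h2 h3
  have hgcd : Nat.gcd 2 (q - 1) = 2 := Nat.gcd_eq_left (by omega)
  have hHi := Subgroup.card_mul_index H
  set h := Nat.card H with hh
  have hh0 : h ≠ 0 := Nat.card_pos.ne'
  have hi0 : H.index ≠ 0 := Subgroup.index_ne_zero_of_finite
  have hE : 2 * h * H.index = q * (q ^ 2 - 1) := by rw [← hcard, ← hHi]; ring
  -- factorizations
  have hf : ∀ r : ℕ, r.Prime → r ∈ ({2, 3} : Set ℕ) →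
      (2 * h).factorization r = (q ^ 2 - 1).factorization r := by
    intro r hr hrπ
    have h1 := congrArg (fun m => Nat.factorization m r) hE
    beta_reduce at h1
    rw [Nat.factorization_mul (Nat.mul_ne_zero (by norm_num) hh0) hi0,
      Nat.factorization_mul (by omega) hm0] at h1
    simp only [Finsupp.add_apply] at h1
    rw [Nat.factorization_eq_zero_of_not_dvd (hH.2 r hr hrπ),
      Nat.factorization_eq_zero_of_not_dvd (n := q) (p := r) (by
        rcases prime_mem_iff hrπ with rfl | rfl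
        · omega
        · exact h3)] at h1
    omega
  have h2h : 2 * h = 2 ^ (q ^ 2 - 1).factorization 2 * 3 ^ (q ^ 2 - 1).factorization 3 := by
    rw [← hf 2 Nat.prime_two (by simp), ← hf 3 Nat.prime_three (by simp)]
    apply eq_two_three (Nat.mul_ne_zero (by norm_num) hh0)
    intro r hr hd
    rcases (Nat.Prime.dvd_mul hr).mp hd with h1 | h1
    · left; exact (Nat.prime_dvd_prime_iff_eq hr Nat.prime_two).mp h1
    · exact prime_mem_iff (hH.1 r hr h1)
  have h12 : 12 ∣ h := by
    have h1 : 2 ^ 3 ∣ 2 * h := by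
      rw [h2h]
      apply Dvd.dvd.mul_right
      apply pow_dvd_pow
      rw [← Nat.prime_two.pow_dvd_iff_le_factorization hm0]
      omega
    have h4 : 3 ∣ 2 * h := by
      rw [h2h]
      apply Dvd.dvd.mul_left
      apply dvd_pow_self
      have := (Nat.prime_three.pow_dvd_iff_le_factorization (k := 1) hm0).mp (by omega)
      omega
    omega
  -- the conclusion from divisibility
  have hA : 12 ∣ q - 1 → (3 ∣ q - 1 ∧ q % 4 = 1) := by
    intro h5
    omega
  have hB : 12 ∣ q + 1 → (3 ∣ q + 1 ∧ q % 4 = 3) := by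
    intro h5
    omega
  have hC : h ∣ q - 1 ∨ h ∣ q + 1 → (3 ∣ q - 1 ∧ q % 4 = 1) ∨ (3 ∣ q + 1 ∧ q % 4 = 3) := by
    rintro (h5 | h5)
    · left; exact hA (h12.trans h5)
    · right; exact hB (h12.trans h5)
  have hpndvd : ¬ p ∣ h := by
    intro hd
    rcases prime_mem_iff (hH.1 p hpp hd) with h1 | h1 <;> omega
  rcases Cfsg.Agent.S0799.result hq p H with ⟨k, hk, hk2⟩ | ⟨P, K, hK, ⟨e⟩⟩ | ⟨⟨e⟩⟩ | ⟨⟨e⟩⟩ | ⟨⟨e⟩⟩ |
    ⟨K, _, _, m, hKm, hK⟩
  · rw [hgcd] at hk
    have h5 : h ∣ 2 * k := by
      rcases hk2 with ⟨-, hc⟩ | ⟨⟨e⟩⟩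
      · rw [hh, hc]; exact Dvd.intro_left 2 rfl
      · rw [hh, Nat.card_congr e.toEquiv, DihedralGroup.nat_card]
    have h6 : h ∣ q - 1 ∨ h ∣ q + 1 := by
      rcases hk with hk | hk
      · right
        have : 2 * k ∣ 2 * ((q + 1) / 2) := mul_dvd_mul_left 2 hk
        rw [show 2 * ((q + 1) / 2) = q + 1 by omega] at this
        exact h5.trans this
      · left
        have : 2 * k ∣ 2 * ((q - 1) / 2) := mul_dvd_mul_left 2 hk
        rw [show 2 * ((q - 1) / 2) = q - 1 by omega] at this
        exact h5.trans this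
    rcases hC h6 with h7 | h7
    · left; exact h7
    · right; left; exact h7
  · obtain ⟨g, hg⟩ := exists_le_map_borel p P
    have h5 : h ∣ q * (q - 1) := by
      rw [hh, Nat.card_congr e.toEquiv]
      refine (Subgroup.card_dvd_of_le (hK.trans hg)).trans ?_
      rw [Subgroup.card_map_of_injective (MulAut.conj g).injective]
      refine (Subgroup.card_map_dvd _ _).trans ?_
      rw [← hq]
      exact card_borel_dvd
    have h6 : Nat.Coprime 12 q := by
      rw [show 12 = 2 ^ 2 * 3 by norm_num]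
      apply Nat.Coprime.mul_left
      · apply Nat.Coprime.pow_left
        rw [Nat.Prime.coprime_iff_not_dvd Nat.prime_two]
        omega
      · rw [Nat.Prime.coprime_iff_not_dvd Nat.prime_three]
        exact h3
    left
    exact hA (h6.dvd_of_dvd_mul_left (h12.trans h5))
  · right; right; left
    have hc : h = 12 := by
      have h6 := nat_card_alternatingGroup (α := Fin 4)
      rw [hh, Nat.card_congr e.toEquiv, h6]
      simp [Nat.factorial]
    rw [← h2h, hc]
  · right; right; right
    have hc : h = 24 := by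
      rw [hh, Nat.card_congr e.toEquiv, Nat.card_perm]
      simp [Nat.factorial]
    rw [← h2h, hc]
  · exfalso
    have hc : h = 60 := by
      have h6 := nat_card_alternatingGroup (α := Fin 5)
      rw [hh, Nat.card_congr e.toEquiv, h6]
      simp [Nat.factorial]
    have := prime_mem_iff (hH.1 5 (by norm_num) (by rw [← hh, hc]; norm_num))
    omega
  · exfalso
    have hKcard : p ∣ Fintype.card K := by
      have : p ∣ (Fintype.card K) ^ m := by rw [hKm]; exact hpq
      exact hpp.dvd_of_dvd_pow this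
    have hKodd : Odd (Fintype.card K) := by
      rw [Nat.odd_iff]
      by_contra hc
      have h1 : 2 ∣ Fintype.card K := by omega
      have hm0 : m ≠ 0 := by
        rintro rfl
        rw [pow_zero] at hKm
        omega
      have : 2 ∣ q := by rw [← hKm]; exact dvd_pow h1 hm0
      omega
    apply hpndvd
    rcases hK with ⟨⟨e⟩⟩ | ⟨⟨e⟩⟩
    · rw [hh, Nat.card_congr e.toEquiv]
      have h1 := Cfsg.Agent.SmallSimple.PSLTwoPart.card_psl_two_odd hKodd
      have h4 : p ∣ 2 * Nat.card (Matrix.ProjectiveSpecialLinearGroup (Fin 2) K) := by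
        rw [h1]; exact Dvd.dvd.mul_right hKcard _
      rcases (Nat.Prime.dvd_mul hpp).mp h4 with h5 | h5
      · have := Nat.le_of_dvd (by norm_num) h5
        omega
      · exact h5
    · rw [hh, Nat.card_congr e.toEquiv, Cfsg.Agent.S0265.result]
      have h1 := Cfsg.Agent.S0242.result (F := K) rfl 2 (by norm_num)
      rw [Fin.prod_univ_two] at h1
      have hK1 : 1 < Fintype.card K := Fintype.one_lt_card
      have h4 : p ∣ (Fintype.card K - 1) * Nat.card (Matrix.SpecialLinearGroup (Fin 2) K) := by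
        rw [h1]
        apply Dvd.dvd.mul_left
        rw [Fin.val_one, pow_one, sq, ← Nat.mul_sub_one]
        exact Dvd.dvd.mul_right hKcard _
      rcases (Nat.Prime.dvd_mul hpp).mp h4 with h5 | h5
      · exfalso
        have h6 : p ∣ 1 := by
          have := (Nat.dvd_sub hKcard h5)
          rwa [show Fintype.card K - (Fintype.card K - 1) = 1 by omega] at this
        exact hpp.one_lt.ne' (Nat.dvd_one.mp h6)
      · exact h5

end aux

/-- Let `F` be a finite field with `q` elements of characteristic `p ≥ 5`, and `ε = 1` if `q ≡ 1 (mod 4)`, `ε = -1` otherwise. Then `PSL(2, F)` has a Hall `{2, 3}`-subgroup if and only if `3` divides `q − ε`, or the `{2,3}`-part of `q² − 1` is 24, or the `{2,3}`-part of `q² − 1` is 48 (the `{2,3}`-part of `m` being the largest divisor of `m` with no prime factor other than 2 and 3). -/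
theorem result {F : Type*} [Field F] [Fintype F] {p : ℕ} [Fact p.Prime] [CharP F p]
    (hp : 5 ≤ p) (q : ℕ) (hq : Fintype.card F = q) :
    (∃ H : Subgroup (Matrix.ProjectiveSpecialLinearGroup (Fin 2) F), Cfsg.IsPiHall ({2, 3} : Set ℕ) H) ↔
      (3 ∣ q - 1 ∧ q % 4 = 1) ∨ (3 ∣ q + 1 ∧ q % 4 = 3) ∨
        2 ^ (q ^ 2 - 1).factorization 2 * 3 ^ (q ^ 2 - 1).factorization 3 = 24 ∨
        2 ^ (q ^ 2 - 1).factorization 2 * 3 ^ (q ^ 2 - 1).factorization 3 = 48 := by
  constructor
  · rintro ⟨H, hH⟩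
    exact hard hp q hq H hH
  · intro h
    have hpp : p.Prime := Fact.out
    obtain ⟨n, -, hn⟩ := FiniteField.card F p
    have hprime : ∀ r : ℕ, r.Prime → r ∣ q → r = p := by
      intro r hr hd
      rw [← hq, hn] at hd
      exact (Nat.prime_dvd_prime_iff_eq hr hpp).mp (hr.dvd_of_dvd_pow hd)
    have h2 : q % 2 = 1 := by
      by_contra hc
      have := hprime 2 Nat.prime_two (by omega)
      omega
    have h3 : ¬ 3 ∣ q := by
      intro hc
      have := hprime 3 Nat.prime_three hc
      omega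
    exact easy q hq h2 h3 h

end Cfsg.Agent.S2537
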