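import Cfsg.Statements.S2538
-- import your own Cfsg.Agent.* helpers here
import Mathlib
import Cfsg.Agent.H164.HallFinal

set_option autoImplicit false
open Cfsg

namespace Cfsg.Agent.S2538

open Equiv H164

theorem forward {α : Type} [Fintype α] [DecidableEq α] {π : Set ℕ}
    {M : Subgroup ↥(alternatingGroup α)} (hM : IsPiHall π M) :
    ∃ M₀ : Subgroup (Equiv.Perm α), IsPiHall π M₀ ∧ M = M₀.subgroupOf (alternatingGroup α) := by
  by_cases h1 : OnePrime π (Fintype.card α)
  · obtain ⟨H, hH⟩ := (sym_one h1).1.1
    have hMpi : IsPiSubgroup π (M.map (alternatingGroup α).subtype) := (hallAltSub_map hM).pi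
    obtain ⟨g, hg⟩ := isDPi_iff_le (sym_one h1).2 hH hMpi
    refine ⟨_, hall_map_conj hH g, ?_⟩
    apply hall_eq_of_le hM
    · intro r hr hrd
      apply (hall_map_conj hH g).1 r hr
      refine hrd.trans ?_
      have h2 : Nat.card ((H.map (MulAut.conj g).toMonoidHom).subgroupOf (alternatingGroup α)) =
          Nat.card (((H.map (MulAut.conj g).toMonoidHom).subgroupOf
            (alternatingGroup α)).map (alternatingGroup α).subtype) :=
        Nat.card_congr (Subgroup.equivMapOfInjective _ _
          (alternatingGroup α).subtype_injective).toEquiv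
      rw [h2, Subgroup.subgroupOf_map_subtype]
      exact Subgroup.card_dvd_of_le inf_le_left
    · intro x hx
      exact hg ⟨x, hx, rfl⟩
  · obtain ⟨H, hH, hHK, _⟩ := alt_extend h1 (hallAltSub_map hM)
    refine ⟨H, hH, ?_⟩
    ext x
    rw [Subgroup.mem_subgroupOf]
    have h2 : (x : Perm α) ∈ H ⊓ alternatingGroup α ↔ (x : Perm α) ∈ H :=
      ⟨fun h => h.1, fun h => ⟨h, x.2⟩⟩
    rw [← h2, hHK]
    exact (Subgroup.mem_map_iff_mem (alternatingGroup α).subtype_injective).symm

theorem backward {α : Type} [Fintype α] [DecidableEq α] {π : Set ℕ}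
    {M₀ : Subgroup (Equiv.Perm α)} (hM : IsPiHall π M₀) :
    IsPiHall π (M₀.subgroupOf (alternatingGroup α)) := by
  rcases subsingleton_or_nontrivial α with hs | hnt
  · have h1 : Subsingleton (Perm α) := inferInstance
    have h2 : M₀ = ⊤ := Subsingleton.elim _ _
    rw [h2]
    refine ⟨?_, ?_⟩
    · intro r hr hrd
      rw [Subgroup.card_eq_one.mpr (Subsingleton.elim _ _)] at hrd
      exact absurd (Nat.dvd_one.mp hrd) hr.one_lt.ne'
    · intro r hr _ hrd
      rw [Subgroup.index_eq_one.mpr (Subsingleton.elim _ _)] at hrd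
      exact absurd (Nat.dvd_one.mp hrd) hr.one_lt.ne'
  · have h := isPiHall_subgroupOf (inf_hall hM)
    have h1 : (M₀ ⊓ alternatingGroup α).subgroupOf (alternatingGroup α) =
        M₀.subgroupOf (alternatingGroup α) := Subgroup.inf_subgroupOf_right _ _
    rwa [h1] at h

/-- For every `n` and every set of primes `π`, a subgroup of the alternating group of degree `n` is a Hall `π`-subgroup of it if and only if it is the intersection with the alternating group of some Hall `π`-subgroup of the symmetric group of degree `n`. -/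
theorem result (n : ℕ) (π : Set ℕ)
    (M : Subgroup ↥(alternatingGroup (Fin n))) :
    Cfsg.IsPiHall π M ↔ ∃ M₀ : Subgroup (Equiv.Perm (Fin n)), Cfsg.IsPiHall π M₀ ∧ M = M₀.subgroupOf (alternatingGroup (Fin n)) := by
  constructor
  · exact fun hM => forward hM
  · rintro ⟨M₀, hM₀, rfl⟩
    exact backward hM₀

end Cfsg.Agent.S2538
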