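import Cfsg.Statements.S2551
import Mathlib
import Cfsg.Agent.H168.GLFour

set_option autoImplicit false
open Cfsg

namespace Cfsg.Agent.S2551

theorem card_orbit_modEq {G X : Type*} [Group G] [MulAction G X] [Finite X]
    (p : ℕ) [Fact p.Prime] (a : G) (ha : a ^ p = 1) (x : X) :
    Nat.card (MulAction.orbit G x) ≡
      Nat.card {y : MulAction.orbit G x // a • (y : X) = y} [MOD p] := by
  classical
  have := Fintype.ofFinite X
  have hfin : Fintype (MulAction.orbit G x) := Fintype.ofFinite _
  let f : Function.End (MulAction.orbit G x) := fun y => a • y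
  have hpow : ∀ n : ℕ, ∀ y : MulAction.orbit G x, (f ^ n : Function.End _) y = a ^ n • y := by
    intro n
    induction n with
    | zero =>
      intro y
      rw [pow_zero, pow_zero, one_smul]
      rfl
    | succ n ih =>
      intro y
      rw [pow_succ]
      change (f ^ n : Function.End _) (f y) = _
      rw [ih]
      change a ^ n • (a • y) = _
      rw [pow_succ, mul_smul]
  have hf : f ^ p ^ 1 = 1 := by
    funext y
    rw [hpow, pow_one, ha, one_smul]
    rfl
  have h := Equiv.Perm.card_fixedPoints_modEq (f := f) (p := p) (n := 1) hf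
  have e : Fintype.card (Function.fixedPoints f) =
      Nat.card {y : MulAction.orbit G x // a • (y : X) = y} := by
    rw [← Nat.card_eq_fintype_card]
    refine Nat.card_congr (Equiv.subtypeEquivRight ?_)
    intro y
    change (a • y = y) ↔ _
    rw [Subtype.ext_iff]
    rfl
  rw [e] at h
  rw [Nat.card_eq_fintype_card]
  exact h

theorem card_orbit_mul {G X : Type*} [Group G] [MulAction G X] (x : X) :
    Nat.card (MulAction.orbit G x) * Nat.card (MulAction.stabilizer G x) = Nat.card G := by
  rw [Nat.card_coe_set_eq, ← MulAction.index_stabilizer, mul_comm]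
  exact Subgroup.card_mul_index _

/-- A group acting on 15 points with an element of order 5 without fixed points, an element of
order 7 with one fixed point and an involution acting non-trivially is 2-transitive. -/
theorem two_transitive {G X : Type*} [Group G] [Finite G] [MulAction G X] [Finite X]
    (hX : Nat.card X = 15) (a b t : G) (ha : a ^ 5 = 1) (hb : b ^ 7 = 1) (ht : t ^ 2 = 1)
    (hfa : ∀ x : X, a • x ≠ x) (hfb : ∀ x y : X, b • x = x → b • y = y → x = y)
    (hft : ∃ x : X, t • x ≠ x) (v w v' w' : X) (hvw : v ≠ w) (hvw' : v' ≠ w') :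
    ∃ g : G, g • v = v' ∧ g • w = w' := by
  classical
  have hF5 : Fact (Nat.Prime 5) := ⟨by norm_num⟩
  have hF7 : Fact (Nat.Prime 7) := ⟨by norm_num⟩
  have hF2 : Fact (Nat.Prime 2) := ⟨Nat.prime_two⟩
  -- orbits are everything
  have horb : ∀ x : X, Nat.card (MulAction.orbit G x) = 15 := by
    intro x
    have h5 := card_orbit_modEq 5 a ha x
    have h7 := card_orbit_modEq 7 b hb x
    have h5' : Nat.card {y : MulAction.orbit G x // a • (y : X) = y} = 0 := by
      rw [Nat.card_eq_zero]
      left
      exact ⟨fun y => hfa _ y.2⟩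
    have h7' : Nat.card {y : MulAction.orbit G x // b • (y : X) = y} ≤ 1 := by
      rw [Finite.card_le_one_iff_subsingleton]
      exact ⟨fun y z => Subtype.ext (Subtype.ext (hfb _ _ y.2 z.2))⟩
    rw [h5'] at h5
    have hle : Nat.card (MulAction.orbit G x) ≤ 15 := by
      rw [← hX]
      exact Nat.card_le_card_of_injective _ Subtype.val_injective
    have hpos : 0 < Nat.card (MulAction.orbit G x) := by
      have : Nonempty (MulAction.orbit G x) := ⟨⟨x, MulAction.mem_orbit_self x⟩⟩
      exact Nat.card_pos
    unfold Nat.ModEq at h5 h7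
    generalize Nat.card (MulAction.orbit G x) = k at *
    generalize Nat.card {y : MulAction.orbit G x // b • (y : X) = y} = l at *
    interval_cases k <;> interval_cases l <;> omega
  obtain ⟨x₀, hx₀⟩ := hft
  set P : X × X := (x₀, t • x₀) with hP
  have hne : ∀ q ∈ MulAction.orbit G P, q.1 ≠ q.2 := by
    rintro q ⟨g, rfl⟩ h
    have h1 : g • x₀ = g • (t • x₀) := h
    exact hx₀ (MulAction.injective g h1).symm
  -- seven
  have h7 : 7 ∣ Nat.card (MulAction.orbit G P) := by
    have h7 := card_orbit_modEq 7 b hb P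
    have h7' : Nat.card {y : MulAction.orbit G P // b • (y : X × X) = y} = 0 := by
      rw [Nat.card_eq_zero]
      left
      refine ⟨fun y => ?_⟩
      have h1 := y.2
      rw [Prod.ext_iff] at h1
      exact hne _ y.1.2 (hfb _ _ h1.1 h1.2)
    rw [h7'] at h7
    exact (Nat.modEq_zero_iff_dvd).1 h7
  -- fifteen
  have h15 : 15 ∣ Nat.card (MulAction.orbit G P) := by
    have h1 := card_orbit_mul (G := G) P
    have h2 := card_orbit_mul (G := G) x₀
    rw [horb] at h2
    have h3 : MulAction.stabilizer G P ≤ MulAction.stabilizer G x₀ := by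
      intro g hg
      rw [MulAction.mem_stabilizer_iff] at hg ⊢
      exact (Prod.ext_iff.1 hg).1
    obtain ⟨c, hc⟩ := Subgroup.card_dvd_of_le h3
    rw [hc, ← h1] at h2
    have hpos : 0 < Nat.card (MulAction.stabilizer G P) := Nat.card_pos
    refine ⟨c, ?_⟩
    have h4 : Nat.card (MulAction.stabilizer G P) * (15 * c) =
      Nat.card (MulAction.stabilizer G P) * Nat.card (MulAction.orbit G P) := by
      rw [mul_comm _ (Nat.card (MulAction.orbit G P)), ← h2]
      ring
    exact (Nat.eq_of_mul_eq_mul_left hpos h4).symm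
  -- two
  have hswap : ∀ q ∈ MulAction.orbit G P, q.swap ∈ MulAction.orbit G P := by
    rintro q ⟨g, rfl⟩
    refine ⟨g * t, ?_⟩
    change ((g * t) • x₀, (g * t) • (t • x₀)) = (g • (t • x₀), g • x₀)
    rw [mul_smul, mul_smul, smul_smul t t, ← pow_two, ht, one_smul]
  have h2 : 2 ∣ Nat.card (MulAction.orbit G P) := by
    have hfin : Fintype (MulAction.orbit G P) := Fintype.ofFinite _
    let f : Function.End (MulAction.orbit G P) := fun y => ⟨(y : X × X).swap, hswap _ y.2⟩
    have hf : f ^ 2 ^ 1 = 1 := by
      rw [pow_one, pow_two]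
      funext y
      apply Subtype.ext
      change ((y : X × X).swap).swap = y
      simp
    have h := Equiv.Perm.card_fixedPoints_modEq (f := f) (p := 2) (n := 1) hf
    rw [Nat.card_eq_fintype_card]
    have h0 : Fintype.card (Function.fixedPoints f) = 0 := by
      rw [Fintype.card_eq_zero_iff]
      refine ⟨fun y => ?_⟩
      have h1 : f y.1 = y.1 := y.2
      have h2 : ((y.1 : X × X)).swap = (y.1 : X × X) := congrArg Subtype.val h1
      exact hne _ y.1.2 (Prod.ext_iff.1 h2).2
    rw [h0] at h
    exact (Nat.modEq_zero_iff_dvd).1 h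
  have h210 : 210 ∣ Nat.card (MulAction.orbit G P) := by omega
  have hpos : 0 < Nat.card (MulAction.orbit G P) := by
    have : Nonempty (MulAction.orbit G P) := ⟨⟨P, MulAction.mem_orbit_self P⟩⟩
    exact Nat.card_pos
  have hge : 210 ≤ Nat.card (MulAction.orbit G P) := Nat.le_of_dvd hpos h210
  -- the off-diagonal has 210 elements
  have hfinX : Fintype X := Fintype.ofFinite X
  have hoff : (Finset.univ : Finset X).offDiag.card = 210 := by
    rw [Finset.offDiag_card, Finset.card_univ, ← Nat.card_eq_fintype_card, hX]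
  have hsub : (MulAction.orbit G P).toFinset ⊆ (Finset.univ : Finset X).offDiag := by
    intro q hq
    rw [Set.mem_toFinset] at hq
    simp only [Finset.mem_offDiag, Finset.mem_univ, true_and]
    exact hne q hq
  have heq : (MulAction.orbit G P).toFinset = (Finset.univ : Finset X).offDiag := by
    apply Finset.eq_of_subset_of_card_le hsub
    rw [hoff, Set.toFinset_card, ← Nat.card_eq_fintype_card]
    exact hge
  have hmem : ∀ q : X × X, q.1 ≠ q.2 → q ∈ MulAction.orbit G P := by
    intro q hq
    rw [← Set.mem_toFinset, heq]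
    simp only [Finset.mem_offDiag, Finset.mem_univ, true_and]
    exact hq
  obtain ⟨g, hg⟩ := hmem (v, w) hvw
  obtain ⟨g', hg'⟩ := hmem (v', w') hvw'
  refine ⟨g' * g⁻¹, ?_, ?_⟩
  · have h1 : g • P.1 = v := congrArg Prod.fst hg
    have h2 : g' • P.1 = v' := congrArg Prod.fst hg'
    rw [mul_smul, ← h1, inv_smul_smul, h2]
  · have h1 : g • P.2 = w := congrArg Prod.snd hg
    have h2 : g' • P.2 = w' := congrArg Prod.snd hg'
    rw [mul_smul, ← h1, inv_smul_smul, h2]

/-- The number of fixed vectors of an element of prime order. -/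
theorem card_fixed {F : Type*} [Field F] [Fintype F] (hF : Fintype.card F = 2)
    (g : Matrix.GeneralLinearGroup (Fin 4) F) (p : ℕ) [Fact p.Prime] (hg : g ^ p = 1)
    (hg1 : g ≠ 1) :
    ∃ d : ℕ, d ≤ 3 ∧ 16 ≡ 2 ^ d [MOD p] ∧
      Nat.card {v : Fin 4 → F // (g : Matrix (Fin 4) (Fin 4) F).mulVec v = v} = 2 ^ d := by
  classical
  let W : Submodule F (Fin 4 → F) :=
    LinearMap.ker (Matrix.toLin' ((g : Matrix (Fin 4) (Fin 4) F) - 1))
  have hW : ∀ v, v ∈ W ↔ (g : Matrix (Fin 4) (Fin 4) F).mulVec v = v := by
    intro v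
    rw [LinearMap.mem_ker, Matrix.toLin'_apply, Matrix.sub_mulVec, Matrix.one_mulVec, sub_eq_zero]
  have hcW : Nat.card {v : Fin 4 → F // (g : Matrix (Fin 4) (Fin 4) F).mulVec v = v} =
      Nat.card W := Nat.card_congr (Equiv.subtypeEquivRight fun v => (hW v).symm)
  have hcard : Nat.card W = 2 ^ Module.finrank F W := by
    rw [Nat.card_eq_fintype_card, Module.card_eq_pow_finrank (K := F), hF]
  have hle : Module.finrank F W ≤ 4 := by
    have := Submodule.finrank_le W
    rwa [Module.finrank_fin_fun] at this
  refine ⟨Module.finrank F W, ?_, ?_, ?_⟩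
  · by_contra hcon
    have h4 : Module.finrank F W = 4 := by omega
    have htop : W = ⊤ := by
      apply Submodule.eq_top_of_finrank_eq
      rw [h4, Module.finrank_fin_fun]
    apply hg1
    apply Units.ext
    apply Matrix.toLin'.injective
    apply LinearMap.ext
    intro v
    have hv : v ∈ W := by rw [htop]; exact Submodule.mem_top
    rw [hW] at hv
    rw [Matrix.toLin'_apply, Units.val_one, Matrix.toLin'_one]
    exact hv
  · let f : Function.End (Fin 4 → F) := fun v => (g : Matrix (Fin 4) (Fin 4) F).mulVec v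
    have hpow : ∀ n : ℕ, ∀ y : Fin 4 → F, (f ^ n : Function.End _) y =
        ((g ^ n : Matrix.GeneralLinearGroup (Fin 4) F) : Matrix (Fin 4) (Fin 4) F).mulVec y := by
      intro n
      induction n with
      | zero =>
        intro y
        rw [pow_zero, pow_zero, Units.val_one, Matrix.one_mulVec]
        rfl
      | succ n ih =>
        intro y
        rw [pow_succ]
        change (f ^ n : Function.End _) (f y) = _
        rw [ih]
        change Matrix.mulVec _ (Matrix.mulVec _ _) = _
        rw [Matrix.mulVec_mulVec, pow_succ, Units.val_mul]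
    have hf : f ^ p ^ 1 = 1 := by
      funext y
      rw [hpow, pow_one, hg, Units.val_one, Matrix.one_mulVec]
      rfl
    have h := Equiv.Perm.card_fixedPoints_modEq (f := f) (p := p) (n := 1) hf
    have h16 : Fintype.card (Fin 4 → F) = 16 := by
      rw [Fintype.card_fun, hF, Fintype.card_fin]
      norm_num
    rw [h16] at h
    have h2 : Fintype.card (Function.fixedPoints f) = 2 ^ Module.finrank F W := by
      rw [← hcard, ← hcW, Nat.card_eq_fintype_card]
      exact Fintype.card_congr (Equiv.subtypeEquivRight fun v => Iff.rfl)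
    rw [h2] at h
    exact h
  · rw [hcW, hcard]

/-- The action of a linear group on non-zero vectors. -/
@[reducible] def act {F : Type*} [Field F]
    (H : Subgroup (Matrix.GeneralLinearGroup (Fin 4) F)) :
    MulAction H {v : Fin 4 → F // v ≠ 0} where
  smul g v := ⟨((g : Matrix.GeneralLinearGroup (Fin 4) F) : Matrix (Fin 4) (Fin 4) F).mulVec v.1,
    fun h => v.2 (by
      have h1 : (((g : Matrix.GeneralLinearGroup (Fin 4) F)⁻¹ :
        Matrix.GeneralLinearGroup (Fin 4) F) : Matrix (Fin 4) (Fin 4) F).mulVec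
        (((g : Matrix.GeneralLinearGroup (Fin 4) F) : Matrix (Fin 4) (Fin 4) F).mulVec v.1) = 0 := by
        rw [h, Matrix.mulVec_zero]
      rw [Matrix.mulVec_mulVec, ← Units.val_mul, inv_mul_cancel, Units.val_one,
        Matrix.one_mulVec] at h1
      exact h1)⟩
  one_smul v := Subtype.ext (by
    change (((1 : H) : Matrix.GeneralLinearGroup (Fin 4) F) :
      Matrix (Fin 4) (Fin 4) F).mulVec v.1 = v.1
    rw [Subgroup.coe_one, Units.val_one, Matrix.one_mulVec])
  mul_smul g h v := Subtype.ext (by
    change (((g * h : H) : Matrix.GeneralLinearGroup (Fin 4) F) :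
      Matrix (Fin 4) (Fin 4) F).mulVec v.1 =
      ((g : Matrix.GeneralLinearGroup (Fin 4) F) : Matrix (Fin 4) (Fin 4) F).mulVec
      (((h : Matrix.GeneralLinearGroup (Fin 4) F) : Matrix (Fin 4) (Fin 4) F).mulVec v.1)
    rw [Subgroup.coe_mul, Units.val_mul, Matrix.mulVec_mulVec])

/-- Let F be the field with 2 elements. GL_4(F) (≅ A_8) has a subgroup isomorphic to the alternating group A_7, and every such subgroup acts 2-transitively on the 15 non-zero vectors of F⁴: any ordered pair of distinct non-zero vectors is carried to any other by some element of the subgroup. -/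
theorem result {F : Type*} [Field F] [Fintype F] (hF : Fintype.card F = 2) : (∃ H : Subgroup (Matrix.GeneralLinearGroup (Fin 4) F), Nonempty (H ≃* alternatingGroup (Fin 7))) ∧ ∀ H : Subgroup (Matrix.GeneralLinearGroup (Fin 4) F), Nonempty (H ≃* alternatingGroup (Fin 7)) → ∀ v w v' w' : Fin 4 → F, v ≠ 0 → w ≠ 0 → v ≠ w → v' ≠ 0 → w' ≠ 0 → v' ≠ w' → ∃ g ∈ H, (g : Matrix (Fin 4) (Fin 4) F).mulVec v = v' ∧ (g : Matrix (Fin 4) (Fin 4) F).mulVec w = w' := by
  classical
  constructor
  · obtain ⟨e⟩ := Cfsg.Agent.H168.gl_equiv hF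
    obtain ⟨f, hf⟩ := Cfsg.Agent.H168.exists_alt_hom (n := 7) (m := 8) (by norm_num)
    let φ : alternatingGroup (Fin 7) →* Matrix.GeneralLinearGroup (Fin 4) F :=
      e.symm.toMonoidHom.comp f
    have hφ : Function.Injective φ := e.symm.injective.comp hf
    exact ⟨φ.range, ⟨(MonoidHom.ofInjective hφ).symm⟩⟩
  · rintro H ⟨e⟩ v w v' w' hv hw hvw hv' hw' hvw'
    let _ := act H
    have hcard : Nat.card H = 2520 := by
      rw [Nat.card_congr e.toEquiv, nat_card_alternatingGroup, Nat.card_eq_fintype_card,
        Fintype.card_fin]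
      rfl
    have hF5 : Fact (Nat.Prime 5) := ⟨by norm_num⟩
    have hF7 : Fact (Nat.Prime 7) := ⟨by norm_num⟩
    have hF2 : Fact (Nat.Prime 2) := ⟨Nat.prime_two⟩
    obtain ⟨a, ha⟩ := exists_prime_orderOf_dvd_card' (G := H) 5 (by rw [hcard]; norm_num)
    obtain ⟨b, hb⟩ := exists_prime_orderOf_dvd_card' (G := H) 7 (by rw [hcard]; norm_num)
    obtain ⟨t, ht⟩ := exists_prime_orderOf_dvd_card' (G := H) 2 (by rw [hcard]; norm_num)
    have hX : Nat.card {v : Fin 4 → F // v ≠ 0} = 15 := by
      rw [Nat.card_eq_fintype_card, Fintype.card_subtype_compl, Fintype.card_fun, hF,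
        Fintype.card_fin]
      simp
    have key : ∀ (p : ℕ) [Fact p.Prime] (g : H), orderOf g = p →
        ∃ d : ℕ, d ≤ 3 ∧ 16 ≡ 2 ^ d [MOD p] ∧ Nat.card {v : Fin 4 → F //
          ((g : Matrix.GeneralLinearGroup (Fin 4) F) :
            Matrix (Fin 4) (Fin 4) F).mulVec v = v} = 2 ^ d := by
      intro p hp g hg
      apply card_fixed hF (g : Matrix.GeneralLinearGroup (Fin 4) F) p
      · rw [← hg, ← Subgroup.coe_pow, pow_orderOf_eq_one, Subgroup.coe_one]
      · intro h
        have h1 : g = 1 := Subtype.ext h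
        rw [h1, orderOf_one] at hg
        exact hp.out.one_lt.ne hg
    have hfa : ∀ x : {v : Fin 4 → F // v ≠ 0}, a • x ≠ x := by
      intro x hx
      obtain ⟨d, hd, hm, hc⟩ := key 5 a ha
      have hd0 : d = 0 := by
        unfold Nat.ModEq at hm
        interval_cases d <;> simp_all
      rw [hd0, pow_zero, Nat.card_eq_one_iff_unique] at hc
      have h1 : ((a : Matrix.GeneralLinearGroup (Fin 4) F) :
            Matrix (Fin 4) (Fin 4) F).mulVec x.1 = x.1 := congrArg Subtype.val hx
      have h2 := hc.1.elim ⟨x.1, h1⟩ ⟨0, Matrix.mulVec_zero _⟩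
      exact x.2 (congrArg Subtype.val h2)
    have hfb : ∀ x y : {v : Fin 4 → F // v ≠ 0}, b • x = x → b • y = y → x = y := by
      intro x y hx hy
      obtain ⟨d, hd, hm, hc⟩ := key 7 b hb
      have hd0 : d = 1 := by
        unfold Nat.ModEq at hm
        interval_cases d <;> simp_all
      rw [hd0, pow_one] at hc
      have h1 : ((b : Matrix.GeneralLinearGroup (Fin 4) F) :
            Matrix (Fin 4) (Fin 4) F).mulVec x.1 = x.1 := congrArg Subtype.val hx
      have h2 : ((b : Matrix.GeneralLinearGroup (Fin 4) F) :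
            Matrix (Fin 4) (Fin 4) F).mulVec y.1 = y.1 := congrArg Subtype.val hy
      by_contra hxy
      let φ : Fin 3 → {v : Fin 4 → F // ((b : Matrix.GeneralLinearGroup (Fin 4) F) :
            Matrix (Fin 4) (Fin 4) F).mulVec v = v} :=
        ![⟨0, Matrix.mulVec_zero _⟩, ⟨x.1, h1⟩, ⟨y.1, h2⟩]
      have hxy' : x.1 ≠ y.1 := fun h => hxy (Subtype.ext h)
      have hφ : Function.Injective φ := by
        intro i j hij
        have hij' : (φ i).1 = (φ j).1 := congrArg Subtype.val hij
        have hx0 := x.2
        have hy0 := y.2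
        fin_cases i <;> fin_cases j <;> simp [φ] at hij' ⊢
        · exact hx0 hij'.symm
        · exact hy0 hij'.symm
        · exact hx0 hij'
        · exact hxy' hij'
        · exact hy0 hij'
        · exact hxy' hij'.symm
      have := Nat.card_le_card_of_injective φ hφ
      rw [hc, Nat.card_eq_fintype_card, Fintype.card_fin] at this
      omega
    have hft : ∃ x : {v : Fin 4 → F // v ≠ 0}, t • x ≠ x := by
      by_contra hcon
      push Not at hcon
      have ht1 : t = 1 := by
        apply Subtype.ext
        apply Units.ext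
        apply Matrix.toLin'.injective
        apply LinearMap.ext
        intro v
        rw [Matrix.toLin'_apply, Subgroup.coe_one, Units.val_one, Matrix.toLin'_one]
        by_cases hv : v = 0
        · rw [hv, Matrix.mulVec_zero]
          rfl
        · exact congrArg Subtype.val (hcon ⟨v, hv⟩)
      rw [ht1, orderOf_one] at ht
      omega
    obtain ⟨g, hg1, hg2⟩ := two_transitive hX a b t (by rw [← ha]; exact pow_orderOf_eq_one a)
      (by rw [← hb]; exact pow_orderOf_eq_one b) (by rw [← ht]; exact pow_orderOf_eq_one t)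
      hfa hfb hft ⟨v, hv⟩ ⟨w, hw⟩ ⟨v', hv'⟩ ⟨w', hw'⟩
      (fun h => hvw (congrArg Subtype.val h)) (fun h => hvw' (congrArg Subtype.val h))
    exact ⟨g.1, g.2, congrArg Subtype.val hg1, congrArg Subtype.val hg2⟩

end Cfsg.Agent.S2551
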