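import Cfsg.Statements.S2562
import Cfsg.Agent.H174.F2Sing

set_option autoImplicit false
open Cfsg

namespace Cfsg.Agent.S2562

/-- Witt indices over the field of two elements, m ≥ 1: for the plus-type form Σ xᵢyᵢ in dimension 2m some m-dimensional subspace is totally singular and no totally singular subspace has larger dimension; for the minus-type form Σ xᵢyᵢ + (z₁² + z₁z₂ + z₂²) in dimension 2m the maximal dimension of a totally singular subspace is m − 1. -/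
theorem result (m : ℕ) (hm : 1 ≤ m) :
    (∃ U : Submodule (ZMod 2) (Fin m ⊕ Fin m → ZMod 2), (∀ u ∈ U, Cfsg.quadFormPlus m (ZMod 2) u = 0) ∧ Module.finrank (ZMod 2) ↥U = m) ∧
    (∀ U : Submodule (ZMod 2) (Fin m ⊕ Fin m → ZMod 2), (∀ u ∈ U, Cfsg.quadFormPlus m (ZMod 2) u = 0) → Module.finrank (ZMod 2) ↥U ≤ m) ∧
    (∃ U : Submodule (ZMod 2) ((Fin (m - 1) ⊕ Fin (m - 1)) ⊕ Fin 2 → ZMod 2), (∀ u ∈ U, Cfsg.quadFormMinus (m - 1) (ZMod 2) 1 1 u = 0) ∧ Module.finrank (ZMod 2) ↥U = m - 1) ∧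
    (∀ U : Submodule (ZMod 2) ((Fin (m - 1) ⊕ Fin (m - 1)) ⊕ Fin 2 → ZMod 2), (∀ u ∈ U, Cfsg.quadFormMinus (m - 1) (ZMod 2) 1 1 u = 0) → Module.finrank (ZMod 2) ↥U ≤ m - 1) := by
  refine ⟨⟨Cfsg.Agent.ClassicalGeometry.QuadPlusBasic.stdX m (ZMod 2),
      Cfsg.Agent.ClassicalGeometry.QuadPlusBasic.quadFormPlus_stdX m (ZMod 2),
      Cfsg.Agent.ClassicalGeometry.QuadPlusBasic.finrank_stdX m (ZMod 2)⟩, ?_,
    ⟨H174.stdM (m - 1) (ZMod 2), H174.minus_stdM (m - 1) (ZMod 2) 1 1,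
      H174.finrank_stdM (m - 1) (ZMod 2)⟩, ?_⟩
  · intro U hU
    have h := H174.two_mul_finrank_le (H174.plusQ m (ZMod 2)) (H174.plusQ_nondegenerate m (ZMod 2)) U hU
    rw [Cfsg.Agent.ClassicalGeometry.QuadPlusBasic.finrank_space] at h
    omega
  · intro U hU
    have h := H174.finrank_le_of_maximal (H174.minusQ (m - 1) (ZMod 2) 1 1)
      (H174.minusQ_nondegenerate (m - 1)) (H174.stdM (m - 1) (ZMod 2))
      (H174.minus_stdM (m - 1) (ZMod 2) 1 1) (fun W h1 h2 => H174.stdM_maximal (m - 1) W h1 h2) U hU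
    rwa [H174.finrank_stdM] at h

end Cfsg.Agent.S2562
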