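import Cfsg.Statements.S2566
import Cfsg.Agent.LieClassical.OrthFourPlus
import Cfsg.Agent.LieClassical.SLTwoTwo

set_option autoImplicit false
open Cfsg

namespace Cfsg.Agent.S2566

open scoped MatrixGroups
open Cfsg.Agent.LieClassical.OrthFourPlus Cfsg.Agent.LieClassical.OrthFourCommon

/-- The abstract statement about a group which is a product of two commuting swapped copies of `S`, extended by
the swap. -/
theorem abstract_wr {G S : Type*} [Group G] [Group S] (Ψ : S × S →* G) (hinj : Function.Injective Ψ)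
    (τ : G) (hτ : τ ∉ Ψ.range) (hconj : ∀ a b, τ * Ψ (a, b) * τ⁻¹ = Ψ (b, a))
    (hsurj : ∀ g, ∃ p, g = Ψ p ∨ g = Ψ p * τ) (e : S ≃* Equiv.Perm (Fin 3)) :
    Nat.card G = 72 ∧ ∃ (A B : Subgroup G),
      Nonempty (↥A ≃* Equiv.Perm (Fin 3)) ∧ Nonempty (↥B ≃* Equiv.Perm (Fin 3)) ∧ A ⊓ B = ⊥ ∧
      (∀ a ∈ A, ∀ b ∈ B, a * b = b * a) ∧
      (A ⊔ B).index = 2 ∧ ∃ g : G, A.map (MulAut.conj g).toMonoidHom = B := by
  have hindex : Ψ.range.index = 2 := by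
    rw [Subgroup.index_eq_two_iff]
    refine ⟨τ⁻¹, fun b => ?_⟩
    obtain ⟨p, rfl | rfl⟩ := hsurj b
    · right
      refine ⟨⟨p, rfl⟩, ?_⟩
      intro h
      apply hτ
      have h2 : Ψ p ∈ Ψ.range := ⟨p, rfl⟩
      have h3 := Ψ.range.mul_mem (Ψ.range.inv_mem h2) h
      rw [inv_mul_cancel_left] at h3
      have h4 := Ψ.range.inv_mem h3
      rwa [inv_inv] at h4
    · left
      refine ⟨?_, ?_⟩
      · rw [mul_inv_cancel_right]; exact ⟨p, rfl⟩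
      · intro h
        apply hτ
        have h2 : Ψ p ∈ Ψ.range := ⟨p, rfl⟩
        have h3 := Ψ.range.mul_mem (Ψ.range.inv_mem h2) h
        rwa [inv_mul_cancel_left] at h3
  have hcardS : Nat.card S = 6 := by
    rw [Nat.card_congr e.toEquiv, Nat.card_eq_fintype_card, Fintype.card_perm, Fintype.card_fin]
    rfl
  have hcardR : Nat.card Ψ.range = 36 := by
    rw [← Nat.card_congr (MonoidHom.ofInjective hinj).toEquiv, Nat.card_prod, hcardS]
  refine ⟨?_, ?_⟩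
  · rw [← Subgroup.card_mul_index Ψ.range, hindex, hcardR]
  · let iA : S →* G := Ψ.comp (MonoidHom.inl S S)
    let iB : S →* G := Ψ.comp (MonoidHom.inr S S)
    have hiA : Function.Injective iA := hinj.comp (fun a b h => (Prod.mk.inj h).1)
    have hiB : Function.Injective iB := hinj.comp (fun a b h => (Prod.mk.inj h).2)
    refine ⟨iA.range, iB.range, ⟨(MonoidHom.ofInjective hiA).symm.trans e⟩,
      ⟨(MonoidHom.ofInjective hiB).symm.trans e⟩, ?_, ?_, ?_, τ, ?_⟩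
    · rw [eq_bot_iff]
      rintro _ ⟨⟨a, rfl⟩, b, hb⟩
      have h1 : Ψ (1, b) = Ψ (a, 1) := hb
      have h2 := hinj h1
      have h3 : (1 : S) = a := (Prod.mk.inj h2).1
      rw [← h3, map_one]
      exact Subgroup.mem_bot.2 rfl
    · rintro _ ⟨a, rfl⟩ _ ⟨b, rfl⟩
      show Ψ (a, 1) * Ψ (1, b) = Ψ (1, b) * Ψ (a, 1)
      rw [← map_mul, ← map_mul]
      simp
    · have h1 : iA.range ⊔ iB.range = Ψ.range := by
        apply le_antisymm
        · apply sup_le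
          · rintro _ ⟨a, rfl⟩; exact ⟨_, rfl⟩
          · rintro _ ⟨a, rfl⟩; exact ⟨_, rfl⟩
        · rintro _ ⟨⟨a, b⟩, rfl⟩
          have h2 : Ψ (a, b) = iA a * iB b := by
            show Ψ (a, b) = Ψ (a, 1) * Ψ (1, b)
            rw [← map_mul]; simp
          rw [h2]
          exact Subgroup.mul_mem_sup ⟨a, rfl⟩ ⟨b, rfl⟩
      rw [h1, hindex]
    · ext x
      constructor
      · rintro ⟨_, ⟨a, rfl⟩, rfl⟩
        exact ⟨a, (hconj a 1).symm⟩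
      · rintro ⟨b, rfl⟩
        exact ⟨iA b, ⟨b, rfl⟩, hconj b 1⟩

theorem inj_aux : ∀ A B : Matrix (Fin 2) (Fin 2) (ZMod 2), A * 1 = 1 * B →
    A * !![0, 1; 0, 0] = !![0, 1; 0, 0] * B → A * !![0, 0; 1, 0] = !![0, 0; 1, 0] * B →
    A.det = 1 → A = 1 ∧ B = 1 := by
  decide +kernel

theorem tau_aux : ∀ A B : Matrix (Fin 2) (Fin 2) (ZMod 2), A * 1 = 1 * B →
    A * !![0, 1; 0, 0] = !![0, 1; 0, 0] * B → A * !![0, 0; 1, 0] = !![0, 0; 1, 0] * B →
    A * !![1, 0; 0, 0] = !![0, 0; 0, 1] * B →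
    A.det = 1 → False := by
  decide +kernel

theorem phi_mul (s : SL(2, ZMod 2) × SL(2, ZMod 2)) (X : Matrix (Fin 2) (Fin 2) (ZMod 2)) :
    (phi s).1 X * (s.2 : Matrix (Fin 2) (Fin 2) (ZMod 2)) = (s.1 : Matrix (Fin 2) (Fin 2) (ZMod 2)) * X := by
  show ((s.1 : Matrix (Fin 2) (Fin 2) (ZMod 2)) * X * (((s.2.toGL)⁻¹ : GL (Fin 2) (ZMod 2)) : Matrix (Fin 2) (Fin 2) (ZMod 2))) * (s.2 : Matrix (Fin 2) (Fin 2) (ZMod 2)) = _
  rw [mul_assoc]
  have : ((((s.2.toGL)⁻¹ : GL (Fin 2) (ZMod 2)) : Matrix (Fin 2) (Fin 2) (ZMod 2))) * (s.2 : Matrix (Fin 2) (Fin 2) (ZMod 2)) = 1 :=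
    Units.inv_mul s.2.toGL
  rw [this, mul_one]

theorem result :
    Nat.card ↥(Cfsg.isometryGroup (ZMod 2) (Cfsg.quadFormPlus 2 (ZMod 2))) = 72 ∧
    ∃ (A B : Subgroup ↥(Cfsg.isometryGroup (ZMod 2) (Cfsg.quadFormPlus 2 (ZMod 2)))),
      Nonempty (↥A ≃* Equiv.Perm (Fin 3)) ∧ Nonempty (↥B ≃* Equiv.Perm (Fin 3)) ∧ A ⊓ B = ⊥ ∧ (∀ a ∈ A, ∀ b ∈ B, a * b = b * a) ∧
      (A ⊔ B).index = 2 ∧ ∃ g : ↥(Cfsg.isometryGroup (ZMod 2) (Cfsg.quadFormPlus 2 (ZMod 2))), A.map (MulAut.conj g).toMonoidHom = B := by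
  obtain ⟨ε⟩ := exists_isometryGroup_equiv (coord (ZMod 2)) (Cfsg.quadFormPlus 2 (ZMod 2)) (dt (ZMod 2)) coord_det
  obtain ⟨e⟩ := Cfsg.Agent.LieClassical.SLTwoTwo.nonempty_mulEquiv (F := ZMod 2) (by simp [ZMod.card])
  have hunit : ∀ u : (ZMod 2)ˣ, u = 1 := by decide
  have hphi : ∀ p : Gam (ZMod 2), ∃ s, phi s = psi p := by
    intro p
    have h1 : p ∈ Gam0 (ZMod 2) := hunit _
    rw [← inc_range] at h1
    obtain ⟨s, hs⟩ := h1
    exact ⟨s, by rw [← hs]; rfl⟩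
  have hsw : ∀ s : SL(2, ZMod 2) × SL(2, ZMod 2), tau * phi s * tau⁻¹ = phi (s.2, s.1) := by
    intro s
    show tau * psi (inc s) * tau⁻¹ = psi (inc (s.2, s.1))
    rw [tau_conj]
    rfl
  have hinj : Function.Injective (phi (F := ZMod 2)) := by
    rw [injective_iff_map_eq_one]
    intro s hs
    have h1 : ∀ X : Matrix (Fin 2) (Fin 2) (ZMod 2), (s.1 : Matrix (Fin 2) (Fin 2) (ZMod 2)) * X = X * (s.2 : Matrix (Fin 2) (Fin 2) (ZMod 2)) := by
      intro X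
      rw [← phi_mul, hs]; rfl
    obtain ⟨h2, h3⟩ := inj_aux _ _ (h1 1) (h1 _) (h1 _) s.1.2
    exact Prod.ext (Subtype.ext h2) (Subtype.ext h3)
  have htau : tau ∉ (phi (F := ZMod 2)).range := by
    rintro ⟨s, hs⟩
    have h1 : ∀ X : Matrix (Fin 2) (Fin 2) (ZMod 2), (s.1 : Matrix (Fin 2) (Fin 2) (ZMod 2)) * X = X.adjugate * (s.2 : Matrix (Fin 2) (Fin 2) (ZMod 2)) := by
      intro X
      rw [← phi_mul, hs]; rfl
    have e1 : (1 : Matrix (Fin 2) (Fin 2) (ZMod 2)).adjugate = 1 := Matrix.adjugate_one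
    have e2 : (!![0, 1; 0, 0] : Matrix (Fin 2) (Fin 2) (ZMod 2)).adjugate = !![0, 1; 0, 0] := by
      rw [Matrix.adjugate_fin_two_of]; decide
    have e3 : (!![0, 0; 1, 0] : Matrix (Fin 2) (Fin 2) (ZMod 2)).adjugate = !![0, 0; 1, 0] := by
      rw [Matrix.adjugate_fin_two_of]; decide
    have e4 : (!![1, 0; 0, 0] : Matrix (Fin 2) (Fin 2) (ZMod 2)).adjugate = !![0, 0; 0, 1] := by
      rw [Matrix.adjugate_fin_two_of]; decide
    have f1 := h1 1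
    have f2 := h1 !![0, 1; 0, 0]
    have f3 := h1 !![0, 0; 1, 0]
    have f4 := h1 !![1, 0; 0, 0]
    rw [e1] at f1
    rw [e2] at f2
    rw [e3] at f3
    rw [e4] at f4
    exact tau_aux _ _ f1 f2 f3 f4 s.1.2
  refine abstract_wr (ε.symm.toMonoidHom.comp (phi (F := ZMod 2))) (ε.symm.injective.comp hinj) (ε.symm tau) ?_ ?_ ?_ e
  · rintro ⟨s, hs⟩
    exact htau ⟨s, ε.symm.injective hs⟩
  · intro a b
    show ε.symm tau * ε.symm (phi (a, b)) * (ε.symm tau)⁻¹ = ε.symm (phi (b, a))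
    rw [← map_inv, ← map_mul, ← map_mul, hsw]
  · intro g
    obtain ⟨p, hp⟩ := exists_eq (ε g)
    obtain ⟨s, hs⟩ := hphi p
    refine ⟨s, ?_⟩
    rcases hp with h | h
    · left
      show g = ε.symm (phi s)
      rw [hs, ← h, MulEquiv.symm_apply_apply]
    · right
      show g = ε.symm (phi s) * ε.symm tau
      rw [← map_mul, hs, ← h, MulEquiv.symm_apply_apply]

end Cfsg.Agent.S2566
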