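import Cfsg.Statements.S2567

set_option autoImplicit false
open Cfsg

namespace Cfsg.Agent.S2567

/-- Lifting elements of prime order through a central subgroup of coprime exponent. -/
theorem lift_unique {G : Type*} [Group G] {r e : ℕ} (hr : r.Prime) (he : Nat.Coprime r e) (he0 : 0 < e)
    (hZ : ∀ z ∈ Subgroup.center G, z ^ e = 1) (x : G ⧸ Subgroup.center G) (hx : orderOf x = r) :
    ∃! g : G, (QuotientGroup.mk g : G ⧸ Subgroup.center G) = x ∧ orderOf g = r := by
  haveI : Fact r.Prime := ⟨hr⟩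
  -- bijectivity of the `r`-th power on the centre
  obtain ⟨a, ha⟩ : ∃ a : ℕ, r * a ≡ 1 [MOD e] := by
    rcases Nat.lt_or_ge 1 e with h | h
    · obtain ⟨a, _, ha⟩ := Nat.exists_mul_mod_eq_one_of_coprime he h
      exact ⟨a, by rw [Nat.ModEq, ha, Nat.mod_eq_of_lt h]⟩
    · have : e = 1 := by omega
      subst this
      exact ⟨0, Nat.modEq_one⟩
  have hpow : ∀ z ∈ Subgroup.center G, (z ^ a) ^ r = z := by
    intro z hz
    rw [← pow_mul, mul_comm]
    have h1 : orderOf z ∣ e := orderOf_dvd_of_pow_eq_one (hZ z hz)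
    have h2 : r * a ≡ 1 [MOD orderOf z] := ha.of_dvd h1
    rw [← pow_mod_orderOf, h2, pow_mod_orderOf, pow_one]
  obtain ⟨g0, rfl⟩ := QuotientGroup.mk_surjective x
  have h1 : g0 ^ r ∈ Subgroup.center G := by
    rw [← QuotientGroup.eq_one_iff, QuotientGroup.mk_pow, ← hx, pow_orderOf_eq_one]
  have hne : (QuotientGroup.mk g0 : G ⧸ Subgroup.center G) ≠ 1 := by
    intro h
    rw [h, orderOf_one] at hx
    exact hr.one_lt.ne hx
  let z := ((g0 ^ r)⁻¹) ^ a
  have hz : z ∈ Subgroup.center G := (Subgroup.center G).pow_mem ((Subgroup.center G).inv_mem h1) a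
  have hzr : z ^ r = (g0 ^ r)⁻¹ := hpow _ ((Subgroup.center G).inv_mem h1)
  have hcomm : ∀ (g w : G), w ∈ Subgroup.center G → (g * w) ^ r = g ^ r * w ^ r := by
    intro g w hw
    have : Commute g w := (Subgroup.mem_center_iff.1 hw g)
    exact this.mul_pow r
  have hmk : (QuotientGroup.mk (g0 * z) : G ⧸ Subgroup.center G) = QuotientGroup.mk g0 := by
    rw [QuotientGroup.mk_mul, (QuotientGroup.eq_one_iff z).2 hz, mul_one]
  refine ⟨g0 * z, ⟨hmk, ?_⟩, ?_⟩
  · apply orderOf_eq_prime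
    · rw [hcomm g0 z hz, hzr, mul_inv_cancel]
    · intro h
      apply hne
      rw [← hmk, h]; rfl
  · rintro g ⟨hg1, hg2⟩
    have h2 : (g0 * z)⁻¹ * g ∈ Subgroup.center G := by
      rw [← QuotientGroup.eq, hmk, hg1]
    set w := (g0 * z)⁻¹ * g with hw
    have hgw : g = (g0 * z) * w := by rw [hw]; group
    have h3 : w ^ r = 1 := by
      have h4 : g ^ r = 1 := by rw [← hg2, pow_orderOf_eq_one]
      rw [hgw, hcomm _ w h2, hcomm g0 z hz, hzr, mul_inv_cancel, one_mul] at h4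
      exact h4
    have h5 : w = 1 := by
      have h6 : orderOf w ∣ r := orderOf_dvd_of_pow_eq_one h3
      have h7 : orderOf w ∣ e := orderOf_dvd_of_pow_eq_one (hZ w h2)
      have h8 : orderOf w ∣ 1 := by
        rw [← he.gcd_eq_one]; exact Nat.dvd_gcd h6 h7
      exact orderOf_eq_one_iff.1 (Nat.dvd_one.1 h8)
    rw [hgw, h5, mul_one]

theorem result {F : Type*} [Field F] [Fintype F] {q n r : ℕ} (hF : Fintype.card F = q) (hr : r.Prime) (hdiv : ¬ r ∣ q - 1) (x : GL (Fin n) F ⧸ Subgroup.center (GL (Fin n) F)) (hx : orderOf x = r) : ∃! g : GL (Fin n) F, (QuotientGroup.mk g : GL (Fin n) F ⧸ Subgroup.center (GL (Fin n) F)) = x ∧ orderOf g = r := by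
  have hq2 : 2 ≤ q := hF ▸ Fintype.one_lt_card
  refine lift_unique hr ((Nat.Prime.coprime_iff_not_dvd hr).2 hdiv) (by omega) ?_ x hx
  intro z hz
  rw [Matrix.GeneralLinearGroup.center_eq_range_scalar] at hz
  obtain ⟨c, rfl⟩ := hz
  rw [← map_pow]
  have : c ^ (q - 1) = 1 := by
    rw [← hF]
    apply Units.ext
    rw [Units.val_pow_eq_pow_val]
    exact FiniteField.pow_card_sub_one_eq_one _ c.ne_zero
  rw [this, map_one]

end Cfsg.Agent.S2567
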