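import Cfsg.Statements.S2570
import Cfsg.Agent.H174.UnipClass

set_option autoImplicit false
open Cfsg

namespace Cfsg.Agent.S2570

/-- Number of conjugacy classes of elements of order p in GL_n over a finite field of characteristic p: they correspond to the Jordan types, that is, to the partitions of n with all parts at most p other than the partition into ones, so there are (number of partitions of n with parts ≤ p) − 1 of them. -/
theorem result {F : Type*} [Field F] [Fintype F] {p : ℕ} [Fact p.Prime] [CharP F p] (n : ℕ) : Nat.card {C : ConjClasses (GL (Fin n) F) // ∃ g : GL (Fin n) F, ConjClasses.mk g = C ∧ orderOf g = p} = (Finset.univ.filter (fun μ : Nat.Partition n => ∀ a ∈ μ.parts, a ≤ p)).card - 1 := by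
  have hp : p.Prime := Fact.out
  rw [← H174.card_le_sub_one n p hp.one_lt.le]
  rw [H174.card_unip_classes (fun g : GL (Fin n) F => orderOf g = p)]
  · refine Nat.card_congr (Equiv.subtypeEquivRight fun μ => ?_)
    rw [orderOf_eq_prime_iff]
    have h := H174.unip_pow_eq_one_iff (F := F) (p := p) μ 1
    rw [pow_one] at h
    rw [h, Ne, H174.unip_eq_one_iff]
  · intro g hg
    refine H174.isNilpotent_of_pow (p := p) (k := 1) ?_
    rw [pow_one, ← hg]
    exact pow_orderOf_eq_one g
  · intro g h hc hg
    rw [← hg]
    obtain ⟨c, rfl⟩ := isConj_iff.1 hc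
    exact (orderOf_injective (MulAut.conj c).toMonoidHom (MulAut.conj c).injective g)

end Cfsg.Agent.S2570
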