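import Cfsg.Statements.S2571
import Cfsg.Agent.H173.RegUni

set_option autoImplicit false
open Cfsg

namespace Cfsg.Agent.S2571

open Matrix Module Cfsg.Agent.H173.RegUni

variable {F : Type*} [Field F]

/-- The matrix with given first column which commutes with the shift. -/
def toep {n : ℕ} (v : Fin n → F) : Matrix (Fin n) (Fin n) F :=
  ∑ i : Fin n, v i • shift n F ^ (i : ℕ)

theorem toep_comm {n : ℕ} (v : Fin n → F) : toep v * shift n F = shift n F * toep v := by
  unfold toep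
  rw [Finset.sum_mul, Finset.mul_sum]
  apply Finset.sum_congr rfl
  intro i _
  rw [Matrix.smul_mul, Matrix.mul_smul, ← pow_succ, ← pow_succ']

theorem toep_col {n : ℕ} (hn : 1 ≤ n) (v : Fin n → F) (i : Fin n) : toep v i ⟨0, hn⟩ = v i := by
  unfold toep
  rw [Matrix.sum_apply, Finset.sum_eq_single i]
  · rw [Matrix.smul_apply, shift_pow_apply, if_pos (by simp), smul_eq_mul, mul_one]
  · intro j _ hj
    rw [Matrix.smul_apply, shift_pow_apply, if_neg, smul_zero]
    intro h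
    simp only [zero_add] at h
    exact hj (Fin.ext h.symm)
  · intro h; exact absurd (Finset.mem_univ _) h

/-- A matrix commuting with the shift is determined by its first column. -/
theorem eq_of_col {n : ℕ} (hn : 1 ≤ n) (C D : Matrix (Fin n) (Fin n) F)
    (hC : C * shift n F = shift n F * C) (hD : D * shift n F = shift n F * D)
    (h : ∀ i, C i ⟨0, hn⟩ = D i ⟨0, hn⟩) : C = D := by
  have hpow : ∀ (E : Matrix (Fin n) (Fin n) F) (_ : E * shift n F = shift n F * E) (k : ℕ),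
      E * shift n F ^ k = shift n F ^ k * E := fun E hE k => (Commute.pow_right hE k)
  have hcol : ∀ (E : Matrix (Fin n) (Fin n) F) (i j : Fin n), (E * shift n F ^ (j : ℕ)) i ⟨0, hn⟩ = E i j := by
    intro E i j
    rw [Matrix.mul_apply, Finset.sum_eq_single j]
    · rw [shift_pow_apply, if_pos (by simp), mul_one]
    · intro l _ hl
      rw [shift_pow_apply, if_neg, mul_zero]
      intro h
      simp only [zero_add] at h
      exact hl (Fin.ext h)
    · intro h; exact absurd (Finset.mem_univ _) h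
  ext i j
  rw [← hcol C, ← hcol D, hpow C hC, hpow D hD, Matrix.mul_apply, Matrix.mul_apply]
  apply Finset.sum_congr rfl
  intro l _
  rw [h l]

theorem card_col {q : ℕ} [Fintype F] (hF : Fintype.card F = q) {n : ℕ} (hn : 1 ≤ n) :
    Nat.card {v : Fin n → F // v ⟨0, hn⟩ ≠ 0} = (q - 1) * q ^ (n - 1) := by
  classical
  obtain ⟨k, rfl⟩ : ∃ k, n = k + 1 := ⟨n - 1, by omega⟩
  let e : {v : Fin (k + 1) → F // v ⟨0, hn⟩ ≠ 0} ≃ {x : F // x ≠ 0} × (Fin k → F) :=
    { toFun := fun v => (⟨v.1 0, v.2⟩, fun i => v.1 i.succ)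
      invFun := fun p => ⟨Fin.cons p.1.1 p.2, by
        show (Fin.cons p.1.1 p.2 : Fin (k + 1) → F) 0 ≠ 0
        rw [Fin.cons_zero]; exact p.1.2⟩
      left_inv := by
        rintro ⟨v, hv⟩
        apply Subtype.ext
        show (Fin.cons (v 0) (fun i => v i.succ) : Fin (k + 1) → F) = v
        exact Fin.cons_self_tail v
      right_inv := by
        rintro ⟨⟨x, hx⟩, w⟩
        simp }
  rw [Nat.card_congr e, Nat.card_prod, Nat.card_eq_fintype_card, Nat.card_eq_fintype_card]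
  congr 1
  · rw [Fintype.card_subtype_compl, Fintype.card_subtype_eq, hF]
  · simp [hF]

theorem result {F : Type*} [Field F] [Fintype F] {q n : ℕ} (hF : Fintype.card F = q) (hn : 1 ≤ n) (u : GL (Fin n) F) (hnil : ((u : Matrix (Fin n) (Fin n) F) - 1) ^ n = 0) (hreg : ((u : Matrix (Fin n) (Fin n) F) - 1).rank = n - 1) : Nat.card ↥(Subgroup.centralizer ({u} : Set (GL (Fin n) F))) = (q - 1) * q ^ (n - 1) := by
  classical
  obtain ⟨P0, hP0, hPA⟩ := exists_shift_form hn _ hnil hreg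
  obtain ⟨P, hP⟩ : ∃ P : GL (Fin n) F, (P : Matrix (Fin n) (Fin n) F) = P0 :=
    ⟨Matrix.GeneralLinearGroup.mkOfDetNeZero P0 hP0, rfl⟩
  rw [← hP] at hPA
  have hPi : (P : Matrix (Fin n) (Fin n) F) * ((P⁻¹ : GL (Fin n) F) : Matrix (Fin n) (Fin n) F) = 1 := P.mul_inv
  have hiP : ((P⁻¹ : GL (Fin n) F) : Matrix (Fin n) (Fin n) F) * (P : Matrix (Fin n) (Fin n) F) = 1 := P.inv_mul
  have hN : shift n F = ((P⁻¹ : GL (Fin n) F) : Matrix (Fin n) (Fin n) F) * ((u : Matrix (Fin n) (Fin n) F) - 1) * (P : Matrix (Fin n) (Fin n) F) := by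
    rw [mul_assoc, hPA, ← mul_assoc, hiP, one_mul]
  rw [← card_col hF hn]
  -- the conjugated matrix
  let κ : GL (Fin n) F → Matrix (Fin n) (Fin n) F := fun g => ((P⁻¹ * g * P : GL (Fin n) F) : Matrix (Fin n) (Fin n) F)
  have hκ : ∀ g ∈ Subgroup.centralizer ({u} : Set (GL (Fin n) F)), κ g * shift n F = shift n F * κ g := by
    intro g hg
    have hg' : u * g = g * u := Subgroup.mem_centralizer_singleton_iff.1 hg |>.symm
    have hg2 : ((u : Matrix (Fin n) (Fin n) F) - 1) * (g : Matrix (Fin n) (Fin n) F) = (g : Matrix (Fin n) (Fin n) F) * ((u : Matrix (Fin n) (Fin n) F) - 1) := by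
      rw [sub_mul, mul_sub, one_mul, mul_one, ← Units.val_mul, hg', Units.val_mul]
    show ((P⁻¹ : GL (Fin n) F) : Matrix (Fin n) (Fin n) F) * (g : Matrix (Fin n) (Fin n) F) * (P : Matrix (Fin n) (Fin n) F) * shift n F =
      shift n F * (((P⁻¹ : GL (Fin n) F) : Matrix (Fin n) (Fin n) F) * (g : Matrix (Fin n) (Fin n) F) * (P : Matrix (Fin n) (Fin n) F))
    rw [hN]
    calc ((P⁻¹ : GL (Fin n) F) : Matrix (Fin n) (Fin n) F) * (g : Matrix (Fin n) (Fin n) F) * (P : Matrix (Fin n) (Fin n) F) * (((P⁻¹ : GL (Fin n) F) : Matrix (Fin n) (Fin n) F) * ((u : Matrix (Fin n) (Fin n) F) - 1) * (P : Matrix (Fin n) (Fin n) F))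
        = ((P⁻¹ : GL (Fin n) F) : Matrix (Fin n) (Fin n) F) * (g : Matrix (Fin n) (Fin n) F) * ((P : Matrix (Fin n) (Fin n) F) * ((P⁻¹ : GL (Fin n) F) : Matrix (Fin n) (Fin n) F)) * ((u : Matrix (Fin n) (Fin n) F) - 1) * (P : Matrix (Fin n) (Fin n) F) := by
          simp only [mul_assoc]
      _ = ((P⁻¹ : GL (Fin n) F) : Matrix (Fin n) (Fin n) F) * ((g : Matrix (Fin n) (Fin n) F) * ((u : Matrix (Fin n) (Fin n) F) - 1)) * (P : Matrix (Fin n) (Fin n) F) := by
          rw [hPi, mul_one]; simp only [mul_assoc]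
      _ = ((P⁻¹ : GL (Fin n) F) : Matrix (Fin n) (Fin n) F) * (((u : Matrix (Fin n) (Fin n) F) - 1) * (g : Matrix (Fin n) (Fin n) F)) * (P : Matrix (Fin n) (Fin n) F) := by rw [hg2]
      _ = ((P⁻¹ : GL (Fin n) F) : Matrix (Fin n) (Fin n) F) * ((u : Matrix (Fin n) (Fin n) F) - 1) * ((P : Matrix (Fin n) (Fin n) F) * ((P⁻¹ : GL (Fin n) F) : Matrix (Fin n) (Fin n) F)) * (g : Matrix (Fin n) (Fin n) F) * (P : Matrix (Fin n) (Fin n) F) := by
          rw [hPi, mul_one]; simp only [mul_assoc]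
      _ = _ := by simp only [mul_assoc]
  have hdet : ∀ g, (κ g).det ≠ 0 := by
    intro g
    exact (P⁻¹ * g * P).det.ne_zero
  let f : ↥(Subgroup.centralizer ({u} : Set (GL (Fin n) F))) → {v : Fin n → F // v ⟨0, hn⟩ ≠ 0} :=
    fun g => ⟨fun i => κ g.1 i ⟨0, hn⟩, by
      intro h0
      have h1 := det_of_commute_shift hn (κ g.1) (hκ g.1 g.2)
      have h0' : κ g.1 ⟨0, hn⟩ ⟨0, hn⟩ = 0 := h0
      rw [h0', zero_pow (by omega)] at h1
      exact hdet _ h1⟩
  apply Nat.card_congr (Equiv.ofBijective f ⟨?_, ?_⟩)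
  · rintro ⟨g, hg⟩ ⟨h, hh⟩ hgh
    have h1 : ∀ i, κ g i ⟨0, hn⟩ = κ h i ⟨0, hn⟩ := fun i => congrFun (congrArg Subtype.val hgh) i
    have h2 := eq_of_col hn _ _ (hκ g hg) (hκ h hh) h1
    have h3 : P⁻¹ * g * P = P⁻¹ * h * P := Units.ext h2
    apply Subtype.ext
    exact mul_left_cancel (mul_right_cancel h3)
  · rintro ⟨v, hv⟩
    have hd : (toep v).det ≠ 0 := by
      rw [det_of_commute_shift hn _ (toep_comm v), toep_col]
      exact pow_ne_zero _ hv
    obtain ⟨T, hT⟩ : ∃ T : GL (Fin n) F, (T : Matrix (Fin n) (Fin n) F) = toep v :=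
      ⟨Matrix.GeneralLinearGroup.mkOfDetNeZero _ hd, rfl⟩
    have hu : (u : Matrix (Fin n) (Fin n) F) = (P : Matrix (Fin n) (Fin n) F) * (1 + shift n F) * ((P⁻¹ : GL (Fin n) F) : Matrix (Fin n) (Fin n) F) := by
      rw [mul_add, mul_one, ← hPA, add_mul, hPi, mul_assoc, hPi, mul_one]; abel
    have hcm : toep v * (1 + shift n F) = (1 + shift n F) * toep v := by
      rw [mul_add, add_mul, toep_comm]; simp
    refine ⟨⟨P * T * P⁻¹, ?_⟩, ?_⟩
    · rw [Subgroup.mem_centralizer_singleton_iff]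
      apply Units.ext
      simp only [Units.val_mul]
      rw [hT, hu]
      calc (P : Matrix (Fin n) (Fin n) F) * toep v * ((P⁻¹ : GL (Fin n) F) : Matrix (Fin n) (Fin n) F) * ((P : Matrix (Fin n) (Fin n) F) * (1 + shift n F) * ((P⁻¹ : GL (Fin n) F) : Matrix (Fin n) (Fin n) F))
          = (P : Matrix (Fin n) (Fin n) F) * toep v * (((P⁻¹ : GL (Fin n) F) : Matrix (Fin n) (Fin n) F) * (P : Matrix (Fin n) (Fin n) F)) * (1 + shift n F) * ((P⁻¹ : GL (Fin n) F) : Matrix (Fin n) (Fin n) F) := by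
            simp only [mul_assoc]
        _ = (P : Matrix (Fin n) (Fin n) F) * (toep v * (1 + shift n F)) * ((P⁻¹ : GL (Fin n) F) : Matrix (Fin n) (Fin n) F) := by
            rw [hiP, mul_one]; simp only [mul_assoc]
        _ = (P : Matrix (Fin n) (Fin n) F) * (1 + shift n F) * (((P⁻¹ : GL (Fin n) F) : Matrix (Fin n) (Fin n) F) * (P : Matrix (Fin n) (Fin n) F)) * toep v * ((P⁻¹ : GL (Fin n) F) : Matrix (Fin n) (Fin n) F) := by
            rw [hcm, hiP, mul_one]; simp only [mul_assoc]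
        _ = _ := by simp only [mul_assoc]
    · apply Subtype.ext
      funext i
      show ((P⁻¹ * (P * T * P⁻¹) * P : GL (Fin n) F) : Matrix (Fin n) (Fin n) F) i ⟨0, hn⟩ = v i
      have h1 : P⁻¹ * (P * T * P⁻¹) * P = T := by group
      rw [h1, hT, toep_col]

end Cfsg.Agent.S2571
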