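import Cfsg.Statements.S2573
import Cfsg.Agent.H173.NilOne

set_option autoImplicit false
open Cfsg

namespace Cfsg.Agent.S2573

open Matrix Module

theorem result {F : Type*} [Field F] [Finite F] {n : ℕ} (u : Matrix (Fin n) (Fin n) F) (hnil : (u - 1) ^ n = 0) (hreg : (u - 1).rank = n - 1) (W : Submodule F (Fin n → F)) (hW : ∀ v ∈ W, u.mulVec v ∈ W) : W = LinearMap.ker (Matrix.mulVecLin ((u - 1) ^ Module.finrank F W)) := by
  let N : End F (Fin n → F) := Matrix.toLin' (u - 1)
  have hNpow : ∀ (k : ℕ), N ^ k = Matrix.mulVecLin ((u - 1) ^ k) := by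
    intro k
    show ((Matrix.toLin' (u - 1)) ^ k) = _
    rw [← Matrix.toLin'_pow]
    rfl
  have hNn : N ^ n = 0 := by
    rw [hNpow, hnil]
    exact Matrix.mulVecLin_zero
  have hker : finrank F (LinearMap.ker N) ≤ 1 := by
    have h1 := LinearMap.finrank_range_add_finrank_ker N
    have h2 : finrank F (LinearMap.range N) = n - 1 := by
      rw [← hreg]; rfl
    rw [Module.finrank_fin_fun, h2] at h1
    omega
  have hWN : ∀ x ∈ W, N x ∈ W := by
    intro x hx
    show (u - 1) *ᵥ x ∈ W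
    rw [Matrix.sub_mulVec, Matrix.one_mulVec]
    exact W.sub_mem (hW x hx) hx
  rw [← hNpow]
  apply Submodule.eq_of_le_of_finrank_le
  · exact Cfsg.Agent.H173.NilOne.le_ker_pow_finrank N ⟨_, hNn⟩ W hWN
  · exact Cfsg.Agent.H173.NilOne.finrank_ker_pow_le N hker _

end Cfsg.Agent.S2573
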