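import Cfsg.Statements.S2578
import Cfsg.Agent.H173.RegUni

set_option autoImplicit false
open Cfsg

namespace Cfsg.Agent.S2578

open Matrix Module Cfsg.Agent.H173.RegUni

variable {F : Type*} [Field F]

/-- The diagonal matrix `diag(d, 1, …, 1)`. -/
def dg (n : ℕ) (d : F) : Matrix (Fin n) (Fin n) F :=
  Matrix.diagonal fun i => if (i : ℕ) = 0 then d else 1

theorem dg_mul (n : ℕ) (d e : F) : dg n d * dg n e = dg n (d * e) := by
  unfold dg
  rw [Matrix.diagonal_mul_diagonal]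
  congr 1
  ext i
  by_cases h : (i : ℕ) = 0 <;> simp [h]

theorem dg_one (n : ℕ) : dg n (1 : F) = 1 := by
  unfold dg
  simp

theorem dg_det {n : ℕ} (hn : 1 ≤ n) (d : F) : (dg n d).det = d := by
  unfold dg
  rw [Matrix.det_diagonal, Finset.prod_eq_single ⟨0, hn⟩]
  · simp
  · intro i _ hi
    rw [if_neg]
    intro h
    exact hi (Fin.ext h)
  · intro h; exact absurd (Finset.mem_univ _) h

theorem one_add_shift_det {n : ℕ} : (1 + shift n F).det = 1 := by
  have hlt : (1 + shift n F).IsLowerTriangular := by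
    intro i j hij
    have hij' : i < j := hij
    rw [Matrix.add_apply, Matrix.one_apply_ne (ne_of_lt hij'), shift_apply, if_neg, add_zero]
    have : (i : ℕ) < j := hij'
    omega
  rw [Matrix.det_of_isLowerTriangular _ hlt]
  apply Finset.prod_eq_one
  intro i _
  rw [Matrix.add_apply, Matrix.one_apply_eq, shift_apply, if_neg (by omega), add_zero]

/-- The representative with parameter `d`. -/
noncomputable def rep {n : ℕ} (hn : 1 ≤ n) (d : Fˣ) : Matrix.SpecialLinearGroup (Fin n) F :=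
  ⟨dg n (d : F) * (1 + shift n F) * dg n ((d⁻¹ : Fˣ) : F), by
    rw [Matrix.det_mul, Matrix.det_mul, dg_det hn, dg_det hn, one_add_shift_det, mul_one, ← Units.val_mul,
      mul_inv_cancel, Units.val_one]⟩

theorem dg_inv (n : ℕ) (d : Fˣ) : dg n (d : F) * dg n ((d⁻¹ : Fˣ) : F) = 1 := by
  rw [dg_mul, ← Units.val_mul, mul_inv_cancel, Units.val_one, dg_one]

theorem dg_inv' (n : ℕ) (d : Fˣ) : dg n ((d⁻¹ : Fˣ) : F) * dg n (d : F) = 1 := by
  rw [dg_mul, ← Units.val_mul, inv_mul_cancel, Units.val_one, dg_one]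

theorem rep_sub_one {n : ℕ} (hn : 1 ≤ n) (d : Fˣ) :
    ((rep hn d : Matrix.SpecialLinearGroup (Fin n) F) : Matrix (Fin n) (Fin n) F) - 1 =
      dg n (d : F) * shift n F * dg n ((d⁻¹ : Fˣ) : F) := by
  show dg n (d : F) * (1 + shift n F) * dg n ((d⁻¹ : Fˣ) : F) - 1 = _
  rw [mul_add, mul_one, add_mul, dg_inv]
  abel

theorem rep_pow {n : ℕ} (hn : 1 ≤ n) (d : Fˣ) (k : ℕ) :
    (((rep hn d : Matrix.SpecialLinearGroup (Fin n) F) : Matrix (Fin n) (Fin n) F) - 1) ^ k =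
      dg n (d : F) * shift n F ^ k * dg n ((d⁻¹ : Fˣ) : F) := by
  induction k with
  | zero => rw [pow_zero, pow_zero, mul_one, dg_inv]
  | succ k ih =>
    rw [pow_succ, ih, rep_sub_one, pow_succ]
    calc dg n (d : F) * shift n F ^ k * dg n ((d⁻¹ : Fˣ) : F) * (dg n (d : F) * shift n F * dg n ((d⁻¹ : Fˣ) : F))
        = dg n (d : F) * shift n F ^ k * (dg n ((d⁻¹ : Fˣ) : F) * dg n (d : F)) * shift n F * dg n ((d⁻¹ : Fˣ) : F) := by
          simp only [mul_assoc]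
      _ = _ := by rw [dg_inv', mul_one]; simp only [mul_assoc]

theorem rep_rank {n : ℕ} (hn : 1 ≤ n) (d : Fˣ) :
    (((rep hn d : Matrix.SpecialLinearGroup (Fin n) F) : Matrix (Fin n) (Fin n) F) - 1).rank = n - 1 := by
  rw [rep_sub_one, Matrix.rank_mul_eq_left_of_isUnit_det, Matrix.rank_mul_eq_right_of_isUnit_det, rank_shift hn]
  · rw [dg_det hn]; exact d.isUnit
  · rw [dg_det hn]; exact (d⁻¹).isUnit

theorem sl_mul_inv {n : ℕ} (S : Matrix.SpecialLinearGroup (Fin n) F) :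
    (S : Matrix (Fin n) (Fin n) F) * ((S⁻¹ : Matrix.SpecialLinearGroup (Fin n) F) : Matrix (Fin n) (Fin n) F) = 1 := by
  rw [← Matrix.SpecialLinearGroup.coe_mul, mul_inv_cancel, Matrix.SpecialLinearGroup.coe_one]

/-- Conjugacy of the representatives. -/
theorem rep_isConj_iff {n : ℕ} (hn : 1 ≤ n) (d e : Fˣ) :
    IsConj (rep hn d) (rep hn e) ↔ d⁻¹ * e ∈ (powMonoidHom n : Fˣ →* Fˣ).range := by
  constructor
  · intro h
    obtain ⟨S, hS⟩ := isConj_iff.1 h
    rw [mul_inv_eq_iff_eq_mul] at hS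
    have hS' : (S : Matrix (Fin n) (Fin n) F) * (dg n (d : F) * (1 + shift n F) * dg n ((d⁻¹ : Fˣ) : F)) =
        (dg n (e : F) * (1 + shift n F) * dg n ((e⁻¹ : Fˣ) : F)) * (S : Matrix (Fin n) (Fin n) F) := by
      have := congrArg Subtype.val hS
      exact this
    set C : Matrix (Fin n) (Fin n) F := dg n ((e⁻¹ : Fˣ) : F) * (S : Matrix (Fin n) (Fin n) F) * dg n (d : F) with hC
    have hcomm : C * shift n F = shift n F * C := by
      have h1 : C * (1 + shift n F) = (1 + shift n F) * C := by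
        calc C * (1 + shift n F)
            = dg n ((e⁻¹ : Fˣ) : F) * ((S : Matrix (Fin n) (Fin n) F) * (dg n (d : F) * (1 + shift n F) * dg n ((d⁻¹ : Fˣ) : F))) * dg n (d : F) := by
              rw [hC]
              simp only [mul_assoc]
              rw [dg_inv', mul_one]
          _ = (dg n ((e⁻¹ : Fˣ) : F) * dg n (e : F)) * (1 + shift n F) * (dg n ((e⁻¹ : Fˣ) : F) * (S : Matrix (Fin n) (Fin n) F) * dg n (d : F)) := by
              rw [hS']
              simp only [mul_assoc]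
          _ = _ := by rw [dg_inv', one_mul]
      rw [mul_add, add_mul, mul_one, one_mul] at h1
      exact add_left_cancel h1
    have hdet := det_of_commute_shift hn C hcomm
    have hdet2 : C.det = ((e⁻¹ * d : Fˣ) : F) := by
      rw [hC, Matrix.det_mul, Matrix.det_mul, dg_det hn, dg_det hn, Units.val_mul]
      have : (S : Matrix (Fin n) (Fin n) F).det = 1 := S.2
      rw [this, mul_one]
    have hc0 : C ⟨0, hn⟩ ⟨0, hn⟩ ≠ 0 := by
      intro h0
      rw [hdet2, h0, zero_pow (by omega)] at hdet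
      exact Units.ne_zero _ hdet
    have h2 : e⁻¹ * d ∈ (powMonoidHom n : Fˣ →* Fˣ).range := by
      refine ⟨Units.mk0 _ hc0, ?_⟩
      apply Units.ext
      rw [← hdet2, hdet]
      simp [powMonoidHom_apply]
    have h3 := inv_mem h2
    simpa using h3
  · rintro ⟨c, hc⟩
    rw [powMonoidHom_apply] at hc
    -- S = D_e * c⁻¹ * D_d⁻¹
    rw [isConj_iff]
    let S : Matrix (Fin n) (Fin n) F := ((c⁻¹ : Fˣ) : F) • (dg n (e : F) * dg n ((d⁻¹ : Fˣ) : F))
    have hSdet : S.det = 1 := by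
      show (((c⁻¹ : Fˣ) : F) • (dg n (e : F) * dg n ((d⁻¹ : Fˣ) : F))).det = 1
      rw [Matrix.det_smul, Matrix.det_mul, dg_det hn, dg_det hn, Fintype.card_fin, ← Units.val_pow_eq_pow_val,
        ← Units.val_mul, ← Units.val_mul, inv_pow, hc]
      rw [← Units.val_one]
      congr 1
      rw [mul_comm e, inv_mul_cancel]
    obtain ⟨T, hT⟩ : ∃ T : Matrix.SpecialLinearGroup (Fin n) F, (T : Matrix (Fin n) (Fin n) F) = S :=
      ⟨⟨S, hSdet⟩, rfl⟩
    refine ⟨T, ?_⟩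
    rw [mul_inv_eq_iff_eq_mul]
    apply Subtype.ext
    rw [Matrix.SpecialLinearGroup.coe_mul, Matrix.SpecialLinearGroup.coe_mul, hT]
    show (((c⁻¹ : Fˣ) : F) • (dg n (e : F) * dg n ((d⁻¹ : Fˣ) : F))) * (dg n (d : F) * (1 + shift n F) * dg n ((d⁻¹ : Fˣ) : F))
      = (dg n (e : F) * (1 + shift n F) * dg n ((e⁻¹ : Fˣ) : F)) * (((c⁻¹ : Fˣ) : F) • (dg n (e : F) * dg n ((d⁻¹ : Fˣ) : F)))
    rw [Matrix.smul_mul, Matrix.mul_smul]
    congr 1
    calc dg n (e : F) * dg n ((d⁻¹ : Fˣ) : F) * (dg n (d : F) * (1 + shift n F) * dg n ((d⁻¹ : Fˣ) : F))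
        = dg n (e : F) * (dg n ((d⁻¹ : Fˣ) : F) * dg n (d : F)) * (1 + shift n F) * dg n ((d⁻¹ : Fˣ) : F) := by
          simp only [mul_assoc]
      _ = dg n (e : F) * (1 + shift n F) * dg n ((d⁻¹ : Fˣ) : F) := by rw [dg_inv', mul_one]
      _ = dg n (e : F) * (1 + shift n F) * (dg n ((e⁻¹ : Fˣ) : F) * dg n (e : F)) * dg n ((d⁻¹ : Fˣ) : F) := by
          rw [dg_inv', mul_one]
      _ = _ := by simp only [mul_assoc]

/-- Every regular unipotent element is conjugate to a representative. -/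
theorem exists_rep {n : ℕ} (hn : 1 ≤ n) (u : Matrix.SpecialLinearGroup (Fin n) F)
    (h1 : ((u : Matrix (Fin n) (Fin n) F) - 1) ^ n = 0)
    (h2 : ((u : Matrix (Fin n) (Fin n) F) - 1).rank = n - 1) : ∃ d : Fˣ, IsConj (rep hn d) u := by
  obtain ⟨P, hP, hPA⟩ := exists_shift_form hn _ h1 h2
  have hPu : (u : Matrix (Fin n) (Fin n) F) * P = P * (1 + shift n F) := by
    rw [mul_add, mul_one, ← hPA, sub_mul, one_mul]; abel
  refine ⟨Units.mk0 _ hP, ?_⟩
  set d : Fˣ := Units.mk0 _ hP with hd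
  have hdv : (d : F) = P.det := rfl
  rw [isConj_iff]
  let S : Matrix (Fin n) (Fin n) F := P * dg n ((d⁻¹ : Fˣ) : F)
  have hSdet : S.det = 1 := by
    show (P * dg n ((d⁻¹ : Fˣ) : F)).det = 1
    rw [Matrix.det_mul, dg_det hn, ← hdv, ← Units.val_mul, mul_inv_cancel, Units.val_one]
  obtain ⟨T, hT⟩ : ∃ T : Matrix.SpecialLinearGroup (Fin n) F, (T : Matrix (Fin n) (Fin n) F) = S :=
    ⟨⟨S, hSdet⟩, rfl⟩
  refine ⟨T, ?_⟩
  rw [mul_inv_eq_iff_eq_mul]
  apply Subtype.ext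
  rw [Matrix.SpecialLinearGroup.coe_mul, Matrix.SpecialLinearGroup.coe_mul, hT]
  show (P * dg n ((d⁻¹ : Fˣ) : F)) * (dg n (d : F) * (1 + shift n F) * dg n ((d⁻¹ : Fˣ) : F)) =
    (u : Matrix (Fin n) (Fin n) F) * (P * dg n ((d⁻¹ : Fˣ) : F))
  calc (P * dg n ((d⁻¹ : Fˣ) : F)) * (dg n (d : F) * (1 + shift n F) * dg n ((d⁻¹ : Fˣ) : F))
      = P * (dg n ((d⁻¹ : Fˣ) : F) * dg n (d : F)) * (1 + shift n F) * dg n ((d⁻¹ : Fˣ) : F) := by
        simp only [mul_assoc]
    _ = P * (1 + shift n F) * dg n ((d⁻¹ : Fˣ) : F) := by rw [dg_inv', mul_one]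
    _ = _ := by rw [← hPu, mul_assoc]

theorem result {F : Type*} [Field F] [Fintype F] {q : ℕ} (hF : Fintype.card F = q) {n : ℕ} (hn : 2 ≤ n) : Nat.card {C : ConjClasses (Matrix.SpecialLinearGroup (Fin n) F) // ∃ u : Matrix.SpecialLinearGroup (Fin n) F, ConjClasses.mk u = C ∧ ((u : Matrix (Fin n) (Fin n) F) - 1) ^ n = 0 ∧ ((u : Matrix (Fin n) (Fin n) F) - 1).rank = n - 1} = Nat.gcd n (q - 1) := by
  classical
  have hn1 : 1 ≤ n := by omega
  have hcard : Nat.card (Fˣ ⧸ (powMonoidHom n : Fˣ →* Fˣ).range) = Nat.gcd n (q - 1) := by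
    have h1 := IsCyclic.index_powMonoidHom_range Fˣ n
    rw [Nat.card_eq_fintype_card, Fintype.card_units, hF, Nat.gcd_comm] at h1
    exact h1
  rw [← hcard]
  symm
  let f : Fˣ → {C : ConjClasses (Matrix.SpecialLinearGroup (Fin n) F) // ∃ u : Matrix.SpecialLinearGroup (Fin n) F, ConjClasses.mk u = C ∧ ((u : Matrix (Fin n) (Fin n) F) - 1) ^ n = 0 ∧ ((u : Matrix (Fin n) (Fin n) F) - 1).rank = n - 1} :=
    fun d => ⟨ConjClasses.mk (rep hn1 d), rep hn1 d, rfl, by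
      rw [rep_pow, shift_pow_self, mul_zero, zero_mul], rep_rank hn1 d⟩
  have hf : ∀ d e : Fˣ, f d = f e ↔ d⁻¹ * e ∈ (powMonoidHom n : Fˣ →* Fˣ).range := by
    intro d e
    rw [← rep_isConj_iff hn1]
    constructor
    · intro h
      exact ConjClasses.mk_eq_mk_iff_isConj.1 (congrArg Subtype.val h)
    · intro h
      exact Subtype.ext (ConjClasses.mk_eq_mk_iff_isConj.2 h)
  let g : (Fˣ ⧸ (powMonoidHom n : Fˣ →* Fˣ).range) → {C : ConjClasses (Matrix.SpecialLinearGroup (Fin n) F) // ∃ u : Matrix.SpecialLinearGroup (Fin n) F, ConjClasses.mk u = C ∧ ((u : Matrix (Fin n) (Fin n) F) - 1) ^ n = 0 ∧ ((u : Matrix (Fin n) (Fin n) F) - 1).rank = n - 1} :=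
    Quotient.lift f (fun a b hab => (hf a b).2 (QuotientGroup.leftRel_apply.1 hab))
  apply Nat.card_congr (Equiv.ofBijective g ⟨?_, ?_⟩)
  · intro x y
    refine Quotient.inductionOn₂ x y ?_
    intro a b hab
    apply Quotient.sound
    exact QuotientGroup.leftRel_apply.2 ((hf a b).1 hab)
  · rintro ⟨C, u, rfl, h1, h2⟩
    obtain ⟨d, hd⟩ := exists_rep hn1 u h1 h2
    refine ⟨(d : Fˣ ⧸ (powMonoidHom n : Fˣ →* Fˣ).range), ?_⟩
    exact Subtype.ext (ConjClasses.mk_eq_mk_iff_isConj.2 hd)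

end Cfsg.Agent.S2578
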