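import Cfsg.Statements.S2582
import Cfsg.Agent.H174.JordanClass

set_option autoImplicit false
open Cfsg

namespace Cfsg.Agent.S2582

/-- Which unipotent Jordan types occur in the finite symplectic group: over a finite field, a unipotent matrix with Jordan block sizes d_1, …, d_t (sum 2m, all at least 1) is similar to an element of Sp_2m(F) if and only if every odd block size occurs an even number of times. -/
theorem result {F : Type*} [Field F] [Fintype F] {m t : ℕ} (d : Fin t → ℕ) (hd : ∀ k, 1 ≤ d k) (hsum : ∑ k, d k = 2 * m) : (∃ e : ((k : Fin t) × Fin (d k)) ≃ (Fin m ⊕ Fin m), ∃ A : Matrix.symplecticGroup (Fin m) F, IsConj (Matrix.reindex e e (Cfsg.jordanTypeMatrix d F)) (A : Matrix (Fin m ⊕ Fin m) (Fin m ⊕ Fin m) F)) ↔ ∀ j : ℕ, Odd j → Even (Finset.univ.filter (fun k : Fin t => d k = j)).card := by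
  classical
  constructor
  · rintro ⟨e, A, h⟩ j hj
    have hA := SymplecticGroup.mem_iff'.1 A.2
    have hAu : IsUnit (A : Matrix (Fin m ⊕ Fin m) (Fin m ⊕ Fin m) F) :=
      (Group.isUnit A).map (Matrix.symplecticGroup (Fin m) F).subtype
    have hnd : (Matrix.toBilin' (Matrix.J (Fin m) F)).Nondegenerate :=
      LinearMap.BilinForm.nondegenerate_toBilin'_of_det_ne_zero' _
        (isUnit_iff_ne_zero.1 (Matrix.isUnit_det_J (Fin m) F))
    have halt : (Matrix.toBilin' (Matrix.J (Fin m) F)).IsAlt := by
      intro x
      rw [Matrix.toBilin'_apply']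
      have hx : x = Sum.elim (fun i => x (Sum.inl i)) (fun i => x (Sum.inr i)) := by
        ext (i | i) <;> rfl
      rw [Matrix.J, hx, Matrix.fromBlocks_mulVec]
      simp only [Matrix.zero_mulVec, Matrix.neg_mulVec, Matrix.one_mulVec, zero_add, add_zero,
        Sum.elim_comp_inl, Sum.elim_comp_inr]
      rw [sumElim_dotProduct_sumElim, dotProduct_neg, dotProduct_comm]
      ring
    refine H174.even_symp e hAu h (B := Matrix.toBilin' (Matrix.J (Fin m) F)) ?_ hnd halt j hj
    intro x y
    rw [Matrix.toBilin'_apply', Matrix.toBilin'_apply', Matrix.mulVec_mulVec]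
    conv_rhs => rw [← hA]
    rw [Matrix.mul_assoc, ← Matrix.mulVec_mulVec _ (Matrix.transpose _), Matrix.dotProduct_mulVec x,
      Matrix.vecMul_transpose]
  · intro h
    by_cases h2 : (2 : F) = 0
    · exact H174.exists_symplectic d hsum (H174.realized_char_two F h2 d hd h)
        (by linear_combination h2)
    · exact H174.exists_symplectic d hsum (H174.realized_symp F h2 d hd h) rfl

end Cfsg.Agent.S2582
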