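import Cfsg.Statements.S2593
import Cfsg.Agent.ClassicalGeometry.SympBasic
import Cfsg.Agent.LieClassical.SympCenter
import Cfsg.Agent.H176.SqZeroAlt

set_option autoImplicit false
open Cfsg

namespace Cfsg.Agent.S2593

open Cfsg.Agent.ClassicalGeometry.SympBasic Matrix

section
variable {F : Type*} [Field F] {m : ℕ}

theorem ext_mulVec {A B : Matrix.symplecticGroup (Fin m) F}
    (h : ∀ x, (A : Matrix (Fin m ⊕ Fin m) (Fin m ⊕ Fin m) F) *ᵥ x =
      (B : Matrix (Fin m ⊕ Fin m) (Fin m ⊕ Fin m) F) *ᵥ x) : A = B := by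
  apply Subtype.ext
  exact Matrix.mulVec_injective (funext h)

/-- `g - 1` as a linear map. -/
noncomputable def nil (g : Matrix.symplecticGroup (Fin m) F) :
    (Fin m ⊕ Fin m → F) →ₗ[F] (Fin m ⊕ Fin m → F) :=
  ((g : Matrix (Fin m ⊕ Fin m) (Fin m ⊕ Fin m) F) - 1).mulVecLin

theorem nil_apply (g : Matrix.symplecticGroup (Fin m) F) (x : Fin m ⊕ Fin m → F) :
    nil g x = (g : Matrix (Fin m ⊕ Fin m) (Fin m ⊕ Fin m) F) *ᵥ x - x := by
  rw [nil, Matrix.mulVecLin_apply, Matrix.sub_mulVec, Matrix.one_mulVec]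

theorem mul_mulVec_of_sq {g : Matrix.symplecticGroup (Fin m) F} (hg : g * g = 1)
    (x : Fin m ⊕ Fin m → F) : (g : Matrix (Fin m ⊕ Fin m) (Fin m ⊕ Fin m) F) *ᵥ
      ((g : Matrix (Fin m ⊕ Fin m) (Fin m ⊕ Fin m) F) *ᵥ x) = x := by
  rw [← coe_mul_mulVec, hg, OneMemClass.coe_one, Matrix.one_mulVec]

theorem nil_nil [CharP F 2] {g : Matrix.symplecticGroup (Fin m) F} (hg : g * g = 1)
    (x : Fin m ⊕ Fin m → F) : nil g (nil g x) = 0 := by
  rw [nil_apply, nil_apply, Matrix.mulVec_sub, mul_mulVec_of_sq hg]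
  have h2 : ∀ v : Fin m ⊕ Fin m → F, v + v = 0 := fun v => by
    funext i
    exact CharTwo.add_self_eq_zero (v i)
  have h3 : x - (g : Matrix (Fin m ⊕ Fin m) (Fin m ⊕ Fin m) F) *ᵥ x -
      ((g : Matrix (Fin m ⊕ Fin m) (Fin m ⊕ Fin m) F) *ᵥ x - x) = (x + x) -
      ((g : Matrix (Fin m ⊕ Fin m) (Fin m ⊕ Fin m) F) *ᵥ x +
       (g : Matrix (Fin m ⊕ Fin m) (Fin m ⊕ Fin m) F) *ᵥ x) := by abel
  rw [h3, h2, h2, sub_zero]

theorem sympBilin_nil {g : Matrix.symplecticGroup (Fin m) F} (hg : g * g = 1)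
    (x y : Fin m ⊕ Fin m → F) : sympBilin m F (nil g x) y = sympBilin m F x (nil g y) := by
  rw [sympBilin_apply, sympBilin_apply, nil_apply, nil_apply, sympForm_sub_left,
    sympForm_sub_right]
  congr 1
  conv_lhs => rw [← mul_mulVec_of_sq hg y]
  rw [sympForm_mulVec g.2]

/-- Conjugacy from an isometry. -/
theorem isConj_of_isometry {g g' : Matrix.symplecticGroup (Fin m) F}
    (h : ∃ e : (Fin m ⊕ Fin m → F) ≃ₗ[F] (Fin m ⊕ Fin m → F),
      (∀ u v, sympBilin m F (e u) (e v) = sympBilin m F u v) ∧ ∀ v, e (nil g v) = nil g' (e v)) :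
    IsConj g g' := by
  obtain ⟨e, he, hn⟩ := h
  have hmem : LinearMap.toMatrix' e.toLinearMap ∈ Matrix.symplecticGroup (Fin m) F := by
    rw [mem_symplecticGroup_iff]
    intro u v
    rw [LinearMap.toMatrix'_mulVec, LinearMap.toMatrix'_mulVec]
    exact he u v
  rw [isConj_iff]
  refine ⟨⟨_, hmem⟩, ?_⟩
  rw [mul_inv_eq_iff_eq_mul]
  apply ext_mulVec
  intro x
  rw [coe_mul_mulVec, coe_mul_mulVec]
  change LinearMap.toMatrix' e.toLinearMap *ᵥ _ = _ *ᵥ (LinearMap.toMatrix' e.toLinearMap *ᵥ x)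
  rw [LinearMap.toMatrix'_mulVec, LinearMap.toMatrix'_mulVec]
  have h1 := hn x
  rw [nil_apply, nil_apply, map_sub] at h1
  exact sub_left_injective h1

/-- The type of an involution: is `f(v, g v)` identically zero? -/
def Alt (g : Matrix.symplecticGroup (Fin m) F) : Prop :=
  ∀ v, sympForm m F v (nil g v) = 0

theorem bilin_isAlt : LinearMap.BilinForm.IsAlt (sympBilin m F) :=
  fun v => sympBilin_isAlt v

theorem isConj_of [Finite F] [CharP F 2] {g g' : Matrix.symplecticGroup (Fin m) F}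
    (hg : g * g = 1) (hg' : g' * g' = 1)
    (hr : ((g : Matrix (Fin m ⊕ Fin m) (Fin m ⊕ Fin m) F) - 1).rank =
      ((g' : Matrix (Fin m ⊕ Fin m) (Fin m ⊕ Fin m) F) - 1).rank) (ht : Alt g ↔ Alt g') :
    IsConj g g' :=
  isConj_of_isometry (H176.SqZeroAlt.exists_conj H176.SymmCharTwo.exists_sq
    bilin_isAlt sympBilin_nondegenerate (sympBilin_nil hg) (nil_nil hg)
    (sympBilin_nil hg') (nil_nil hg') hr ht)

theorem rank_eq_of_isConj {g g' : Matrix.symplecticGroup (Fin m) F} (h : IsConj g g') :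
    ((g : Matrix (Fin m ⊕ Fin m) (Fin m ⊕ Fin m) F) - 1).rank =
      ((g' : Matrix (Fin m ⊕ Fin m) (Fin m ⊕ Fin m) F) - 1).rank := by
  obtain ⟨c, hc⟩ := isConj_iff.1 h
  have h1 : (g' : Matrix (Fin m ⊕ Fin m) (Fin m ⊕ Fin m) F) - 1 =
      (c : Matrix (Fin m ⊕ Fin m) (Fin m ⊕ Fin m) F) *
      ((g : Matrix (Fin m ⊕ Fin m) (Fin m ⊕ Fin m) F) - 1) *
      ((c⁻¹ : Matrix.symplecticGroup (Fin m) F) : Matrix (Fin m ⊕ Fin m) (Fin m ⊕ Fin m) F) := by
    rw [← hc, mul_sub, sub_mul, mul_one, Submonoid.coe_mul, Submonoid.coe_mul]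
    congr 1
    rw [← Submonoid.coe_mul, mul_inv_cancel, OneMemClass.coe_one]
  have h2 : (g : Matrix (Fin m ⊕ Fin m) (Fin m ⊕ Fin m) F) - 1 =
      ((c⁻¹ : Matrix.symplecticGroup (Fin m) F) : Matrix (Fin m ⊕ Fin m) (Fin m ⊕ Fin m) F) *
      ((g' : Matrix (Fin m ⊕ Fin m) (Fin m ⊕ Fin m) F) - 1) *
      (c : Matrix (Fin m ⊕ Fin m) (Fin m ⊕ Fin m) F) := by
    rw [h1]
    have h3 : ((c⁻¹ : Matrix.symplecticGroup (Fin m) F) : Matrix (Fin m ⊕ Fin m) (Fin m ⊕ Fin m) F)
        * (c : Matrix (Fin m ⊕ Fin m) (Fin m ⊕ Fin m) F) = 1 := by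
      rw [← Submonoid.coe_mul, inv_mul_cancel, OneMemClass.coe_one]
    rw [mul_assoc, mul_assoc, mul_assoc, h3, mul_one, ← mul_assoc, h3, one_mul]
  apply le_antisymm
  · rw [h2]
    exact (Matrix.rank_mul_le_left _ _).trans (Matrix.rank_mul_le_right _ _)
  · rw [h1]
    exact (Matrix.rank_mul_le_left _ _).trans (Matrix.rank_mul_le_right _ _)

theorem alt_of_isConj {g g' : Matrix.symplecticGroup (Fin m) F} (h : IsConj g g') (hg : Alt g) :
    Alt g' := by
  obtain ⟨c, hc⟩ := isConj_iff.1 h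
  intro v
  have h1 : (c : Matrix (Fin m ⊕ Fin m) (Fin m ⊕ Fin m) F) *ᵥ
      (((c⁻¹ : Matrix.symplecticGroup (Fin m) F) : Matrix (Fin m ⊕ Fin m) (Fin m ⊕ Fin m) F) *ᵥ v)
      = v := by
    rw [← coe_mul_mulVec, mul_inv_cancel, OneMemClass.coe_one, Matrix.one_mulVec]
  rw [nil_apply, sympForm_sub_right, sympForm_self, sub_zero, ← hc, coe_mul_mulVec, coe_mul_mulVec]
  have h2 := hg (((c⁻¹ : Matrix.symplecticGroup (Fin m) F) :
    Matrix (Fin m ⊕ Fin m) (Fin m ⊕ Fin m) F) *ᵥ v)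
  rw [nil_apply, sympForm_sub_right, sympForm_self, sub_zero, ← sympForm_mulVec c.2, h1] at h2
  exact h2

/-! ### Representatives -/

/-- the partial permutation matrix of an embedding. -/
def proj {κ n : Type*} [DecidableEq n] (F : Type*) [Field F] (e : κ → n) : Matrix κ n F :=
  (1 : Matrix n n F).submatrix e id

theorem proj_mul_transpose {κ n : Type*} [DecidableEq κ] [DecidableEq n] [Fintype n]
    (e : κ → n) (he : Function.Injective e) : proj F e * (proj F e)ᵀ = 1 := by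
  rw [proj, Matrix.transpose_submatrix, Matrix.transpose_one,
    ← Matrix.submatrix_mul _ _ e id e Function.bijective_id, Matrix.mul_one, Matrix.submatrix_one e he]

theorem rank_conj {κ κ' n n' : Type*} [Fintype κ] [Fintype n] [DecidableEq κ]
    [Fintype κ'] [Fintype n'] [DecidableEq κ']
    {P : Matrix κ n F} {Q : Matrix κ' n' F} (hP : P * Pᵀ = 1) (hQ : Q * Qᵀ = 1)
    (M : Matrix κ κ' F) : (Pᵀ * M * Q).rank = M.rank := by
  apply le_antisymm
  · exact (Matrix.rank_mul_le_left _ _).trans (Matrix.rank_mul_le_right _ _)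
  · have h : M = P * (Pᵀ * M * Q) * Qᵀ := by
      rw [← Matrix.mul_assoc, ← Matrix.mul_assoc, hP, Matrix.one_mul, Matrix.mul_assoc, hQ,
        Matrix.mul_one]
    conv_lhs => rw [h]
    exact (Matrix.rank_mul_le_left _ _).trans (Matrix.rank_mul_le_right _ _)

/-- The unipotent element with symmetric block `S`. -/
def up (S : Matrix (Fin m) (Fin m) F) (hS : S.transpose = S) : Matrix.symplecticGroup (Fin m) F :=
  ⟨Matrix.fromBlocks 1 S 0 1, LieClassical.SympCenter.upper_mem m hS⟩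

theorem up_mulVec (S : Matrix (Fin m) (Fin m) F) (hS : S.transpose = S)
    (x : Fin m ⊕ Fin m → F) :
    nil (up S hS) x = Sum.elim (S *ᵥ (x ∘ Sum.inr)) 0 := by
  rw [nil_apply, up]
  change Matrix.fromBlocks 1 S 0 1 *ᵥ x - x = _
  rw [Matrix.fromBlocks_mulVec]
  funext i
  rcases i with i | i
  · simp
  · simp

theorem up_mul_up [CharP F 2] (S : Matrix (Fin m) (Fin m) F) (hS : S.transpose = S) :
    up S hS * up S hS = 1 := by
  apply Subtype.ext
  rw [Submonoid.coe_mul, OneMemClass.coe_one]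
  change Matrix.fromBlocks 1 S 0 1 * Matrix.fromBlocks 1 S 0 1 = 1
  rw [Matrix.fromBlocks_multiply]
  have h : S + S = 0 := by
    ext i j
    exact CharTwo.add_self_eq_zero (S i j)
  simp [h, Matrix.fromBlocks_one]

theorem rank_up (S : Matrix (Fin m) (Fin m) F) (hS : S.transpose = S) :
    ((up S hS : Matrix (Fin m ⊕ Fin m) (Fin m ⊕ Fin m) F) - 1).rank = S.rank := by
  have h : (up S hS : Matrix (Fin m ⊕ Fin m) (Fin m ⊕ Fin m) F) - 1 =
      (proj F (Sum.inl : Fin m → Fin m ⊕ Fin m))ᵀ * S *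
        proj F (Sum.inr : Fin m → Fin m ⊕ Fin m) := by
    apply Matrix.mulVec_injective
    funext x
    have h1 : ∀ x : Fin m ⊕ Fin m → F, proj F (Sum.inr : Fin m → Fin m ⊕ Fin m) *ᵥ x =
        x ∘ Sum.inr := by
      intro x
      funext i
      simp [proj, Matrix.mulVec, dotProduct, Matrix.one_apply]
    have h2 : ∀ y : Fin m → F, (proj F (Sum.inl : Fin m → Fin m ⊕ Fin m))ᵀ *ᵥ y =
        Sum.elim y 0 := by
      intro y
      funext i
      rcases i with i | i
      · simp [proj, Matrix.mulVec, dotProduct, Matrix.one_apply, Matrix.transpose_apply]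
      · simp [proj, Matrix.mulVec, dotProduct, Matrix.one_apply, Matrix.transpose_apply]
    rw [← Matrix.mulVec_mulVec, h1, ← Matrix.mulVec_mulVec, h2, ← up_mulVec S hS x]
    rfl
  rw [h, rank_conj (proj_mul_transpose _ Sum.inl_injective)
    (proj_mul_transpose _ Sum.inr_injective)]

theorem sympForm_up [CharP F 2] (S : Matrix (Fin m) (Fin m) F) (hS : S.transpose = S)
    (x : Fin m ⊕ Fin m → F) :
    sympForm m F x (nil (up S hS) x) = (x ∘ Sum.inr) ⬝ᵥ (S *ᵥ (x ∘ Sum.inr)) := by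
  rw [up_mulVec, sympForm_eq_sum]
  simp [dotProduct]

theorem alt_up_iff [CharP F 2] (S : Matrix (Fin m) (Fin m) F) (hS : S.transpose = S) :
    Alt (up S hS) ↔ ∀ y : Fin m → F, y ⬝ᵥ (S *ᵥ y) = 0 := by
  constructor
  · intro h y
    have := h (Sum.elim 0 y)
    rw [sympForm_up] at this
    exact this
  · intro h x
    rw [sympForm_up]
    exact h _

/-- representatives: an involution for each non-singular symmetric matrix. -/
theorem exists_rep [CharP F 2] {κ : Type} [Fintype κ] [DecidableEq κ] (e : κ → Fin m)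
    (he : Function.Injective e) (M : Matrix κ κ F) (hM : Mᵀ = M) (hdet : IsUnit M) :
    ∃ g : Matrix.symplecticGroup (Fin m) F, g * g = 1 ∧
      ((g : Matrix (Fin m ⊕ Fin m) (Fin m ⊕ Fin m) F) - 1).rank = Fintype.card κ ∧
      (Alt g ↔ ∀ z : κ → F, z ⬝ᵥ (M *ᵥ z) = 0) := by
  have hS : ((proj F e)ᵀ * M * proj F e)ᵀ = (proj F e)ᵀ * M * proj F e := by
    rw [Matrix.transpose_mul, Matrix.transpose_mul, Matrix.transpose_transpose, hM,
      Matrix.mul_assoc]
  have hP := proj_mul_transpose (F := F) e he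
  refine ⟨up _ hS, up_mul_up _ hS, ?_, ?_⟩
  · rw [rank_up, rank_conj hP hP, Matrix.rank_of_isUnit _ hdet]
  · rw [alt_up_iff]
    have key : ∀ y : Fin m → F, y ⬝ᵥ (((proj F e)ᵀ * M * proj F e) *ᵥ y) =
        (proj F e *ᵥ y) ⬝ᵥ (M *ᵥ (proj F e *ᵥ y)) := by
      intro y
      rw [← Matrix.mulVec_mulVec, ← Matrix.mulVec_mulVec, Matrix.dotProduct_mulVec,
        Matrix.vecMul_transpose]
    constructor
    · intro h z
      have h1 := h ((proj F e)ᵀ *ᵥ z)
      rw [key, Matrix.mulVec_mulVec, hP, Matrix.one_mulVec] at h1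
      exact h1
    · intro h y
      rw [key]
      exact h _

theorem orderOf_eq_two_iff (g : Matrix.symplecticGroup (Fin m) F) :
    orderOf g = 2 ↔ g * g = 1 ∧ g ≠ 1 := by
  rw [← pow_two]
  constructor
  · intro h
    refine ⟨by rw [← h]; exact pow_orderOf_eq_one g, ?_⟩
    rintro rfl
    rw [orderOf_one] at h
    omega
  · rintro ⟨h1, h2⟩
    exact orderOf_eq_prime h1 h2

theorem rank_pos {g : Matrix.symplecticGroup (Fin m) F} (hg : g ≠ 1) :
    1 ≤ ((g : Matrix (Fin m ⊕ Fin m) (Fin m ⊕ Fin m) F) - 1).rank := by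
  rw [Nat.one_le_iff_ne_zero]
  intro h0
  apply hg
  rw [Matrix.rank, Submodule.finrank_eq_zero, LinearMap.range_eq_bot] at h0
  apply ext_mulVec
  intro x
  have h1 := congrArg (fun φ => φ x) h0
  simp only [Matrix.mulVecLin_apply, Matrix.sub_mulVec, Matrix.one_mulVec,
    LinearMap.zero_apply] at h1
  rw [OneMemClass.coe_one, Matrix.one_mulVec]
  exact sub_eq_zero.1 h1

theorem rank_le [CharP F 2] {g : Matrix.symplecticGroup (Fin m) F} (hg : g * g = 1) :
    ((g : Matrix (Fin m ⊕ Fin m) (Fin m ⊕ Fin m) F) - 1).rank ≤ m := by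
  have h1 := LinearMap.finrank_range_add_finrank_ker (nil g)
  have h2 : LinearMap.range (nil g) ≤ LinearMap.ker (nil g) := by
    rintro _ ⟨x, rfl⟩
    exact nil_nil hg x
  have h3 := Submodule.finrank_mono h2
  rw [Module.finrank_fintype_fun_eq_card, Fintype.card_sum, Fintype.card_fin] at h1
  have h4 : ((g : Matrix (Fin m ⊕ Fin m) (Fin m ⊕ Fin m) F) - 1).rank =
    Module.finrank F (LinearMap.range (nil g)) := rfl
  omega

theorem even_of_alt [CharP F 2] {g : Matrix.symplecticGroup (Fin m) F} (hg : g * g = 1)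
    (h : Alt g) : ∃ k, ((g : Matrix (Fin m ⊕ Fin m) (Fin m ⊕ Fin m) F) - 1).rank = k + k := by
  obtain ⟨k, hk, -⟩ := H176.SqZeroAlt.exists_family_alt bilin_isAlt sympBilin_nondegenerate
    (sympBilin_nil hg) h
  exact ⟨k, hk⟩

end

/-- Number of conjugacy classes of involutions in the symplectic group Sp_2m(F) over a finite field of characteristic two (m ≥ 1): for each s with 1 ≤ s ≤ m there is one class with rank(t − 1) = s if s is odd and two if s is even (according as v ↦ f(v, tv), f the symplectic form, vanishes identically or not), so m + ⌊m/2⌋ classes in all. -/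
theorem result {F : Type*} [Field F] [Fintype F] [CharP F 2] {m : ℕ} (hm : 1 ≤ m) : Nat.card {C : ConjClasses ↥(Matrix.symplecticGroup (Fin m) F) // ∃ g : Matrix.symplecticGroup (Fin m) F, ConjClasses.mk g = C ∧ orderOf g = 2} = m + m / 2 := by
  classical
  -- representatives of the non-alternating classes
  have hA : ∀ i : Fin m, ∃ g : Matrix.symplecticGroup (Fin m) F, g * g = 1 ∧
      ((g : Matrix (Fin m ⊕ Fin m) (Fin m ⊕ Fin m) F) - 1).rank = (i : ℕ) + 1 ∧ ¬ Alt g := by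
    intro i
    obtain ⟨g, h1, h2, h3⟩ := exists_rep (F := F) (Fin.castLE (Nat.succ_le_of_lt i.2))
      (Fin.castLE_injective _) (1 : Matrix (Fin ((i : ℕ) + 1)) (Fin ((i : ℕ) + 1)) F)
      Matrix.transpose_one isUnit_one
    refine ⟨g, h1, by rw [h2, Fintype.card_fin], ?_⟩
    rw [h3]
    intro h
    have := h (Pi.single 0 1)
    simp at this
  have hB : ∀ k : Fin (m / 2), ∃ g : Matrix.symplecticGroup (Fin m) F, g * g = 1 ∧
      ((g : Matrix (Fin m ⊕ Fin m) (Fin m ⊕ Fin m) F) - 1).rank = 2 * ((k : ℕ) + 1) ∧ Alt g := by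
    intro k
    have hk : ((k : ℕ) + 1) + ((k : ℕ) + 1) ≤ m := by have := k.2; omega
    have hJ : (Matrix.J (Fin ((k : ℕ) + 1)) F)ᵀ = Matrix.J (Fin ((k : ℕ) + 1)) F := by
      rw [Matrix.J_transpose]
      ext i j
      exact CharTwo.neg_eq _
    obtain ⟨g, h1, h2, h3⟩ := exists_rep (F := F)
      (fun x : Fin ((k : ℕ) + 1) ⊕ Fin ((k : ℕ) + 1) => Fin.castLE hk (finSumFinEquiv x))
      ((Fin.castLE_injective hk).comp finSumFinEquiv.injective)
      (Matrix.J (Fin ((k : ℕ) + 1)) F) hJ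
      ((Matrix.isUnit_iff_isUnit_det _).2 (Matrix.isUnit_det_J _ _))
    refine ⟨g, h1, by rw [h2, Fintype.card_sum, Fintype.card_fin]; ring, ?_⟩
    rw [h3]
    intro z
    exact sympForm_self z
  choose gA hA1 hA2 hA3 using hA
  choose gB hB1 hB2 hB3 using hB
  have hord : ∀ g : Matrix.symplecticGroup (Fin m) F, g * g = 1 →
      ((g : Matrix (Fin m ⊕ Fin m) (Fin m ⊕ Fin m) F) - 1).rank ≠ 0 → orderOf g = 2 := by
    intro g h1 h2
    rw [orderOf_eq_two_iff]
    refine ⟨h1, ?_⟩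
    rintro rfl
    apply h2
    rw [OneMemClass.coe_one, sub_self, Matrix.rank_zero]
  let φ : Fin m ⊕ Fin (m / 2) → {C : ConjClasses ↥(Matrix.symplecticGroup (Fin m) F) //
      ∃ g : Matrix.symplecticGroup (Fin m) F, ConjClasses.mk g = C ∧ orderOf g = 2} :=
    Sum.elim (fun i => ⟨ConjClasses.mk (gA i), gA i, rfl, hord _ (hA1 i) (by rw [hA2]; omega)⟩)
      (fun k => ⟨ConjClasses.mk (gB k), gB k, rfl, hord _ (hB1 k) (by rw [hB2]; omega)⟩)
  have hφ : Function.Bijective φ := by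
    constructor
    · rintro (i | i) (j | j) h
      · have h1 := ConjClasses.mk_eq_mk_iff_isConj.1 (congrArg Subtype.val h)
        have h2 := rank_eq_of_isConj h1
        rw [hA2, hA2] at h2
        rw [Fin.ext (by omega : (i : ℕ) = j)]
      · have h1 := ConjClasses.mk_eq_mk_iff_isConj.1 (congrArg Subtype.val h)
        exact absurd (alt_of_isConj h1.symm (hB3 j)) (hA3 i)
      · have h1 := ConjClasses.mk_eq_mk_iff_isConj.1 (congrArg Subtype.val h)
        exact absurd (alt_of_isConj h1 (hB3 i)) (hA3 j)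
      · have h1 := ConjClasses.mk_eq_mk_iff_isConj.1 (congrArg Subtype.val h)
        have h2 := rank_eq_of_isConj h1
        rw [hB2, hB2] at h2
        rw [Fin.ext (by omega : (i : ℕ) = j)]
    · rintro ⟨_, g, rfl, hg⟩
      rw [orderOf_eq_two_iff] at hg
      obtain ⟨hg1, hg2⟩ := hg
      have h1 := rank_pos hg2
      have h2 := rank_le hg1
      by_cases h : Alt g
      · obtain ⟨k, hk⟩ := even_of_alt hg1 h
        refine ⟨Sum.inr ⟨k - 1, by omega⟩, ?_⟩
        apply Subtype.ext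
        change ConjClasses.mk (gB _) = _
        rw [ConjClasses.mk_eq_mk_iff_isConj]
        refine isConj_of (hB1 _) hg1 ?_ ⟨fun _ => h, fun _ => hB3 _⟩
        rw [hB2, hk]
        simp only
        omega
      · refine ⟨Sum.inl ⟨((g : Matrix (Fin m ⊕ Fin m) (Fin m ⊕ Fin m) F) - 1).rank - 1,
          by omega⟩, ?_⟩
        apply Subtype.ext
        change ConjClasses.mk (gA _) = _
        rw [ConjClasses.mk_eq_mk_iff_isConj]
        refine isConj_of (hA1 _) hg1 ?_ ⟨fun h' => absurd h' (hA3 _), fun h' => absurd h' h⟩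
        rw [hA2]
        simp only
        omega
  rw [← Nat.card_congr (Equiv.ofBijective φ hφ), Nat.card_eq_fintype_card, Fintype.card_sum,
    Fintype.card_fin, Fintype.card_fin]

end Cfsg.Agent.S2593
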