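import Cfsg.Statements.S2599
import Cfsg.Agent.ClassicalGeometry.Reflection

set_option autoImplicit false
open Cfsg

namespace Cfsg.Agent.S2599

/-- An irreducible invariant subspace of a semisimple isometry is non-degenerate or totally singular: let Q be a quadratic form on F^n (F finite of characteristic p) with non-degenerate polar form f, x an isometry of Q of order prime to p, and U a non-zero x-invariant subspace containing no x-invariant subspace other than 0 and U. Then U meets its f-orthogonal trivially, or Q vanishes on U, or p = 2, U is a line spanned by a non-singular vector and x fixes U pointwise. -/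
theorem result {F : Type*} [Field F] [Fintype F] {p : ℕ} [Fact p.Prime] [CharP F p] {n : ℕ} (Q : QuadraticForm F (Fin n → F)) (hQ : (QuadraticMap.polarBilin Q).Nondegenerate) (x : ↥(Cfsg.isometryGroup F ⇑Q)) (hx : (orderOf x).Coprime p) (U : Submodule F (Fin n → F)) (hU0 : U ≠ ⊥) (hUx : ∀ u ∈ U, ((x : Matrix.GeneralLinearGroup (Fin n) F) : Matrix (Fin n) (Fin n) F).mulVec u ∈ U) (hirr : ∀ W : Submodule F (Fin n → F), W ≤ U → (∀ w ∈ W, ((x : Matrix.GeneralLinearGroup (Fin n) F) : Matrix (Fin n) (Fin n) F).mulVec w ∈ W) → W = ⊥ ∨ W = U) : U ⊓ LinearMap.BilinForm.orthogonal (QuadraticMap.polarBilin Q) U = ⊥ ∨ (∀ u ∈ U, Q u = 0) ∨ (p = 2 ∧ Module.finrank F U = 1 ∧ (∃ u ∈ U, Q u ≠ 0) ∧ ∀ u ∈ U, ((x : Matrix.GeneralLinearGroup (Fin n) F) : Matrix (Fin n) (Fin n) F).mulVec u = u) := by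
  classical
  have hQx := (Cfsg.Agent.ClassicalGeometry.Reflection.mem_isometryGroup_iff _ _).1 x.2
  have hpol := Cfsg.Agent.ClassicalGeometry.Reflection.polar_mulVec_of_isometry Q _ hQx
  generalize hM : ((x : Matrix.GeneralLinearGroup (Fin n) F) : Matrix (Fin n) (Fin n) F) = M at *
  have hMinj : Function.Injective M.mulVec := by
    intro a b hab
    have hu : IsUnit M := by rw [← hM]; exact Units.isUnit _
    exact Matrix.mulVec_injective_of_isUnit hu hab
  -- `M` maps `U` onto `U`
  have hsurj : ∀ u ∈ U, ∃ u' ∈ U, M.mulVec u' = u := by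
    intro u hu
    let φ : U →ₗ[F] U := (M.mulVecLin).restrict hUx
    have hinj : Function.Injective φ := by
      intro a b hab
      apply Subtype.ext
      apply hMinj
      exact congrArg Subtype.val hab
    obtain ⟨v, hv⟩ := (LinearMap.injective_iff_surjective.1 hinj) ⟨u, hu⟩
    exact ⟨v, v.2, congrArg Subtype.val hv⟩
  rcases hirr (U ⊓ LinearMap.BilinForm.orthogonal (QuadraticMap.polarBilin Q) U) inf_le_left (by
    rintro w ⟨hw1, hw2⟩
    refine ⟨hUx w hw1, ?_⟩
    intro u hu
    obtain ⟨u', hu', rfl⟩ := hsurj u hu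
    have := hw2 u' hu'
    change QuadraticMap.polar Q _ _ = 0
    rw [hpol]
    exact this) with h | h
  · exact Or.inl h
  right
  have hpolU : ∀ u ∈ U, ∀ v ∈ U, QuadraticMap.polar Q u v = 0 := by
    intro u hu v hv
    rw [← h] at hv
    exact hv.2 u hu
  have hadd : ∀ u ∈ U, ∀ v ∈ U, Q (u + v) = Q u + Q v := by
    intro u hu v hv
    rw [QuadraticMap.map_add Q, hpolU u hu v hv, add_zero]
  have hsmul : ∀ (c : F) (u : Fin n → F), Q (c • u) = c * c * Q u := by
    intro c u
    rw [QuadraticMap.map_smul, smul_eq_mul]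
  by_cases hp : p = 2
  · -- characteristic two
    let Z : Submodule F (Fin n → F) :=
      { carrier := {u | u ∈ U ∧ Q u = 0}
        add_mem' := by
          rintro a b ⟨ha, ha'⟩ ⟨hb, hb'⟩
          exact ⟨U.add_mem ha hb, by rw [hadd a ha b hb, ha', hb', add_zero]⟩
        zero_mem' := ⟨U.zero_mem, QuadraticMap.map_zero Q⟩
        smul_mem' := by
          rintro c a ⟨ha, ha'⟩
          exact ⟨U.smul_mem c ha, by rw [hsmul, ha', mul_zero]⟩ }
    rcases hirr Z (fun u hu => hu.1) (fun w hw => ⟨hUx w hw.1, by rw [hQx]; exact hw.2⟩) with hZ | hZ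
    · right
      have hinj : ∀ u ∈ U, Q u = 0 → u = 0 := by
        intro u hu hu0
        have : u ∈ Z := ⟨hu, hu0⟩
        rw [hZ] at this
        simpa using this
      obtain ⟨u, hu, hu0⟩ := Submodule.exists_mem_ne_zero_of_ne_bot hU0
      have hQu : Q u ≠ 0 := fun h0 => hu0 (hinj u hu h0)
      have h2 : (2 : F) = 0 := by
        have := CharP.cast_eq_zero F p
        rw [hp] at this
        exact_mod_cast this
      have hsub : ∀ a ∈ U, ∀ b ∈ U, Q (a - b) = Q a + Q b := by
        intro a ha b hb
        rw [sub_eq_add_neg, hadd a ha (-b) (U.neg_mem hb), QuadraticMap.map_neg]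
      refine ⟨hp, ?_, ⟨u, hu, hQu⟩, ?_⟩
      · rw [finrank_eq_one_iff']
        refine ⟨⟨u, hu⟩, ?_, ?_⟩
        · intro h0
          exact hu0 (congrArg Subtype.val h0)
        · rintro ⟨w, hw⟩
          haveI : CharP F 2 := by rw [← hp]; infer_instance
          obtain ⟨c, hc⟩ := FiniteField.isSquare_of_char_two (ringChar.eq F 2) (Q w * (Q u)⁻¹)
          refine ⟨c, ?_⟩
          apply Subtype.ext
          change c • u = w
          have h0 : Q (c • u - w) = 0 := by
            rw [hsub _ (U.smul_mem c hu) _ hw, hsmul, ← hc, mul_assoc, inv_mul_cancel₀ hQu, mul_one,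
              ← two_mul, h2, zero_mul]
          have := hinj _ (U.sub_mem (U.smul_mem c hu) hw) h0
          exact sub_eq_zero.1 this
      · intro w hw
        have h0 : Q (M.mulVec w - w) = 0 := by
          rw [hsub _ (hUx w hw) _ hw, hQx, ← two_mul, h2, zero_mul]
        exact sub_eq_zero.1 (hinj _ (U.sub_mem (hUx w hw) hw) h0)
    · left
      intro u hu
      rw [← hZ] at hu
      exact hu.2
  · left
    intro u hu
    have h1 := hpolU u hu u hu
    rw [Cfsg.Agent.ClassicalGeometry.Reflection.polar_self'] at h1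
    have h2 : (2 : F) ≠ 0 := by
      intro h2
      have h3 : ((2 : ℕ) : F) = 0 := by exact_mod_cast h2
      rw [CharP.cast_eq_zero_iff F p] at h3
      exact hp ((Nat.prime_dvd_prime_iff_eq Fact.out Nat.prime_two).1 h3)
    exact (mul_eq_zero.1 h1).resolve_left h2

end Cfsg.Agent.S2599
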