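import Cfsg.Statements.S2612
import Cfsg.Agent.H181.SwapPlus

set_option autoImplicit false
open Cfsg

namespace Cfsg.Agent.S2612

open Cfsg.Agent.ClassicalGeometry.OrthCharTwo Cfsg.Agent.ClassicalGeometry.OrthDickson
open Cfsg.Agent.H181.SwapPlus

/-- For the hyperbolic quadratic form Σ x_i y_i on F^(2m) (F finite, m ≥ 1, excluding m = 2 over the field of two elements), Ω⁺_2m(F) (the commutator subgroup of the orthogonal group) contains an element interchanging the two complementary maximal totally singular subspaces {y = 0} and {x = 0} if and only if m is even (dimension divisible by 4). -/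
theorem result {F : Type*} [Field F] [Fintype F] {m : ℕ} (hm : 1 ≤ m) (h : Fintype.card F ≠ 2 ∨ m ≠ 2) : (∃ g : ↥(Cfsg.isometryGroup F (Cfsg.quadFormPlus m F)), g ∈ Cfsg.Omega F (Cfsg.quadFormPlus m F) ∧ (∀ v : Fin m ⊕ Fin m → F, (∀ i, v (Sum.inr i) = 0) → ∀ i, (((g : Matrix.GeneralLinearGroup (Fin m ⊕ Fin m) F) : Matrix (Fin m ⊕ Fin m) (Fin m ⊕ Fin m) F).mulVec v) (Sum.inl i) = 0) ∧ (∀ v : Fin m ⊕ Fin m → F, (∀ i, v (Sum.inl i) = 0) → ∀ i, (((g : Matrix.GeneralLinearGroup (Fin m ⊕ Fin m) F) : Matrix (Fin m ⊕ Fin m) (Fin m ⊕ Fin m) F).mulVec v) (Sum.inr i) = 0)) ↔ Even m := by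
  rw [← Cfsg.Agent.LieClassical.OrthForms.coe_plusForm]
  have hθ : (∃ θ : F, θ ≠ 0 ∧ θ ≠ 1) ∨ Fintype.card (Fin m ⊕ Fin m) ≠ 4 := by
    rcases h with h | h
    · exact Or.inl (exists_ne_zero_ne_one h)
    · right
      rw [Fintype.card_sum, Fintype.card_fin]
      omega
  have hnd := Cfsg.Agent.H181.FormNondeg.plus_nondegenerate m F
  constructor
  · rintro ⟨g, hg, h1, h2⟩
    have h3 : dsign _ (ss F m m * g) = (-1) ^ m := by
      rw [dsign_mul_of_gen _ hnd hθ, dsign_eq_one_of_mem_commutator _ hnd hθ g hg, mul_one]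
      refine map_ss (dsignHom _ hnd hθ) (-1) (fun j hj => ?_) le_rfl
      rw [rr_of_lt hj, dsignHom_apply, dsign_refl _ hnd]
    have h4 : Even (Module.finrank F (fixSp (ss F m m * g))) := by
      apply even_finrank_fixSp
      · intro v hv i
        rw [act_mul, (act_ss le_rfl _ i).2, if_pos i.2]
        exact h1 v hv i
      · intro v hv i
        rw [act_mul, (act_ss le_rfl _ i).1, if_pos i.2]
        exact h2 v hv i
    rw [dsign_def, Fintype.card_sum, Fintype.card_fin,
      (h4.add (⟨m, rfl⟩ : Even (m + m))).neg_one_pow] at h3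
    by_contra hodd
    rw [(Nat.not_even_iff_odd.1 hodd).neg_one_pow] at h3
    exact absurd h3 (by decide)
  · intro hm2
    refine ⟨ss F m m, ss_mem h hm2, ?_, ?_⟩
    · intro v hv i
      have := (act_ss le_rfl v i).1
      rw [if_pos i.2, hv i] at this
      exact this
    · intro v hv i
      have := (act_ss le_rfl v i).2
      rw [if_pos i.2, hv i] at this
      exact this

end Cfsg.Agent.S2612
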