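import Cfsg.Statements.S2631
-- import your own Cfsg.Agent.* helpers here
import Cfsg.Agent.S2629
import Cfsg.Agent.S2630
import Cfsg.Agent.S0750
import Cfsg.Agent.H181.FormNondeg
import Cfsg.Agent.ClassicalGeometry.OmegaIndex

set_option autoImplicit false
open Cfsg

namespace Cfsg.Agent.S2631

open Module QuadraticMap
open Cfsg.Agent.LieClassical.OrthForms Cfsg.Agent.H181.HypInv Cfsg.Agent.H181.FormNondeg
open Cfsg.Agent.ClassicalGeometry.Reflection

section Aux

variable {F : Type*} [Field F] {m : ℕ}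

/-- the action of an isometry as a linear map -/
def lin (g : ↥(Cfsg.isometryGroup F (Cfsg.quadFormPlus m F))) :
    (Fin m ⊕ Fin m → F) →ₗ[F] (Fin m ⊕ Fin m → F) :=
  Matrix.mulVecLin ((g : Matrix.GeneralLinearGroup (Fin m ⊕ Fin m) F) :
    Matrix (Fin m ⊕ Fin m) (Fin m ⊕ Fin m) F)

theorem lin_mul (g h : ↥(Cfsg.isometryGroup F (Cfsg.quadFormPlus m F))) :
    lin (g * h) = (lin g).comp (lin h) := by
  ext1 
  simp [lin, Matrix.mulVecLin_mul]

theorem lin_one : lin (1 : ↥(Cfsg.isometryGroup F (Cfsg.quadFormPlus m F))) = LinearMap.id := by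
  ext1
  simp [lin]

theorem lin_injective (g : ↥(Cfsg.isometryGroup F (Cfsg.quadFormPlus m F))) :
    Function.Injective (lin g) := by
  intro x y h
  have h1 : lin g⁻¹ (lin g x) = lin g⁻¹ (lin g y) := by rw [h]
  rw [← LinearMap.comp_apply, ← LinearMap.comp_apply, ← lin_mul, inv_mul_cancel, lin_one] at h1
  exact h1

/-- the standard subspace -/
abbrev std (m : ℕ) (F : Type*) [Field F] : Submodule F (Fin m ⊕ Fin m → F) :=
  LinearMap.ker (LinearMap.funLeft F F (Sum.inr : Fin m → Fin m ⊕ Fin m))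

theorem mem_std (v : Fin m ⊕ Fin m → F) : v ∈ std m F ↔ ∀ i, v (Sum.inr i) = 0 := by
  rw [std, LinearMap.mem_ker]
  constructor
  · intro h i
    exact congrFun h i
  · intro h
    funext i
    exact h i

theorem finrank_std : finrank F (std m F) = m := by
  have h1 := LinearMap.finrank_range_add_finrank_ker
    (LinearMap.funLeft F F (Sum.inr : Fin m → Fin m ⊕ Fin m))
  have h2 : LinearMap.range (LinearMap.funLeft F F (Sum.inr : Fin m → Fin m ⊕ Fin m)) = ⊤ :=
    LinearMap.range_eq_top.2 (LinearMap.funLeft_surjective_of_injective _ _ _ Sum.inr_injective)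
  rw [h2, finrank_top, finrank_fintype_fun_eq_card, finrank_fintype_fun_eq_card,
    Fintype.card_sum, Fintype.card_fin] at h1
  change finrank F (LinearMap.ker (LinearMap.funLeft F F (Sum.inr : Fin m → Fin m ⊕ Fin m))) = m
  omega

/-- Witt: totally singular subspaces of the same dimension are equivalent. -/
theorem exists_map_eq [Finite F] (U W : Submodule F (Fin m ⊕ Fin m → F))
    (h : finrank F U = finrank F W) (hU0 : ∀ u ∈ U, Cfsg.quadFormPlus m F u = 0)
    (hW0 : ∀ w ∈ W, Cfsg.quadFormPlus m F w = 0) :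
    ∃ g : ↥(Cfsg.isometryGroup F (Cfsg.quadFormPlus m F)), U.map (lin g) = W := by
  let φ : U ≃ₗ[F] W := LinearEquiv.ofFinrankEq U W h
  obtain ⟨g, hg, hg'⟩ := Cfsg.Agent.S0750.result (plusForm m F) (plus_nondegenerate m F) U W φ
    (fun x => by rw [coe_plusForm, hU0 _ x.2, hW0 _ (φ x).2])
  let G : Matrix.GeneralLinearGroup (Fin m ⊕ Fin m) F :=
    ⟨LinearMap.toMatrix' (g : (Fin m ⊕ Fin m → F) →ₗ[F] (Fin m ⊕ Fin m → F)),
      LinearMap.toMatrix' (g.symm : (Fin m ⊕ Fin m → F) →ₗ[F] (Fin m ⊕ Fin m → F)),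
      by rw [← LinearMap.toMatrix'_comp, LinearEquiv.comp_coe, LinearEquiv.symm_trans_self]; 
         simp,
      by rw [← LinearMap.toMatrix'_comp, LinearEquiv.comp_coe, LinearEquiv.self_trans_symm]; 
         simp⟩
  have hG : ∀ x, (G : Matrix (Fin m ⊕ Fin m) (Fin m ⊕ Fin m) F).mulVec x = g x := by
    intro x
    change (LinearMap.toMatrix' (g : (Fin m ⊕ Fin m → F) →ₗ[F] (Fin m ⊕ Fin m → F))).mulVec x = g x
    rw [LinearMap.toMatrix'_mulVec]
    rfl
  refine ⟨⟨G, ?_⟩, ?_⟩
  · rw [mem_isometryGroup_iff]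
    intro x
    rw [hG, ← coe_plusForm]
    exact hg x
  · ext y
    rw [Submodule.mem_map]
    constructor
    · rintro ⟨x, hx, rfl⟩
      change (G : Matrix (Fin m ⊕ Fin m) (Fin m ⊕ Fin m) F).mulVec x ∈ W
      rw [hG, hg' ⟨x, hx⟩]
      exact (φ ⟨x, hx⟩).2
    · intro hy
      refine ⟨(φ.symm ⟨y, hy⟩ : U), (φ.symm ⟨y, hy⟩).2, ?_⟩
      change (G : Matrix (Fin m ⊕ Fin m) (Fin m ⊕ Fin m) F).mulVec _ = _
      rw [hG, hg' (φ.symm ⟨y, hy⟩), LinearEquiv.apply_symm_apply]

/-- In odd characteristic some element of determinant one stabilising the standard subspace has spinor sign `-1`. -/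
theorem exists_stab [Finite F] (h2 : (2 : F) ≠ 0) (hm : 1 ≤ m) :
    ∃ d : ↥(Cfsg.isometryGroup F (⇑(plusForm m F))),
      (∀ v, v ∈ std m F → ((d : Matrix.GeneralLinearGroup (Fin m ⊕ Fin m) F) :
        Matrix (Fin m ⊕ Fin m) (Fin m ⊕ Fin m) F).mulVec v ∈ std m F) ∧
      ((d : Matrix.GeneralLinearGroup (Fin m ⊕ Fin m) F) :
        Matrix (Fin m ⊕ Fin m) (Fin m ⊕ Fin m) F).det = 1 ∧
      Cfsg.Agent.ClassicalGeometry.SpinorSign.spinorSign (⇑(plusForm m F)) (-1) d = -1 := by
  classical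
  obtain ⟨a, ha⟩ := FiniteField.exists_nonsquare
    (F := F) (Cfsg.Agent.ClassicalGeometry.Universal.ringChar_ne_two h2)
  have ha0 : a ≠ 0 := by rintro rfl; exact ha IsSquare.zero
  let j : Fin m := ⟨0, hm⟩
  let v : Fin m ⊕ Fin m → F := Pi.single (Sum.inl j) 1 - Pi.single (Sum.inr j) 1
  let w : Fin m ⊕ Fin m → F := Pi.single (Sum.inl j) 1 - Pi.single (Sum.inr j) a
  have hQv : plusForm m F v = -1 := by
    rw [coe_plusForm, quadFormPlus_apply, Finset.sum_eq_single j]
    · simp [v]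
    · intro i _ hi
      simp [v, hi]
    · intro h; exact absurd (Finset.mem_univ j) h
  have hQw : plusForm m F w = -a := by
    rw [coe_plusForm, quadFormPlus_apply, Finset.sum_eq_single j]
    · simp [w]
    · intro i _ hi
      simp [w, hi]
    · intro h; exact absurd (Finset.mem_univ j) h
  have hv0 : plusForm m F v ≠ 0 := by rw [hQv]; exact neg_ne_zero.2 one_ne_zero
  have hw0 : plusForm m F w ≠ 0 := by rw [hQw]; exact neg_ne_zero.2 ha0
  have h10 : (-1 : F) ≠ 0 := neg_ne_zero.2 one_ne_zero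
  refine ⟨reflIso (plusForm m F) v hv0 * reflIso (plusForm m F) w hw0, ?_, ?_, ?_⟩
  · intro x hx
    rw [coe_mul_mulVec, coe_reflIso, coe_reflIso, reflectionMatrix_mulVec,
      reflectionMatrix_mulVec, mem_std]
    rw [mem_std] at hx
    have hpx : polar (⇑(plusForm m F)) w x = - a * x (Sum.inl j) := by
      rw [polar_plusForm, Finset.sum_eq_single j]
      · simp [w, hx]
        try ring
      · intro i _ hi
        simp [w, hi]
      · intro h; exact absurd (Finset.mem_univ j) h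
    intro i
    rw [hpx, hQw]
    have hc : ((-a)⁻¹ * (-a * x (Sum.inl j))) = x (Sum.inl j) := by
      field_simp
    rw [hc, hQv]
    have hpy : polar (⇑(plusForm m F)) v (x - x (Sum.inl j) • w) = a * x (Sum.inl j) := by
      rw [polar_plusForm, Finset.sum_eq_single j]
      · simp [w, v, hx]
        ring
      · intro i _ hi
        simp [v, hi]
      · intro h; exact absurd (Finset.mem_univ j) h
    rw [hpy]
    by_cases hi : i = j
    · subst hi
      simp [v, w, hx]
      ring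
    · simp [v, w, hx, hi]
  · have e : (((reflIso (plusForm m F) v hv0 * reflIso (plusForm m F) w hw0 :
        Cfsg.isometryGroup F (⇑(plusForm m F))) : Matrix.GeneralLinearGroup (Fin m ⊕ Fin m) F) :
        Matrix (Fin m ⊕ Fin m) (Fin m ⊕ Fin m) F)
      = ((reflIso (plusForm m F) v hv0 : Matrix.GeneralLinearGroup (Fin m ⊕ Fin m) F) :
        Matrix (Fin m ⊕ Fin m) (Fin m ⊕ Fin m) F) *
        ((reflIso (plusForm m F) w hw0 : Matrix.GeneralLinearGroup (Fin m ⊕ Fin m) F) :
        Matrix (Fin m ⊕ Fin m) (Fin m ⊕ Fin m) F) := rfl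
    rw [e, Matrix.det_mul, det_reflIso, det_reflIso]
    ring
  · rw [map_mul, Cfsg.Agent.ClassicalGeometry.SpinorSign.spinorSign_reflIso h2 _ h10 v hv0,
      Cfsg.Agent.ClassicalGeometry.SpinorSign.spinorSign_reflIso h2 _ h10 w hw0, hQv, hQw]
    rw [if_pos ⟨1, by ring⟩, if_neg (by intro h; apply ha; convert h using 1; ring)]
    rfl

/-- correction by an element of the stabiliser, for a bundled form -/
theorem exists_corr_aux [Finite F] (h2 : (2 : F) ≠ 0) (hm : 1 ≤ m)
    (Q' : (Fin m ⊕ Fin m → F) → F) (hQ' : ⇑(plusForm m F) = Q')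
    (c : ↥(Cfsg.isometryGroup F Q'))
    (hdet : ((c : Matrix.GeneralLinearGroup (Fin m ⊕ Fin m) F) :
        Matrix (Fin m ⊕ Fin m) (Fin m ⊕ Fin m) F).det = 1) :
    ∃ d : ↥(Cfsg.isometryGroup F Q'),
      (∀ v, v ∈ std m F → ((d : Matrix.GeneralLinearGroup (Fin m ⊕ Fin m) F) :
        Matrix (Fin m ⊕ Fin m) (Fin m ⊕ Fin m) F).mulVec v ∈ std m F) ∧
      c * d ∈ Cfsg.Omega F Q' := by
  subst hQ'
  have hnd := plus_nondegenerate m F
  have hcard : 2 ≤ Fintype.card (Fin m ⊕ Fin m) := by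
    rw [Fintype.card_sum, Fintype.card_fin]; omega
  have h10 : (-1 : F) ≠ 0 := neg_ne_zero.2 one_ne_zero
  have hmem := Cfsg.Agent.ClassicalGeometry.OmegaIndex.mem_Omega_iff h2 (plusForm m F) hnd
    hcard h10
  rcases Int.units_eq_one_or
    (Cfsg.Agent.ClassicalGeometry.SpinorSign.spinorSign (⇑(plusForm m F)) (-1) c) with hs | hs
  · refine ⟨1, ?_, ?_⟩
    · intro v hv
      simpa using hv
    · rw [mul_one]
      exact (hmem c).2 ⟨hdet, hs⟩
  · obtain ⟨d, hd1, hd2, hd3⟩ := exists_stab (F := F) (m := m) h2 hm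
    refine ⟨d, hd1, ?_⟩
    refine (hmem (c * d)).2 ⟨?_, ?_⟩
    · have e : (((c * d : Cfsg.isometryGroup F (⇑(plusForm m F))) :
          Matrix.GeneralLinearGroup (Fin m ⊕ Fin m) F) :
          Matrix (Fin m ⊕ Fin m) (Fin m ⊕ Fin m) F)
        = ((c : Matrix.GeneralLinearGroup (Fin m ⊕ Fin m) F) :
          Matrix (Fin m ⊕ Fin m) (Fin m ⊕ Fin m) F) *
          ((d : Matrix.GeneralLinearGroup (Fin m ⊕ Fin m) F) :
          Matrix (Fin m ⊕ Fin m) (Fin m ⊕ Fin m) F) := rfl
      rw [e, Matrix.det_mul, hdet, hd2, one_mul]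
    · rw [map_mul, hs, hd3]; rfl

/-- correction by an element of the stabiliser -/
theorem exists_corr [Finite F] (h2 : (2 : F) ≠ 0) (hm : 1 ≤ m)
    (c : ↥(Cfsg.isometryGroup F (Cfsg.quadFormPlus m F)))
    (hdet : ((c : Matrix.GeneralLinearGroup (Fin m ⊕ Fin m) F) :
        Matrix (Fin m ⊕ Fin m) (Fin m ⊕ Fin m) F).det = 1) :
    ∃ d : ↥(Cfsg.isometryGroup F (Cfsg.quadFormPlus m F)),
      (std m F).map (lin d) = std m F ∧ c * d ∈ Cfsg.Omega F (Cfsg.quadFormPlus m F) := by
  obtain ⟨d, hd1, hd2⟩ := exists_corr_aux h2 hm _ (coe_plusForm m F) c hdet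
  refine ⟨d, ?_, hd2⟩
  apply Submodule.eq_of_le_of_finrank_eq
  · rw [Submodule.map_le_iff_le_comap]
    intro x hx
    exact hd1 x hx
  · rw [LinearEquiv.finrank_eq (Submodule.equivMapOfInjective (lin d) (lin_injective d) _).symm]

end Aux

/-- For the hyperbolic form Σ x_i y_i on F^(2m) over a finite field (m ≥ 1, excluding m = 2 over the field of two elements), Ω (the commutator subgroup of the orthogonal group) acts transitively on each of the two classes of maximal totally singular subspaces: if U and W are m-dimensional totally singular subspaces with m − dim(U ∩ W) even, some element of Ω carries U to W. -/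
theorem result {F : Type*} [Field F] [Fintype F] {m : ℕ} (hm : 1 ≤ m) (h : Fintype.card F ≠ 2 ∨ m ≠ 2) (U W : Submodule F (Fin m ⊕ Fin m → F)) (hU : Module.finrank F U = m) (hW : Module.finrank F W = m) (hU0 : ∀ u ∈ U, Cfsg.quadFormPlus m F u = 0) (hW0 : ∀ w ∈ W, Cfsg.quadFormPlus m F w = 0) (he : Even (m - Module.finrank F ↥(U ⊓ W))) : ∃ g : ↥(Cfsg.isometryGroup F (Cfsg.quadFormPlus m F)), g ∈ Cfsg.Omega F (Cfsg.quadFormPlus m F) ∧ U.map (Matrix.mulVecLin ((g : Matrix.GeneralLinearGroup (Fin m ⊕ Fin m) F) : Matrix (Fin m ⊕ Fin m) (Fin m ⊕ Fin m) F)) = W := by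
  have hstd0 : ∀ u ∈ std m F, Cfsg.quadFormPlus m F u = 0 := by
    intro u hu
    rw [quadFormPlus_apply]
    apply Finset.sum_eq_zero
    intro i _
    rw [(mem_std u).1 hu i, mul_zero]
  obtain ⟨g0, hg0⟩ := exists_map_eq U W (hU.trans hW.symm) hU0 hW0
  obtain ⟨k, hk⟩ := exists_map_eq (std m F) U (finrank_std.trans hU.symm) hstd0 hU0
  set c := k⁻¹ * g0 * k with hc
  have hkc : k * c = g0 * k := by rw [hc]; group
  have hW' : W = ((std m F).map (lin c)).map (lin k) := by
    rw [← Submodule.map_comp, ← lin_mul, hkc, lin_mul, Submodule.map_comp, hk, hg0]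
  have hdim : finrank F ↥(std m F ⊓ (std m F).map (lin c)) = finrank F ↥(U ⊓ W) := by
    rw [LinearEquiv.finrank_eq (Submodule.equivMapOfInjective (lin k) (lin_injective k) _),
      Submodule.map_inf _ (lin_injective k), hk, ← hW']
  have he' : Even (m - finrank F ↥(std m F ⊓ (std m F).map (lin c))) := by rw [hdim]; exact he
  by_cases h2 : (2 : F) = 0
  · have : CharP F 2 := CharTwo.of_one_ne_zero_of_two_eq_zero one_ne_zero h2
    have hcO : c ∈ Cfsg.Omega F (Cfsg.quadFormPlus m F) := (Cfsg.Agent.S2630.result hm h c).1 he'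
    refine ⟨g0, ?_, hg0⟩
    have : g0 = k * c * k⁻¹ := by rw [hc]; group
    rw [this]
    exact (inferInstance : (Cfsg.Omega F (Cfsg.quadFormPlus m F)).Normal).conj_mem c hcO k
  · have hdet := (Cfsg.Agent.S2629.result h2 hm c).1 he'
    obtain ⟨d, hd, hdc⟩ := exists_corr h2 hm c hdet
    refine ⟨k * (c * d) * k⁻¹, ?_, ?_⟩
    · exact (inferInstance : (Cfsg.Omega F (Cfsg.quadFormPlus m F)).Normal).conj_mem _ hdc k
    · change U.map (lin (k * (c * d) * k⁻¹)) = W
      have hU' : U.map (lin k⁻¹) = std m F := by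
        rw [← hk, ← Submodule.map_comp, ← lin_mul, inv_mul_cancel, lin_one, Submodule.map_id]
      rw [lin_mul, Submodule.map_comp, hU', lin_mul, Submodule.map_comp, lin_mul,
        Submodule.map_comp, hd, ← hW']

end Cfsg.Agent.S2631
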