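import Cfsg.Statements.S2633
import Cfsg.Agent.H175.OmegaAdjust

set_option autoImplicit false
open Cfsg

namespace Cfsg.Agent.S2633

open Cfsg.Agent.ClassicalGeometry.Reflection Cfsg.Agent.H175.OmegaAdjust
open scoped Matrix

/-- The stabiliser of a totally singular subspace contains a product of two reflections with
`Q`-values in different square classes. -/
theorem exists_b {F : Type*} [Field F] {ι : Type} [Fintype ι] [DecidableEq ι]
    (Q : QuadraticForm F (ι → F))
    (hQ : (QuadraticMap.polarBilin Q).Nondegenerate) (U : Submodule F (ι → F))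
    (hU0 : ∀ u ∈ U, Q u = 0) (e : ι → F) (heU : e ∈ U) (he : e ≠ 0) (c : F) (hc : c ≠ 0) :
    ∃ (u v : ι → F) (hu : Q u ≠ 0) (hv : Q v ≠ 0), Q u * Q v = c ∧
      reflIso Q u hu * reflIso Q v hv ∈ stab Q U := by
  obtain ⟨φ, hφ⟩ : ∃ φ : Module.Dual F (ι → F), φ e ≠ 0 := by
    by_contra hcon
    push Not at hcon
    exact he ((Module.forall_dual_apply_eq_zero_iff F e).mp hcon)
  have hpol : ∀ x ∈ U, ∀ y ∈ U, QuadraticMap.polar ⇑Q x y = 0 := fun x hx y hy => by
    rw [QuadraticMap.polar, hU0 _ (U.add_mem hx hy), hU0 _ hx, hU0 _ hy]; simp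
  obtain ⟨f, hfe, hf1⟩ := Cfsg.Agent.ClassicalGeometry.WittQuad.exists_orthogonal Q hQ
    (W := U ⊓ LinearMap.ker φ) (x := e) (fun h => hφ h.2)
  simp only [QuadraticMap.polarBilin_apply_apply] at hfe hf1
  -- make `f` singular
  set f' := f - (Q f) • e with hf'
  have hf'e : QuadraticMap.polar ⇑Q f' e = 1 := by
    rw [hf', sub_eq_add_neg, QuadraticMap.polar_add_left, ← neg_smul,
      QuadraticMap.polar_smul_left, hpol e heU e heU, hfe]
    simp
  have hf'1 : ∀ x ∈ U, φ x = 0 → QuadraticMap.polar ⇑Q f' x = 0 := by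
    intro x hx hφx
    rw [hf', sub_eq_add_neg, QuadraticMap.polar_add_left, ← neg_smul,
      QuadraticMap.polar_smul_left, hpol e heU x hx, hf1 x ⟨hx, hφx⟩]
    simp
  have hQf' : Q f' = 0 := by
    rw [hf', sub_eq_add_neg, ← neg_smul, QuadraticMap.map_add Q, QuadraticMap.map_smul,
      QuadraticMap.polar_smul_right, hU0 e heU, hfe]
    simp
  clear_value f'
  have hQe : Q e = 0 := hU0 e heU
  have hval : ∀ a : F, Q (e - a • f') = -a := by
    intro a
    rw [sub_eq_add_neg, ← neg_smul, QuadraticMap.map_add Q, QuadraticMap.map_smul, hQe, hQf',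
      QuadraticMap.polar_smul_right, QuadraticMap.polar_comm, hf'e]
    simp
  have hpe : ∀ a : F, QuadraticMap.polar ⇑Q (e - a • f') e = -a := by
    intro a
    rw [sub_eq_add_neg, ← neg_smul, QuadraticMap.polar_add_left, QuadraticMap.polar_smul_left,
      hpol e heU e heU, hf'e]
    simp
  have hpx : ∀ (a : F), ∀ x ∈ U, φ x = 0 → QuadraticMap.polar ⇑Q (e - a • f') x = 0 := by
    intro a x hx hφx
    rw [sub_eq_add_neg, ← neg_smul, QuadraticMap.polar_add_left, QuadraticMap.polar_smul_left,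
      hpol e heU x hx, hf'1 x hx hφx]
    simp
  have hpf : QuadraticMap.polar ⇑Q (e - f') f' = 1 := by
    rw [sub_eq_add_neg, QuadraticMap.polar_add_left, QuadraticMap.polar_neg_left,
      QuadraticMap.polar_self, QuadraticMap.polar_comm, hf'e, hQf']
    simp
  have hv1 : Q (e - f') = -1 := by
    have := hval 1
    rwa [one_smul] at this
  have hv1' : Q (e - f') ≠ 0 := by rw [hv1]; exact neg_ne_zero.mpr one_ne_zero
  have hvc : Q (e - c • f') ≠ 0 := by rw [hval]; exact neg_ne_zero.mpr hc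
  refine ⟨e - f', e - c • f', hv1', hvc, by rw [hv1, hval]; ring, ?_⟩
  apply mem_stab_of_le
  intro u hu
  have hcoe : (((reflIso Q (e - f') hv1' * reflIso Q (e - c • f') hvc :
      Cfsg.isometryGroup F ⇑Q) : Matrix.GeneralLinearGroup ι F) : Matrix ι ι F) =
      ((reflIso Q (e - f') hv1' : Matrix.GeneralLinearGroup ι F) : Matrix ι ι F) *
      ((reflIso Q (e - c • f') hvc : Matrix.GeneralLinearGroup ι F) : Matrix ι ι F) := rfl
  rw [hcoe, ← Matrix.mulVec_mulVec]
  -- decompose `u`
  set t : F := φ u / φ e with ht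
  set u₁ := u - t • e with hu₁
  have hu₁U : u₁ ∈ U := U.sub_mem hu (U.smul_mem _ heU)
  have hφu₁ : φ u₁ = 0 := by
    rw [hu₁, map_sub, map_smul, smul_eq_mul, ht, div_mul_cancel₀ _ hφ, sub_self]
  have hu' : u = t • e + u₁ := by rw [hu₁]; abel
  have e1 : ((reflIso Q (e - c • f') hvc : Matrix.GeneralLinearGroup ι F) :
      Matrix ι ι F) *ᵥ e = c • f' := by
    rw [coe_reflIso, reflectionMatrix_mulVec, hpe, hval]
    rw [inv_mul_cancel₀ (neg_ne_zero.mpr hc), one_smul, sub_sub_cancel]
  have e2 : ((reflIso Q (e - f') hv1' : Matrix.GeneralLinearGroup ι F) :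
      Matrix ι ι F) *ᵥ f' = e := by
    rw [coe_reflIso, reflectionMatrix_mulVec, hpf, hv1]
    simp
  have e3 : ((reflIso Q (e - c • f') hvc : Matrix.GeneralLinearGroup ι F) :
      Matrix ι ι F) *ᵥ u₁ = u₁ := by
    rw [coe_reflIso, reflectionMatrix_mulVec_of_polar_eq_zero Q _ u₁ (hpx c u₁ hu₁U hφu₁)]
  have e4 : ((reflIso Q (e - f') hv1' : Matrix.GeneralLinearGroup ι F) :
      Matrix ι ι F) *ᵥ u₁ = u₁ := by
    have := hpx 1 u₁ hu₁U hφu₁
    rw [one_smul] at this
    rw [coe_reflIso, reflectionMatrix_mulVec_of_polar_eq_zero Q _ u₁ this]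
  rw [hu', Matrix.mulVec_add, Matrix.mulVec_smul, e1, e3, Matrix.mulVec_add, Matrix.mulVec_smul,
    Matrix.mulVec_smul, e2, e4]
  exact U.add_mem (U.smul_mem _ (U.smul_mem _ heU)) hu₁U

/-- Ω is transitive on totally singular subspaces of each dimension less than half the dimension: for a quadratic form Q on F^n with non-degenerate polar form (F finite; excluding dimension 4 over the field of two elements), if U and W are subspaces of the same dimension k with 2k < n on which Q vanishes, then some element of Ω (the commutator subgroup of the orthogonal group) carries U to W. -/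
theorem result {F : Type*} [Field F] [Fintype F] {n : ℕ} (h : Fintype.card F ≠ 2 ∨ n ≠ 4) (Q : QuadraticForm F (Fin n → F)) (hQ : (QuadraticMap.polarBilin Q).Nondegenerate) (U W : Submodule F (Fin n → F)) {k : ℕ} (hk : 2 * k < n) (hU : Module.finrank F U = k) (hW : Module.finrank F W = k) (hU0 : ∀ u ∈ U, Q u = 0) (hW0 : ∀ w ∈ W, Q w = 0) : ∃ g : ↥(Cfsg.isometryGroup F ⇑Q), g ∈ Cfsg.Omega F ⇑Q ∧ U.map (Matrix.mulVecLin ((g : Matrix.GeneralLinearGroup (Fin n) F) : Matrix (Fin n) (Fin n) F)) = W := by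
  classical
  rcases Nat.eq_zero_or_pos k with rfl | hk0
  · rw [Submodule.finrank_eq_zero] at hU hW
    subst hU hW
    exact ⟨1, Subgroup.one_mem _, Submodule.map_bot _⟩
  let φ : U ≃ₗ[F] W := LinearEquiv.ofFinrankEq U W (hU.trans hW.symm)
  obtain ⟨g, hg, hge⟩ := Cfsg.Agent.ClassicalGeometry.WittQuad.extend Q hQ U W φ
    (fun x => by rw [hU0 _ x.2, hW0 _ (φ x).2])
  have hmap : U.map g.toLinearMap = W := by
    ext w
    constructor
    · rintro ⟨u, hu, rfl⟩
      change g u ∈ W
      rw [hge ⟨u, hu⟩]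
      exact (φ ⟨u, hu⟩).2
    · intro hw
      refine ⟨φ.symm ⟨w, hw⟩, (φ.symm ⟨w, hw⟩).2, ?_⟩
      change g _ = w
      rw [hge, LinearEquiv.apply_symm_apply]
  refine exists_omega_map Q U W ?_ g hg hmap
  -- a non-singular vector orthogonal to `U`
  have hrefl : (QuadraticMap.polarBilin Q).IsRefl := fun x y hxy => by
    rw [QuadraticMap.polarBilin_apply_apply] at hxy ⊢
    rw [QuadraticMap.polar_comm]; exact hxy
  set U' := LinearMap.BilinForm.orthogonal (QuadraticMap.polarBilin Q) U with hU'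
  have hmem' : ∀ x : Fin n → F, x ∈ U' ↔ ∀ u ∈ U, QuadraticMap.polar ⇑Q u x = 0 := fun x =>
    LinearMap.BilinForm.mem_orthogonal_iff
  have hdim : Module.finrank F U' = n - k := by
    have h1 := LinearMap.BilinForm.finrank_orthogonal hQ U
    rw [Module.finrank_fin_fun, hU] at h1
    rw [hU', h1]
  obtain ⟨v, hvU', hv⟩ : ∃ v ∈ U', Q v ≠ 0 := by
    by_contra hcon
    push Not at hcon
    have hle : U' ≤ U := by
      intro x hx
      rw [← LinearMap.BilinForm.orthogonal_orthogonal hQ hrefl U, ← hU',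
        LinearMap.BilinForm.mem_orthogonal_iff]
      intro y hy
      change QuadraticMap.polar ⇑Q y x = 0
      rw [QuadraticMap.polar, hcon _ (U'.add_mem hy hx), hcon _ hy, hcon _ hx]; simp
    have := Submodule.finrank_mono hle
    rw [hdim, hU] at this
    omega
  have hvs : reflIso Q v hv ∈ stab Q U := refl_mem_stab_of_perp Q U v hv fun u hu => by
    rw [QuadraticMap.polar_comm]; exact (hmem' v).mp hvU' u hu
  by_cases h2 : (2 : F) = 0
  · have hθ : (∃ θ : F, θ ≠ 0 ∧ θ ≠ 1) ∨ Fintype.card (Fin n) ≠ 4 := by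
      rcases h with h | h
      · exact Or.inl (Cfsg.Agent.ClassicalGeometry.OrthDickson.exists_ne_zero_ne_one h)
      · right; rwa [Fintype.card_fin]
    exact adjust_two Q h2 hQ hθ _ v hv hvs
  · obtain ⟨c, hc⟩ : ∃ c : F, ¬ IsSquare c := FiniteField.exists_nonsquare
      (Cfsg.Agent.ClassicalGeometry.Universal.ringChar_ne_two h2)
    have hc0 : c ≠ 0 := by
      rintro rfl
      exact hc (IsSquare.zero)
    obtain ⟨e, heU, he⟩ := (Submodule.ne_bot_iff U).mp (by
      rintro rfl
      rw [finrank_bot] at hU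
      omega)
    obtain ⟨x, y, hx, hy, hxy, hs⟩ := exists_b Q hQ U hU0 e heU he c hc0
    exact adjust_odd Q h2 hQ (by rw [Fintype.card_fin]; omega) _ _ _ hvs hs (det_reflIso Q v hv)
      (det_refl_mul_refl Q x y hx hy) (spinorSign_refl_mul_refl h2 Q x y hx hy (hxy ▸ hc))

end Cfsg.Agent.S2633
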