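import Cfsg.Statements.S2634
import Cfsg.Agent.H175.OmegaAdjust

set_option autoImplicit false
open Cfsg

namespace Cfsg.Agent.S2634

open Cfsg.Agent.ClassicalGeometry.Reflection Cfsg.Agent.H175.OmegaAdjust

/-- Over a finite field of characteristic two, Ω (the commutator subgroup of the orthogonal group of a quadratic form Q on F^n with non-degenerate polar form; excluding dimension 4 over the field of two elements) acts transitively on the non-singular 1-spaces: for u, v with Q(u) ≠ 0 and Q(v) ≠ 0 some element of Ω carries the line through u to the line through v. -/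
theorem result {F : Type*} [Field F] [Fintype F] [CharP F 2] {n : ℕ} (h : Fintype.card F ≠ 2 ∨ n ≠ 4) (Q : QuadraticForm F (Fin n → F)) (hQ : (QuadraticMap.polarBilin Q).Nondegenerate) (u v : Fin n → F) (hu : Q u ≠ 0) (hv : Q v ≠ 0) : ∃ g : ↥(Cfsg.isometryGroup F ⇑Q), g ∈ Cfsg.Omega F ⇑Q ∧ (F ∙ ((g : Matrix.GeneralLinearGroup (Fin n) F) : Matrix (Fin n) (Fin n) F).mulVec u) = F ∙ v := by
  classical
  have h2 : (2 : F) = 0 := CharTwo.two_eq_zero
  have hθ : (∃ θ : F, θ ≠ 0 ∧ θ ≠ 1) ∨ Fintype.card (Fin n) ≠ 4 := by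
    rcases h with h | h
    · exact Or.inl (Cfsg.Agent.ClassicalGeometry.OrthDickson.exists_ne_zero_ne_one h)
    · right; rwa [Fintype.card_fin]
  obtain ⟨c, hc⟩ : IsSquare (Q u / Q v) := by
    have := FiniteField.isSquare_of_char_two (F := F) (by
      exact ringChar.eq F 2 ▸ rfl) (Q u / Q v)
    exact this
  have hc0 : c ≠ 0 := by
    rintro rfl
    rw [mul_zero, div_eq_zero_iff] at hc
    exact hc.elim hu hv
  have hQc : Q u = Q (c • v) := by
    rw [QuadraticMap.map_smul, smul_eq_mul, ← hc, div_mul_cancel₀ _ hv]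
  have hne : ∀ w : Fin n → F, Q w ≠ 0 → w ≠ 0 := by
    rintro w hw rfl
    exact hw (QuadraticMap.map_zero Q)
  obtain ⟨g, hg, hgu⟩ := Cfsg.Agent.ClassicalGeometry.WittQuad.extend_family Q hQ 1
    (fun _ => u) (fun _ => c • v)
    (LinearIndependent.of_subsingleton 0 (hne u hu))
    (LinearIndependent.of_subsingleton 0 (hne _ (hQc ▸ hu))) (fun _ => hQc)
    (fun _ _ => by
      rw [Cfsg.Agent.ClassicalGeometry.WittQuad.polar_self',
        Cfsg.Agent.ClassicalGeometry.WittQuad.polar_self', h2, zero_mul, zero_mul])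
  have hmap : (F ∙ u).map g.toLinearMap = F ∙ v := by
    rw [Submodule.map_span, Set.image_singleton]
    change F ∙ (g u) = F ∙ v
    rw [hgu 0]
    exact Submodule.span_singleton_smul_eq (IsUnit.mk0 c hc0) v
  obtain ⟨x, hx, hxU⟩ := exists_omega_map Q (F ∙ u) (F ∙ v)
    (adjust_two Q h2 hQ hθ _ u hu
      (refl_mem_stab_of_mem Q _ u hu (Submodule.mem_span_singleton_self u))) g hg hmap
  refine ⟨x, hx, ?_⟩
  rw [← hxU, Submodule.map_span, Set.image_singleton]
  rfl

end Cfsg.Agent.S2634
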