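import Cfsg.Statements.S2635
import Cfsg.Agent.ClassicalGeometry.OrthDickson
import Cfsg.Agent.ClassicalGeometry.GenReflections

set_option autoImplicit false
open Cfsg

namespace Cfsg.Agent.S2635

open Cfsg.Agent.ClassicalGeometry.Reflection Cfsg.Agent.ClassicalGeometry.OrthDickson
  Cfsg.Agent.ClassicalGeometry.GenReflections

/-- Over a finite field of characteristic two, for a quadratic form Q on F^n with non-degenerate polar form, n ≥ 2, other than dimension 4 over the field of two elements, Ω (the commutator subgroup of the orthogonal group) is exactly the subgroup generated by the products of two reflections (orthogonal transvections) x ↦ x − Q(v)⁻¹ f(x, v) v, Q(v) ≠ 0: the products of an even number of reflections. -/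
theorem result {F : Type*} [Field F] [Fintype F] [CharP F 2] {n : ℕ} (hn : 2 ≤ n) (h : Fintype.card F ≠ 2 ∨ n ≠ 4) (Q : QuadraticForm F (Fin n → F)) (hQ : (QuadraticMap.polarBilin Q).Nondegenerate) : Cfsg.Omega F ⇑Q = Subgroup.closure {g : ↥(Cfsg.isometryGroup F ⇑Q) | ∃ u v : Fin n → F, Q u ≠ 0 ∧ Q v ≠ 0 ∧ ((g : Matrix.GeneralLinearGroup (Fin n) F) : Matrix (Fin n) (Fin n) F) = Cfsg.reflectionMatrix ⇑Q u * Cfsg.reflectionMatrix ⇑Q v} := by
  classical
  have h2 : (2 : F) = 0 := CharTwo.two_eq_zero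
  have hθ : (∃ θ : F, θ ≠ 0 ∧ θ ≠ 1) ∨ Fintype.card (Fin n) ≠ 4 := by
    rcases h with h | h
    · exact Or.inl (exists_ne_zero_ne_one h)
    · right; rwa [Fintype.card_fin]
  have hgen : Subgroup.closure (refls Q) = ⊤ := closure_refls_eq_top Q hQ (by
    rcases h with h | h
    · left; rwa [Nat.card_eq_fintype_card]
    · right; rwa [Fintype.card_fin])
  set S := Subgroup.closure {g : ↥(Cfsg.isometryGroup F ⇑Q) | ∃ u v : Fin n → F, Q u ≠ 0 ∧ Q v ≠ 0 ∧
    ((g : Matrix.GeneralLinearGroup (Fin n) F) : Matrix (Fin n) (Fin n) F) =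
      Cfsg.reflectionMatrix ⇑Q u * Cfsg.reflectionMatrix ⇑Q v} with hS
  have hmem : ∀ (u v : Fin n → F) (hu : Q u ≠ 0) (hv : Q v ≠ 0),
      reflIso Q u hu * reflIso Q v hv ∈ S := by
    intro u v hu hv
    apply Subgroup.subset_closure
    refine ⟨u, v, hu, hv, ?_⟩
    rw [← coe_reflIso Q u hu, ← coe_reflIso Q v hv]; rfl
  apply le_antisymm
  · intro g hg
    have hg1 : dsign Q g = 1 := dsign_eq_one_of_mem_commutator Q hQ hθ g hg
    have key : ∀ g : Cfsg.isometryGroup F ⇑Q, (dsign Q g = 1 → g ∈ S) ∧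
        (dsign Q g = -1 → ∀ (v : Fin n → F) (hv : Q v ≠ 0), reflIso Q v hv * g ∈ S) := by
      have step : ∀ (u : Fin n → F) (hu : Q u ≠ 0) (g : Cfsg.isometryGroup F ⇑Q),
          ((dsign Q g = 1 → g ∈ S) ∧
            (dsign Q g = -1 → ∀ (v : Fin n → F) (hv : Q v ≠ 0), reflIso Q v hv * g ∈ S)) →
          ((dsign Q (reflIso Q u hu * g) = 1 → reflIso Q u hu * g ∈ S) ∧
            (dsign Q (reflIso Q u hu * g) = -1 → ∀ (v : Fin n → F) (hv : Q v ≠ 0),
              reflIso Q v hv * (reflIso Q u hu * g) ∈ S)) := by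
        intro u hu g ⟨ih1, ih2⟩
        rw [dsign_refl_mul Q hQ]
        constructor
        · intro h1
          exact ih2 (neg_eq_iff_eq_neg.mp h1) u hu
        · intro h1 v hv
          rw [← mul_assoc]
          exact S.mul_mem (hmem v u hv hu) (ih1 (neg_injective h1))
      intro g
      have hg : g ∈ Subgroup.closure (refls Q) := hgen ▸ Subgroup.mem_top g
      induction hg using Subgroup.closure_induction_left with
      | one =>
        refine ⟨fun _ => S.one_mem, fun h1 => ?_⟩
        rw [dsign_one] at h1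
        exact absurd h1 (by decide)
      | mul_left x hx y hy ih =>
        obtain ⟨u, hu, rfl⟩ : ∃ u, ∃ hu : Q u ≠ 0, x = reflIso Q u hu := by
          obtain ⟨u, hu, hx⟩ := hx
          exact ⟨u, hu, Subtype.ext (Units.ext (hx.trans (coe_reflIso Q u hu).symm))⟩
        exact step u hu y ih
      | inv_mul_cancel x hx y hy ih =>
        obtain ⟨u, hu, rfl⟩ : ∃ u, ∃ hu : Q u ≠ 0, x = reflIso Q u hu := by
          obtain ⟨u, hu, hx⟩ := hx
          exact ⟨u, hu, Subtype.ext (Units.ext (hx.trans (coe_reflIso Q u hu).symm))⟩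
        rw [reflIso_inv]
        exact step u hu y ih
    exact (key g).1 hg1
  · rw [hS, Subgroup.closure_le]
    rintro g ⟨u, v, hu, hv, hg⟩
    have : g = reflIso Q u hu * reflIso Q v hv := by
      apply Subtype.ext
      apply Units.ext
      rw [hg, ← coe_reflIso Q u hu, ← coe_reflIso Q v hv]; rfl
    rw [this]
    exact refl_mul_refl_mem_two Q h2 hQ hθ u v hu hv

end Cfsg.Agent.S2635
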