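import Cfsg.Statements.S2637
import Cfsg.Agent.H185.SpThree

set_option autoImplicit false
open Cfsg

namespace Cfsg.Agent.S2637

open Cfsg.Agent.H185.SpThree Module

/-- Centraliser of a fixed-point-free element of order three in Sp_2m(q) when q ≡ 2 (mod 3): if x ∈ Sp_2m(F) (|F| = q, m ≥ 1) satisfies x³ = 1 and x − 1 is invertible, then its centraliser in Sp_2m(F) has the order of the unitary group GU_m(q), namely q^(m(m−1)/2) Π_(i=1)^m (q^i − (−1)^i) (x lies in the centre of a subgroup GU_m(q) of Sp_2m(q)). -/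
theorem result {F : Type*} [Field F] [Fintype F] {q : ℕ} (hF : Fintype.card F = q) (hq : q % 3 = 2) {m : ℕ} (hm : 1 ≤ m) (x : Matrix.symplecticGroup (Fin m) F) (hx3 : x ^ 3 = 1) (hfpf : IsUnit ((x : Matrix (Fin m ⊕ Fin m) (Fin m ⊕ Fin m) F) - 1)) : (Nat.card ↥(Subgroup.centralizer ({x} : Set ↥(Matrix.symplecticGroup (Fin m) F))) : ℤ) = (q : ℤ) ^ (m * (m - 1) / 2) * ∏ i : Fin m, ((q : ℤ) ^ ((i : ℕ) + 1) - (-1) ^ ((i : ℕ) + 1)) := by
  subst hF
  have hfact : Fact (∀ r : F, r ^ 2 ≠ -1 + -1 * r) := ⟨no_root hq⟩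
  have h := dat x hx3 hfpf
  have hK : Nat.card (K F) = Fintype.card F ^ 2 := by
    rw [Nat.card_congr (QuadraticAlgebra.equivProd (-1 : F) (-1)), Nat.card_prod, Nat.card_eq_fintype_card, pow_two]
  have hfin : Finite (K F) := Finite.of_equiv _ (QuadraticAlgebra.equivProd (-1 : F) (-1)).symm
  have := Fintype.ofFinite (K F)
  have hm' : (let _ := modK _ h.hX; finrank (K F) (Fin m ⊕ Fin m → F) = m) := by
    intro inst
    have h1 := Module.natCard_eq_pow_finrank (K := K F) (V := Fin m ⊕ Fin m → F)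
    rw [hK, Nat.card_fun, Nat.card_eq_fintype_card, Nat.card_eq_fintype_card, Fintype.card_sum, Fintype.card_fin,
      ← pow_mul] at h1
    have h2 := Nat.pow_right_injective (by have := Fintype.one_lt_card (α := F); omega) h1
    omega
  have h1 := card_D hq h hm'
  rw [← card_D_eq, ← card_cent] at h1
  rw [h1, Cfsg.Agent.S0277.result (by rw [← Nat.card_eq_fintype_card, hK]) m]
  push_cast
  congr 1
  rw [← Fin.prod_univ_eq_prod_range (fun i => if Even i then (Fintype.card F : ℤ) ^ (i + 1) + 1 else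
    ((Fintype.card F ^ (i + 1) - 1 : ℕ) : ℤ)) m]
  refine Finset.prod_congr rfl fun i _ => ?_
  split_ifs with hi
  · rw [(hi.add_one).neg_one_pow]
    push_cast
    ring
  · have h3 : Even ((i : ℕ) + 1) := by
      rw [Nat.not_even_iff_odd] at hi
      exact hi.add_one
    rw [h3.neg_one_pow, Nat.cast_sub (Nat.one_le_pow _ _ Fintype.card_pos)]
    push_cast
    ring

end Cfsg.Agent.S2637
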