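import Cfsg.Statements.S2668

set_option autoImplicit false
open Cfsg

namespace Cfsg.Agent.S2668

theorem norm_eq {X : Type*} [Group X] (σ : MulAut X) (a : X) (d : ℕ) :
    ((List.range d).map (fun i => (σ ^ i) (a * (σ a)⁻¹))).prod = a * ((σ ^ d) a)⁻¹ := by
  induction d with
  | zero => simp
  | succ n ih =>
    rw [List.range_succ, List.map_append, List.prod_append, ih]
    simp only [List.map_cons, List.map_nil, List.prod_cons, List.prod_nil, mul_one, map_mul,
      map_inv]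
    rw [pow_succ, MulAut.mul_apply]
    group

theorem result {X : Type*} [Group X] (σ : MulAut X) (e d : ℕ) (he : 1 ≤ e) (hd : 1 ≤ d)
    (g : X) (hg : g ∈ (MulEquiv.toMonoidHom (σ ^ e)).eqLocus (MonoidHom.id X)) (a : X) (ha : g = a * (σ a)⁻¹) :
    ((List.range d).map (fun i => (σ ^ i) g)).prod = a * ((σ ^ d) a)⁻¹ ∧
      ((List.range d).map (fun i => (σ ^ i) g)).prod ∈ (MulEquiv.toMonoidHom ((σ ^ d) ^ e)).eqLocus (MonoidHom.id X) ∧
      (((σ ^ d) ^ e) a)⁻¹ * a = (((σ ^ e) a)⁻¹ * a) ^ d := by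
  have h1 : ∀ (τ : MulAut X) (x : X),
      x ∈ (MulEquiv.toMonoidHom τ).eqLocus (MonoidHom.id X) ↔ τ x = x := fun τ x => Iff.rfl
  rw [h1] at hg
  rw [h1]
  have hN : ((List.range d).map (fun i => (σ ^ i) g)).prod = a * ((σ ^ d) a)⁻¹ := by
    rw [ha]; exact norm_eq σ a d
  have hcomm : ∀ (i j : ℕ) (x : X), (σ ^ i) ((σ ^ j) x) = (σ ^ j) ((σ ^ i) x) := by
    intro i j x
    rw [← MulAut.mul_apply, ← MulAut.mul_apply, ← pow_add, ← pow_add, add_comm]
  have hge : ∀ i : ℕ, (σ ^ e) ((σ ^ i) g) = (σ ^ i) g := by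
    intro i; rw [hcomm, hg]
  have hNe : (σ ^ e) (((List.range d).map (fun i => (σ ^ i) g)).prod) =
      ((List.range d).map (fun i => (σ ^ i) g)).prod := by
    rw [map_list_prod, List.map_map]
    congr 1
    apply List.map_congr_left
    intro i _
    exact hge i
  have hpw : ∀ (n : ℕ) (x : X), (σ ^ e) x = x → ((σ ^ e) ^ n) x = x := by
    intro n x hx
    induction n with
    | zero => simp
    | succ n ih => rw [pow_succ, MulAut.mul_apply, hx, ih]
  refine ⟨hN, ?_, ?_⟩
  · rw [← pow_mul, mul_comm d e, pow_mul]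
    exact hpw d _ hNe
  · -- x is fixed by σ
    rw [← pow_mul, mul_comm d e, pow_mul]
    have hx : σ (((σ ^ e) a)⁻¹ * a) = ((σ ^ e) a)⁻¹ * a := by
      rw [ha, map_mul, map_inv] at hg
      have h2 : (σ ^ e) (σ a) = σ ((σ ^ e) a) := by
        have := hcomm e 1 a
        simpa using this
      rw [h2] at hg
      rw [map_mul, map_inv]
      have h3 : (σ ^ e) a = a * (σ a)⁻¹ * σ ((σ ^ e) a) := by
        rw [← hg]; group
      calc (σ ((σ ^ e) a))⁻¹ * σ a = (a * (σ a)⁻¹ * σ ((σ ^ e) a))⁻¹ * a := by group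
        _ = _ := by rw [← h3]
    have hxe : ∀ n : ℕ, (σ ^ n) (((σ ^ e) a)⁻¹ * a) = ((σ ^ e) a)⁻¹ * a := by
      intro n
      induction n with
      | zero => simp
      | succ n ih => rw [pow_succ, MulAut.mul_apply, hx, ih]
    set x := ((σ ^ e) a)⁻¹ * a with hxdef
    have hea : (σ ^ e) a = a * x⁻¹ := by rw [hxdef]; group
    have hind : ∀ n : ℕ, ((σ ^ e) ^ n) a = a * (x ^ n)⁻¹ := by
      intro n
      induction n with
      | zero => simp
      | succ n ih =>
        rw [pow_succ', MulAut.mul_apply, ih, map_mul, hea, map_inv, map_pow, hxe e, pow_succ]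
        group
    rw [hind d]
    group

end Cfsg.Agent.S2668
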