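import Cfsg.Statements.S2669

set_option autoImplicit false
open Cfsg

namespace Cfsg.Agent.S2669

theorem result {X : Type*} [Group X] (σ : MulAut X) (e : ℕ) (he : 1 ≤ e)
    [Finite ↥((MulEquiv.toMonoidHom (σ ^ e)).eqLocus (MonoidHom.id X))]
    (Y : Subgroup X) (hY : ∀ y : X, y ∈ Y ↔ σ y ∈ Y)
    (hYL : ∀ y ∈ Y, ∃ a ∈ Y, y = a * (σ a)⁻¹) (hYLe : ∀ y ∈ Y, ∃ a ∈ Y, y = a * ((σ ^ e) a)⁻¹)
    (g : X) (hg : g ∈ (MulEquiv.toMonoidHom (σ ^ e)).eqLocus (MonoidHom.id X)) (a : X) (ha : g = a * (σ a)⁻¹) :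
    Nat.card {k : ↥((MulEquiv.toMonoidHom (σ ^ e)).eqLocus (MonoidHom.id X)) // (k : X)⁻¹ * g * σ k ∈ Y} *
        Nat.card ↥(Y ⊓ (MulEquiv.toMonoidHom σ).eqLocus (MonoidHom.id X)) =
      Nat.card {h : ↥((MulEquiv.toMonoidHom σ).eqLocus (MonoidHom.id X)) // (h : X)⁻¹ * (((σ ^ e) a)⁻¹ * a) * h ∈ Y} *
        Nat.card ↥(Y ⊓ (MulEquiv.toMonoidHom (σ ^ e)).eqLocus (MonoidHom.id X)) := by
  have h1 : ∀ (τ : MulAut X) (x : X),
      x ∈ (MulEquiv.toMonoidHom τ).eqLocus (MonoidHom.id X) ↔ τ x = x := fun τ x => Iff.rfl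
  have hpow : ∀ x : X, σ x = x → (σ ^ e) x = x := by
    intro x hx
    have : ∀ n : ℕ, (σ ^ n) x = x := by
      intro n
      induction n with
      | zero => simp
      | succ n ih => rw [pow_succ, MulAut.mul_apply, hx, ih]
    exact this e
  have hYpow : ∀ (n : ℕ) (y : X), y ∈ Y ↔ (σ ^ n) y ∈ Y := by
    intro n
    induction n with
    | zero => simp
    | succ n ih => intro y; rw [pow_succ, MulAut.mul_apply, ← ih, ← hY]
  set x : X := ((σ ^ e) a)⁻¹ * a with hx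
  -- the middle set
  let T := {p : X × X // (σ ^ e) p.1 = p.1 ∧ p.2 ∈ Y ∧ σ (a⁻¹ * p.1 * p.2) = a⁻¹ * p.1 * p.2}
  -- choice of b for elements of Y
  have hYL' : ∀ y : X, ∃ b : X, y ∈ Y → (b ∈ Y ∧ y = b * (σ b)⁻¹) := by
    intro y
    by_cases hy : y ∈ Y
    · obtain ⟨b, hb, hb'⟩ := hYL y hy
      exact ⟨b, fun _ => ⟨hb, hb'⟩⟩
    · exact ⟨1, fun h => absurd h hy⟩
  have hYLe' : ∀ y : X, ∃ b : X, y ∈ Y → (b ∈ Y ∧ y⁻¹ = b * ((σ ^ e) b)⁻¹) := by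
    intro y
    by_cases hy : y ∈ Y
    · obtain ⟨b, hb, hb'⟩ := hYLe y⁻¹ (Y.inv_mem hy)
      exact ⟨b, fun _ => ⟨hb, hb'⟩⟩
    · exact ⟨1, fun h => absurd h hy⟩
  choose β hβ' using hYL'
  choose γ hγ' using hYLe'
  have hβY : ∀ y : X, y ∈ Y → β y ∈ Y := fun y h => (hβ' y h).1
  have hβ : ∀ y : X, y ∈ Y → y = β y * (σ (β y))⁻¹ := fun y h => (hβ' y h).2
  have hγY : ∀ y : X, y ∈ Y → γ y ∈ Y := fun y h => (hγ' y h).1
  have hγ : ∀ y : X, y ∈ Y → y⁻¹ = γ y * ((σ ^ e) (γ y))⁻¹ := fun y h => (hγ' y h).2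
  clear hβ' hγ'
  have hfix : ∀ k b : X, σ (a⁻¹ * k * b) = a⁻¹ * k * b ↔ k⁻¹ * g * σ k = b * (σ b)⁻¹ := by
    intro k b
    rw [map_mul, map_mul, map_inv, ha]
    constructor
    · intro h
      have h2 : σ k = σ a * (a⁻¹ * k * b) * (σ b)⁻¹ := by rw [← h]; group
      rw [h2]; group
    · intro h
      have h2 : σ k = σ a * a⁻¹ * k * (b * (σ b)⁻¹) := by rw [← h]; group
      rw [h2]; group
  -- first equivalence
  have E1 : Nat.card ({k : ↥((MulEquiv.toMonoidHom (σ ^ e)).eqLocus (MonoidHom.id X)) // (k : X)⁻¹ * g * σ k ∈ Y} × ↥(Y ⊓ (MulEquiv.toMonoidHom σ).eqLocus (MonoidHom.id X))) = Nat.card T := by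
    refine Nat.card_eq_of_bijective (fun q => ⟨(q.1.1.1, β ((q.1.1 : X)⁻¹ * g * σ q.1.1) * q.2.1), ?_, ?_, ?_⟩) ⟨?_, ?_⟩
    · exact q.1.1.2
    · exact Y.mul_mem (hβY _ q.1.2) q.2.2.1
    · rw [hfix]
      have h3 := hβ _ q.1.2
      have h4 : σ q.2.1 = q.2.1 := q.2.2.2
      rw [map_mul, h4, mul_inv_rev]
      calc _ = _ := h3
        _ = _ := by group
    · rintro ⟨⟨⟨k, hk⟩, hkY⟩, ⟨c, hc⟩⟩ ⟨⟨⟨k', hk'⟩, hkY'⟩, ⟨c', hc'⟩⟩ hh
      have hh' := congrArg Subtype.val hh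
      simp only [Prod.mk.injEq] at hh'
      obtain ⟨h5, h6⟩ := hh'
      subst h5
      have h7 : c = c' := mul_left_cancel h6
      subst h7
      rfl
    · rintro ⟨⟨k, b⟩, hk, hb, hkb⟩
      simp only at hk hb hkb
      rw [hfix] at hkb
      have hkY : k⁻¹ * g * σ k ∈ Y := by
        rw [hkb]; exact Y.mul_mem hb (Y.inv_mem ((hY _).1 hb))
      have h3 := hβ _ hkY
      have hcY := hβY _ hkY
      obtain ⟨c, hc⟩ : ∃ c, β (k⁻¹ * g * σ k) = c := ⟨_, rfl⟩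
      rw [hc] at h3 hcY
      refine ⟨(⟨⟨k, hk⟩, hkY⟩, ⟨c⁻¹ * b, Y.mul_mem (Y.inv_mem hcY) hb, ?_⟩), ?_⟩
      · change σ (c⁻¹ * b) = c⁻¹ * b
        rw [hkb] at h3
        rw [map_mul, map_inv]
        have h8 : σ b = σ c * c⁻¹ * b := by
          have : b = c * (σ c)⁻¹ * σ b := by
            rw [← h3]; group
          calc σ b = σ c * c⁻¹ * (c * (σ c)⁻¹ * σ b) := by group
            _ = _ := by rw [← this]
        rw [h8]; group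
      · apply Subtype.ext
        change (k, β (k⁻¹ * g * σ k) * (c⁻¹ * b)) = (k, b)
        rw [hc]
        simp
  have E2 : Nat.card ({h : ↥((MulEquiv.toMonoidHom σ).eqLocus (MonoidHom.id X)) // (h : X)⁻¹ * x * h ∈ Y} × ↥(Y ⊓ (MulEquiv.toMonoidHom (σ ^ e)).eqLocus (MonoidHom.id X))) = Nat.card T := by
    refine Nat.card_eq_of_bijective (fun q => ⟨(a * q.1.1.1 * (q.2.1 * (γ ((q.1.1 : X)⁻¹ * x * q.1.1))⁻¹)⁻¹, q.2.1 * (γ ((q.1.1 : X)⁻¹ * x * q.1.1))⁻¹), ?_, ?_, ?_⟩) ⟨?_, ?_⟩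
    · obtain ⟨⟨⟨h, hh⟩, hhY⟩, ⟨d, hdY, hd⟩⟩ := q
      have h3 := hγ _ hhY
      have h4 : (σ ^ e) d = d := hd
      have h5 : (σ ^ e) h = h := hpow _ hh
      simp only
      obtain ⟨c, hc⟩ : ∃ c, γ (h⁻¹ * x * h) = c := ⟨_, rfl⟩
      simp only at h3
      rw [hc] at h3 ⊢
      simp only [map_mul, map_inv, h4, h5]
      have h6 : (σ ^ e) c = h⁻¹ * x * h * c := by
        calc (σ ^ e) c = (c * ((σ ^ e) c)⁻¹)⁻¹ * c := by group
          _ = _ := by rw [← h3]; group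
      rw [h6, hx]
      group
    · exact Y.mul_mem q.2.2.1 (Y.inv_mem (hγY _ q.1.2))
    · obtain ⟨⟨⟨h, hh⟩, hhY⟩, ⟨d, hdY, hd⟩⟩ := q
      have h5 : σ h = h := hh
      simp only
      obtain ⟨c, hc⟩ : ∃ c, γ (h⁻¹ * x * h) = c := ⟨_, rfl⟩
      rw [hc]
      have : a⁻¹ * (a * h * (d * c⁻¹)⁻¹) * (d * c⁻¹) = h := by group
      rw [this, h5]
    · rintro ⟨⟨⟨k, hk⟩, hkY⟩, ⟨c, hc⟩⟩ ⟨⟨⟨k', hk'⟩, hkY'⟩, ⟨c', hc'⟩⟩ hh
      have hh' := congrArg Subtype.val hh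
      simp only [Prod.mk.injEq] at hh'
      obtain ⟨h5, h6⟩ := hh'
      rw [h6] at h5
      have h7 : k = k' := mul_left_cancel (mul_right_cancel h5)
      subst h7
      have h8 : c = c' := mul_right_cancel h6
      subst h8
      rfl
    · rintro ⟨⟨k, b⟩, hk, hb, hkb⟩
      simp only at hk hb hkb
      have hke := hpow _ hkb
      rw [map_mul, map_mul, map_inv, hk] at hke
      have hy : (a⁻¹ * k * b)⁻¹ * x * (a⁻¹ * k * b) = ((σ ^ e) b)⁻¹ * b := by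
        have : x * (a⁻¹ * k * b) = (a⁻¹ * k * b) * (((σ ^ e) b)⁻¹ * b) := by
          calc x * (a⁻¹ * k * b) = (((σ ^ e) a)⁻¹ * k * (σ ^ e) b) * (((σ ^ e) b)⁻¹ * b) := by
                rw [hx]; group
            _ = _ := by rw [hke]
        rw [mul_assoc, this]; group
      have hyY : (a⁻¹ * k * b)⁻¹ * x * (a⁻¹ * k * b) ∈ Y := by
        rw [hy]; exact Y.mul_mem (Y.inv_mem ((hYpow _ _).1 hb)) hb
      have h3 := hγ _ hyY
      have hcY := hγY _ hyY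
      obtain ⟨c, hc⟩ : ∃ c, γ ((a⁻¹ * k * b)⁻¹ * x * (a⁻¹ * k * b)) = c := ⟨_, rfl⟩
      rw [hc, hy] at h3
      rw [hc] at hcY
      refine ⟨(⟨⟨a⁻¹ * k * b, hkb⟩, hyY⟩, ⟨b * c, Y.mul_mem hb hcY, ?_⟩), ?_⟩
      · change (σ ^ e) (b * c) = b * c
        rw [map_mul]
        have h6 : (σ ^ e) c = ((σ ^ e) b)⁻¹ * b * c := by
          calc (σ ^ e) c = (c * ((σ ^ e) c)⁻¹)⁻¹ * c := by group
            _ = _ := by rw [← h3]; group
        rw [h6]; group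
      · apply Subtype.ext
        change (a * (a⁻¹ * k * b) * (b * c * (γ ((a⁻¹ * k * b)⁻¹ * x * (a⁻¹ * k * b)))⁻¹)⁻¹,
          b * c * (γ ((a⁻¹ * k * b)⁻¹ * x * (a⁻¹ * k * b)))⁻¹) = (k, b)
        rw [hc]
        simp only [Prod.mk.injEq]
        constructor <;> group
  rw [← Nat.card_prod, ← Nat.card_prod, E1, E2]

end Cfsg.Agent.S2669
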