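import Cfsg.Statements.S2676
import Cfsg.Agent.H194.SpUnip

set_option autoImplicit false
open Classical
open Cfsg

namespace Cfsg.Agent.S2676

open Cfsg.Agent.H194.SpUnip

section

variable {F : Type*} [Field F] [Fintype F] {p : ℕ} [Fact p.Prime] [CharP F p] {m : ℕ}

omit [Fintype F] in
theorem pow_iff (g : Matrix.symplecticGroup (Fin m) F) : (φ F m g - 1) ^ p = 0 ↔ g ^ p = 1 := by
  have hch : CharP (Module.End F (Fin m ⊕ Fin m → F)) p ∨ m = 0 := by
    rcases Nat.eq_zero_or_pos m with h | h
    · exact Or.inr h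
    · left
      have : Nonempty (Fin m ⊕ Fin m) := ⟨Sum.inl ⟨0, h⟩⟩
      exact charP_of_injective_algebraMap (algebraMap F (Module.End F (Fin m ⊕ Fin m → F))).injective p
  have hpow : ∀ k : ℕ, φ F m ((g ^ k : Matrix.symplecticGroup (Fin m) F) : Matrix (Fin m ⊕ Fin m) (Fin m ⊕ Fin m) F) =
      φ F m g ^ k := by
    intro k
    induction k with
    | zero => rw [pow_zero, pow_zero, φ_one]
    | succ k ih => rw [pow_succ, pow_succ, φ_mul, ih]
  rcases hch with hch | rfl
  · rw [sub_pow_char_of_commute (R := Module.End F (Fin m ⊕ Fin m → F)) p (Commute.one_right _), one_pow,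
      sub_eq_zero, ← hpow, ← φ_one, (φ F m).injective.eq_iff]
    exact Subtype.ext_iff.symm
  · constructor
    · intro _
      apply Subtype.ext
      ext i
      rcases i with i | i <;> exact i.elim0
    · intro _
      refine LinearMap.ext fun v => ?_
      exact Subsingleton.elim _ _

theorem card_classes (hp : p ≠ 2) :
    Nat.card {C : ConjClasses ↥(Matrix.symplecticGroup (Fin m) F) //
      ∃ g : Matrix.symplecticGroup (Fin m) F, ConjClasses.mk g = C ∧ g ^ p = 1} = Nat.card (SP m p) := by
  have h2 : (2 : F) ≠ 0 := by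
    intro h
    have h3 : ((2 : ℕ) : F) = 0 := by exact_mod_cast h
    rw [CharP.cast_eq_zero_iff F p] at h3
    exact hp ((Nat.prime_dvd_prime_iff_eq (Fact.out : p.Prime) Nat.prime_two).1 h3)
  symm
  choose G hG hGt using fun s : SP m p => exists_of_type (F := F) h2 s
  refine Nat.card_congr (Equiv.ofBijective (fun s => ⟨ConjClasses.mk (G s), G s, rfl, (pow_iff _).1 (hG s)⟩) ⟨?_, ?_⟩)
  · intro s s' hss
    have h3 : ConjClasses.mk (G s) = ConjClasses.mk (G s') := congrArg Subtype.val hss
    rw [ConjClasses.mk_eq_mk_iff_isConj, isConj_iff] at h3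
    obtain ⟨c, hc⟩ := h3
    have h4 := (hGt s).conj c
    rw [hc] at h4
    exact type_unique h2 h4 (hGt s')
  · rintro ⟨C, g, rfl, hg⟩
    obtain ⟨s, hs⟩ := exists_type h2 g ((pow_iff g).2 hg)
    refine ⟨s, ?_⟩
    apply Subtype.ext
    rw [ConjClasses.mk_eq_mk_iff_isConj]
    exact conj_of_type h2 (hGt s) hs

theorem card_order (hp : p ≠ 2) :
    Nat.card {C : ConjClasses ↥(Matrix.symplecticGroup (Fin m) F) //
      ∃ g : Matrix.symplecticGroup (Fin m) F, ConjClasses.mk g = C ∧ orderOf g = p} = Nat.card (SP m p) - 1 := by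
  rw [← card_classes (F := F) hp]
  have hpp : p.Prime := Fact.out
  have h1 : Nat.card {C : ConjClasses ↥(Matrix.symplecticGroup (Fin m) F) //
      ∃ g : Matrix.symplecticGroup (Fin m) F, ConjClasses.mk g = C ∧ g ^ p = 1} =
      Nat.card (Option {C : ConjClasses ↥(Matrix.symplecticGroup (Fin m) F) //
      ∃ g : Matrix.symplecticGroup (Fin m) F, ConjClasses.mk g = C ∧ orderOf g = p}) := by
    symm
    have hne : ∀ g : Matrix.symplecticGroup (Fin m) F, orderOf g = p → ConjClasses.mk g ≠ ConjClasses.mk 1 := by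
      intro g hg hcon
      rw [ConjClasses.mk_eq_mk_iff_isConj, isConj_comm, isConj_one_right] at hcon
      rw [hcon, orderOf_one] at hg
      exact hpp.one_lt.ne hg
    refine Nat.card_congr (Equiv.ofBijective (fun o => o.elim ⟨ConjClasses.mk 1, 1, rfl, one_pow p⟩
      (fun C => ⟨C.1, by
        obtain ⟨g, hg, hgp⟩ := C.2
        exact ⟨g, hg, hgp ▸ pow_orderOf_eq_one g⟩⟩)) ⟨?_, ?_⟩)
    · rintro (_ | ⟨C, g, rfl, hg⟩) (_ | ⟨C', g', rfl, hg'⟩) h
      · rfl
      · exact absurd (congrArg Subtype.val h).symm (hne g' hg')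
      · exact absurd (congrArg Subtype.val h) (hne g hg)
      · have h3 : ConjClasses.mk g = ConjClasses.mk g' := congrArg Subtype.val h
        simp only [h3]
    · rintro ⟨C, g, rfl, hg⟩
      by_cases h1 : g = 1
      · subst h1
        exact ⟨none, rfl⟩
      · exact ⟨some ⟨ConjClasses.mk g, g, rfl, orderOf_eq_prime hg h1⟩, rfl⟩
  rw [h1, Finite.card_option, Nat.add_sub_cancel]

theorem card_SP : Nat.card (SP m p) = ∑ μ ∈ Finset.univ.filter (fun μ : Nat.Partition (2 * m) =>
    (∀ a ∈ μ.parts, a ≤ p) ∧ ∀ j : ℕ, Odd j → Even (μ.parts.count j)),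
      2 ^ ((μ.parts.toFinset.filter (fun j : ℕ => Even j)).card) := by
  rw [SP, Nat.card_sigma]
  rw [Finset.sum_subtype (p := fun μ : Nat.Partition (2 * m) =>
    (∀ a ∈ μ.parts, a ≤ p) ∧ ∀ j : ℕ, Odd j → Even (μ.parts.count j))]
  · refine Finset.sum_congr rfl fun μ _ => ?_
    rw [Nat.card_fun, Nat.card_eq_fintype_card, Nat.card_eq_fintype_card, Fintype.card_bool]
    congr 1
    rw [Fintype.card_coe]
  · intro μ
    simp

end

/-- Number of conjugacy classes of elements of order p in Sp_2m(q), q a power of the odd prime p: the classes correspond to the signed partitions of 2m — partitions with all parts at most p in which every odd part has even multiplicity, each even part size that occurs carrying a sign — other than the all-ones partition; so the count is the sum over such partitions of 2^(number of distinct even parts), minus one. -/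
theorem result {F : Type*} [Field F] [Fintype F] {p : ℕ} [Fact p.Prime] [CharP F p] (hp : p ≠ 2) (m : ℕ) : Nat.card {C : ConjClasses ↥(Matrix.symplecticGroup (Fin m) F) // ∃ g : Matrix.symplecticGroup (Fin m) F, ConjClasses.mk g = C ∧ orderOf g = p} = (∑ μ ∈ Finset.univ.filter (fun μ : Nat.Partition (2 * m) => (∀ a ∈ μ.parts, a ≤ p) ∧ ∀ j : ℕ, Odd j → Even (μ.parts.count j)), 2 ^ ((μ.parts.toFinset.filter (fun j : ℕ => Even j)).card)) - 1 := by
  rw [card_order (F := F) hp, card_SP]

end Cfsg.Agent.S2676
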