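import Cfsg.Statements.S2689
import Cfsg.Agent.S2690

set_option autoImplicit false
open Cfsg

namespace Cfsg.Agent.S2689

open Cfsg.Agent.ClassicalGeometry.AutPSL.Auto Cfsg.Agent.ClassicalGeometry.AutPSL.Main

/-- The automorphism group of a simple projective special linear group PSL_n(F) over a finite field (n ≥ 2; |F| ≥ 4 when n = 2) is generated by the automorphisms induced by invertible semilinear maps of F^n (the image of the projective semilinear group) together with the inverse-transpose automorphism. -/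
theorem result {F : Type*} [Field F] [Fintype F] {p f : ℕ} [Fact p.Prime] (hF : Fintype.card F = p ^ f) (hf : 1 ≤ f) {n : ℕ} (hn : 2 ≤ n) (hs : n = 2 → 4 ≤ Fintype.card F) :
    Cfsg.gammaPSL n F ⊔ Cfsg.autSubgroupOf (fun β : Matrix.ProjectiveSpecialLinearGroup (Fin n) F ≃* Matrix.ProjectiveSpecialLinearGroup (Fin n) F => Cfsg.IsInverseTransposeAutPSL β) = ⊤ := by
  rw [eq_top_iff]
  intro β _
  obtain ⟨δ, φ, γ, σ, hδ, hφ, hγ, rfl⟩ := Cfsg.Agent.S2690.result hF hf hn hs β
  have h1 : δ ∈ Cfsg.gammaPSL n F := by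
    apply Subgroup.subset_closure
    obtain ⟨g, hg⟩ := hδ
    refine ⟨g, RingEquiv.refl F, ?_⟩
    intro s s' h
    apply hg
    rw [h]
    congr 2
  have h2 : φ ∈ Cfsg.gammaPSL n F := by
    apply Subgroup.subset_closure
    refine ⟨1, σ, ?_⟩
    intro s s' h
    apply hφ
    rw [h]
    simp
  have h3 : γ ∈ Cfsg.autSubgroupOf (fun β : Matrix.ProjectiveSpecialLinearGroup (Fin n) F ≃* Matrix.ProjectiveSpecialLinearGroup (Fin n) F => Cfsg.IsInverseTransposeAutPSL β) := by
    rcases hγ with rfl | hγ
    · exact one_mem _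
    · exact Subgroup.subset_closure hγ
  exact mul_mem (mul_mem (Subgroup.mem_sup_left h1) (Subgroup.mem_sup_left h2)) (Subgroup.mem_sup_right h3)

end Cfsg.Agent.S2689
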