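import Cfsg.Statements.S2700
import Cfsg.Agent.H999.PslGraphClasses

set_option autoImplicit false
open Cfsg
open Matrix Cfsg.Agent.H999.PslGraph Cfsg.Agent.H999.PslGraphOdd Cfsg.Agent.H999.PslGraphClasses

namespace Cfsg.Agent.S2700

/-- Let T = PSL_n(F) over a finite field of odd order with n = 2m ≥ 4 even, and G = Inndiag(T) the image of PGL_n(F). The involutory graph automorphisms of T fall into exactly three G-classes, with representatives γ₁, γ₂, γ₃ whose centralizers in G are isomorphic respectively to the projective conformal symplectic group PGSp_n(F), the projective conformal orthogonal group of the plus-type form Σ xᵢ yᵢ, and that of a minus-type form Σ xᵢ yᵢ + z₁² + a z₁ z₂ + b z₂² (anisotropic binary part) in dimension n. -/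
theorem result {F : Type*} [Field F] [Fintype F] (hodd : Odd (Fintype.card F)) {n m : ℕ} (hm : 2 ≤ m) (hnm : n = 2 * m) :
    ∃ (γ₁ γ₂ γ₃ : MulAut (Matrix.ProjectiveSpecialLinearGroup (Fin n) F)) (a b : F), (∀ z₁ z₂ : F, z₁ ^ 2 + a * z₁ * z₂ + b * z₂ ^ 2 = 0 → z₁ = 0 ∧ z₂ = 0) ∧ Cfsg.IsGraphAutClassPSL γ₁ ∧ orderOf γ₁ = 2 ∧ Cfsg.IsGraphAutClassPSL γ₂ ∧ orderOf γ₂ = 2 ∧ Cfsg.IsGraphAutClassPSL γ₃ ∧ orderOf γ₃ = 2 ∧ ¬ Cfsg.IsConjUnder (Cfsg.inndiagPSL n F) γ₁ γ₂ ∧ ¬ Cfsg.IsConjUnder (Cfsg.inndiagPSL n F) γ₁ γ₃ ∧ ¬ Cfsg.IsConjUnder (Cfsg.inndiagPSL n F) γ₂ γ₃ ∧ (∀ γ : MulAut (Matrix.ProjectiveSpecialLinearGroup (Fin n) F), Cfsg.IsGraphAutClassPSL γ → orderOf γ = 2 → Cfsg.IsConjUnder (Cfsg.inndiagPSL n F) γ₁ γ ∨ Cfsg.IsConjUnder (Cfsg.inndiagPSL n F) γ₂ γ ∨ Cfsg.IsConjUnder (Cfsg.inndiagPSL n F) γ₃ γ) ∧ Nonempty (↥(Cfsg.inndiagPSL n F ⊓ Subgroup.centralizer {γ₁}) ≃*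 Cfsg.PGSp m F) ∧ Nonempty (↥(Cfsg.inndiagPSL n F ⊓ Subgroup.centralizer {γ₂}) ≃* Cfsg.PGO F (Cfsg.quadFormPlus m F)) ∧ Nonempty (↥(Cfsg.inndiagPSL n F ⊓ Subgroup.centralizer {γ₃}) ≃* Cfsg.PGO F (Cfsg.quadFormMinus (m - 1) F a b)) := by
  have h2 := two_ne_zero_of_odd hodd
  obtain ⟨ν, hν⟩ := exists_not_isSquare h2
  have hab := aniso_of_not_isSquare hν
  obtain ⟨k, rfl⟩ : ∃ k, m = k + 1 := ⟨m - 1, by omega⟩
  have hn2 : 2 ≤ n := by omega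
  have hn3 : 3 ≤ n := by omega
  have e : Fin n ≃ Fin (k + 1) ⊕ Fin (k + 1) := Fintype.equivOfCardEq (by simp; omega)
  have e' : Fin n ≃ (Fin k ⊕ Fin k) ⊕ Fin 2 := Fintype.equivOfCardEq (by simp; omega)
  have hJ : (J (Fin (k + 1)) F).det ≠ 0 := (isUnit_det_J (Fin (k + 1)) F).ne_zero
  have hJt : (rx e (J (Fin (k + 1)) F) hJ : Matrix (Fin n) (Fin n) F)ᵀ =
      -(rx e (J (Fin (k + 1)) F) hJ : Matrix (Fin n) (Fin n) F) := by
    rw [rx_transpose, J_transpose, coe_rx]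
    rfl
  have hJa := bil_self_of_skew h2 hJt
  have hPt : (rx e (gramPlus (k + 1) F) (det_gramPlus_ne_zero _) : Matrix (Fin n) (Fin n) F)ᵀ =
      rx e (gramPlus (k + 1) F) (det_gramPlus_ne_zero _) := by
    rw [rx_transpose, gramPlus_transpose, coe_rx]
  have hMt : (rx e' (gramMinus k F 0 (-ν)) (det_gramMinus_ne_zero h2 k hab) : Matrix (Fin n) (Fin n) F)ᵀ =
      rx e' (gramMinus k F 0 (-ν)) (det_gramMinus_ne_zero h2 k hab) := by
    rw [rx_transpose, gramMinus_transpose, coe_rx]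
  refine ⟨gam (rx e (J (Fin (k + 1)) F) hJ), gam (rx e (gramPlus (k + 1) F) (det_gramPlus_ne_zero _)),
    gam (rx e' (gramMinus k F 0 (-ν)) (det_gramMinus_ne_zero h2 k hab)), 0, -ν, hab,
    (isGraph_iff hn3).2 ⟨_, rfl⟩, (orderOf_gam' hn3 _).2 (Or.inr hJt),
    (isGraph_iff hn3).2 ⟨_, rfl⟩, (orderOf_gam' hn3 _).2 (Or.inl hPt),
    (isGraph_iff hn3).2 ⟨_, rfl⟩, (orderOf_gam' hn3 _).2 (Or.inl hMt),
    not_conj_alt_symm h2 hn2 hJt hPt, not_conj_alt_symm h2 hn2 hJt hMt, ?_, ?_,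
    cent_alt hn2 hnm _ hJa, cent_plus h2 hn2 e _, ?_⟩
  · intro h
    have h3 := isSquare_of_conj hn2 hnm h
    rw [det_rx, det_rx] at h3
    exact not_isSquare_det h2 k hab h3
  · intro γ hγ hγ2
    obtain ⟨B, rfl⟩ := (isGraph_iff hn3).1 hγ
    rcases (orderOf_gam' hn3 B).1 hγ2 with hB | hB
    · rcases symm_dichotomy h2 hn2 hab e e' B hB with ⟨-, h⟩ | ⟨-, h⟩
      · exact Or.inr (Or.inl (isConj_of_congr hn2 h))
      · exact Or.inr (Or.inr (isConj_of_congr hn2 h))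
    · exact Or.inl (isConj_of_congr hn2 (exists_congr_of_alt hnm _ B hJa (bil_self_of_skew h2 hB)))
  · exact cent_minus h2 0 (-ν) hn2 e' _

end Cfsg.Agent.S2700
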