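import Cfsg.Statements.S2707
import Cfsg.Agent.H201.PsuGraph
import Cfsg.Agent.S2700

set_option autoImplicit false
open Cfsg

namespace Cfsg.Agent.S2707

open Cfsg.Agent.H201.PsuGraph Cfsg.Agent.H999.PslGraph
open Cfsg.Agent.LieClassical.HermBasic (conj)

/-- Let T = PSU_n(q) with n = 2m ≥ 4 even and q odd, realised over the field F with q² elements, and G = Inndiag(T) the image of PGU_n(q). The involutory graph automorphisms of T fall into exactly three G-classes, with representatives whose centralizers in G are isomorphic respectively to the projective conformal symplectic group PGSp_n(F₀), the projective conformal orthogonal group of the plus-type form Σ xᵢ yᵢ, and that of a minus-type form Σ xᵢ yᵢ + z₁² + a z₁ z₂ + b z₂² (anisotropic binary part) in dimension n, all over a field F₀ with q elements. -/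
theorem result {F : Type*} [Field F] [Fintype F] {q : ℕ} (hodd : Odd q) (hF : Fintype.card F = q ^ 2) {n m : ℕ} (hm : 2 ≤ m) (hnm : n = 2 * m) (F₀ : Type*) [Field F₀] [Fintype F₀] (hF₀ : Fintype.card F₀ = q) :
    ∃ (γ₁ γ₂ γ₃ : MulAut (Cfsg.PSU n F q)) (a b : F₀), (∀ z₁ z₂ : F₀, z₁ ^ 2 + a * z₁ * z₂ + b * z₂ ^ 2 = 0 → z₁ = 0 ∧ z₂ = 0) ∧ Cfsg.IsGraphAutClassPSU γ₁ ∧ orderOf γ₁ = 2 ∧ Cfsg.IsGraphAutClassPSU γ₂ ∧ orderOf γ₂ = 2 ∧ Cfsg.IsGraphAutClassPSU γ₃ ∧ orderOf γ₃ = 2 ∧ ¬ Cfsg.IsConjUnder (Cfsg.inndiagPSU n F q) γ₁ γ₂ ∧ ¬ Cfsg.IsConjUnder (Cfsg.inndiagPSU n F q) γ₁ γ₃ ∧ ¬ Cfsg.IsConjUnder (Cfsg.inndiagPSU n F q) γ₂ γ₃ ∧ (∀ γ : MulAut (Cfsg.PSU n F q), Cfsg.IsGraphAutClassPSU γ → orderOf γ = 2 → Cfsg.IsConjUnder (Cfsg.inndiagPSU n F q) γ₁ γ ∨ Cfsg.IsConjUnder (Cfsg.inndiagPSU n F q) γ₂ γ ∨ Cfsg.IsConjUnder (Cfsg.inndiagPSU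 n F q) γ₃ γ) ∧ Nonempty (↥(Cfsg.inndiagPSU n F q ⊓ Subgroup.centralizer {γ₁}) ≃* Cfsg.PGSp m F₀) ∧ Nonempty (↥(Cfsg.inndiagPSU n F q ⊓ Subgroup.centralizer {γ₂}) ≃* Cfsg.PGO F₀ (Cfsg.quadFormPlus m F₀)) ∧ Nonempty (↥(Cfsg.inndiagPSU n F q ⊓ Subgroup.centralizer {γ₃}) ≃* Cfsg.PGO F₀ (Cfsg.quadFormMinus (m - 1) F₀ a b)) := by
  have hn : 3 ≤ n := by omega
  have hcard : Nat.card F = Nat.card F₀ ^ 2 := by
    rw [Nat.card_eq_fintype_card, Nat.card_eq_fintype_card, hF₀, hF]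
  obtain ⟨j, hj⟩ := Cfsg.Agent.H202.Descent.exists_hom (F₀ := F₀) (orderOf_conj hF) two_pos hcard
  obtain ⟨g₁, g₂, g₃, a, b, hab, h1, h1', h2, h2', h3, h3', h12, h13, h23, hall, ⟨e₁⟩, ⟨e₂⟩, ⟨e₃⟩⟩ :=
    Cfsg.Agent.S2700.result (F := F₀) (by rw [hF₀]; exact hodd) hm hnm
  obtain ⟨B₁, rfl⟩ := (isGraph_iff hn).1 h1
  obtain ⟨B₂, rfl⟩ := (isGraph_iff hn).1 h2
  obtain ⟨B₃, rfl⟩ := (isGraph_iff hn).1 h3
  obtain ⟨γ₁, r₁⟩ := exists_of_gram hF hn hj h1'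
  obtain ⟨γ₂, r₂⟩ := exists_of_gram hF hn hj h2'
  obtain ⟨γ₃, r₃⟩ := exists_of_gram hF hn hj h3'
  obtain ⟨f₁⟩ := r₁.centEquiv hn hj
  obtain ⟨f₂⟩ := r₂.centEquiv hn hj
  obtain ⟨f₃⟩ := r₃.centEquiv hn hj
  refine ⟨γ₁, γ₂, γ₃, a, b, hab, r₁.graph hn, r₁.order hn, r₂.graph hn, r₂.order hn, r₃.graph hn, r₃.order hn,
    fun h => h12 ((r₁.isConj_iff hn hj r₂).1 h), fun h => h13 ((r₁.isConj_iff hn hj r₃).1 h),
    fun h => h23 ((r₂.isConj_iff hn hj r₃).1 h), ?_, ⟨f₁.trans e₁⟩, ⟨f₂.trans e₂⟩, ⟨f₃.trans e₃⟩⟩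
  intro γ hγ hγ2
  obtain ⟨B, r⟩ := exists_rel hF hn hj hγ hγ2
  rcases hall (gam B) ((isGraph_iff hn).2 ⟨B, rfl⟩) (r.order_gam hn) with h | h | h
  · exact Or.inl ((r₁.isConj_iff hn hj r).2 h)
  · exact Or.inr (Or.inl ((r₂.isConj_iff hn hj r).2 h))
  · exact Or.inr (Or.inr ((r₃.isConj_iff hn hj r).2 h))

end Cfsg.Agent.S2707
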