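import Cfsg.Statements.S2709
import Cfsg.Agent.H201.PsuSplit

set_option autoImplicit false
open Cfsg

namespace Cfsg.Agent.S2709

open Cfsg.Agent.H201.PsuGraph Cfsg.Agent.H201.PsuSplit Cfsg.Agent.H999.PslGraph Cfsg.Agent.H999.PslGraphClasses
  Cfsg.Agent.H999.PslGraphSplit
open Cfsg.Agent.LieClassical.HermBasic (conj)

/-- Let T = PSU_n(q) be simple (n ≥ 3, (n,q) ≠ (3,2), q = p^f), realised over the field F with q² elements, G = Inndiag(T) the image of PGU_n(q), and γ an involutory graph automorphism of T. The G-class of γ is the union of exactly c T-classes, where: if n is even and q is odd, c = gcd(n/2, q + 1) when C_G(γ) is isomorphic to PGSp_n(F₀) for a field F₀ with q elements (symplectic type) and c = gcd(n, q + 1)/2 otherwise; and c = gcd(n, q + 1) when n is odd or q is even. -/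
theorem result {F : Type*} [Field F] [Fintype F] {p f q : ℕ} [Fact p.Prime] (hq : q = p ^ f) (hf : 1 ≤ f) (hF : Fintype.card F = q ^ 2) {n : ℕ} (hn : 3 ≤ n) (hs : ¬ (n = 3 ∧ q = 2)) (F₀ : Type*) [Field F₀] [Fintype F₀] (hF₀ : Fintype.card F₀ = q) (γ : MulAut (Cfsg.PSU n F q)) (hγ : Cfsg.IsGraphAutClassPSU γ) (hγ2 : orderOf γ = 2) :
    ((Even n ∧ Odd q ∧ Nonempty (↥(Cfsg.inndiagPSU n F q ⊓ Subgroup.centralizer {γ}) ≃* Cfsg.PGSp (n / 2) F₀)) → Cfsg.splitClassCount (Cfsg.inndiagPSU n F q) (Cfsg.Inn (Cfsg.PSU n F q)) γ = Nat.gcd (n / 2) (q + 1)) ∧ ((Even n ∧ Odd q ∧ ¬ Nonempty (↥(Cfsg.inndiagPSU n F q ⊓ Subgroup.centralizer {γ}) ≃* Cfsg.PGSp (n / 2) F₀)) → Cfsg.splitClassCount (Cfsg.inndiagPSU n F q) (Cfsg.Inn (Cfsg.PSU n F q)) γ = Nat.gcd n (q + 1) / 2) ∧ (¬ (Even n ∧ Odd q) → Cfsg.splitClassCount (Cfsg.inndiagPSU n F q) (Cfsg.Inn (Cfsg.PSU n F q)) γ = Nat.gcd n (q + 1)) := by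
  have hn2 : 2 ≤ n := by omega
  have hcard : Nat.card F = Nat.card F₀ ^ 2 := by
    rw [Nat.card_eq_fintype_card, Nat.card_eq_fintype_card, hF₀, hF]
  obtain ⟨j, hj⟩ := Cfsg.Agent.H202.Descent.exists_hom (F₀ := F₀) (orderOf_conj hF) two_pos hcard
  obtain ⟨B, r⟩ := exists_rel hF hn hj hγ hγ2
  have hB := (orderOf_gam' hn B).1 (r.order_gam hn)
  obtain ⟨e1⟩ := r.centEquiv hn hj
  refine ⟨?_, ?_, ?_⟩
  · rintro ⟨⟨m, hm⟩, hodd, he⟩
    have hodd' : Odd (Fintype.card F₀) := by rw [hF₀]; exact hodd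
    have hnm : n = 2 * m := by omega
    have hm2 : n / 2 = m := by omega
    obtain ⟨k, rfl⟩ : ∃ k, m = k + 1 := ⟨m - 1, by omega⟩
    rw [hm2] at he ⊢
    rcases hB with hB | hB
    · exfalso
      obtain ⟨e⟩ := he
      exact not_PGSp_of_symm hodd' hnm B hB ⟨e1.symm.trans e⟩
    · exact split_alt hn hj r hnm (bil_self_of_skew (two_ne_zero_of_odd hodd') hB)
  · rintro ⟨⟨m, hm⟩, hodd, he⟩
    have hodd' : Odd (Fintype.card F₀) := by rw [hF₀]; exact hodd
    have hnm : n = 2 * m := by omega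
    have hm2 : n / 2 = m := by omega
    rcases hB with hB | hB
    · exact split_symm hn hj r hodd (two_ne_zero_of_odd hodd') hnm hB
    · exfalso
      apply he
      rw [hm2]
      obtain ⟨e⟩ := cent_alt hn2 hnm B (bil_self_of_skew (two_ne_zero_of_odd hodd') hB)
      exact ⟨e1.trans e⟩
  · intro h
    refine split_odd_or_two hn hj r ?_
    by_cases hev : Even n
    · right
      have hq2 : ¬ Odd q := fun h3 => h ⟨hev, h3⟩
      obtain ⟨r, hr, k, hr', hk⟩ := FiniteField.card' F₀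
      have h5 : r = 2 := by
        rcases hr'.eq_two_or_odd' with h6 | h6
        · exact h6
        · exfalso
          apply hq2
          rw [← hF₀, hk]
          exact h6.pow
      rw [← h5]
      exact hr
    · exact Or.inl (Nat.not_even_iff_odd.1 hev)

end Cfsg.Agent.S2709
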