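import Cfsg.Statements.S2710
import Cfsg.Agent.H202.PsuSim
import Cfsg.Agent.H202.SimCongr

set_option autoImplicit false
open Cfsg

namespace Cfsg.Agent.S2710

open Cfsg.Agent.H202 Cfsg.Agent.H202.Psu Cfsg.Agent.Schreier.PSU Cfsg.Agent.H999.PslGraph
  Cfsg.Agent.LieClassical.HermBasic Cfsg.Agent.LieClassical.HermSiegel
  Cfsg.Agent.ClassicalGeometry.PSUAutCount

/-- Let T = PSU_n(q) with n ≥ 4 divisible by 4 (n = 2m) and q odd, realised over the field F with q² elements, G = Inndiag(T) the image of PGU_n(q), and φ the standard field automorphism of T attached to the q-th power map of F (it induces inverse-transpose on the unitary matrices and is a graph automorphism). Its centralizer in G is isomorphic to the projective conformal orthogonal group of the plus-type form Σ xᵢ yᵢ in dimension n over a field F₀ with q elements. (Dimensions n ≡ 2 (mod 4) are not covered.) -/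
theorem result {F : Type*} [Field F] [Fintype F] {q : ℕ} (hodd : Odd q) (hF : Fintype.card F = q ^ 2) {n m : ℕ} (hm : 2 ≤ m) (hnm : n = 2 * m) (h4 : 4 ∣ n) (F₀ : Type*) [Field F₀] [Fintype F₀] (hF₀ : Fintype.card F₀ = q) (σ : F ≃+* F) (hσ : ∀ a : F, σ a = a ^ q) (φ : MulAut (Cfsg.PSU n F q)) (hφ : Cfsg.IsFieldAutPSUOf σ φ) :
    Nonempty (↥(Cfsg.inndiagPSU n F q ⊓ Subgroup.centralizer {φ}) ≃* Cfsg.PGO F₀ (Cfsg.quadFormPlus m F₀)) := by
  rw [isFieldAut_iff] at hφ
  subst hφ
  have hq1 : 1 < q := by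
    rw [← hF₀]; exact Fintype.one_lt_card
  -- order of `σ`
  have hσσ : ∀ x, σ (σ x) = x := fun x => by rw [hσ, hσ, ← pow_mul, ← sq, ← hF, FiniteField.pow_card]
  have hσ1 : σ ≠ 1 := by
    intro h
    obtain ⟨a, ha⟩ := IsCyclic.exists_generator (α := Fˣ)
    have h1 : a ^ (q - 1) = 1 := by
      have h2 : (a : F) ^ q = a := by rw [← hσ, h]; rfl
      have h3 : a ^ q = a := Units.ext (by rw [Units.val_pow_eq_pow_val]; exact h2)
      have h4 : a ^ (q - 1) * a = 1 * a := by rw [← pow_succ, Nat.sub_add_cancel hq1.le, h3, one_mul]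
      exact mul_right_cancel h4
    have h5 : orderOf a = Fintype.card F - 1 := by
      rw [orderOf_eq_card_of_forall_mem_zpowers ha, Nat.card_units, Nat.card_eq_fintype_card]
    have h6 := orderOf_dvd_of_pow_eq_one h1
    rw [h5, hF] at h6
    have h7 := Nat.le_of_dvd (by omega) h6
    have h8 : q * q ≤ q := by rw [← sq]; omega
    nlinarith
  have hord : orderOf σ = 2 := by
    rw [orderOf_eq_prime_iff]
    refine ⟨?_, hσ1⟩
    ext x
    rw [sq]
    exact hσσ x
  obtain ⟨j, hj⟩ := Descent.exists_hom (F := F) (F₀ := F₀) hord two_pos (by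
    rw [Nat.card_eq_fintype_card, Nat.card_eq_fintype_card, hF, hF₀])
  have h2 : (2 : F₀) ≠ 0 := H999.PslGraphClasses.two_ne_zero_of_odd (by rw [hF₀]; exact hodd)
  have key := PsuSim.cent_equiv_sim (n := n) hF (by omega) hσ hj (1 : GU n F q) (1 : Matrix.GeneralLinearGroup (Fin n) F)
    (κ := 1) (ι := 1) one_ne_zero one_ne_zero
    (by
      rw [Units.val_one, Matrix.map_one _ (map_zero σ) (map_one σ), one_smul, Matrix.mul_one]
      rfl) (1 : Matrix (Fin n) (Fin n) F₀)
    (by
      rw [Units.val_one, Matrix.map_one _ (map_zero σ) (map_one σ), Matrix.map_one _ (map_zero j) (map_one j), one_smul,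
        Matrix.transpose_one, Matrix.mul_one])
  obtain ⟨e1⟩ := key
  rw [map_one, one_mul] at e1
  have e : Fin n ≃ Fin m ⊕ Fin m := (finCongr (by omega : n = m + m)).trans finSumFinEquiv.symm
  obtain ⟨e2⟩ := SimCongr.projQuot_plus h2 (by omega) e (1 : Matrix.GeneralLinearGroup (Fin n) F₀)
    (by rw [Units.val_one, Matrix.transpose_one]) (by
      have hme : Even m := by
        obtain ⟨k, hk⟩ := h4
        exact ⟨k, by omega⟩
      rw [hme.neg_one_pow, Units.val_one, Matrix.det_one, mul_one]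
      exact IsSquare.one)
  exact ⟨e1.trans e2⟩

end Cfsg.Agent.S2710
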