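import Cfsg.Statements.S2717
import Cfsg.Agent.H204.GFConj
import Cfsg.Agent.H204.GFCount

set_option autoImplicit false
open Cfsg

namespace Cfsg.Agent.S2717

open Cfsg.Agent.LieClassical.OrthCore Cfsg.Agent.LieClassical.OrthTrans
open Cfsg.Agent.H204.GFModel Cfsg.Agent.H204.GFConj Cfsg.Agent.H204.GFCount Cfsg.Agent.H204.CrossT
  Cfsg.Agent.H198.Carriers Cfsg.Agent.H198.OrthFrame Cfsg.Agent.H198.ExtForm Cfsg.Agent.H185.OrthCent
  Cfsg.Agent.H185.MinusField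

theorem split_conj {X : Type*} [Group X] {H : Subgroup X} (K : Subgroup X) {x y : X} (h : IsConjUnder H x y) :
    splitClassCount H K y = splitClassCount H K x := by
  have h1 : (fun z : X => IsConjUnder H y z) = fun z => IsConjUnder H x z := by
    funext z
    apply propext
    exact ⟨fun hz => Cfsg.Agent.H198.SplitCount.isConjUnder_trans h hz, fun hz =>
      Cfsg.Agent.H198.SplitCount.isConjUnder_trans (Cfsg.Agent.H198.SplitCount.isConjUnder_symm h) hz⟩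
  refine Nat.card_congr (Quot.congr (Equiv.subtypeEquivRight fun z => iff_of_eq (congrFun h1 z)) fun a b => ?_)
  exact Iff.rfl

theorem cent_conj {X : Type*} [Group X] {H : Subgroup X} {x y : X} (h : IsConjUnder H x y) :
    Nonempty (↥(H ⊓ Subgroup.centralizer {x}) ≃* ↥(H ⊓ Subgroup.centralizer {y})) := by
  obtain ⟨g, hg, rfl⟩ := h
  have h1 := Cfsg.Agent.H185.IsoTransport.centMap (MulAut.conj g) H x
  have h2 : H.map (MulAut.conj g).toMonoidHom = H := by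
    ext z
    constructor
    · rintro ⟨w, hw, rfl⟩
      exact H.mul_mem (H.mul_mem hg hw) (H.inv_mem hg)
    · intro hz
      refine ⟨g⁻¹ * z * g, H.mul_mem (H.mul_mem (H.inv_mem hg) hz) hg, ?_⟩
      change g * (g⁻¹ * z * g) * g⁻¹ = z
      group
  rw [h2] at h1
  exact h1

theorem main {F : Type*} [Field F] [Finite F] {n : ℕ} (hn : 4 ≤ n)
    {x : MulAut (POmega F (quadFormPlus (n + 1) F))} (hx : IsGraphFieldAutClassPOmegaPlus (n + 1) x)
    (hx2 : orderOf x = 2) (F₀ : Type*) [Field F₀] [Finite F₀] (hcard : Nat.card F = Nat.card F₀ ^ 2) :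
    (∃ a₀ b₀ : F₀, Aniso a₀ b₀ ∧ Nonempty (↥(inndiagPOmegaPlus (n + 1) F ⊓ Subgroup.centralizer {x}) ≃*
      ↥(inndiagPOmegaMinus n F₀ a₀ b₀))) ∧
    ((2 : F) = 0 → splitClassCount (inndiagPOmegaPlus (n + 1) F) (Inn (POmega F (quadFormPlus (n + 1) F))) x = 1) ∧
    ((2 : F) ≠ 0 → Odd (n + 1) ∧ Nat.card F₀ % 4 = 1 →
      splitClassCount (inndiagPOmegaPlus (n + 1) F) (Inn (POmega F (quadFormPlus (n + 1) F))) x = 4) ∧
    ((2 : F) ≠ 0 → ¬ (Odd (n + 1) ∧ Nat.card F₀ % 4 = 1) →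
      splitClassCount (inndiagPOmegaPlus (n + 1) F) (Inn (POmega F (quadFormPlus (n + 1) F))) x = 2) := by
  have hG : Good (plusQ (n + 1) F) := good_plusQ (by omega)
  obtain ⟨σ, -, -, h1, h2, -, -, -⟩ := exists_form (by omega) hG hx hx2
  have hord : orderOf σ = 2 := orderOf_eq_prime (by rw [pow_two, h2]) h1
  have h2σ : ∀ a, σ (σ a) = a := fun a => RingEquiv.congr_fun h2 a
  obtain ⟨j, hj⟩ := Cfsg.Agent.H202.Descent.exists_hom (F := F) (F₀ := F₀) hord two_pos hcard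
  obtain ⟨θ, a₀, b₀, hθ, ha, hb, hab⟩ := exists_data hj h2σ h1
  have hG' : Good (minusQ n F (j a₀) (j b₀)) := good_of_isometry (splitEquiv_form (m := n) hθ ha hb) hG
  have hσ : Fix σ (minusQ n F (j a₀) (j b₀)) := fix_minus ((hj _).2 ⟨a₀, rfl⟩) ((hj _).2 ⟨b₀, rfl⟩) n
  have hY := congr_frob (n := n) h2σ hθ ha hb hσ hG hG'
  have hmap := map_simPM (n := n) hθ ha hb hG hG'
  obtain ⟨hY2, ⟨e⟩, hcount⟩ := Cfsg.Agent.H185.IsoTransport.transport
    (poT (splitEquiv_form (m := n) hθ ha hb)) hmap hY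
  have hne : Nonempty ((Fin n ⊕ Fin n) ⊕ Fin 2) := ⟨.inr 0⟩
  rw [orderOf_Phi_frob hG' hσ, hord] at hY2
  -- `x` is conjugate to the model
  have hc := conj_all (F := F) (by omega) (isGraphField_Ymod hG h1) hY2.symm hx hx2
  obtain ⟨e'⟩ := cent_conj hc
  obtain ⟨e''⟩ := cent_model (by omega) hab hθ ha hb hj hG' hσ
  have hK := split_conj (Inn (POmega F (quadFormPlus (n + 1) F))) hc
  refine ⟨⟨a₀, b₀, hab, ⟨(e'.symm.trans e.symm).trans e''⟩⟩, fun h20 => ?_, fun h20 hq => ?_, fun h20 hq => ?_⟩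
  · exact hK.trans (hcount.symm.trans (count_even h20 (by omega) hab hθ ha hb hj hG' hσ))
  · exact hK.trans (hcount.symm.trans
      (count_odd_four h20 (by omega) hab hθ ha hb hj h2σ hcard hG' hσ hq.1 hq.2))
  · exact hK.trans (hcount.symm.trans
      (count_odd_two h20 (by omega) hab hθ ha hb hj h2σ hcard hG' hσ hq))


/-- Let T = PΩ⁺_{2m}(F) with m ≥ 5 (dimension 2m ≠ 8) and |F| = p^f, G = Inndiag(T), and x an involutory graph-field automorphism of T. Then f is even; any two involutory graph-field automorphisms of T are G-conjugate; C_G(x) is isomorphic to Inndiag(PΩ⁻_{2m}(F₀)) for a field F₀ with p^(f/2) elements (some anisotropic binary part over F₀); and the G-class of x is the union of exactly c T-classes with c = 1 if p = 2, c = 4 if p is odd, m is odd and p^(f/2) ≡ 1 (mod 4), and c = 2 otherwise. -/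
theorem result {F : Type*} [Field F] [Fintype F] {p f : ℕ} [Fact p.Prime] (hF : Fintype.card F = p ^ f) (hf : 1 ≤ f) {m : ℕ} (hm : 5 ≤ m) (x : MulAut (Cfsg.POmega F (Cfsg.quadFormPlus m F))) (hx : Cfsg.IsGraphFieldAutClassPOmegaPlus m x) (hx2 : orderOf x = 2) (F₀ : Type*) [Field F₀] [Fintype F₀] (hF₀ : Fintype.card F₀ = p ^ (f / 2)) :
    Even f ∧ (∀ y : MulAut (Cfsg.POmega F (Cfsg.quadFormPlus m F)), Cfsg.IsGraphFieldAutClassPOmegaPlus m y → orderOf y = 2 → Cfsg.IsConjUnder (Cfsg.inndiagPOmegaPlus m F) x y) ∧ (∃ a₀ b₀ : F₀, (∀ z₁ z₂ : F₀, z₁ ^ 2 + a₀ * z₁ * z₂ + b₀ * z₂ ^ 2 = 0 → z₁ = 0 ∧ z₂ = 0) ∧ Nonempty (↥(Cfsg.inndiagPOmegaPlus m F ⊓ Subgroup.centralizer {x}) ≃* ↥(Cfsg.inndiagPOmegaMinus (m - 1) F₀ a₀ b₀))) ∧ (p = 2 → Cfsg.splitClassCount (Cfsg.inndiagPOmegaPlus m F) (Cfsg.Inn (Cfsg.POmega F (Cfsg.quadFormPlus m F))) x = 1) ∧ ((p ≠ 2 ∧ Odd m ∧ p ^ (f / 2) % 4 = 1) → Cfsg.splitClassCount (Cfsg.inndiagPOmegaPlus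 m F) (Cfsg.Inn (Cfsg.POmega F (Cfsg.quadFormPlus m F))) x = 4) ∧ ((p ≠ 2 ∧ ¬ (Odd m ∧ p ^ (f / 2) % 4 = 1)) → Cfsg.splitClassCount (Cfsg.inndiagPOmegaPlus m F) (Cfsg.Inn (Cfsg.POmega F (Cfsg.quadFormPlus m F))) x = 2) := by
  have h2p : (2 : F) = 0 ↔ p = 2 := by
    have hp : p.Prime := Fact.out
    have hch : CharP F p := by
      obtain ⟨q, hq⟩ := CharP.exists F
      obtain ⟨k, hqp, hk⟩ := FiniteField.card F q
      have h1 : q ∣ p ^ f := by
        rw [← hF, hk]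
        exact dvd_pow_self q k.pos.ne'
      have h3 : q = p := (Nat.prime_dvd_prime_iff_eq hqp hp).1 (hqp.dvd_of_dvd_pow h1)
      rwa [← h3]
    constructor
    · intro h
      have h1 : ((2 : ℕ) : F) = 0 := by exact_mod_cast h
      exact ((Nat.prime_dvd_prime_iff_eq hp Nat.prime_two).1 ((CharP.cast_eq_zero_iff F p 2).1 h1))
    · intro h
      have h1 := (CharP.cast_eq_zero_iff F p 2).2 (by rw [h])
      exact_mod_cast h1
  obtain ⟨n, rfl⟩ : ∃ n, m = n + 1 := ⟨m - 1, by omega⟩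
  have hG : Good (plusQ (n + 1) F) := good_plusQ (by omega)
  obtain ⟨σ, -, -, h1, h2, -, -, -⟩ := exists_form (by omega) hG hx hx2
  have heven : Even f := even_of_invol h1 h2 hf (by rw [Nat.card_eq_fintype_card, hF])
  have hcard : Nat.card F = Nat.card F₀ ^ 2 := by
    rw [Nat.card_eq_fintype_card, Nat.card_eq_fintype_card, hF, hF₀, ← pow_mul,
      Nat.div_mul_cancel heven.two_dvd]
  obtain ⟨hcent, he, ho4, ho2⟩ := main (by omega) hx hx2 F₀ hcard
  rw [Nat.card_eq_fintype_card, hF₀] at ho4 ho2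
  refine ⟨heven, fun y hy hy2 => conj_all hm hx hx2 hy hy2, hcent, fun h => he (h2p.2 h),
    fun h => ho4 (fun h0 => h.1 (h2p.1 h0)) h.2, fun h => ho2 (fun h0 => h.1 (h2p.1 h0)) h.2⟩


end Cfsg.Agent.S2717
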