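import Cfsg.Statements.S2719
import Cfsg.Agent.S2718
import Cfsg.Agent.H200.MinusOrd
import Cfsg.Agent.H205.TorusMinus
import Cfsg.Agent.H198.ClassesMinus
import Cfsg.Agent.S0791

set_option autoImplicit false
open Cfsg

namespace Cfsg.Agent.S2719

open Cfsg.Agent.H198.OrthFrame Cfsg.Agent.H198.ClassesPlus Cfsg.Agent.H198.Carriers Cfsg.Agent.H198.ClassesMinus
  Cfsg.Agent.H200.OrthSplit Cfsg.Agent.H205.TorusMinus Cfsg.Agent.ClassicalGeometry.OrthSemi
  Cfsg.Agent.ClassicalGeometry.OrthAut1 Cfsg.Agent.AutOrth.Main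

/-- Let T = PΩ⁻_{2m+2}(F) with m ≥ 3 and |F| = q odd (form with anisotropic binary part z₁² + a z₁ z₂ + b z₂²), G = Inndiag(T), and γ an involutory graph automorphism of T (an automorphism in the image of the semisimilarity group, not inner-diagonal, of order 2). Then the G-class of γ is either a single T-class or the union of exactly two T-classes, and it is the union of two unless m is even and q ≡ 1 (mod 4). -/
theorem result {F : Type*} [Field F] [Fintype F] (hodd : Odd (Fintype.card F)) {m : ℕ} (hm : 3 ≤ m) (a b : F) (hab : (∀ z₁ z₂ : F, z₁ ^ 2 + a * z₁ * z₂ + b * z₂ ^ 2 = 0 → z₁ = 0 ∧ z₂ = 0)) (γ : MulAut (Cfsg.POmega F (Cfsg.quadFormMinus m F a b))) (hγ : Cfsg.IsGraphAutClassPOmegaMinus m a b γ) (hγ2 : orderOf γ = 2) :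
    (Cfsg.splitClassCount (Cfsg.inndiagPOmegaMinus m F a b) (Cfsg.Inn (Cfsg.POmega F (Cfsg.quadFormMinus m F a b))) γ = 1 ∨ Cfsg.splitClassCount (Cfsg.inndiagPOmegaMinus m F a b) (Cfsg.Inn (Cfsg.POmega F (Cfsg.quadFormMinus m F a b))) γ = 2) ∧ (¬ (Even m ∧ Fintype.card F % 4 = 1) → Cfsg.splitClassCount (Cfsg.inndiagPOmegaMinus m F a b) (Cfsg.Inn (Cfsg.POmega F (Cfsg.quadFormMinus m F a b))) γ = 2) := by
  have h2 := S2718.two_ne_zero_of_odd hodd
  have hG : LieClassical.OrthTrans.Good (minusQ m F a b) := good_minusQ (by omega) hab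
  have hk : Fintype.card ((Fin m ⊕ Fin m) ⊕ Fin 2) = 2 * (m + 1) := by
    simp only [Fintype.card_sum, Fintype.card_fin]; ring
  obtain ⟨-, hni, -⟩ := hγ
  obtain ⟨M, hM⟩ := surj_minusQ hm hab γ
  obtain ⟨σ, c, hss⟩ := M.2
  have hT : ¬ ∃ U, H208.Parity.TSm (minusQ m F a b) (m + 1) U := by
    rintro ⟨U, hU1, hU2⟩
    rw [minusQ_eq] at hU2
    have := finrank_le_of_TS_minus m a b hab hU2
    omega
  have hV : Module.finrank F ((Fin m ⊕ Fin m) ⊕ Fin 2 → F) = 2 * (m + 1) := by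
    rw [Module.finrank_fintype_fun_eq_card, hk]
  have hPsi : Psi (minusQ m F a b) M ^ 2 = 1 := by
    apply (MulAut.congr (pe hG).symm).injective
    rw [map_pow, map_one]
    have h3 : γ ^ 2 = 1 := orderOf_dvd_iff_pow_eq_one.1 hγ2.dvd
    rw [← hM] at h3
    exact h3
  have hσ : σ = RingEquiv.refl F := by
    by_contra hσ
    exact H200.MinusOrd.no_order_two hG h2 hV hT hss hσ hPsi
  subst hσ
  obtain ⟨g', hg'⟩ := exists_sim_of_refl hss
  have hS : γ = S hG g' := by
    change γ = Phi hG (simGam _ g')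
    rw [hg', hM]
  have hker : simMinus m hab = (eta hG (m + 1)).ker := by
    ext x
    rw [mem_simMinus, MonoidHom.mem_ker, kapM_iff (by omega) hab hG h2, eta_eq_one_iff]
  have hgp' : eta hG (m + 1) g' ≠ 1 := by
    intro h
    apply hni
    rw [inndiag_minus_eq (by omega) hab hG, hker, hS]
    exact ⟨g', h, rfl⟩
  obtain ⟨t, ht⟩ := FiniteField.exists_nonsquare (ClassicalGeometry.Universal.ringChar_ne_two h2)
  have ht0 : t ≠ 0 := by rintro rfl; exact ht IsSquare.zero
  obtain ⟨x, y, hxy⟩ := ClassicalGeometry.OrthSemiForms.exists_binary_eq a b hab t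
  have h0e : eta hG (m + 1) (delM m a b ht0 hxy) = 1 := by rw [eta_eq_one_iff, mu_delM, dt_delM]
  have h0n : ¬ IsSquare ((mu hG (delM m a b ht0 hxy) : Fˣ) : F) := by rw [mu_delM]; exact ht
  have key := main hG h2 hk (by omega) h0e h0n hgp' (by rw [← hS]; exact hγ2)
  rw [← hS, ← hker, ← inndiag_minus_eq (by omega) hab hG] at key
  refine ⟨key.1, fun hcase => key.2 ?_⟩
  by_cases hm2 : Even (m + 1)
  · exact Or.inr hm2
  · left
    rw [Nat.not_even_iff_odd] at hm2
    apply S2718.negOmega_of_exists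
    refine (S0791.result rfl hodd (m + 1) (by omega) a b hab).2 ?_
    have h5 := Nat.odd_iff.1 hodd
    have hme : Even m := by
      rw [Nat.odd_add_one, Nat.not_odd_iff_even] at hm2
      exact hm2
    have h6 : Fintype.card F % 4 = 3 := by
      have h7 : ¬ Fintype.card F % 4 = 1 := fun h8 => hcase ⟨hme, h8⟩
      omega
    obtain ⟨j, hj⟩ := hme
    rw [Nat.pow_mod, h6, hj, pow_succ, pow_add, ← mul_pow, Nat.mul_mod, Nat.pow_mod]
    norm_num

end Cfsg.Agent.S2719
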