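import Cfsg.Statements.S2722
import Cfsg.Agent.H205.PlusMain

set_option autoImplicit false
open Cfsg

namespace Cfsg.Agent.S2722

/-- Let T = PΩ⁺_{2m}(F) with m ≥ 4 and |F| = q odd. Inside Aut(T), the image G̃ of the conformal orthogonal group of the form modulo the image of the special orthogonal group is elementary abelian of order 4. -/
theorem result {F : Type*} [Field F] [Fintype F] (hodd : Odd (Fintype.card F)) {m : ℕ} (hm : 4 ≤ m) :
    (∃ φ : ↥(Cfsg.pgoAut F (Cfsg.quadFormPlus m F)) →* Multiplicative (ZMod 2 × ZMod 2), Function.Surjective φ ∧ φ.ker = (Cfsg.psoAut F (Cfsg.quadFormPlus m F)).subgroupOf (Cfsg.pgoAut F (Cfsg.quadFormPlus m F))) := by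
  have h2 := H205.PlusMain.two_ne_zero_of_odd hodd
  obtain ⟨c, hc⟩ := H205.PlusMain.exists_nonsq (F := F) h2
  have hG := H198.Carriers.good_plusQ (F := F) (m := m) (by omega)
  exact H205.Gen.conformal_mod_special hG h2 (H205.PlusMain.card_plus m)
    (H205.PlusMain.chi_mu_delP hG hc) (H205.PlusMain.etaS_delP hG h2 c)

end Cfsg.Agent.S2722
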