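import Cfsg.Statements.S2725
import Cfsg.Agent.H205.PlusMain

set_option autoImplicit false
open Cfsg

namespace Cfsg.Agent.S2725

/-- Let T = PΩ⁺_{2m}(F) with m ≥ 4 and |F| = q odd. The inner-diagonal group G = Inndiag(T) (image of the class-preserving similarities) taken modulo the inner automorphism group T is cyclic of order 2 when m is odd and q ≡ 3 (mod 4), cyclic of order 4 when m is odd and q ≡ 1 (mod 4), and elementary abelian of order 4 when m is even. -/
theorem result {F : Type*} [Field F] [Fintype F] (hodd : Odd (Fintype.card F)) {m : ℕ} (hm : 4 ≤ m) :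
    ((Odd m ∧ Fintype.card F % 4 = 3) → (∃ φ : ↥(Cfsg.inndiagPOmegaPlus m F) →* Multiplicative (ZMod 2), Function.Surjective φ ∧ φ.ker = (Cfsg.Inn (Cfsg.POmega F (Cfsg.quadFormPlus m F))).subgroupOf (Cfsg.inndiagPOmegaPlus m F))) ∧ ((Odd m ∧ Fintype.card F % 4 = 1) → (∃ φ : ↥(Cfsg.inndiagPOmegaPlus m F) →* Multiplicative (ZMod 4), Function.Surjective φ ∧ φ.ker = (Cfsg.Inn (Cfsg.POmega F (Cfsg.quadFormPlus m F))).subgroupOf (Cfsg.inndiagPOmegaPlus m F))) ∧ (Even m → (∃ φ : ↥(Cfsg.inndiagPOmegaPlus m F) →* Multiplicative (ZMod 2 × ZMod 2), Function.Surjective φ ∧ φ.ker = (Cfsg.Inn (Cfsg.POmega F (Cfsg.quadFormPlus m F))).subgroupOf (Cfsg.inndiagPOmegaPlus m F))) := by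
  have h2 := H205.PlusMain.two_ne_zero_of_odd hodd
  obtain ⟨c, hc⟩ := H205.PlusMain.exists_nonsq (F := F) h2
  have hG := H198.Carriers.good_plusQ (F := F) (m := m) (by omega)
  rw [H205.PlusMain.inndiag_eq_pd hG h2]
  have hd := H205.PlusMain.chi_mu_delP hG hc
  have hd2 := H205.PlusMain.etaS_delP hG h2 c
  refine ⟨fun h => H205.GenInn.pd_mod_inn_two hG h2 (H205.PlusMain.card_plus m) hd hd2
    (H205.PlusMain.sg_ngI_neg_one h2 h), fun h => ?_, fun h => ?_⟩
  · refine H205.GenInn.pd_mod_inn_four hG h2 (H205.PlusMain.card_plus m) hd hd2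
      (H205.PlusMain.sg_ngI_one h2 (by omega)) c (H205.Torus.delP_sq m c) ?_
    rw [H205.Torus.sg_torP_const m h2, hc, h.1.neg_one_pow]
  · refine H205.GenInn.pd_mod_inn_klein hG h2 (H205.PlusMain.card_plus m) hd hd2
      (H205.PlusMain.sg_ngI_one h2 fun h3 => by
        rw [← Nat.not_even_iff_odd] at h3
        exact h3.1 h) c (H205.Torus.delP_sq m c) ?_ (H205.Torus.det_torP m _)
    rw [H205.Torus.sg_torP_const m h2, hc, h.neg_one_pow]

end Cfsg.Agent.S2725
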