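import Cfsg.Statements.S2727
import Cfsg.Agent.H205.MinusMain

set_option autoImplicit false
open Cfsg

namespace Cfsg.Agent.S2727

/-- Let T = PΩ⁻_{2m+2}(F) with m ≥ 3 and |F| = q odd (form with anisotropic binary part). The image of the special orthogonal group in Aut(T) contains the inner automorphism group T with index 2 when m is even and q ≡ 3 (mod 4), and coincides with it otherwise (the index is 2 exactly when the discriminant of the form is a square). -/
theorem result {F : Type*} [Field F] [Fintype F] (hodd : Odd (Fintype.card F)) {m : ℕ} (hm : 3 ≤ m) (a b : F) (hab : (∀ z₁ z₂ : F, z₁ ^ 2 + a * z₁ * z₂ + b * z₂ ^ 2 = 0 → z₁ = 0 ∧ z₂ = 0)) :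
    ((Even m ∧ Fintype.card F % 4 = 3) → (Cfsg.Inn (Cfsg.POmega F (Cfsg.quadFormMinus m F a b))).relIndex (Cfsg.psoAut F (Cfsg.quadFormMinus m F a b)) = 2) ∧ (¬ (Even m ∧ Fintype.card F % 4 = 3) → (Cfsg.Inn (Cfsg.POmega F (Cfsg.quadFormMinus m F a b))).relIndex (Cfsg.psoAut F (Cfsg.quadFormMinus m F a b)) = 1) := by
  have h2 := H205.PlusMain.two_ne_zero_of_odd hodd
  have hG := H198.Carriers.good_minusQ (F := F) (m := m) (by omega) hab
  rw [← H198.Carriers.coe_minusQ]
  refine ⟨fun h => ?_, fun h => ?_⟩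
  · exact H205.GenInn.inn_relIndex_pso_two hG h2 (H205.MinusMain.card_minus m)
      (H205.MinusMain.sg_ngI_one hab h2 h)
  · exact H205.GenInn.inn_relIndex_pso_one hG h2 (H205.MinusMain.card_minus m)
      (H205.MinusMain.sg_ngI_neg_one hab h2 h)

end Cfsg.Agent.S2727
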