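import Cfsg.Statements.S2751
import Cfsg.Agent.Lib.Cores
import Cfsg.Agent.H209.TriAmalgam

set_option autoImplicit false
open Cfsg

namespace Cfsg.Agent.S2751

open MulAction

theorem sq_of_fix : ∀ (σ : Equiv.Perm (Fin 3)) (i : Fin 3), σ i = i → σ * σ = 1 := by decide

/-- a subgroup containing a Sylow 2-subgroup as a point stabilizer of an action onto `S₃` -/
theorem data {G : Type*} [Group G] (M B : Subgroup G) [Finite M] (P : Sylow 2 M)
    (hP : (P : Subgroup M) = B.subgroupOf M) (e : M ⧸ Cfsg.pCore 2 M ≃* Equiv.Perm (Fin 3)) :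
    ∃ φ : M →* Equiv.Perm (Fin 3), Function.Surjective φ ∧ ∃ i₀, ∀ m : M, (m : G) ∈ B ↔ φ m i₀ = i₀ := by
  let φ : M →* Equiv.Perm (Fin 3) := e.toMonoidHom.comp (QuotientGroup.mk' (Cfsg.pCore 2 M))
  have hφ : ∀ m : M, φ m = 1 → m ∈ Cfsg.pCore 2 M := by
    intro m hm
    have h1 : e (QuotientGroup.mk' (Cfsg.pCore 2 M) m) = 1 := hm
    rw [map_eq_one_iff e e.injective] at h1
    exact (QuotientGroup.eq_one_iff m).1 h1
  have hs : Function.Surjective φ := e.surjective.comp (QuotientGroup.mk'_surjective _)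
  letI : MulAction (P : Subgroup M) (Fin 3) := MulAction.compHom (Fin 3) (φ.comp (P : Subgroup M).subtype)
  obtain ⟨i₀, hi₀⟩ := P.isPGroup'.nonempty_fixed_point_of_prime_not_dvd_card (Fin 3) (by
    rw [Nat.card_eq_fintype_card, Fintype.card_fin]; decide)
  have hfix : ∀ m ∈ (P : Subgroup M), φ m i₀ = i₀ := fun m hm => hi₀ ⟨m, hm⟩
  let St : Subgroup M := (stabilizer (Equiv.Perm (Fin 3)) i₀).comap φ
  have hSt : ∀ m, m ∈ St ↔ φ m i₀ = i₀ := by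
    intro m
    show φ m ∈ stabilizer (Equiv.Perm (Fin 3)) i₀ ↔ _
    rw [mem_stabilizer_iff]
    rfl
  have hp : IsPGroup 2 St := by
    rintro ⟨m, hm⟩
    have h1 : m * m ∈ Cfsg.pCore 2 M := by
      apply hφ
      rw [map_mul]
      exact sq_of_fix _ _ ((hSt m).1 hm)
    obtain ⟨k, hk⟩ := Cfsg.Agent.Lib.Cores.pCore_isPGroup (G := M) 2 ⟨m * m, h1⟩
    refine ⟨k + 1, ?_⟩
    apply Subtype.ext
    have h2 : (m * m) ^ 2 ^ k = 1 := congrArg Subtype.val hk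
    show m ^ 2 ^ (k + 1) = 1
    rw [pow_succ, mul_comm, pow_mul, pow_two]
    exact h2
  have hle : (P : Subgroup M) ≤ St := fun m hm => (hSt m).2 (hfix m hm)
  have heq := P.is_maximal' hp hle
  refine ⟨φ, hs, i₀, fun m => ?_⟩
  rw [← hSt]
  have h3 : m ∈ St ↔ m ∈ (P : Subgroup M) := by rw [heq]
  rw [h3, hP, Subgroup.mem_subgroupOf]

/-- Goldschmidt's bound for amalgams of index (3, 3): let M₁ and M₂ be finite subgroups of a group G such that M₁ ⊓ M₂ is a Sylow 2-subgroup of both M₁ and M₂, each quotient Mᵢ / O₂(Mᵢ) is isomorphic to the symmetric group of degree 3, and no nontrivial subgroup of M₁ ⊓ M₂ is normal in both M₁ and M₂. Then M₁ ⊓ M₂ has order at most 2^7. -/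
theorem result {G : Type*} [Group G] (M₁ M₂ : Subgroup G) [Finite M₁] [Finite M₂] (ha₁ : ∃ P : Sylow 2 M₁, (P : Subgroup M₁) = (M₁ ⊓ M₂).subgroupOf M₁) (ha₂ : ∃ P : Sylow 2 M₂, (P : Subgroup M₂) = (M₁ ⊓ M₂).subgroupOf M₂) (hb₁ : Nonempty (M₁ ⧸ Cfsg.pCore 2 M₁ ≃* Equiv.Perm (Fin 3))) (hb₂ : Nonempty (M₂ ⧸ Cfsg.pCore 2 M₂ ≃* Equiv.Perm (Fin 3))) (hc : ∀ N : Subgroup G, N ≤ M₁ ⊓ M₂ → (N.subgroupOf M₁).Normal → (N.subgroupOf M₂).Normal → N = ⊥) : Nat.card ↥(M₁ ⊓ M₂) ≤ 2 ^ 7 := by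
  obtain ⟨P₁, hP₁⟩ := ha₁
  obtain ⟨P₂, hP₂⟩ := ha₂
  obtain ⟨e₁⟩ := hb₁
  obtain ⟨e₂⟩ := hb₂
  obtain ⟨φ₁, s₁, i₁, h₁⟩ := data M₁ (M₁ ⊓ M₂) P₁ hP₁ e₁
  obtain ⟨φ₂, s₂, i₂, h₂⟩ := data M₂ (M₁ ⊓ M₂) P₂ hP₂ e₂
  let U : Subgroup G := M₁ ⊔ M₂
  have hle₁ : M₁ ≤ U := le_sup_left
  have hle₂ : M₂ ≤ U := le_sup_right
  let N₁ : Subgroup U := M₁.subgroupOf U
  let N₂ : Subgroup U := M₂.subgroupOf U
  let f₁ : N₁ ≃* M₁ := Subgroup.subgroupOfEquivOfLe hle₁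
  let f₂ : N₂ ≃* M₂ := Subgroup.subgroupOfEquivOfLe hle₂
  have hf₁ : ∀ m : N₁, ((f₁ m : M₁) : G) = ((m : U) : G) := fun m => rfl
  have hf₂ : ∀ m : N₂, ((f₂ m : M₂) : G) = ((m : U) : G) := fun m => rfl
  have H : H209.Amal N₁ N₂ (φ₁.comp f₁.toMonoidHom) (φ₂.comp f₂.toMonoidHom) i₁ i₂ := by
    refine ⟨?_, ?_, ?_, s₁.comp f₁.surjective, s₂.comp f₂.surjective, ?_, ?_, ?_, ?_⟩
    · exact Finite.of_equiv _ f₁.symm.toEquiv
    · exact Finite.of_equiv _ f₂.symm.toEquiv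
    · rw [← Subgroup.subgroupOf_sup hle₁ hle₂]
      exact Subgroup.subgroupOf_self _
    · intro m
      have h3 := h₁ (f₁ m)
      rw [hf₁] at h3
      show (m : U) ∈ M₂.subgroupOf U ↔ φ₁ (f₁ m) i₁ = i₁
      rw [← h3, Subgroup.mem_subgroupOf]
      constructor
      · exact fun h => ⟨m.2, h⟩
      · exact fun h => h.2
    · intro m
      have h3 := h₂ (f₂ m)
      rw [hf₂] at h3
      show (m : U) ∈ M₁.subgroupOf U ↔ φ₂ (f₂ m) i₂ = i₂
      rw [← h3, Subgroup.mem_subgroupOf]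
      constructor
      · exact fun h => ⟨h, m.2⟩
      · exact fun h => h.1
    · rintro ⟨x, hx⟩
      have h1 : (x : G) ∈ M₁ := hx.1
      have h2 : (x : G) ∈ M₂ := hx.2
      have h3 : (⟨(x : G), h1⟩ : M₁) ∈ (P₁ : Subgroup M₁) := by
        rw [hP₁, Subgroup.mem_subgroupOf]
        exact ⟨h1, h2⟩
      obtain ⟨k, hk⟩ := P₁.isPGroup' ⟨_, h3⟩
      refine ⟨k, ?_⟩
      apply Subtype.ext
      apply Subtype.ext
      exact congrArg (fun t : (P₁ : Subgroup M₁) => ((t : M₁) : G)) hk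
    · intro K hK hK1 hK2 k hk
      have h1 : K.map U.subtype = ⊥ := by
        apply hc
        · rintro _ ⟨x, hx, rfl⟩
          exact ⟨(hK hx).1, (hK hx).2⟩
        · refine ⟨fun n hn g => ?_⟩
          rw [Subgroup.mem_subgroupOf] at hn ⊢
          obtain ⟨x, hx, hxn⟩ := hn
          have h2 := hK1 ⟨g, hle₁ g.2⟩ g.2 x hx
          refine ⟨_, h2, ?_⟩
          have hxn' : (x : G) = (n : G) := hxn
          show (g : G) * (x : G) * (g : G)⁻¹ = _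
          rw [hxn']; rfl
        · refine ⟨fun n hn g => ?_⟩
          rw [Subgroup.mem_subgroupOf] at hn ⊢
          obtain ⟨x, hx, hxn⟩ := hn
          have h2 := hK2 ⟨g, hle₂ g.2⟩ g.2 x hx
          refine ⟨_, h2, ?_⟩
          have hxn' : (x : G) = (n : G) := hxn
          show (g : G) * (x : G) * (g : G)⁻¹ = _
          rw [hxn']; rfl
      have h2 : (k : G) ∈ K.map U.subtype := ⟨k, hk, rfl⟩
      rw [h1, Subgroup.mem_bot] at h2
      exact Subtype.ext h2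
  have hfin := H.card_le
  have h3 : Nat.card ↥(N₁ ⊓ N₂) = Nat.card ↥(M₁ ⊓ M₂) :=
    Nat.card_congr (Subgroup.subgroupOfEquivOfLe (show M₁ ⊓ M₂ ≤ U from inf_le_left.trans hle₁)).toEquiv
  rw [h3] at hfin
  simpa using hfin

end Cfsg.Agent.S2751
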