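import Cfsg.Statements.S2752
import Cfsg.Agent.H210.Off.Dual

set_option autoImplicit false
universe u
open Cfsg

namespace Cfsg.Agent.S2752

/-- Let M be an elementary abelian 2-subgroup of a finite group L and G a subgroup of L acting faithfully on M by conjugation (G normalizes M and meets C(M) trivially). Assume O₂(G) = 1, the symmetric group of degree 3 is not involved in G, and every non-abelian composition factor of G is a Suzuki group Sz(2^(2n+1)) or a group PSL₂(3^(2n+1)). Then every elementary abelian 2-subgroup A of G satisfies |M / C_M(A)| ≥ |A|² and |[M, A]| ≥ |A|². -/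
theorem result {L : Type u} [Group L] [Finite L] (M G : Subgroup L) (hM : Cfsg.IsElementaryAbelian 2 M) (hGM : G ≤ Subgroup.normalizer (M : Set L)) (hf : G ⊓ Subgroup.centralizer (M : Set L) = ⊥) (ha : Cfsg.pCore 2 ↥G = ⊥) (hb : ¬ Cfsg.Involves (Equiv.Perm (Fin 3)) ↥G) (hc : Cfsg.IsCompositionKGroupWith Cfsg.IsSuzukiOrPSL2OddPowerThree ↥G) (A : Subgroup L) (hA : A ≤ G) (hAe : Cfsg.IsElementaryAbelian 2 A) : Nat.card A ^ 2 * Nat.card ↥(M ⊓ Subgroup.centralizer (A : Set L)) ≤ Nat.card M ∧ Nat.card A ^ 2 ≤ Nat.card ↥⁅M, A⁆ := by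
  have hsqA : ∀ a ∈ A, a * a = 1 := fun a ha => by rw [← sq]; exact hAe.2 a ha
  let _ : CommGroup M :=
    { (inferInstance : Group M) with
      mul_comm := fun x y => hM.1.is_comm.comm x y }
  have hV : ∀ v : M, v * v = 1 := fun v => Subtype.ext (by
    have := hM.2 v v.2
    rw [sq] at this
    exact this)
  let ρ : G →* MulAut M := Cfsg.Agent.H210.Off.actHom hGM
  have hρ : Function.Injective ρ := by
    rw [← MonoidHom.ker_eq_bot_iff]
    show (Cfsg.Agent.H210.Off.actHom hGM).ker = ⊥
    rw [Cfsg.Agent.H210.Off.actHom_ker, hf, Subgroup.bot_subgroupOf]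
  have h3 := Cfsg.Agent.H210.Off.noInv3_of hb
  have hA' : ∀ a ∈ A.subgroupOf G, a * a = 1 := fun a ha => Subtype.ext (hsqA a ha)
  have hcardA : Nat.card (A.subgroupOf G) = Nat.card A :=
    Nat.card_congr (Subgroup.subgroupOfEquivOfLe hA).toEquiv
  constructor
  · have h1 := Cfsg.Agent.H210.Off.main hρ hV ha h3 hc _ (A.subgroupOf G) rfl hA'
    rw [hcardA] at h1
    have h2 : Cfsg.Agent.OddCyclic.T1Module.CS ρ (A.subgroupOf G) =
        (M ⊓ Subgroup.centralizer (A : Set L)).subgroupOf M := by
      ext m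
      rw [Cfsg.Agent.OddCyclic.T1Module.mem_CS, Subgroup.mem_subgroupOf, Subgroup.mem_inf,
        Subgroup.mem_centralizer_iff]
      constructor
      · intro h
        refine ⟨m.2, fun a haA => ?_⟩
        have h4 : a * m * a⁻¹ = m := congrArg Subtype.val (h ⟨a, hA haA⟩ haA)
        have h5 := congrArg (· * a) h4
        simpa [mul_assoc] using h5
      · rintro ⟨-, h⟩ a haA
        apply Subtype.ext
        show (a : L) * m * (a : L)⁻¹ = m
        rw [h a haA]
        simp
    rw [h2] at h1
    have h4 : Nat.card ((M ⊓ Subgroup.centralizer (A : Set L)).subgroupOf M) =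
        Nat.card ↥(M ⊓ Subgroup.centralizer (A : Set L)) :=
      Nat.card_congr (Subgroup.subgroupOfEquivOfLe inf_le_left).toEquiv
    have h5 := ((M ⊓ Subgroup.centralizer (A : Set L)).subgroupOf M).card_mul_index
    rw [h4] at h5
    rw [← h5, mul_comm]
    exact Nat.mul_le_mul_left _ h1
  · have h1 := Cfsg.Agent.H210.Off.main_comm hρ hV ha h3 hc (A.subgroupOf G) hA'
      ((⁅M, A⁆).subgroupOf M) (by
        intro a haA v
        rw [Subgroup.mem_subgroupOf]
        show (a : L) * v * (a : L)⁻¹ * (v : L)⁻¹ ∈ ⁅M, A⁆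
        rw [Subgroup.commutator_comm]
        exact Subgroup.commutator_mem_commutator haA v.2)
    rw [hcardA] at h1
    refine h1.trans ?_
    exact Nat.card_le_card_of_injective
      (fun x : (⁅M, A⁆).subgroupOf M => (⟨((x : M) : L), x.2⟩ : ↥⁅M, A⁆))
      (fun x y h => Subtype.ext (Subtype.ext (congrArg (fun z : ↥⁅M, A⁆ => (z : L)) h)))

end Cfsg.Agent.S2752
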