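import Cfsg.Statements.S2753
import Cfsg.Agent.H210.TwoFac.Module

set_option autoImplicit false
universe u
open Cfsg

namespace Cfsg.Agent.S2753

/-- Glauberman's 2-factorization Theorem: let G be a finite group with C_G(O₂(G)) ≤ O₂(G) in which the symmetric group of degree 4 is not involved and every non-abelian composition factor is a Suzuki group Sz(2^(2n+1)) or a group PSL₂(3^(2n+1)). Then for a Sylow 2-subgroup S, G = C(Z(S)) N(J_e(S)) = C(Z(S)) N(Ĵ(S)) = C(Ω₁(Z(Ĵ(S)))) N(J_e(S)), where J_e(S) is the Thompson subgroup generated by the elementary abelian subgroups of largest order and Ĵ(S) the subgroup generated by the E-subgroups of S containing J_e(S); each product is written elementwise. -/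
theorem result {G : Type u} [Group G] [Finite G] (hchar : Subgroup.centralizer (Cfsg.pCore 2 G : Set G) ≤ Cfsg.pCore 2 G) (hfree : ¬ Cfsg.Involves (Equiv.Perm (Fin 4)) G) (hc : Cfsg.IsCompositionKGroupWith Cfsg.IsSuzukiOrPSL2OddPowerThree G) (S : Sylow 2 G) : (∀ g : G, ∃ c ∈ Subgroup.centralizer ((((S : Subgroup G) ⊓ Subgroup.centralizer ((S : Subgroup G) : Set G)) : Subgroup G) : Set G), ∃ n ∈ Subgroup.normalizer (((Cfsg.thompsonSubgroupOf 2 (S : Subgroup G)) : Subgroup G) : Set G), g = c * n) ∧ (∀ g : G, ∃ c ∈ Subgroup.centralizer ((((S : Subgroup G) ⊓ Subgroup.centralizer ((S : Subgroup G) : Set G)) : Subgroup G) : Set G), ∃ n ∈ Subgroup.normalizer ((((Cfsg.jHat ↥(S : Subgroup G)).map (S : Subgroup G).subtype) : Subgroup G) : Set G), g = c * n) ∧ (∀ g : G, ∃ c ∈ Subgroup.centralizer ((Cfsg.omegaOne 2 (((Cfsg.jHat ↥(S : Subgroup G)).map (S : Subgroup G).subtype) ⊓ Subgroup.centralizer (((Cfsg.jHat ↥(S : Subgroup G)).map (S : Subgroup G).subtype) : Set G))) : Set G), ∃ n ∈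 Subgroup.normalizer (((Cfsg.thompsonSubgroupOf 2 (S : Subgroup G)) : Subgroup G) : Set G), g = c * n) := by
  obtain ⟨V, hVn, hVS, hVe, hcV, hE⟩ := H210.TwoFac.exists_module hchar hfree hc S
  have hE' : H210.TwoFac.EProp (S : Subgroup G) V := hE.mono le_top
  have hJ : thompsonSubgroupOf 2 (S : Subgroup G) ≤
      (S : Subgroup G) ⊓ Subgroup.centralizer (V : Set G) :=
    (H210.TwoFac.jh_inf_cen hE' hVS (fun t _ v hv => hVn.conj_mem v hv t) hVe).1
  have hH := (H210.TwoFac.jh_inf_cen hE' hVS (fun t _ v hv => hVn.conj_mem v hv t) hVe).2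
  have hcn : (Subgroup.centralizer (V : Set G)).Normal := inferInstance
  refine ⟨fun g => ?_, fun g => ?_, fun g => ?_⟩
  · refine H210.TwoFac.frattini S (Subgroup.centralizer (V : Set G)) _ ?_ _ hcV g
    rw [← H210.TwoFac.jj_eq_of_le inf_le_left hJ]
    exact PLocal.ThompsonFrattini.normalizer_le_normalizer_thompson 2 _
  · rw [H210.TwoFac.jh_eq]
    refine H210.TwoFac.frattini S (Subgroup.centralizer (V : Set G)) _ ?_ _ hcV g
    rw [← hH]
    exact H210.TwoFac.normalizer_le_normalizer_jh _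
  · rw [H210.TwoFac.jh_eq]
    exact H210.TwoFac.part3 hchar hfree S g

end Cfsg.Agent.S2753
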