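import Cfsg.Statements.S2763
import Cfsg.Agent.H212.QdNormalizer

set_option autoImplicit false
open Cfsg

namespace Cfsg.Agent.S2763

open Cfsg.Agent.H275.QdSylow in
theorem exists_sylow {p : ℕ} [hp : Fact p.Prime] :
    ∃ R : Sylow p ↥(Cfsg.qd p), (R : Subgroup ↥(Cfsg.qd p)) = UT p := by
  have hUp : IsPGroup p (UT p) := IsPGroup.of_card (card_UT p)
  have hidx : ¬ p ∣ (UT p).index := by
    have h1 := Subgroup.card_mul_index (UT p)
    rw [card_UT, card_qd] at h1
    have h2 := Nat.eq_of_mul_eq_mul_left (pow_pos hp.out.pos 3) h1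
    rw [h2]
    intro hd
    have h3 : p ∣ p ^ 2 := dvd_pow_self p (by norm_num)
    have h4 : 1 ≤ p ^ 2 := Nat.one_le_pow _ _ hp.out.pos
    have h5 := (Nat.dvd_sub h3 hd)
    have h6 : p ^ 2 - (p ^ 2 - 1) = 1 := by omega
    rw [h6] at h5
    exact hp.out.one_lt.ne' (Nat.dvd_one.1 h5)
  exact ⟨hUp.toSylow hidx, rfl⟩

/-- In the group Qd(p) (p prime; the natural semidirect product of an elementary abelian group of order p² by SL₂(p)), the normalizer of every nontrivial characteristic subgroup of a Sylow p-subgroup S equals the normalizer of S, which is a proper subgroup; in particular no such characteristic subgroup is normal. -/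
theorem result {p : ℕ} [Fact p.Prime] (S : Sylow p ↥(Cfsg.qd p)) (T : Subgroup ↥(S : Subgroup ↥(Cfsg.qd p))) (hT : T ≠ ⊥) (hTc : T.Characteristic) : Subgroup.normalizer ((T.map (S : Subgroup ↥(Cfsg.qd p)).subtype : Subgroup ↥(Cfsg.qd p)) : Set ↥(Cfsg.qd p)) = Subgroup.normalizer ((S : Subgroup ↥(Cfsg.qd p)) : Set ↥(Cfsg.qd p)) ∧ Subgroup.normalizer ((S : Subgroup ↥(Cfsg.qd p)) : Set ↥(Cfsg.qd p)) ≠ ⊤ := by
  classical
  obtain ⟨R, hR⟩ := exists_sylow (p := p)
  obtain ⟨x, hx⟩ := MulAction.exists_smul_eq ↥(Cfsg.qd p) S R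
  have hx' : (S : Subgroup ↥(Cfsg.qd p)).map (MulAut.conj x).toMonoidHom = Cfsg.Agent.H275.QdSylow.UT p := by
    rw [← hR, ← hx, Sylow.coe_subgroup_smul]
    rfl
  -- the isomorphism of `S` with the unitriangular group
  let e : ↥(S : Subgroup ↥(Cfsg.qd p)) ≃* ↥(Cfsg.Agent.H275.QdSylow.UT p) :=
    ((S : Subgroup ↥(Cfsg.qd p)).equivMapOfInjective (MulAut.conj x).toMonoidHom
      (MulAut.conj x).injective).trans (MulEquiv.subgroupCongr hx')
  have he : ∀ s : ↥(S : Subgroup ↥(Cfsg.qd p)), ((e s : ↥(Cfsg.Agent.H275.QdSylow.UT p)) : ↥(Cfsg.qd p)) =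
      MulAut.conj x (s : ↥(Cfsg.qd p)) := fun s => rfl
  set T' : Subgroup ↥(Cfsg.Agent.H275.QdSylow.UT p) := T.map e.toMonoidHom with hT'
  have hT'ne : T' ≠ ⊥ := by
    intro h0
    exact hT ((Subgroup.map_eq_bot_iff_of_injective T e.injective).1 h0)
  have hT'c : T'.Characteristic := by
    rw [Subgroup.characteristic_iff_map_eq]
    intro f
    have h1 := Subgroup.characteristic_iff_map_eq.1 hTc ((e.trans f).trans e.symm)
    rw [hT', Subgroup.map_map]
    have h2 : T.map (e.symm.toMonoidHom.comp (f.toMonoidHom.comp e.toMonoidHom)) = T := h1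
    have h3 : (T.map (e.symm.toMonoidHom.comp (f.toMonoidHom.comp e.toMonoidHom))).map e.toMonoidHom =
        T.map (f.toMonoidHom.comp e.toMonoidHom) := by
      rw [Subgroup.map_map]
      congr 1
      ext s
      simp
    rw [← h3, h2]
  have hmap : T'.map (Cfsg.Agent.H275.QdSylow.UT p).subtype =
      (T.map (S : Subgroup ↥(Cfsg.qd p)).subtype).map (MulAut.conj x).toMonoidHom := by
    rw [hT', Subgroup.map_map, Subgroup.map_map]
    rfl
  have h1 := Cfsg.Agent.H212.QdNormalizer.main_UT hT'ne hT'c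
  have h2 := Cfsg.Agent.H212.QdNormalizer.normalizer_ne_top (p := p)
  rw [hmap, ← hx'] at h1
  rw [← hx'] at h2
  have key : ∀ H : Subgroup ↥(Cfsg.qd p), Subgroup.normalizer
      ((H.map (MulAut.conj x).toMonoidHom : Subgroup ↥(Cfsg.qd p)) : Set ↥(Cfsg.qd p)) =
        (Subgroup.normalizer (H : Set ↥(Cfsg.qd p))).map (MulAut.conj x).toMonoidHom := by
    intro H
    exact (Subgroup.map_equiv_normalizer_eq H (MulAut.conj x)).symm
  rw [key, key] at h1
  rw [key] at h2
  refine ⟨Subgroup.map_injective (MulAut.conj x).injective h1, ?_⟩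
  intro h3
  apply h2
  rw [h3, ← MonoidHom.range_eq_map]
  exact MonoidHom.range_eq_top.2 (MulAut.conj x).surjective

end Cfsg.Agent.S2763
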