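import Cfsg.Statements.S2766
import Cfsg.Agent.H213.Qd3

set_option autoImplicit false
open Cfsg

namespace Cfsg.Agent.S2766

open Subgroup Cfsg.Agent.H260.Push Matrix Cfsg.Agent.H213.Rk Cfsg.Agent.H213.Qd Cfsg.Agent.H213.Ks
open Cfsg.Agent.H260.Psl (dg dg_conj)
open Cfsg.Agent.LieClassical.SLTwoUnipotent (u l u_add u_neg u_zero)
open scoped commutatorElement

/-- an element of `SL₂` fixing `(1, 0)` is unipotent -/
theorem fix_e1 {F : Type*} [Field F] (A : SpecialLinearGroup (Fin 2) F)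
    (h : A.1.mulVec ![1, 0] = ![1, 0]) : ∃ b, A = u b := by
  have h0 := congrFun h 0
  have h1 := congrFun h 1
  simp [Matrix.mulVec, dotProduct, Fin.sum_univ_two] at h0 h1
  have hdet := A.2
  rw [det_fin_two, h0, h1, one_mul, mul_zero, sub_zero] at hdet
  refine ⟨A.1 0 1, ?_⟩
  apply Subtype.ext
  ext i j
  fin_cases i <;> fin_cases j <;> simp [u, h0, h1, hdet]

theorem mem_norm_map {H : Type*} [Group H] [Finite H] {G : Subgroup H} {N : Subgroup ↥G} (hN : N.Normal) :
    G ≤ Subgroup.normalizer ((N.map G.subtype : Subgroup H) : Set H) := by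
  intro g hg
  rw [← cj_eq_iff_mem_normalizer]
  apply conj_cj'
  rintro _ ⟨n, hn, rfl⟩
  exact ⟨(⟨g, hg⟩ : ↥G) * n * (⟨g, hg⟩ : ↥G)⁻¹, hN.conj_mem n hn ⟨g, hg⟩, rfl⟩

/-- elements normalising `C` normalise its derived group -/
theorem norm_derived {H : Type*} [Group H] [Finite H] {C : Subgroup H} {x : H}
    (h : ∀ s ∈ C, x * s * x⁻¹ ∈ C) : x ∈ Subgroup.normalizer ((⁅C, C⁆ : Subgroup H) : Set H) := by
  rw [← cj_eq_iff_mem_normalizer]
  have h1 : C.map (MulAut.conj x).toMonoidHom = C := conj_cj' h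
  change (⁅C, C⁆).map (MulAut.conj x).toMonoidHom = _
  rw [map_commutator, h1]

/-- Let p ≥ 5 be prime and G a maximal p-local subgroup of a finite group H (G is the normalizer of a nontrivial p-subgroup and lies in no other such normalizer). Suppose C_G(O_p(G)) ≤ O_p(G), G/K ≅ PSL₂(p^n) for some normal K and n ≥ 1, a Sylow p-subgroup S of G lies in exactly one maximal subgroup of G, and N_H(S) is not contained in G. Then G = G₀ × E for subgroups G₀ ≅ Qd(p^n) (the natural semidirect product of the plane over the field with p^n elements by SL₂) and E an elementary abelian p-group. -/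
theorem result {H : Type*} [Group H] [Finite H] {p : ℕ} [Fact p.Prime] (hp : 5 ≤ p) (G : Subgroup H) (hloc : ∃ R : Subgroup H, IsPGroup p ↥R ∧ R ≠ ⊥ ∧ G = Subgroup.normalizer (R : Set H)) (hmax : ∀ R : Subgroup H, IsPGroup p ↥R → R ≠ ⊥ → G ≤ Subgroup.normalizer (R : Set H) → Subgroup.normalizer (R : Set H) = G) (S : Sylow p ↥G) (hE₁ : Subgroup.centralizer (Cfsg.pCore p ↥G : Set ↥G) ≤ Cfsg.pCore p ↥G) (hE₂ : ∃! M : Subgroup ↥G, IsCoatom M ∧ (S : Subgroup ↥G) ≤ M) (K : Subgroup ↥G) [K.Normal] (F : Type) [Field F] [Fintype F] (n : ℕ) (hn : 1 ≤ n) (hF : Fintype.card F = p ^ n) (hE₃ : Nonempty (↥G ⧸ K ≃* Matrix.ProjectiveSpecialLinearGroup (Fin 2) F)) (hN : ¬ Subgroup.normalizer (((S : Subgroup ↥G).map G.subtype : Subgroup H) : Set H) ≤ G) : ∃ G₀ E : Subgroup H, Cfsg.IsInternalDirectProduct G₀ E G ∧ Cfsg.IsElementaryAbelian p E ∧ Nonempty (↥G₀ ≃* ↥(Cfsg.qdOver F)) := by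
  classical
  have hpp : p.Prime := Fact.out
  have hinj : Function.Injective G.subtype := G.subtype_injective
  set SH : Subgroup H := (S : Subgroup ↥G).map G.subtype with hSH
  have hSHp : IsPGroup p SH := S.isPGroup'.map G.subtype
  -- no nontrivial characteristic subgroup of `S` is normal in `G`
  have hd : ∀ T : Subgroup ↥(S : Subgroup ↥G), T ≠ ⊥ → T.Characteristic →
      ¬ (T.map (S : Subgroup ↥G).subtype).Normal := by
    intro T hT hTc hTn
    apply hN
    set N := T.map (S : Subgroup ↥G).subtype with hNd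
    have h1 : IsPGroup p (N.map G.subtype) := by
      apply hSHp.to_le
      apply map_mono
      rw [hNd]
      exact map_subtype_le T
    have h2 : N.map G.subtype ≠ ⊥ := by
      intro h
      apply hT
      rw [(Subgroup.map_eq_bot_iff_of_injective _ hinj)] at h
      rw [hNd, (Subgroup.map_eq_bot_iff_of_injective _ (Subtype.val_injective))] at h
      exact h
    rw [← hmax _ h1 h2 (mem_norm_map hTn)]
    intro x hx
    rw [← cj_eq_iff_mem_normalizer]
    apply conj_cj'
    -- the automorphism of `S` induced by `x`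
    have hx1 : cj x SH = SH := cj_eq_iff_mem_normalizer.mpr hx
    have hx2 : ∀ s : H, s ∈ SH → x * s * x⁻¹ ∈ SH := by
      intro s hs
      rw [← hx1]
      exact ⟨s, hs, rfl⟩
    have hx3 : ∀ s : H, s ∈ SH → x⁻¹ * s * x ∈ SH := by
      intro s hs
      rw [← hx1, mem_cj] at hs
      exact hs
    have hval : ∀ s : ↥(S : Subgroup ↥G), ((s : ↥G) : H) ∈ SH := fun s => ⟨s, s.2, rfl⟩
    have hback : ∀ s : H, s ∈ SH → ∃ s' : ↥(S : Subgroup ↥G), ((s' : ↥G) : H) = s := by
      rintro _ ⟨s, hs, rfl⟩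
      exact ⟨⟨s, hs⟩, rfl⟩
    choose f hf using fun s : ↥(S : Subgroup ↥G) => hback _ (hx2 _ (hval s))
    choose g hg using fun s : ↥(S : Subgroup ↥G) => hback _ (hx3 _ (hval s))
    have hvi : ∀ a b : ↥(S : Subgroup ↥G), ((a : ↥G) : H) = ((b : ↥G) : H) → a = b := fun a b h =>
      Subtype.ext (Subtype.ext h)
    let α : ↥(S : Subgroup ↥G) ≃* ↥(S : Subgroup ↥G) :=
      { toFun := f
        invFun := g
        left_inv := fun s => hvi _ _ (by rw [hg, hf]; group)
        right_inv := fun s => hvi _ _ (by rw [hf, hg]; group)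
        map_mul' := fun a b => hvi _ _ (by
          rw [hf, Subgroup.coe_mul, Subgroup.coe_mul, Subgroup.coe_mul, Subgroup.coe_mul, hf, hf]; group) }
    rintro _ ⟨_, ⟨t, ht, rfl⟩, rfl⟩
    have h3 : α t ∈ T := by
      have h4 := hTc.fixed α
      have h5 : t ∈ T.comap α.toMonoidHom := by rw [h4]; exact ht
      exact h5
    refine ⟨((α t : ↥(S : Subgroup ↥G)) : ↥G), ⟨α t, h3, rfl⟩, ?_⟩
    exact hf t
  obtain ⟨M, x, y, g, su⟩ := exists_su S hE₁ hE₂ K F n hF hE₃ hd
  obtain ⟨ρ, ψ, ns, hρx, hρy, hk, hψ, hcase⟩ := main su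
  obtain ⟨α, o⟩ : ∃ α : ↥(S : Subgroup ↥G) ≃* ↥(S : Subgroup ↥G), One (S : Subgroup ↥G) (pCore p ↥G) α := by
    rcases hcase with h | ⟨h, -⟩
    · exact h
    · omega
  obtain ⟨c, nn, fr, hchar, hkF, hch⟩ := su
  have hV := expo_X c nn hchar
  have hp2 : p ≠ 2 := by omega
  have hexp := (o.expo c hV hchar).1 hp2
  have h2 : (2 : F) ≠ 0 := by
    intro h
    have h1 : ((2 : ℕ) : F) = 0 := by exact_mod_cast h
    have := (CharP.cast_eq_zero_iff F p 2).mp h1
    have := Nat.le_of_dvd (by norm_num) this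
    omega
  have h3 : (3 : F) ≠ 0 := by
    intro h
    have h1 : ((3 : ℕ) : F) = 0 := by exact_mod_cast h
    have := (CharP.cast_eq_zero_iff F p 3).mp h1
    have := Nat.le_of_dvd (by norm_num) this
    omega
  obtain ⟨z, hz, hzz⟩ := exists_z c ns.rsur hk hp2
  have q := exists_QD c fr hV ns hρx hk hp2 o hz hzz hkF h2 h3
  have hab : ∀ s ∈ X0 p z, s ∈ (S : Subgroup ↥G) → ∀ s' ∈ X0 p z, s' ∈ (S : Subgroup ↥G) → s * s' = s' * s :=
    fun s hs hsS s' hs' hsS' => X0S_comm c fr hV ns hρx hk hp2 o hz hzz hkF h2 h3 hs hsS hs' hsS'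
  have hdp := q.dp c.le (fun s hs => rho_S c hk fr hρx hs) (fun s a h => mem_S_of_rho c hk fr hρx h) hab
  set V₁ := V1 (pCore p ↥G) z (fun _ ha _ hb => c.cenT_comm ha hb) with hV₁
  set E := pCore p ↥G ⊓ centralizer ({z} : Set ↥G) with hE
  have hEn : E.Normal := q.E_normal
  -- `E` is abelian
  have hEab : ∀ a ∈ E, ∀ b ∈ E, a * b = b * a := by
    by_contra hne
    have hDH := hdp.map G.subtype hinj
    rw [← hSH] at hDH
    have hder := derived hDH
    set PH := (V₁ ⊔ (X0 p z ⊓ (S : Subgroup ↥G))).map G.subtype with hPH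
    set EH := E.map G.subtype with hEH
    set DH := (q.Dl).map G.subtype with hDHd
    set C := SH ⊓ centralizer (PH : Set H) with hC
    have hR1 : ⁅EH, EH⁆ = (⁅E, E⁆).map G.subtype := (map_commutator _ _ _).symm
    have hR2 : ⁅EH, EH⁆ ≠ ⊥ := by
      intro h
      apply hne
      rw [hR1, Subgroup.map_eq_bot_iff_of_injective _ hinj] at h
      intro a ha b hb
      have h4 : ⁅a, b⁆ ∈ ⁅E, E⁆ := commutator_mem_commutator ha hb
      rw [h, mem_bot] at h4
      exact commutatorElement_eq_one_iff_mul_comm.mp h4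
    have hR3 : IsPGroup p (⁅EH, EH⁆ : Subgroup H) := by
      apply hSHp.to_le
      rw [hR1]
      apply map_mono
      exact (commutator_le_left E E).trans (inf_le_left.trans c.le)
    have hR4 : Subgroup.normalizer ((⁅EH, EH⁆ : Subgroup H) : Set H) = G := by
      apply hmax _ hR3 hR2
      rw [hR1]
      exact mem_norm_map (Subgroup.commutator_normal E E)
    obtain ⟨w, hw, hwG⟩ := SetLike.not_le_iff_exists.mp hN
    have hw1 : cj w SH = SH := cj_eq_iff_mem_normalizer.mpr hw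
    have hw2 : ∀ s ∈ SH, w * s * w⁻¹ ∈ SH := by
      intro s hs
      rw [← hw1]
      exact ⟨s, hs, rfl⟩
    have hw3 : ∀ s ∈ SH, w⁻¹ * s * w ∈ SH := by
      intro s hs
      rw [← hw1, mem_cj] at hs
      exact hs
    rcases dich hDH hw2 hw3 with h4 | ⟨h4, h5⟩
    · apply hwG
      rw [← hR4, ← hder]
      exact norm_derived (case_one hDH hw2 h4)
    · obtain ⟨t, ht, hρt, hto⟩ := q.tor 2 h2
      have ht1 : ∀ s ∈ SH, (t : H) * s * (t : H)⁻¹ ∈ SH := by
        rintro _ ⟨s, hs, rfl⟩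
        exact ⟨t * s * t⁻¹, (diag_norm c fr hρx hk hρt hs).1, rfl⟩
      have ht2 : ∀ s ∈ SH, (t : H)⁻¹ * s * (t : H) ∈ SH := by
        rintro _ ⟨s, hs, rfl⟩
        refine ⟨t⁻¹ * s * t, ?_, rfl⟩
        have h6 := diag_norm' c fr hρx hk hρt
        have h7 : s ∈ cj t (S : Subgroup ↥G) := by rw [h6]; exact hs
        rw [mem_cj] at h7
        exact h7
      have htE : ∀ e ∈ EH, (t : H) * e = e * (t : H) := by
        rintro _ ⟨e, he, rfl⟩
        have := q.X0E t ht e he
        exact congrArg Subtype.val this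
      have h6 := case_two hDH hw2 hw3 ht1 ht2 htE h4
      have h7 : w * (t : H) * w⁻¹ ∈ G := by
        have h8 := norm_derived h6
        have h9 : Subgroup.normalizer ((⁅SH ⊓ centralizer (PH : Set H), SH ⊓ centralizer (PH : Set H)⁆ :
            Subgroup H) : Set H) = G := by rw [← hR4, ← hder]
        exact (SetLike.ext_iff.mp h9 _).mp h8
      -- it centralises `D`
      have h8 : ∀ d ∈ DH, (w * (t : H) * w⁻¹) * d * (w * (t : H) * w⁻¹)⁻¹ = d := by
        intro d hd
        have k1 : Commute (t : H) (w⁻¹ * d * w) := htE _ (h5 d hd)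
        have e : (w * (t : H) * w⁻¹) * d * (w * (t : H) * w⁻¹)⁻¹ =
            w * ((t : H) * (w⁻¹ * d * w) * (t : H)⁻¹) * w⁻¹ := by group
        rw [e, k1.eq]; group
      set t' : ↥G := ⟨w * (t : H) * w⁻¹, h7⟩ with ht'
      have h9 : (ρ t').1.mulVec ![1, 0] = ![1, 0] := by
        obtain ⟨v, hv, hψv⟩ := q.sur ![1, 0]
        have hvD : v ∈ q.Dl := ⟨hv, by rw [hψv]; rfl⟩
        have h10 := h8 _ (mem_map_of_mem G.subtype hvD)
        have h11 : t' * v * t'⁻¹ = v := Subtype.ext h10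
        have h12 := q.act t' v hv
        rw [h11, hψv] at h12
        exact h12.symm
      obtain ⟨b, hb⟩ := fix_e1 _ h9
      have h10 : t' ∈ (S : Subgroup ↥G) := mem_S_of_rho c hk fr hρx hb
      have h11 : orderOf t' = orderOf t := by
        rw [← Subgroup.orderOf_coe t', ← Subgroup.orderOf_coe t]
        exact orderOf_injective (MulAut.conj w).toMonoidHom (MulAut.conj w).injective (t : H)
      obtain ⟨k, hk'⟩ := (IsPGroup.iff_orderOf.mp S.isPGroup') ⟨t', h10⟩
      rw [Subgroup.orderOf_mk, h11] at hk'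
      have h12 : orderOf t = 1 := by
        have h13 : Nat.Coprime (orderOf t) (orderOf t) := by
          nth_rewrite 2 [hk']
          exact Nat.Coprime.pow_right k hto
        exact (Nat.coprime_self _).mp h13
      rw [orderOf_eq_one_iff] at h12
      rw [h12, map_one] at hρt
      have h13 := congrArg Subtype.val hρt
      have h14 := congrFun (congrFun h13 0) 0
      simp [dg] at h14
      have h15 : (1 : F) + 1 = 2 := by norm_num
      rw [← h14] at h15
      exact one_ne_zero (left_eq_add.mp h15.symm)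
  refine ⟨(V₁ ⊔ X0 p z).map G.subtype, E.map G.subtype, ⟨?_, ?_, ?_, ?_, ?_⟩, ⟨?_, ?_⟩, ?_⟩
  · exact map_subtype_le _
  · exact map_subtype_le _
  · rintro _ ⟨a, ha, rfl⟩ _ ⟨b, hb, rfl⟩
    rw [← map_mul, q.VX_comm ha hb, map_mul]
  · rw [← Subgroup.map_inf _ _ _ hinj, q.VX_cap, Subgroup.map_bot]
  · rw [← Subgroup.map_sup, q.VX_sup]
    rw [← MonoidHom.range_eq_map, range_subtype]
  · constructor
    constructor
    rintro ⟨_, ⟨a, ha, rfl⟩⟩ ⟨_, ⟨b, hb, rfl⟩⟩
    apply Subtype.ext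
    change (a : H) * (b : H) = (b : H) * (a : H)
    exact congrArg Subtype.val (hEab a ha b hb)
  · rintro _ ⟨a, ha, rfl⟩
    rw [← map_pow, hexp a (c.le ha.1), map_one]
  · obtain ⟨e⟩ := q.iso
    exact ⟨((V₁ ⊔ X0 p z).equivMapOfInjective G.subtype hinj).symm.trans e⟩

end Cfsg.Agent.S2766
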