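import Cfsg.Statements.S2774
import Cfsg.Agent.H215.Ctrl

set_option autoImplicit false
open Cfsg

namespace Cfsg.Agent.S2774

open Cfsg.Agent.H39 Cfsg.Agent.H215.Ctrl in
theorem char_aux {G : Type*} [Group G] [Finite G] {p : ℕ} [Fact p.Prime] (S : Sylow p G) (hS : (S : Subgroup G) ≠ ⊥)
    {W : Fn} (hW : IsCharPFunctor p W) : W ↥(S : Subgroup G) ≠ ⊥ ∧ (W ↥(S : Subgroup G)).Characteristic := by
  refine ⟨hW.1 _ S.isPGroup' ((Subgroup.nontrivial_iff_ne_bot _).2 hS), ?_⟩
  rw [Subgroup.characteristic_iff_map_eq]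
  exact fun φ => hW.2 _ _ S.isPGroup' φ

/-- Let p be an odd prime and S a nontrivial Sylow p-subgroup of a finite group G. Then S ∩ G' is generated by the subgroups S ∩ (N_G(K))' as K ranges over the nontrivial characteristic subgroups of S (derived subgroups of the normalizers). -/
theorem result {G : Type*} [Group G] [Finite G] {p : ℕ} [Fact p.Prime] (hp : p ≠ 2) (S : Sylow p G) (hS : (S : Subgroup G) ≠ ⊥) : (S : Subgroup G) ⊓ commutator G = ⨆ K : {K : Subgroup ↥(S : Subgroup G) // K ≠ ⊥ ∧ K.Characteristic}, (S : Subgroup G) ⊓ ⁅Subgroup.normalizer ((((K : Subgroup ↥(S : Subgroup G))).map (S : Subgroup G).subtype : Subgroup G) : Set G), Subgroup.normalizer ((((K : Subgroup ↥(S : Subgroup G))).map (S : Subgroup G).subtype : Subgroup G) : Set G)⁆ := by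
  apply le_antisymm
  · have h1 := Cfsg.Agent.H215.Ctrl.ft hp _ G rfl S
    refine le_trans h1 ?_
    refine iSup₂_le fun W hW => ?_
    refine le_trans ?_ (le_iSup (f := fun K : {K : Subgroup ↥(S : Subgroup G) // K ≠ ⊥ ∧ K.Characteristic} =>
      (S : Subgroup G) ⊓ ⁅Subgroup.normalizer ((((K : Subgroup ↥(S : Subgroup G))).map (S : Subgroup G).subtype : Subgroup G) : Set G), Subgroup.normalizer ((((K : Subgroup ↥(S : Subgroup G))).map (S : Subgroup G).subtype : Subgroup G) : Set G)⁆)
      ⟨W ↥(S : Subgroup G), char_aux S hS (Cfsg.Agent.H215.Ctrl.hW W hW)⟩)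
    refine inf_le_inf_left _ ?_
    rw [top_inf_eq]
    exact le_rfl
  · refine iSup_le fun K => inf_le_inf_left _ ?_
    exact Subgroup.commutator_mono le_top le_top

end Cfsg.Agent.S2774
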