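import Cfsg.Statements.S2780
import Cfsg.Agent.H569.NatSL2
import Cfsg.Agent.PLocal.SLTwoSylow

set_option autoImplicit false
open Cfsg

namespace Cfsg.Agent.S2780

open Subgroup Cfsg.Agent.H569.NatSL2 Matrix
open Cfsg.Agent.LieClassical.SLTwoUnipotent

variable {G : Type*} [Group G] {F : Type*} [Field F] {V L T : Subgroup G} (c : Coord F V L T)

include c in
theorem mem_norm_of {g : G} (hg : g ∈ L) (h : (c.ρ ⟨g, hg⟩) 1 0 = 0) :
    g ∈ normalizer (T : Set G) := by
  have h1 := mem_normalizer_upperUnipSL_iff.mpr h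
  rw [mem_normalizer_iff] at h1 ⊢
  intro t
  constructor
  · intro ht
    have h2 := (h1 (c.ρ ⟨t, c.le ht⟩)).mp ((c.mem ⟨t, c.le ht⟩).mp ht)
    rw [← map_mul, ← map_inv, ← map_mul] at h2
    exact (c.mem _).mpr h2
  · intro ht
    have htL : t ∈ L := by
      have := L.mul_mem (L.mul_mem (L.inv_mem hg) (c.le ht)) hg
      have h3 : g⁻¹ * (g * t * g⁻¹) * g = t := by group
      rwa [h3] at this
    have h2 := (h1 (c.ρ ⟨t, htL⟩)).mpr (by
      rw [← map_mul, ← map_inv, ← map_mul]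
      exact (c.mem _).mp ht)
    exact (c.mem ⟨t, htL⟩).mpr h2

include c in
theorem diag_mem {a : F} (ha : a ≠ 0) : ∃ t, ∃ ht : t ∈ L, t ∈ normalizer (T : Set G) ∧
    (c.ρ ⟨t, ht⟩ : Matrix (Fin 2) (Fin 2) F) = !![a, 0; 0, a⁻¹] := by
  let d : SpecialLinearGroup (Fin 2) F := ⟨!![a, 0; 0, a⁻¹], by simp [ha]⟩
  refine ⟨(c.ρ.symm d : L), (c.ρ.symm d).2, ?_, ?_⟩
  · apply mem_norm_of c (c.ρ.symm d).2
    simp only [Subtype.coe_eta, MulEquiv.apply_symm_apply]
    simp [d]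
  · simp only [Subtype.coe_eta, MulEquiv.apply_symm_apply]
    rfl

theorem diag_mulVec (a : F) (z : Fin 2 → F) : (!![a, 0; 0, a⁻¹] : Matrix (Fin 2) (Fin 2) F).mulVec z =
    ![a * z 0, a⁻¹ * z 1] := by
  ext i
  fin_cases i <;> simp [Matrix.mulVec, dotProduct, Fin.sum_univ_two]

theorem mulVec_two (M : Matrix (Fin 2) (Fin 2) F) (z : Fin 2 → F) : M.mulVec z =
    ![M 0 0 * z 0 + M 0 1 * z 1, M 1 0 * z 0 + M 1 1 * z 1] := by
  ext i
  fin_cases i <;> simp [Matrix.mulVec, dotProduct, Fin.sum_univ_two]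

include c in
theorem eq_of_coord {v w : G} (hv : v ∈ V) (hw : w ∈ V) (h0 : c.ψ ⟨v, hv⟩ 0 = c.ψ ⟨w, hw⟩ 0)
    (h1 : c.ψ ⟨v, hv⟩ 1 = c.ψ ⟨w, hw⟩ 1) : v = w := by
  have h2 : c.ψ ⟨v, hv⟩ = c.ψ ⟨w, hw⟩ := by
    ext i
    fin_cases i
    · exact h0
    · exact h1
  exact congrArg Subtype.val (c.bij.1 h2)

/-- Let L act on the elementary abelian p-group V (inside a finite group, faithfully) as SL₂(F) on its natural module, F a field with p^n elements, S a Sylow p-subgroup of L. Then: for every g ∈ L not normalizing S, V is the internal direct product of C_V(S) and C_V(gSg⁻¹); every nonidentity element of L of order prime to p acts on V without nonidentity fixed points; and C_V(S) and V/C_V(S) are irreducible for N_L(S): the only N_L(S)-invariant subgroups of C_V(S) are 1 and C_V(S), and the only N_L(S)-invariant subgroups between C_V(S) and V are those two. -/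
theorem result {G : Type*} [Group G] [Finite G] {p : ℕ} [Fact p.Prime] {F : Type*} [Field F] [Fintype F] (n : ℕ) (hF : Fintype.card F = p ^ n) (V L : Subgroup G) (hnat : Cfsg.IsNaturalSL2Module F V L) (hf : L ⊓ Subgroup.centralizer (V : Set G) = ⊥) (S : Sylow p ↥L) (T : Subgroup G) (hT : T = ((S : Subgroup ↥L).map L.subtype)) : (∀ g ∈ L, g ∉ Subgroup.normalizer (T : Set G) → Cfsg.IsInternalDirectProduct (V ⊓ Subgroup.centralizer ((T : Subgroup G) : Set G)) (V ⊓ Subgroup.centralizer ((T.map (MulAut.conj g).toMonoidHom : Subgroup G) : Set G)) V) ∧ (∀ x ∈ L, x ≠ 1 → (orderOf x).Coprime p → (V ⊓ Subgroup.centralizer ({x} : Set G)) = ⊥) ∧ (∀ U : Subgroup G, U ≤ (V ⊓ Subgroup.centralizer ((T : Subgroup G) : Set G)) → L ⊓ Subgroup.normalizer (T : Set G) ≤ Subgroup.normalizer (U : Set G) → U = ⊥ ∨ U = (V ⊓ Subgroup.centralizer ((T : Subgroup G) : Set G))) ∧ (∀ U : Subgroup G, (V ⊓ Subgroup.centralizer ((T : Subgroup G) : Set G)) ≤ U →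 U ≤ V → L ⊓ Subgroup.normalizer (T : Set G) ≤ Subgroup.normalizer (U : Set G) → U = (V ⊓ Subgroup.centralizer ((T : Subgroup G) : Set G)) ∨ U = V) := by
  obtain ⟨c⟩ := exists_coord hF hnat hf S hT
  rename_i _ _ hp _ _
  have hcomm : ∀ v ∈ V, ∀ w ∈ V, v * w = w * v := by
    intro v hv w hw
    have h1 : c.ψ (⟨v, hv⟩ * ⟨w, hw⟩) = c.ψ (⟨w, hw⟩ * ⟨v, hv⟩) := by
      rw [c.mul, c.mul, add_comm]
    exact congrArg Subtype.val (c.bij.1 h1)
  have hcg : ∀ g ∈ L, ∀ v, v ∈ V → (v ∈ centralizer ((T.map (MulAut.conj g).toMonoidHom : Subgroup G) : Set G) ↔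
      g⁻¹ * v * g ∈ centralizer (T : Set G)) := by
    intro g hg v hv
    rw [mem_centralizer_iff, mem_centralizer_iff]
    constructor
    · intro h t ht
      have := h (g * t * g⁻¹) ⟨t, ht, rfl⟩
      have h2 := congrArg (fun z => g⁻¹ * z * g) this
      simpa [mul_assoc] using h2
    · rintro h _ ⟨t, ht, rfl⟩
      have := h t ht
      have h2 := congrArg (fun z => g * z * g⁻¹) this
      simpa [mul_assoc] using h2
  refine ⟨?_, ?_, ?_, ?_⟩
  · intro g hg hgn
    have hc : (c.ρ ⟨g, hg⟩ : Matrix (Fin 2) (Fin 2) F) 1 0 ≠ 0 := fun h => hgn (mem_norm_of c hg h)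
    have hmem : ∀ v ∈ V, g⁻¹ * v * g ∈ V := by
      intro v hv
      have := c.conj_mem (L.inv_mem hg) hv
      simpa using this
    have hgv : ∀ v (hv : v ∈ V) (hw : g⁻¹ * v * g ∈ V), c.ψ ⟨v, hv⟩ =
        (c.ρ ⟨g, hg⟩ : Matrix (Fin 2) (Fin 2) F).mulVec (c.ψ ⟨g⁻¹ * v * g, hw⟩) := by
      intro v hv hw
      apply c.act ⟨g, hg⟩ ⟨g⁻¹ * v * g, hw⟩ ⟨v, hv⟩
      simp [mul_assoc]
    refine ⟨inf_le_left, inf_le_left, ?_, ?_, ?_⟩
    · intro a ha b hb
      exact hcomm a ha.1 b hb.1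
    · rw [eq_bot_iff]
      rintro v ⟨⟨hv, hv1⟩, ⟨-, hv2⟩⟩
      have h1 := (c.mem_fixed hv).mp hv1
      have h2 := (c.mem_fixed (hmem v hv)).mp ((hcg g hg v hv).mp hv2)
      rw [hgv v hv (hmem v hv), mulVec_two] at h1
      simp only [cons_val_one, cons_val_zero, h2, mul_zero, add_zero] at h1
      have h3 : c.ψ ⟨g⁻¹ * v * g, hmem v hv⟩ 0 = 0 := by
        rcases mul_eq_zero.mp h1 with h | h
        · exact absurd h hc
        · exact h
      have h4 : g⁻¹ * v * g = 1 := by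
        apply eq_of_coord c (hmem v hv) V.one_mem
        · rw [h3]
          have := c.one
          have h5 : c.ψ ⟨1, V.one_mem⟩ = 0 := this
          rw [h5]; rfl
        · rw [h2]
          have h5 : c.ψ ⟨1, V.one_mem⟩ = 0 := c.one
          rw [h5]; rfl
      rw [mem_bot]
      have : v = g * (g⁻¹ * v * g) * g⁻¹ := by group
      rw [this, h4]; group
    · apply le_antisymm (sup_le inf_le_left inf_le_left)
      intro v hv
      obtain ⟨w, hw⟩ := c.bij.2 ![c.ψ ⟨v, hv⟩ 1 / (c.ρ ⟨g, hg⟩ : Matrix (Fin 2) (Fin 2) F) 1 0, 0]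
      have hw' : c.ψ ⟨(w : G), w.2⟩ =
        ![c.ψ ⟨v, hv⟩ 1 / (c.ρ ⟨g, hg⟩ : Matrix (Fin 2) (Fin 2) F) 1 0, 0] := hw
      have h1 : g * (w : G) * g⁻¹ ∈ V := c.conj_mem hg w.2
      have h2 : g * (w : G) * g⁻¹ ∈
          V ⊓ centralizer ((T.map (MulAut.conj g).toMonoidHom : Subgroup G) : Set G) := by
        refine ⟨h1, ?_⟩
        change _ ∈ centralizer _
        rw [hcg g hg _ h1]
        have h3 : g⁻¹ * (g * (w : G) * g⁻¹) * g = w := by group
        rw [h3, c.mem_fixed w.2, hw']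
        simp
      have h3 : v * (g * (w : G) * g⁻¹)⁻¹ ∈ V ⊓ centralizer (T : Set G) := by
        have h4 : v * (g * (w : G) * g⁻¹)⁻¹ ∈ V := V.mul_mem hv (V.inv_mem h1)
        refine ⟨h4, ?_⟩
        change _ ∈ centralizer _
        rw [c.mem_fixed h4]
        have h5 : c.ψ ⟨v * (g * (w : G) * g⁻¹)⁻¹, h4⟩ = c.ψ ⟨v, hv⟩ -
            c.ψ ⟨g * (w : G) * g⁻¹, h1⟩ := by
          have := c.mul ⟨v, hv⟩ (⟨g * (w : G) * g⁻¹, h1⟩)⁻¹
          rw [c.inv] at this
          rw [sub_eq_add_neg, ← this]; rfl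
        rw [h5, c.act' hg w.2, hw', mulVec_two]
        simp only [cons_val_zero, cons_val_one, mul_zero, add_zero, Pi.sub_apply]
        field_simp
        simp
      have h4 : v = (v * (g * (w : G) * g⁻¹)⁻¹) * (g * (w : G) * g⁻¹) := by group
      rw [h4]
      exact mul_mem_sup h3 h2
  · intro x hx hx1 hxp
    rw [eq_bot_iff]
    rintro v ⟨hv, hvx⟩
    by_contra hv1
    rw [mem_bot] at hv1
    apply hx1
    have hn0 : n ≠ 0 := by
      rintro rfl
      have := Fintype.one_lt_card (α := F)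
      rw [hF, pow_zero] at this
      omega
    have hchar : CharP F p := by
      obtain ⟨q, hq⟩ := CharP.exists F
      have hq' : q.Prime := by
        rcases CharP.char_is_prime_or_zero F q with h | h
        · exact h
        · subst h
          exact absurd hq (by
            intro h0
            have := CharP.charP_to_charZero F
            exact not_finite F)
      have h1 : q ∣ Fintype.card F := by
        have := (Nat.cast_card_eq_zero F : ((Fintype.card F : ℕ) : F) = 0)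
        rwa [CharP.cast_eq_zero_iff F q] at this
      rw [hF] at h1
      have := (Nat.prime_dvd_prime_iff_eq hq' hp.out).mp (hq'.dvd_of_dvd_pow h1)
      rwa [← this]
    have h1 : x * v * x⁻¹ = v := by
      have := mem_centralizer_iff.mp hvx x rfl
      rw [this]; group
    have h2 := c.act ⟨x, hx⟩ ⟨v, hv⟩ ⟨v, hv⟩ h1.symm
    have h3 : ((c.ρ ⟨x, hx⟩ : Matrix (Fin 2) (Fin 2) F) - 1).mulVec (c.ψ ⟨v, hv⟩) = 0 := by
      rw [Matrix.sub_mulVec, ← h2, Matrix.one_mulVec, sub_self]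
    have h4 : c.ψ ⟨v, hv⟩ ≠ 0 := by
      intro h
      rw [← c.one] at h
      exact hv1 (congrArg Subtype.val (c.bij.1 h))
    have h5 : ((c.ρ ⟨x, hx⟩ : Matrix (Fin 2) (Fin 2) F) - 1).det = 0 :=
      Matrix.exists_mulVec_eq_zero_iff.mp ⟨_, h4, h3⟩
    rw [PLocal.SLTwoSylow.det_sub_one] at h5
    have h6 : (c.ρ ⟨x, hx⟩ : Matrix (Fin 2) (Fin 2) F).trace = 2 := (sub_eq_zero.mp h5).symm
    have h7 : c.ρ ⟨x, hx⟩ = 1 := by
      apply PLocal.SLTwoSylow.eq_one_of_trace (p := p) _ h6 (orderOf x) hxp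
      rw [← map_pow]
      have : (⟨x, hx⟩ : L) ^ orderOf x = 1 := by
        ext; simpa using pow_orderOf_eq_one x
      rw [this, map_one]
    have h8 := c.ρ.injective (h7.trans c.ρ.map_one.symm)
    exact congrArg Subtype.val h8
  · intro U hU hinv
    by_cases hU1 : U = ⊥
    · exact Or.inl hU1
    right
    apply le_antisymm hU
    obtain ⟨⟨w, hw⟩, hw1⟩ := Subgroup.ne_bot_iff_exists_ne_one.mp hU1
    have hw1' : w ≠ 1 := by
      intro h; apply hw1; ext; exact h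
    have hwV := (hU hw).1
    have hwy := (c.mem_fixed hwV).mp (hU hw).2
    have hone : c.ψ ⟨1, V.one_mem⟩ = 0 := c.one
    have hwx : c.ψ ⟨w, hwV⟩ 0 ≠ 0 := by
      intro h
      apply hw1'
      apply eq_of_coord c hwV V.one_mem
      · rw [h, hone]; rfl
      · rw [hwy, hone]; rfl
    intro v hv
    have hvy := (c.mem_fixed hv.1).mp hv.2
    by_cases hv0 : c.ψ ⟨v, hv.1⟩ 0 = 0
    · have : v = 1 := by
        apply eq_of_coord c hv.1 V.one_mem
        · rw [hv0, hone]; rfl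
        · rw [hvy, hone]; rfl
      rw [this]; exact U.one_mem
    obtain ⟨t, ht, htn, ht'⟩ := diag_mem c (div_ne_zero hv0 hwx)
    have h1 := c.act' ht hwV
    rw [ht', diag_mulVec] at h1
    have h2 : v = t * w * t⁻¹ := by
      apply eq_of_coord c hv.1 (c.conj_mem ht hwV)
      · rw [h1]
        simp only [cons_val_zero]
        field_simp
      · rw [h1, hvy, hwy]
        simp
    rw [h2]
    exact ((mem_normalizer_iff.mp (hinv ⟨ht, htn⟩)) w).mp hw
  · intro U hU hUV hinv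
    by_cases hle : U ≤ V ⊓ centralizer (T : Set G)
    · exact Or.inl (le_antisymm hle hU)
    right
    apply le_antisymm hUV
    obtain ⟨w, hw, hw1⟩ := SetLike.not_le_iff_exists.mp hle
    have hwV := hUV hw
    have hwy : c.ψ ⟨w, hwV⟩ 1 ≠ 0 := by
      intro h
      exact hw1 ⟨hwV, (c.mem_fixed hwV).mpr h⟩
    intro v hv
    by_cases hv0 : c.ψ ⟨v, hv⟩ 1 = 0
    · exact hU ⟨hv, (c.mem_fixed hv).mpr hv0⟩
    obtain ⟨t, ht, htn, ht'⟩ := diag_mem c (div_ne_zero hwy hv0)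
    have h1 := c.act' ht hwV
    rw [ht', diag_mulVec] at h1
    have h2 : t * w * t⁻¹ ∈ U := ((mem_normalizer_iff.mp (hinv ⟨ht, htn⟩)) w).mp hw
    have h3V := c.conj_mem ht hwV
    have h3 : v * (t * w * t⁻¹)⁻¹ ∈ V ⊓ centralizer (T : Set G) := by
      have h4 : v * (t * w * t⁻¹)⁻¹ ∈ V := V.mul_mem hv (V.inv_mem h3V)
      refine ⟨h4, ?_⟩
      change _ ∈ centralizer _
      rw [c.mem_fixed h4]
      have h5 : c.ψ ⟨v * (t * w * t⁻¹)⁻¹, h4⟩ = c.ψ ⟨v, hv⟩ - c.ψ ⟨t * w * t⁻¹, h3V⟩ := by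
        have := c.mul ⟨v, hv⟩ (⟨t * w * t⁻¹, h3V⟩)⁻¹
        rw [c.inv] at this
        rw [sub_eq_add_neg, ← this]; rfl
      rw [h5, h1]
      simp only [cons_val_one, cons_val_zero, Pi.sub_apply]
      field_simp
      simp
    have h4 : v = (v * (t * w * t⁻¹)⁻¹) * (t * w * t⁻¹) := by group
    rw [h4]
    exact U.mul_mem (hU h3) h2

end Cfsg.Agent.S2780
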