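import Cfsg.Statements.S2781
import Cfsg.Agent.Transfer.Residual

set_option autoImplicit false
open Cfsg

namespace Cfsg.Agent.S2781

open Subgroup
open scoped commutatorElement

/-- The fixed points of a Sylow `p`-subgroup lie in `[V, R] C_V(R)`. -/
theorem fixed_le {G : Type*} [Group G] [Finite G] {p : ℕ} [Fact p.Prime] {V R : Subgroup G}
    (hcomm : ∀ v ∈ V, ∀ w ∈ V, v * w = w * v) (hp : ∀ v ∈ V, v ^ p = 1)
    (hRV : R ≤ normalizer (V : Set G)) (S : Sylow p ↥R) :
    V ⊓ centralizer (((S : Subgroup ↥R).map R.subtype : Subgroup G) : Set G) ≤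
      ⁅V, R⁆ ⊔ (V ⊓ centralizer (R : Set G)) := by
  classical
  rename_i _ _ hpp
  rintro v ⟨hv, hvS⟩
  have hconj : ∀ r ∈ R, ∀ v ∈ V, r * v * r⁻¹ ∈ V := fun r hr v hv =>
    ((mem_normalizer_iff.mp (hRV hr)) v).mp hv
  letI : CommGroup V := { (inferInstance : Group V) with
    mul_comm := fun a b => by ext; exact hcomm a a.2 b b.2 }
  let f : R → V := fun r => ⟨r * v * (r : G)⁻¹, hconj r r.2 v hv⟩
  have hf : ∀ a b : R, QuotientGroup.leftRel (S : Subgroup R) a b → f a = f b := by
    intro a b hab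
    rw [QuotientGroup.leftRel_apply] at hab
    have h1 := mem_centralizer_iff.mp hvS (a⁻¹ * b : R) ⟨_, hab, rfl⟩
    ext
    change (a : G) * v * (a : G)⁻¹ = b * v * (b : G)⁻¹
    have h2 : (b : G) = a * ((a⁻¹ * b : R) : G) := by simp
    have h3 : (b : G) * v * (b : G)⁻¹ = a * (((a⁻¹ * b : R) : G) * v * (((a⁻¹ * b : R) : G))⁻¹) * (a : G)⁻¹ := by
      rw [h2]; group
    rw [h3, h1]; group
  let F : R ⧸ (S : Subgroup R) → V := fun q => Quotient.lift f hf q
  have hF : ∀ r : R, F (QuotientGroup.mk r) = f r := fun r => rfl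
  cases nonempty_fintype (R ⧸ (S : Subgroup R))
  let P : V := ∏ q : R ⧸ (S : Subgroup R), F q
  -- `P` is centralized by `R`
  have hP : (P : G) ∈ V ⊓ centralizer (R : Set G) := by
    refine ⟨P.2, ?_⟩
    change _ ∈ centralizer _
    rw [mem_centralizer_iff]
    intro r hr
    let φ : V →* V :=
      { toFun := fun w => ⟨r * w * r⁻¹, hconj r hr w w.2⟩
        map_one' := by ext; simp
        map_mul' := fun a b => by ext; simp [mul_assoc] }
    have h1 : φ P = P := by
      change φ (∏ q : R ⧸ (S : Subgroup R), F q) = _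
      rw [map_prod]
      apply Fintype.prod_equiv (MulAction.toPerm (⟨r, hr⟩ : R))
      intro q
      induction q using QuotientGroup.induction_on with
      | H a =>
        rw [MulAction.toPerm_apply]
        change φ (f a) = F (QuotientGroup.mk (⟨r, hr⟩ * a))
        rw [hF]
        ext
        simp [φ, f, mul_assoc]
    have h2 := congrArg Subtype.val h1
    change r * (P : G) * r⁻¹ = P at h2
    calc r * (P : G) = (r * (P : G) * r⁻¹) * r := by group
      _ = _ := by rw [h2]
  -- modulo `[V,R]`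
  have hWV : ⁅V, R⁆ ≤ V := by
    rw [commutator_le]
    intro v hv r hr
    rw [commutatorElement_def]
    have := V.mul_mem hv (hconj r hr _ (V.inv_mem hv))
    simpa [mul_assoc] using this
  let W : Subgroup V := (⁅V, R⁆).subgroupOf V
  have hW : W.Normal := inferInstance
  have hq : ∀ q, (QuotientGroup.mk (F q) : V ⧸ W) = QuotientGroup.mk ⟨v, hv⟩ := by
    intro q
    induction q using QuotientGroup.induction_on with
    | H a =>
      rw [hF, eq_comm, QuotientGroup.eq]
      change ((⟨v, hv⟩ : V)⁻¹ * f a : V) ∈ (⁅V, R⁆).subgroupOf V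
      rw [mem_subgroupOf]
      have h1 : (((⟨v, hv⟩ : V)⁻¹ * f a : V) : G) = ⁅v⁻¹, (a : G)⁆ := by
        simp [f, commutatorElement_def, mul_assoc]
      rw [h1]
      exact commutator_mem_commutator (V.inv_mem hv) a.2
  have hm : (QuotientGroup.mk P : V ⧸ W) = QuotientGroup.mk (⟨v, hv⟩ ^ (S : Subgroup R).index) := by
    have : (QuotientGroup.mk' W) P = ∏ q : R ⧸ (S : Subgroup R), (QuotientGroup.mk' W) (F q) :=
      map_prod _ _ _
    change (QuotientGroup.mk' W) P = _
    rw [this]
    simp only [QuotientGroup.mk'_apply, hq]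
    rw [Finset.prod_const, Finset.card_univ, ← Nat.card_eq_fintype_card]
    rfl
  rw [QuotientGroup.eq, mem_subgroupOf] at hm
  have h1 : v ^ (S : Subgroup R).index ∈ ⁅V, R⁆ ⊔ (V ⊓ centralizer (R : Set G)) := by
    have h2 : v ^ (S : Subgroup R).index =
        (P : G) * ((P⁻¹ * ⟨v, hv⟩ ^ (S : Subgroup R).index : V) : G) := by
      simp
    rw [h2]
    exact mul_mem (mem_sup_right hP) (mem_sup_left hm)
  have h3 : ((S : Subgroup R).index).Coprime p := by
    rw [Nat.coprime_comm, hpp.out.coprime_iff_not_dvd]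
    exact S.not_dvd_index
  have h4 : v ∈ zpowers (v ^ (S : Subgroup R).index) := by
    by_cases hv1 : v = 1
    · rw [hv1]; simp
    have ho : orderOf v = p := orderOf_eq_prime (hp v hv) hv1
    have h5 : ((S : Subgroup R).index).Coprime (orderOf v) := by rw [ho]; exact h3
    obtain ⟨k, hk⟩ := exists_pow_eq_self_of_coprime h5
    exact ⟨k, by simpa using hk⟩
  exact (zpowers_le.mpr h1) h4

/-- Let H act faithfully by conjugation on the elementary abelian p-subgroup V of a finite group, let O^p(H) be the subgroup of H generated by its elements of order prime to p, and T a Sylow p-subgroup of O^p(H). If V is generated by the H-conjugates of C_V(T) (V is the smallest H-invariant subgroup containing C_V(T)), then V = [V, O^p(H)]·C_V(O^p(H)). -/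
theorem result {G : Type*} [Group G] [Finite G] {p : ℕ} [Fact p.Prime] (V H : Subgroup G) (hV : Cfsg.IsElementaryAbelian p V) (hHV : H ≤ Subgroup.normalizer (V : Set G)) (hf : H ⊓ Subgroup.centralizer (V : Set G) = ⊥) (R : Subgroup G) (hR : R = (Cfsg.pResidual p ↥H).map H.subtype) (S : Sylow p ↥R) (T : Subgroup G) (hT : T = ((S : Subgroup ↥R).map R.subtype)) (hgen : ∀ W : Subgroup G, H ≤ Subgroup.normalizer (W : Set G) → (V ⊓ Subgroup.centralizer ((T : Subgroup G) : Set G)) ≤ W → V ≤ W) : ⁅V, R⁆ ⊔ (V ⊓ Subgroup.centralizer ((R : Subgroup G) : Set G)) = V := by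
  obtain ⟨hVc, hVp⟩ := hV
  have hcomm : ∀ v ∈ V, ∀ w ∈ V, v * w = w * v := by
    intro v hv w hw
    have := hVc.is_comm.comm (⟨v, hv⟩ : V) ⟨w, hw⟩
    exact congrArg Subtype.val this
  have hRH : R ≤ H := by
    rw [hR]; exact map_subtype_le _
  have hRV : R ≤ normalizer (V : Set G) := hRH.trans hHV
  have hRn : ∀ h ∈ H, ∀ r ∈ R, h * r * h⁻¹ ∈ R := by
    intro h hh r hr
    rw [hR] at hr ⊢
    obtain ⟨r', hr', rfl⟩ := hr
    have hn : (pResidual p ↥H).Normal := Transfer.Residual.pResidual_normal p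
    exact ⟨⟨h, hh⟩ * r' * ⟨h, hh⟩⁻¹, hn.conj_mem r' hr' ⟨h, hh⟩, rfl⟩
  have hW : ⁅V, R⁆ ⊔ (V ⊓ centralizer (R : Set G)) ≤ V := by
    apply sup_le _ inf_le_left
    rw [commutator_le]
    intro v hv r hr
    rw [commutatorElement_def]
    have h1 := ((mem_normalizer_iff.mp (hRV hr)) v⁻¹).mp (V.inv_mem hv)
    have := V.mul_mem hv h1
    simpa [mul_assoc] using this
  apply le_antisymm hW
  apply hgen
  · have key : ∀ h ∈ H, ∀ w ∈ ⁅V, R⁆ ⊔ (V ⊓ centralizer (R : Set G)),
        h * w * h⁻¹ ∈ ⁅V, R⁆ ⊔ (V ⊓ centralizer (R : Set G)) := by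
      intro h hh
      have h1 : ⁅V, R⁆ ⊔ (V ⊓ centralizer (R : Set G)) ≤
          (⁅V, R⁆ ⊔ (V ⊓ centralizer (R : Set G))).comap (MulAut.conj h).toMonoidHom := by
        apply sup_le
        · rw [commutator_le]
          intro v hv r hr
          rw [mem_comap]
          have h2 : (MulAut.conj h).toMonoidHom ⁅v, r⁆ = ⁅h * v * h⁻¹, h * r * h⁻¹⁆ := by
            simp [commutatorElement_def, mul_assoc]
          rw [h2]
          exact mem_sup_left (commutator_mem_commutator
            (((mem_normalizer_iff.mp (hHV hh)) v).mp hv) (hRn h hh r hr))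
        · rintro v ⟨hv, hvR⟩
          rw [mem_comap]
          apply mem_sup_right
          refine ⟨((mem_normalizer_iff.mp (hHV hh)) v).mp hv, ?_⟩
          change h * v * h⁻¹ ∈ centralizer _
          rw [mem_centralizer_iff]
          intro r hr
          have h3 := mem_centralizer_iff.mp hvR (h⁻¹ * r * h) (by
            have := hRn h⁻¹ (H.inv_mem hh) r hr
            simpa using this)
          have h4 := congrArg (fun z => h * z * h⁻¹) h3
          simpa [mul_assoc] using h4
      exact h1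
    intro h hh
    rw [mem_normalizer_iff]
    intro w
    refine ⟨key h hh w, fun hw => ?_⟩
    have := key h⁻¹ (H.inv_mem hh) _ hw
    simpa [mul_assoc] using this
  · rw [hT]
    exact fixed_le hcomm hVp hRV S

end Cfsg.Agent.S2781
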