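import Cfsg.Statements.S2788
import Cfsg.Agent.H177.ModBound
import Cfsg.Agent.H177.PairPSLOdd
import Cfsg.Agent.H216.OrbitCount
import Cfsg.Agent.ClassicalGeometry.PSLTorus
import Cfsg.Agent.LieClassical.SLTwoUnipotent

set_option autoImplicit false
open Cfsg

namespace Cfsg.Agent.S2788

open Subgroup Matrix Cfsg.Agent.BenderMod Cfsg.Agent.H177.ModBound
open Cfsg.Agent.LieClassical Cfsg.Agent.LieClassical.SLTwoUnipotent

/-- a nontrivial `p`-element has a power of order `p` -/
theorem exists_pow_orderOf {X : Type*} [Group X] [Finite X] {p : ℕ} [hp : Fact p.Prime] {x : X}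
    (hx : ∃ n : ℕ, orderOf x = p ^ n) (hx1 : x ≠ 1) : ∃ k : ℕ, orderOf (x ^ k) = p := by
  obtain ⟨n, hn⟩ := hx
  have hn0 : n ≠ 0 := by
    rintro rfl
    rw [pow_zero, orderOf_eq_one_iff] at hn
    exact hx1 hn
  refine ⟨p ^ (n - 1), ?_⟩
  rw [orderOf_pow_of_dvd (pow_pos hp.out.pos _).ne', hn]
  · have h1 : p ^ n = p ^ (n - 1) * p := by rw [← pow_succ]; congr 1; omega
    rw [h1]
    exact Nat.mul_div_cancel_left _ (pow_pos hp.out.pos _)
  · rw [hn]
    exact pow_dvd_pow p (by omega)

section Two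

variable {F : Type*} [Field F] [Fintype F]

/-- the involutions of `SL₂(2ⁿ)` are conjugate to `u 1` -/
theorem exists_conj_u_one [hF : CharP F 2] {s : SpecialLinearGroup (Fin 2) F} (hs : orderOf s = 2) :
    ∃ g, g * s * g⁻¹ = u 1 := by
  have hp2 : Fact (Nat.Prime 2) := ⟨Nat.prime_two⟩
  have h1 : IsPGroup 2 (zpowers s) := IsPGroup.of_card (n := 1) (by rw [Nat.card_zpowers, hs, pow_one])
  obtain ⟨P, hP⟩ := h1.exists_le_sylow
  obtain ⟨a, rfl⟩ := exists_smul_upperUnipSylowSL_eq 2 P
  have h2 := (mem_smul_upperUnipSylowSL_iff 2).1 (hP (mem_zpowers s))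
  obtain ⟨x, hx⟩ := mem_upperUnipSL_iff_exists.1 h2
  have hx0 : x ≠ 0 := by
    rintro rfl
    rw [u_zero] at hx
    have h3 : s = 1 := by
      have h4 := congrArg (fun y => a * y * a⁻¹) hx
      simpa [mul_assoc] using h4
    rw [h3, orderOf_one] at hs
    omega
  obtain ⟨t, ht⟩ : ∃ t : F, t * t = x⁻¹ := by
    have h3 : Function.Surjective (frobenius F 2) :=
      (Finite.injective_iff_surjective).1 (frobenius_inj F 2)
    obtain ⟨t, ht⟩ := h3 x⁻¹
    exact ⟨t, by rw [← ht, frobenius_def, pow_two]⟩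
  have ht0 : t ≠ 0 := by
    rintro rfl
    rw [mul_zero] at ht
    exact inv_ne_zero hx0 ht.symm
  let d : SpecialLinearGroup (Fin 2) F := ⟨!![t, 0; 0, t⁻¹], by simp [Matrix.det_fin_two, ht0]⟩
  refine ⟨d * a⁻¹, ?_⟩
  have h4 : d * a⁻¹ * s * (d * a⁻¹)⁻¹ = d * u x * d⁻¹ := by
    rw [← show a⁻¹ * s * a = u x from hx.symm ▸ rfl]
    group
  rw [h4, mul_inv_eq_iff_eq_mul]
  apply ext_coe
  rw [SLTwoUnipotent.coe_mul, SLTwoUnipotent.coe_mul, coe_u, coe_u]
  have h5 : (d : Matrix (Fin 2) (Fin 2) F) = !![t, 0; 0, t⁻¹] := rfl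
  rw [h5]
  have h6 : t * x = t⁻¹ := by
    field_simp
    have h7 := congrArg (· * x) ht
    simp only [inv_mul_cancel₀ hx0] at h7
    linear_combination h7
  simp [h6]

end Two

/-- Let H act faithfully by conjugation on the elementary abelian p-subgroup V of a finite group with H ≅ SL₂(F), F a field with p^n elements, S a Sylow p-subgroup of H, and A ≤ S a subgroup of order at least 3 acting quadratically on V ([V, A, A] = 1). Then |V/C_V(a)| ≥ p^n for every nonidentity a ∈ A. -/
theorem result {G : Type*} [Group G] [Finite G] {p : ℕ} [Fact p.Prime] (V H : Subgroup G) (hV : Cfsg.IsElementaryAbelian p V) (hHV : H ≤ Subgroup.normalizer (V : Set G)) (hf : H ⊓ Subgroup.centralizer (V : Set G) = ⊥) {F : Type*} [Field F] [Fintype F] (n : ℕ) (hF : Fintype.card F = p ^ n) (hiso : Nonempty (↥H ≃* Matrix.SpecialLinearGroup (Fin 2) F)) (S : Sylow p ↥H) (T : Subgroup G) (hT : T = ((S : Subgroup ↥H).map H.subtype)) (A : Subgroup G) (hA : A ≤ T) (hA3 : 3 ≤ Nat.card A) (hquad : ⁅⁅V, A⁆, A⁆ = ⊥)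 : ∀ a ∈ A, a ≠ 1 → p ^ n ≤ ((V ⊓ Subgroup.centralizer ({a} : Set G))).relIndex V := by
  intro a ha ha1
  have hpp : p.Prime := Fact.out
  obtain ⟨e⟩ := hiso
  have hM : IsPGroup p V := isPGroup_of_elem hV.2
  have hinj := act_injective hHV hf
  have hn : n ≠ 0 := by
    rintro rfl
    have h5 : 1 < Fintype.card F := Fintype.one_lt_card
    rw [hF, pow_zero] at h5
    omega
  have haT := hA ha
  rw [hT] at haT
  obtain ⟨x, hx, hxa⟩ := haT
  have hxa' : (x : G) = a := hxa
  have hx1 : x ≠ 1 := by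
    rintro rfl
    exact ha1 hxa'.symm
  obtain ⟨m, hm⟩ := (IsPGroup.iff_orderOf.1 S.isPGroup') ⟨x, hx⟩
  rw [Subgroup.orderOf_mk] at hm
  obtain ⟨k, hk⟩ := exists_pow_orderOf ⟨m, hm⟩ hx1
  set h := x ^ k with hh
  have hha : (h : G) = a ^ k := by rw [hh, Subgroup.coe_pow, hxa']
  refine le_trans ?_ (relIndex_pow_le a k)
  rw [← hha, ← index_fix_act hHV]
  have hso : orderOf (e h) = p := by rw [MulEquiv.orderOf_eq, hk]
  let π : H →* Matrix.ProjectiveSpecialLinearGroup (Fin 2) F :=
    (QuotientGroup.mk' (center (SpecialLinearGroup (Fin 2) F))).comp e.toMonoidHom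
  have hπ : Function.Surjective π := (QuotientGroup.mk'_surjective _).comp e.surjective
  by_cases hp2 : p = 2
  · subst hp2
    have hchar : CharP F 2 := Cfsg.Agent.H177.PairPSLOdd.charP_of_card hpp hF
    obtain ⟨r, K, hr, hr2, hrd, hmin⟩ := H216.OrbitCount.exists_prime_pow n (Nat.pos_of_ne_zero hn)
    obtain ⟨a', b', ha', hb', hab⟩ : ∃ a b : Matrix.ProjectiveSpecialLinearGroup (Fin 2) F,
        orderOf a = 2 ∧ orderOf b = 2 ∧ orderOf (a * b) = 2 ^ n + 1 := by
      obtain ⟨C, D, -, -, -, -, ⟨φ⟩, -⟩ := ClassicalGeometry.PSLTorus.exists_psl_torus F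
      have hg : Nat.gcd 2 (Fintype.card F - 1) = 1 := by
        rw [hF]
        refine Nat.coprime_two_left.2 (Nat.odd_iff.2 ?_)
        have h1 : 0 < 2 ^ n := by positivity
        obtain ⟨c, hc⟩ : Even (2 ^ n) := Nat.even_pow.2 ⟨even_two, hn⟩
        omega
      rw [hg, Nat.div_one, hF] at φ
      refine ⟨(φ.symm (DihedralGroup.sr 0) : D), (φ.symm (DihedralGroup.sr 1) : D), ?_, ?_, ?_⟩
      · rw [Subgroup.orderOf_coe, MulEquiv.orderOf_eq, DihedralGroup.orderOf_sr]
      · rw [Subgroup.orderOf_coe, MulEquiv.orderOf_eq, DihedralGroup.orderOf_sr]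
      · rw [← Subgroup.coe_mul, Subgroup.orderOf_coe, ← map_mul, MulEquiv.orderOf_eq,
          DihedralGroup.sr_mul_sr, sub_zero, DihedralGroup.orderOf_r_one]
    -- every involution of `PSL₂` is conjugate to the image of `h`
    have hconj : ∀ c : Matrix.ProjectiveSpecialLinearGroup (Fin 2) F, orderOf c = 2 →
        ∃ g, g * π h * g⁻¹ = c := by
      intro c hc
      obtain ⟨s, rfl⟩ := QuotientGroup.mk'_surjective (center (SpecialLinearGroup (Fin 2) F)) c
      have hs : orderOf s = 2 := by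
        have h1 : QuotientGroup.mk' (center (SpecialLinearGroup (Fin 2) F)) (s ^ 2) = 1 := by
          have h1 := pow_orderOf_eq_one (QuotientGroup.mk' (center (SpecialLinearGroup (Fin 2) F)) s)
          rw [hc] at h1
          rw [map_pow, h1]
        have h2 : s ^ 2 ∈ center (SpecialLinearGroup (Fin 2) F) := by
          rwa [← QuotientGroup.ker_mk' (center (SpecialLinearGroup (Fin 2) F)), MonoidHom.mem_ker]
        have h3 : s ^ 2 = 1 := by
          obtain ⟨y, hy, hys⟩ := Matrix.SpecialLinearGroup.mem_center_iff.1 h2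
          rw [Fintype.card_fin] at hy
          have h4 : y = 1 := by
            have h5 : (y - 1) * (y - 1) = 0 := by
              have h6 : (2 : F) = 0 := CharP.cast_eq_zero F 2
              linear_combination hy - (y - 1) * h6
            have h6 := mul_self_eq_zero.1 h5
            exact sub_eq_zero.1 h6
          apply Subtype.ext
          rw [← hys, h4]
          simp
        refine orderOf_eq_prime h3 ?_
        rintro rfl
        rw [map_one, orderOf_one] at hc
        omega
      obtain ⟨g1, hg1⟩ := exists_conj_u_one hso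
      obtain ⟨g2, hg2⟩ := exists_conj_u_one hs
      refine ⟨QuotientGroup.mk' (center (SpecialLinearGroup (Fin 2) F)) (g2⁻¹ * g1), ?_⟩
      change _ * QuotientGroup.mk' (center (SpecialLinearGroup (Fin 2) F)) (e h) * _ = _
      rw [← map_mul, ← map_inv, ← map_mul]
      congr 1
      have h7 : g2⁻¹ * g1 * e h * (g2⁻¹ * g1)⁻¹ = g2⁻¹ * (g1 * e h * g1⁻¹) * g2 := by group
      rw [h7, hg1, ← hg2]
      group
    obtain ⟨g1, hg1⟩ := hconj a' ha'
    obtain ⟨g2, hg2⟩ := hconj b' hb'
    have h5 := two_bound hM hr hr2 (Nat.succ_pos K) (fun j hj => (Nat.eq_zero_or_pos j).imp id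
      (fun hj0 => hmin j hj0 hj)) (act hHV) hinj π hπ (s := h) (g := g1) (h := g2)
      (by rw [hg1, hg2, hab]; exact hrd)
    have h6 : (2 ^ n) ^ 2 ≤ (fix (act hHV h)).index ^ 2 := by
      refine le_trans (le_of_eq ?_) h5
      rw [← pow_mul]
      congr 1
      ring
    exact (Nat.pow_le_pow_iff_left (by norm_num)).1 h6
  · by_cases hn1 : n = 1
    · subst hn1
      rw [pow_one]
      have h1 : (fix (act hHV h)).index ≠ 1 := by
        intro h2
        rw [index_eq_one] at h2
        have h3 : act hHV h = 1 := by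
          ext v
          have h4 : v ∈ fix (act hHV h) := h2 ▸ mem_top v
          exact congrArg Subtype.val h4
        have h4 : h = 1 := hinj (h3.trans (map_one _).symm)
        rw [h4, orderOf_one] at hk
        exact hpp.one_lt.ne hk
      obtain ⟨c, hc⟩ := hM.exists_card_eq
      have h2 : (fix (act hHV h)).index ∣ p ^ c := by
        rw [← hc]
        exact index_dvd_card _
      obtain ⟨j, -, hj⟩ := (Nat.dvd_prime_pow hpp).1 h2
      rw [hj] at h1 ⊢
      have hj0 : j ≠ 0 := by
        rintro rfl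
        exact h1 (pow_zero _)
      exact Nat.le_self_pow hj0 p
    · obtain ⟨l, hl, hl2, hd, hall⟩ := Cfsg.Agent.H177.PairPSLOdd.main (F := F) hp2
        (by omega : 2 ≤ n) hF
      have ho' : orderOf (π h) = p := by
        have h1 : orderOf (π h) ∣ p := by
          have h2 := orderOf_map_dvd π h
          rwa [hk] at h2
        rcases (Nat.dvd_prime hpp).1 h1 with h2 | h2
        · exfalso
          rw [orderOf_eq_one_iff] at h2
          have h3 : e h ∈ center (SpecialLinearGroup (Fin 2) F) := by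
            rw [← QuotientGroup.ker_mk' (center (SpecialLinearGroup (Fin 2) F)), MonoidHom.mem_ker]
            exact h2
          obtain ⟨y, hy, hys⟩ := Matrix.SpecialLinearGroup.mem_center_iff.1 h3
          rw [Fintype.card_fin] at hy
          have h4 : e h ^ 2 = 1 := by
            apply Subtype.ext
            rw [Matrix.SpecialLinearGroup.coe_pow, ← hys, ← map_pow, hy]
            simp
          have h5 := orderOf_dvd_of_pow_eq_one h4
          rw [hso] at h5
          exact hp2 ((Nat.prime_dvd_prime_iff_eq hpp Nat.prime_two).1 h5)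
        · exact h2
      obtain ⟨g1, g2, hg⟩ := hall _ ho'
      have h5 := two_bound hM hl hl2 le_rfl hd (act hHV) hinj π hπ (s := h) hg
      have h6 : (p ^ n) ^ 2 ≤ (fix (act hHV h)).index ^ 2 := by
        refine le_trans (le_of_eq ?_) h5
        rw [← pow_mul]
        congr 1
        ring
      exact (Nat.pow_le_pow_iff_left (by norm_num)).1 h6

end Cfsg.Agent.S2788
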