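import Cfsg.Statements.S2793
import Cfsg.Agent.H219.Cent
import Cfsg.Agent.H219.FInv

set_option autoImplicit false
open Cfsg

namespace Cfsg.Agent.S2793

/-- Let p be an odd prime, S a Sylow p-subgroup of the finite group G, J(S) the subgroup generated by the abelian subgroups of S of largest order, and suppose Z(J(S)) does not control strong fusion in G. Put H = N_G(Z(J(S))). Then the group F(p) of upper triangular 3 × 3 matrices (a b c; 0 a⁻¹ d; 0 0 1) over the field with p elements is involved in H, and Z(J(S)) contains a subgroup C of order p with |N_H(C) : C_H(C)| = p − 1. -/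
theorem result {G : Type*} [Group G] [Finite G] {p : ℕ} [Fact p.Prime] (hp : p ≠ 2) (S : Sylow p G) (h : ¬ Cfsg.ControlsStrongFusion p (Cfsg.centerThompsonAOf (S : Subgroup G))) (H : Subgroup G) (hH : H = Subgroup.normalizer ((Cfsg.centerThompsonAOf (S : Subgroup G)) : Set G)) : Cfsg.Involves ↥(Cfsg.fOver (ZMod p)) ↥H ∧ ∃ C : Subgroup G, C ≤ (Cfsg.centerThompsonAOf (S : Subgroup G)) ∧ Nat.card C = p ∧ (H ⊓ Subgroup.centralizer (C : Set G)).relIndex (H ⊓ Subgroup.normalizer (C : Set G)) = p - 1 := by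
  obtain ⟨g, hg⟩ := IsCyclic.exists_ofOrder_eq_natCard (α := (ZMod p)ˣ)
  have hlam : orderOf (g : ZMod p) = p - 1 := by
    rw [orderOf_units, hg, Nat.card_eq_fintype_card, ZMod.card_units]
  have hyp : H219.Red.Hyp p (S : Subgroup G) (Cfsg.centerThompsonAOf (S : Subgroup G)) :=
    ⟨S.isPGroup', S.not_dvd_index, le_rfl, le_rfl⟩
  rcases H219.Cent.rt hp (lam := (g : ZMod p)) g.ne_zero G (S : Subgroup G)
    (Cfsg.centerThompsonAOf (S : Subgroup G)) hyp with h1 | h1
  · exfalso
    apply h
    refine ⟨S, hyp.le, fun A hA => ⟨hA, fun y hy => ?_⟩⟩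
    obtain ⟨n, hn, c, hc, hnc⟩ := h1 (Subgroup.closure A) ((Subgroup.closure_le _).2 hA) y (by
      rw [MonoidHom.map_closure, Subgroup.closure_le]
      exact hy)
    refine ⟨n, hn, fun a ha => ?_⟩
    have h2 := Lib.GoldschmidtFusion.conj_eq_of_mem_centralizer hc (Subgroup.subset_closure ha)
    calc y * a * y⁻¹ = n * (c * a * c⁻¹) * n⁻¹ := by rw [hnc]; group
      _ = n * a * n⁻¹ := by rw [h2]
  · subst hH
    refine ⟨Lib.Involves.involves_iff.1 (H219.FInv.involves_f hp hlam S.isPGroup' hyp.le_norm h1), ?_⟩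
    exact H219.RelIdx.exists_C hlam S.isPGroup' le_rfl h1

end Cfsg.Agent.S2793
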