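import Cfsg.Statements.S2796
import Cfsg.Agent.S1997
import Cfsg.Agent.H223.SFourFun

set_option autoImplicit false
universe u
open Cfsg

namespace Cfsg.Agent.S2796

open Cfsg.Agent.H223.SFourD
open Cfsg.Agent.PLocal.S4FreeSection (S4Free s4Free_iff)

/-- Let G be a finite group in which the symmetric group of degree 4 is not involved, such that for every section K/R of G with C(O₂(K/R)) ≤ O₂(K/R) every non-abelian composition factor of K/R is a Suzuki group Sz(2^(2n+1)) or PSL₂ over a field with 3^(2n+1) elements. Let S be a Sylow 2-subgroup, J_e(S) the subgroup generated by its elementary abelian subgroups of largest order, and A the normal closure of Ω₁(Z(S)) in N_G(J_e(S)). Then A is an elementary abelian subgroup of S, strongly closed in S with respect to G, and A controls strong fusion in G. -/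
theorem result {G : Type u} [Group G] [Finite G] (hfree : ¬ Cfsg.Involves (Equiv.Perm (Fin 4)) G) (hsec : ∀ (K R : Subgroup G) [hR : (R.subgroupOf K).Normal], Subgroup.centralizer (Cfsg.pCore 2 (K ⧸ R.subgroupOf K) : Set (K ⧸ R.subgroupOf K)) ≤ Cfsg.pCore 2 (K ⧸ R.subgroupOf K) → Cfsg.IsCompositionKGroupWith Cfsg.IsSuzukiOrPSL2OddPowerThree (K ⧸ R.subgroupOf K)) (S : Sylow 2 G) (N : Subgroup G) (hN : N = Subgroup.normalizer (Cfsg.thompsonSubgroupOf 2 (S : Subgroup G) : Set G)) (A : Subgroup G) (hA : A = (Subgroup.normalClosure (((Cfsg.omegaOne 2 ((S : Subgroup G) ⊓ Subgroup.centralizer ((S : Subgroup G) : Set G))).subgroupOf N : Subgroup ↥N) : Set ↥N)).map N.subtype) : A ≤ S ∧ Cfsg.IsElementaryAbelian 2 A ∧ Cfsg.IsStronglyClosed A (S : Subgroup G) ∧ Cfsg.ControlsStrongFusion 2 A := by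
  have h4 : S4Free G := by
    rw [s4Free_iff]
    intro D ψ hψ
    apply hfree
    have hsub : (ψ.ker.map D.subtype).subgroupOf D = ψ.ker :=
      Subgroup.comap_map_eq_self_of_injective D.subtype_injective _
    have hn : ((ψ.ker.map D.subtype).subgroupOf D).Normal := by
      rw [hsub]
      infer_instance
    refine ⟨D, ψ.ker.map D.subtype, hn, ?_⟩
    exact ⟨(QuotientGroup.quotientMulEquivOfEq hsub).trans
      (QuotientGroup.quotientKerEquivOfSurjective ψ hψ)⟩
  have hF : Fact (Nat.Prime 2) := ⟨Nat.prime_two⟩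
  refine S1997.result S WJ WD isCharPFunctor_WJ isCharPFunctor_WD ?_ ?_ N ?_ A hA
  · intro K R hR hc T
    have h4' : S4Free (K ⧸ R.subgroupOf K) := (h4.subgroup K).quotient _
    rw [inducedFunctor_WJ, inducedFunctor_WD]
    have hn := D_normal h4' hc T
    have htop : Subgroup.normalizer (D (T : Subgroup (K ⧸ R.subgroupOf K)) :
        Set (K ⧸ R.subgroupOf K)) = ⊤ := Subgroup.normalizer_eq_top_iff.2 hn
    refine ⟨?_, ?_, ?_⟩
    · intro x
      obtain ⟨c, hc', n, hn', rfl⟩ := factor h4' hc T x
      exact ⟨c, Subgroup.centralizer_le (omega_le_D _) hc', n, hn', rfl⟩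
    · intro x
      refine ⟨1, one_mem _, x, ?_, (one_mul x).symm⟩
      rw [htop]
      exact Subgroup.mem_top x
    · intro x
      refine ⟨1, one_mem _, x, ?_, (one_mul x).symm⟩
      rw [htop]
      exact Subgroup.mem_top x
  · rw [inducedFunctor_WJ, inducedFunctor_WD]
    exact le_inf (omega_le_thompson _) (omega_le_D _)
  · rw [inducedFunctor_WJ]
    exact hN

end Cfsg.Agent.S2796
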