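import Cfsg.Statements.S2800
import Cfsg.Agent.H41.HypReduction
import Cfsg.Agent.H41.AbelianJ
import Cfsg.Agent.Lib.Involves
import Cfsg.Agent.Transfer.PNilpotentBasic
import Cfsg.Agent.Transfer.ThompsonReduction

set_option autoImplicit false
universe u
open Cfsg

namespace Cfsg.Agent.S2800

open Cfsg.Agent.PLocal.ThompsonJA Cfsg.Agent.Transfer.PNilpotentBasic Cfsg.Agent.Transfer.ThompsonReduction

/-- The hypothesis: `N_G(J(P))` and `C_G(Z(P))` have normal `p`-complements. -/
def Hy (p : ℕ) (G : Type u) [Group G] (P : Subgroup G) : Prop :=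
  HasNormalPComplement p (Subgroup.normalizer (thompsonSubgroupAOf P : Set G)) ∧
    HasNormalPComplement p (cZ P)

theorem map_of_injOn {G H : Type u} [Group G] [Group H] {f : G →* H} (U : Subgroup G) (hf : Set.InjOn f U) :
    thompsonSubgroupAOf (U.map f) = (thompsonSubgroupAOf U).map f := by
  have hg : Function.Injective (f.comp U.subtype) := fun a b hab => Subtype.ext (hf a.2 b.2 hab)
  have h1 := map_thompsonSubgroupAOf (f.comp U.subtype) hg ⊤
  have h2 := map_thompsonSubgroupAOf U.subtype U.subtype_injective ⊤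
  have e1 : (⊤ : Subgroup U).map (f.comp U.subtype) = U.map f := by
    rw [← Subgroup.map_map, ← MonoidHom.range_eq_map, Subgroup.range_subtype]
  have e2 : (⊤ : Subgroup U).map U.subtype = U := by
    rw [← MonoidHom.range_eq_map, Subgroup.range_subtype]
  rw [e1] at h1
  rw [e2] at h2
  rw [← h1, ← h2, Subgroup.map_map]

theorem hy_map (p : ℕ) [Fact p.Prime] (L G : Type u) [Group L] [Group G] [Finite L] [Finite G] (f : L →* G)
    (Q : Subgroup L) (hf : Function.Injective f) (_ : IsPGroup p Q) (h : Hy p G (Q.map f)) : Hy p L Q := by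
  refine ⟨hnc_of_map_le f hf _ _ ?_ h.1, hnc_of_map_le f hf _ _ (map_cZ_le hf Q) h.2⟩
  rw [← map_thompsonSubgroupAOf f hf]
  exact Subgroup.le_normalizer_map f

theorem hy_quo (p : ℕ) [Fact p.Prime] (G : Type u) [Group G] [Finite G] (N : Subgroup G) [N.Normal]
    (S : Subgroup G) (hN : (Nat.card N).Coprime p) (hS : IsPGroup p S) (h : Hy p G S) :
    Hy p (G ⧸ N) (S.map (QuotientGroup.mk' N)) := by
  obtain ⟨a, ha⟩ := IsPGroup.iff_card.1 hS
  have hcop : (Nat.card N).Coprime (Nat.card S) := by
    rw [ha]; exact Nat.Coprime.pow_right _ hN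
  have hdisj : Disjoint N S := Subgroup.disjoint_of_coprime_natCard hcop
  have hinj : Set.InjOn (QuotientGroup.mk' N) S := by
    intro x hx y hy hxy
    have h1 : x⁻¹ * y ∈ N := by
      rw [← QuotientGroup.ker_mk' N, MonoidHom.mem_ker, map_mul, map_inv, hxy, inv_mul_cancel]
    have h2 : x⁻¹ * y ∈ S := S.mul_mem (S.inv_mem hx) hy
    exact inv_mul_eq_one.1 (Subgroup.disjoint_def.1 hdisj h1 h2)
  constructor
  · refine hnc_of_le ?_ (hnc_map (QuotientGroup.mk' N) _ h.1)
    rw [map_of_injOn S hinj]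
    exact normalizer_map_mk_le _ N (hS.to_le (thompsonSubgroupAOf_le S)) hN
  · refine hnc_of_le ?_ (hnc_map (QuotientGroup.mk' N) _ h.2)
    have h1 : zC (S.map (QuotientGroup.mk' N)) = (zC S).map (QuotientGroup.mk' N) := by
      refine le_antisymm (zC_map_le S hinj) ?_
      rintro _ ⟨z, hz, rfl⟩
      rw [SetLike.mem_coe, mem_zC] at hz
      rw [mem_zC]
      refine ⟨⟨z, hz.1, rfl⟩, ?_⟩
      rintro _ ⟨s, hs, rfl⟩
      rw [← map_mul, ← map_mul, hz.2 s hs]
    unfold cZ
    rw [h1]
    exact centralizer_map_mk_le _ N (hS.to_le inf_le_left) hN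

theorem zC_ne_bot {G : Type u} [Group G] [Finite G] {p : ℕ} [Fact p.Prime] (P : Subgroup G)
    (hP : IsPGroup p P) (hP1 : P ≠ ⊥) : zC P ≠ ⊥ := by
  intro h1
  have : Nontrivial P := by
    rw [Subgroup.nontrivial_iff_ne_bot]; exact hP1
  have h2 := hP.bot_lt_center
  obtain ⟨z, hz, hz1⟩ := SetLike.exists_of_lt h2
  apply hz1
  have : (z : G) ∈ zC P := by
    refine ⟨z.2, Subgroup.mem_centralizer_iff.mpr ?_⟩
    intro y hy
    have := Subgroup.mem_center_iff.mp hz ⟨y, hy⟩
    exact congrArg Subtype.val this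
  rw [h1, Subgroup.mem_bot] at this
  rw [Subgroup.mem_bot]
  exact Subtype.ext this

theorem zC_le_J {G : Type u} [Group G] [Finite G] (P : Subgroup G) : zC P ≤ thompsonSubgroupAOf P :=
  (inf_centralizer_le_centerThompsonAOf P).trans (centerThompsonAOf_le_thompsonSubgroupAOf P)

theorem normalizer_le_zC {G : Type u} [Group G] (P : Subgroup G) :
    Subgroup.normalizer (P : Set G) ≤ Subgroup.normalizer (zC P : Set G) := by
  intro g hg
  rw [Subgroup.mem_normalizer_iff_map_conj_eq] at hg ⊢
  unfold zC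
  have h1 := map_inf_centralizer (MulAut.conj g).toMonoidHom (MulAut.conj g).injective P
  have h2 : (P.map (MulAut.conj g).toMonoidHom) = P := hg
  rw [h2] at h1
  exact h1

theorem hy_loc (p : ℕ) [Fact p.Prime] (G : Type u) [Group G] [Finite G] (Q : Subgroup G) (hQ : IsPGroup p Q)
    (hQ1 : Q ≠ ⊥)
    (h : ∀ K : Subgroup G, K ≤ Q → K ≠ ⊥ →
        Subgroup.normalizer (Q : Set G) ≤ Subgroup.normalizer (K : Set G) →
        Cfsg.HasNormalPComplement p (Subgroup.normalizer (K : Set G))) : Hy p G Q := by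
  refine ⟨h _ (thompsonSubgroupAOf_le Q) ?_ (normalizer_le_normalizer_thompsonSubgroupAOf Q), ?_⟩
  · intro h0
    apply zC_ne_bot Q hQ hQ1
    rw [eq_bot_iff, ← h0]
    exact zC_le_J Q
  · exact hnc_of_le (Subgroup.centralizer_le_normalizer _)
      (h (zC Q) inf_le_left (zC_ne_bot Q hQ hQ1) (normalizer_le_zC Q))

theorem hy_norm (p : ℕ) [Fact p.Prime] (G : Type u) [Group G] [Finite G] (P : Sylow p G)
    (hP : (P : Subgroup G).Normal) (h : Hy p G (P : Subgroup G)) : HasNormalPComplement p G := by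
  have h1 := normalizer_le_normalizer_thompsonSubgroupAOf (P : Subgroup G)
  rw [Subgroup.normalizer_eq_top_iff.mpr hP, top_le_iff] at h1
  have h2 := h.1
  rw [h1] at h2
  exact hnc_top.1 h2

theorem main {p : ℕ} [Fact p.Prime] (G : Type u) [Group G] [Finite G]
    (hS : p ≠ 2 ∨ ¬ Lib.Involves.Involves G (Equiv.Perm (Fin 4))) (P : Sylow p G)
    (h : Hy p G (P : Subgroup G)) : HasNormalPComplement p G := by
  refine H41.HypReduction.hasNormalPComplement_of_hyp_class (p := p) (Hy p)
    (fun G _ => p ≠ 2 ∨ ¬ Lib.Involves.Involves G (Equiv.Perm (Fin 4))) ?_ ?_ (hy_map p)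
    (hy_quo p) (hy_loc p) (hy_norm p) ?_ G hS P h
  · intro G _ L hL
    exact hL.imp id fun h1 h2 => h1 (Lib.Involves.of_subgroup h2)
  · intro G _ N _ hL
    exact hL.imp id fun h1 h2 => h1 (Lib.Involves.of_quotient h2)
  · intro G _ _ hS P A hAn hRA hab hcop htop hCR hmax hne hq hP
    rw [sup_comm] at htop
    rw [sup_comm] at htop
    have hZtop : (P : Subgroup G) ≤ cZ (P : Subgroup G) := by
      intro s hs
      rw [mem_cZ]
      intro z hz
      exact ((mem_zC.1 hz).2 s hs).symm
    rcases hmax _ hZtop with h1 | h1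
    · have key : (thompsonSubgroupAOf (P : Subgroup G)).Normal := by
        refine H41.AbelianJ.thompsonA_normal (R := pCore p G) (Lib.Cores.pCore_normal p)
          (Lib.Cores.pCore_le_sylow P) ?_
        intro B hB
        by_cases hp : p = 2
        · subst hp
          have hS' : ¬ ∃ (K R : Subgroup G) (hR : (R.subgroupOf K).Normal),
              Nonempty ((K ⧸ R.subgroupOf K) ≃* Equiv.Perm (Fin 4)) := by
            rcases hS with hS | hS
            · exact absurd rfl hS
            · intro h5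
              exact hS (Lib.Involves.involves_iff.mpr h5)
          exact H41.AbelianJ.le_pCore_of_two hS' P A hAn hRA.le hcop htop hCR hmax hne h1.le B hB
        · exact H41.AbelianJ.le_pCore_of_odd hp P A hAn hRA.le hab hcop htop hCR h1.le B hB
      have h2 := hP.1
      rw [Subgroup.normalizer_eq_top_iff.mpr key] at h2
      exact hnc_top.1 h2
    · have h2 := hP.2
      rw [h1] at h2
      exact hnc_top.1 h2

/-- Let S be a Sylow p-subgroup of the finite group G and J(S) the subgroup generated by the abelian subgroups of S of largest order. Suppose p is odd, or the symmetric group of degree 4 is not involved in G. If both C_G(Z(S)) and N_G(J(S)) have normal p-complements, then G has a normal p-complement. -/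
theorem result {G : Type*} [Group G] [Finite G] {p : ℕ} [Fact p.Prime] (S : Sylow p G) (h : p ≠ 2 ∨ ¬ Cfsg.Involves (Equiv.Perm (Fin 4)) G) (hC : Cfsg.HasNormalPComplement p ↥(Subgroup.centralizer (((S : Subgroup G) ⊓ Subgroup.centralizer ((S : Subgroup G) : Set G) : Subgroup G) : Set G))) (hN : Cfsg.HasNormalPComplement p ↥(Subgroup.normalizer ((Cfsg.thompsonSubgroupAOf (S : Subgroup G)) : Set G))) : Cfsg.HasNormalPComplement p G := by
  refine main G ?_ S ⟨hN, hC⟩
  refine h.imp id fun h1 h2 => h1 ?_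
  exact Lib.Involves.involves_iff.mp h2

end Cfsg.Agent.S2800
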