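import Cfsg.Statements.S2946
import Cfsg.Agent.H250.JSplit

set_option autoImplicit false
open Cfsg

namespace Cfsg.Agent.S2946

open Cfsg.Agent.H250.JBasic

/-- Let G be a finite group of characteristic 2 type in which every 2-local subgroup is solvable and the centralizer of Ω₁(Z(S)) lies in N_G(S) for every Sylow 2-subgroup S, and let T be a nontrivial 2-subgroup (below, J is the Thompson subgroup generated by the elementary abelian 2-subgroups of largest order), K a J(T)-component and Z₀ = Ω₁(Z(J(T))). Then Z₀ meets W_K = [Ω₁(Z(O₂(K))), K] in a subgroup of order 2, and Z₀ is the product of Z₀ ∩ Z(⟨K, J(T)⟩) and Z₀ ∩ W_K. -/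
theorem result {G : Type*} [Group G] [Finite G] (hL : Cfsg.IsCharacteristicTwoType G) (hN : ∀ N : Subgroup G, Cfsg.IsTwoLocal N → Group.IsSolvable ↥N)
    (hZ : ∀ S : Sylow 2 G, Subgroup.centralizer (Cfsg.omegaCenterOf (S : Subgroup G) : Set G) ≤ Subgroup.normalizer ((S : Subgroup G) : Set G)) (T : Subgroup G) (hT : IsPGroup 2 ↥T) (hT1 : T ≠ ⊥) (K : Subgroup G) (hK : Cfsg.IsJComponent T K)
    (Z₀ : Subgroup G) (hZ₀ : Z₀ = Cfsg.omegaCenterOf (Cfsg.thompsonSubgroupOf 2 T)) :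
    Nat.card ↥(Z₀ ⊓ Cfsg.wOf K) = 2 ∧
      (Z₀ ⊓ ((K ⊔ Cfsg.thompsonSubgroupOf 2 T) ⊓ Subgroup.centralizer ((K ⊔ Cfsg.thompsonSubgroupOf 2 T) : Set G))) ⊔ (Z₀ ⊓ Cfsg.wOf K) = Z₀ := by
  have h : JC (Cfsg.Agent.ZN.jj T) K := isJComponent_iff.1 hK
  have hJ : IsPGroup 2 (Cfsg.Agent.ZN.jj T) := hT.to_le (Cfsg.Agent.ZN.jj_le T)
  have hZ₀' : Z₀ = Cfsg.Agent.ZN.zc (Cfsg.Agent.ZN.jj T) := hZ₀
  subst hZ₀'
  constructor
  · have h1 : Cfsg.Agent.ZN.zc (Cfsg.Agent.ZN.jj T) ⊓ Cfsg.wOf K =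
        Cfsg.wOf K ⊓ Subgroup.centralizer (Cfsg.Agent.ZN.jj T : Set G) := by
      ext w
      constructor
      · rintro ⟨h1, h2⟩
        exact ⟨h2, Cfsg.Agent.ZN.zc_le_centralizer _ h1⟩
      · rintro ⟨h1, h2⟩
        exact ⟨Cfsg.Agent.ZN.mem_zc.2 ⟨h.wOf_le_J hJ h1, Subgroup.mem_centralizer_iff.1 h2,
          h.sqW w h1⟩, h1⟩
    rw [h1]
    exact h.card_inf_centralizer hJ
  · apply le_antisymm (sup_le inf_le_left inf_le_left)
    intro z hz
    obtain ⟨z', hz', hc, w, hw, hwz, rfl⟩ := h.exists_split hJ hz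
    refine Subgroup.mul_mem_sup ⟨hz', ?_, ?_⟩ ⟨hwz, hw⟩
    · exact (le_sup_right : _ ≤ K ⊔ Cfsg.Agent.ZN.jj T) (Cfsg.Agent.ZN.zc_le _ hz')
    · refine Subgroup.centralizer_le ?_ hc
      exact Set.union_subset (SetLike.coe_subset_coe.2 le_sup_left)
        (SetLike.coe_subset_coe.2 le_sup_right)

end Cfsg.Agent.S2946
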