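-- Statement S2954: the two maximal 2-locals over a maximal straddling 2-subgroup of a ZN-group.
import Cfsg.Statements.S2954
import Cfsg.Agent.H252.SymC2

set_option autoImplicit false
open Cfsg

namespace Cfsg.Agent.S2954

/-- Let G be a finite group of characteristic 2 type in which every 2-local subgroup is solvable and the centralizer of Ω₁(Z(S)) lies in N_G(S) for every Sylow 2-subgroup S; suppose O₂(G) = 1, fix a Sylow 2-subgroup S and a 2-local subgroup M containing N_G(J(S)) (J the Thompson subgroup generated by the elementary abelian 2-subgroups of largest order). If T is maximal (for the order of a largest elementary abelian subgroup, then the order of J(T), then the order of T) among the nontrivial 2-subgroups of M lying in a 2-local subgroup not inside M, then there are two distinct maximal 2-local subgroups P₁, P₂ of G, each having T as a Sylow 2-subgroup, that are both isomorphic to the symmetric group on four letters or both isomorphic to its direct product with a group of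 order 2. -/
theorem result {G : Type*} [Group G] [Finite G] (hL : Cfsg.IsCharacteristicTwoType G) (hN : ∀ N : Subgroup G, Cfsg.IsTwoLocal N → Group.IsSolvable ↥N)
    (hZ : ∀ S : Sylow 2 G, Subgroup.centralizer (Cfsg.omegaCenterOf (S : Subgroup G) : Set G) ≤ Subgroup.normalizer ((S : Subgroup G) : Set G)) (hO : Cfsg.pCore 2 G = ⊥) (S : Sylow 2 G) (M : Subgroup G) (hM : Cfsg.IsTwoLocal M)
    (hMJ : Subgroup.normalizer (Cfsg.thompsonSubgroupOf 2 (S : Subgroup G) : Set G) ≤ M) (T : Subgroup G) (hT : T ∈ Cfsg.maxStraddlingTwoSubgroups M) :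
    ∃ P₁ P₂ : Subgroup G, P₁ ≠ P₂ ∧ Cfsg.IsMaximalTwoLocal P₁ ∧ Cfsg.IsMaximalTwoLocal P₂ ∧
      Cfsg.IsSylowTwoIn T P₁ ∧ Cfsg.IsSylowTwoIn T P₂ ∧
      ((Nonempty (↥P₁ ≃* Equiv.Perm (Fin 4)) ∧ Nonempty (↥P₂ ≃* Equiv.Perm (Fin 4))) ∨
        (Nonempty (↥P₁ ≃* Equiv.Perm (Fin 4) × Multiplicative (ZMod 2)) ∧
          Nonempty (↥P₂ ≃* Equiv.Perm (Fin 4) × Multiplicative (ZMod 2)))) := by
  obtain ⟨e, U₁, U₂, hts⟩ := Cfsg.Agent.H252.ZNStruct.exists_ts hL hN hZ hO S hM hMJ hT
  have h := hts.dat
  refine ⟨_, _, h.normalizer_ne, h.max₁, h.max₂, ⟨h.cross.norm₁, h.cross.two, ?_⟩,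
    ⟨h.cross.norm₂, h.cross.two, ?_⟩, ?_⟩
  · rw [h.relIndex]; decide
  · rw [h.symm.relIndex]; decide
  · rcases h.he with rfl | rfl
    · exact Or.inl ⟨h.good24.equiv_perm, h.good24'.equiv_perm⟩
    · exact Or.inr ⟨Cfsg.Agent.H252.SymC2.equiv_prod h, Cfsg.Agent.H252.SymC2.equiv_prod h.symm⟩

end Cfsg.Agent.S2954
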