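import Cfsg.Statements.S3084
import Cfsg.Agent.H281.TwExt

set_option autoImplicit false
open Cfsg

namespace Cfsg.Agent.S3084

open Cfsg.Agent.H281.Tw in
theorem main0 {K : Type} [Group K] [Finite K] {U : Type} [AddCommGroup U] [Module (ZMod 2) U] [Module.Finite (ZMod 2) U] (n : ℕ) (hn1 : 1 ≤ n) (hn : Module.finrank (ZMod 2) U = 2 * n) (ρ : Representation (ZMod 2) K U) (q : QuadraticForm (ZMod 2) U) (hq : ∀ (k : K) (u : U), q (ρ k u) = q u) (hnd : (QuadraticMap.polarBilin q).Nondegenerate) : ∃ (R : Type) (_ : Group R) (_ : Finite R) (Q : Subgroup R) (hN : Q.Normal) (e : R ⧸ Q ≃* K) (χ : ↥Q →* Multiplicative U), Cfsg.IsExtraspecial 2 ↥Q ∧ Nat.card ↥Q = 2 ^ (2 * n + 1) ∧ Function.Surjective χ ∧ χ.ker = Subgroup.center ↥Q ∧ (∀ (r : R) (a : ↥Q), χ ⟨r * a * r⁻¹, hN.conj_mem (a : R) a.2 r⟩ = Multiplicative.ofAdd (ρ (e (r : R ⧸ Q)) (Multiplicative.toAdd (χ a)))) ∧ ∀ a : ↥Q, a * a = 1 ↔ q (Multiplicative.toAdd (χ a)) = 0 := by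
  classical
  have hfU : Finite U := Module.finite_of_finite (ZMod 2)
  have : Fintype U := Fintype.ofFinite U
  -- the bilinear form
  let β : LinearMap.BilinForm (ZMod 2) U := q.toBilin (Module.finBasis (ZMod 2) U)
  have hβ : ∀ u, β u u = q u := by
    intro u
    have h := QuadraticMap.toQuadraticMap_toBilin q (Module.finBasis (ZMod 2) U)
    have h2 := congrArg (fun (f : QuadraticForm (ZMod 2) U) => f u) h
    exact h2
  have hpol : ∀ u v, QuadraticMap.polar q u v = β u v + β v u := by
    intro u v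
    rw [QuadraticMap.polar, ← hβ, ← hβ, ← hβ]
    simp only [map_add, LinearMap.add_apply]; ring
  have hndβ : ∀ u, (∀ v, β u v + β v u = 0) → u = 0 := by
    intro u hu
    apply hnd.1
    intro v
    rw [QuadraticMap.polarBilin_apply_apply, hpol]
    exact hu v
  have hqβ : ∀ (k : K) (u : U), β (ρ k u) (ρ k u) = β u u := by
    intro k u; rw [hβ, hβ, hq]
  have hcardU : Nat.card U = 2 ^ (2 * n) := by
    have := Module.card_eq_pow_finrank (K := ZMod 2) (V := U)
    rw [hn] at this
    rw [Nat.card_eq_fintype_card, this]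
    simp
  have hfT : Finite ((U → ZMod 3) ≃ₗ[ZMod 3] (U → ZMod 3)) :=
    Finite.of_injective (fun T => (T : (U → ZMod 3) → (U → ZMod 3))) DFunLike.coe_injective
  have hfG : Finite ↥(GG β ρ) := inferInstance
  have hker : ∀ a : ↥(pr β ρ).ker, ∃ (v : U) (c : ZMod 2), ∀ h, a.1.1.2 h = sg c • L β v h :=
    fun a => exists_of_ker β ρ hndβ a.1 ((MonoidHom.mem_ker).1 a.2)
  choose w d hwd using hker
  have huniq : ∀ (a : ↥(pr β ρ).ker) (v : U) (c : ZMod 2), (∀ h, a.1.1.2 h = sg c • L β v h) →
      w a = v ∧ d a = c := by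
    intro a v c h
    apply sgL_inj β
    rw [← hwd, ← h]
  -- equality in the kernel
  have hext : ∀ a b : ↥(pr β ρ).ker, w a = w b → d a = d b → a = b := by
    intro a b h1 h2
    apply Subtype.ext
    apply Subtype.ext
    apply Prod.ext
    · have e1 : a.1.1.1 = 1 := (MonoidHom.mem_ker).1 a.2
      have e2 : b.1.1.1 = 1 := (MonoidHom.mem_ker).1 b.2
      rw [e1, e2]
    · apply LinearEquiv.ext
      intro h
      rw [hwd, hwd, h1, h2]
  have hmul : ∀ a b : ↥(pr β ρ).ker, w (a * b) = w a + w b ∧ d (a * b) = d a + d b + β (w a) (w b) := by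
    intro a b
    apply huniq
    intro h
    change a.1.1.2 (b.1.1.2 h) = _
    rw [hwd, hwd, map_smul, L_L, smul_smul, smul_smul, sg_add, sg_add]
  have hone : w 1 = 0 ∧ d 1 = 0 := by
    apply huniq
    intro h
    change h = _
    rw [L_zero, sg_zero, one_smul]
  let χ : ↥(pr β ρ).ker →* Multiplicative U :=
    { toFun := fun a => Multiplicative.ofAdd (w a)
      map_one' := by rw [hone.1]; rfl
      map_mul' := fun a b => by rw [(hmul a b).1]; rfl }
  have hχ : ∀ a, Multiplicative.toAdd (χ a) = w a := fun a => rfl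
  have hsurj : ∀ v c, ∃ a : ↥(pr β ρ).ker, w a = v ∧ d a = c := by
    intro v c
    obtain ⟨p, hp, hp2⟩ := exists_elt β ρ v c
    exact ⟨⟨p, (MonoidHom.mem_ker).2 hp⟩, huniq _ v c hp2⟩
  have hχs : Function.Surjective χ := by
    intro v
    obtain ⟨a, ha, _⟩ := hsurj (Multiplicative.toAdd v) 0
    exact ⟨a, by change Multiplicative.ofAdd (w a) = v; rw [ha]; rfl⟩
  have hχk : ∀ a, a ∈ χ.ker ↔ w a = 0 := by
    intro a
    rw [MonoidHom.mem_ker]
    constructor
    · intro h
      rw [← hχ, h]; rfl
    · intro h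
      change Multiplicative.ofAdd (w a) = 1
      rw [h]; rfl
  have hcen : χ.ker = Subgroup.center _ := by
    ext a
    rw [hχk, Subgroup.mem_center_iff]
    constructor
    · intro ha b
      apply hext
      · rw [(hmul _ _).1, (hmul _ _).1, add_comm]
      · rw [(hmul _ _).2, (hmul _ _).2, ha]
        simp only [map_zero, LinearMap.zero_apply]
        ring
    · intro ha
      apply hndβ
      intro v
      obtain ⟨b, hb, _⟩ := hsurj v 0
      have h := congrArg d (ha b)
      rw [(hmul _ _).2, (hmul _ _).2, hb] at h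
      have key : ∀ x y s t : ZMod 2, t + s + y = s + t + x → x + y = 0 := by decide
      exact key _ _ _ _ h
  have hkc : Nat.card χ.ker = 2 := by
    have : Nat.card χ.ker = Nat.card (ZMod 2) := by
      refine Nat.card_congr (Equiv.ofBijective (fun a : χ.ker => d a.1) ⟨?_, ?_⟩)
      · intro a b h
        apply Subtype.ext
        apply hext
        · rw [(hχk _).1 a.2, (hχk _).1 b.2]
        · exact h
      · intro c
        obtain ⟨a, ha, hc⟩ := hsurj 0 c
        exact ⟨⟨a, (hχk a).2 ha⟩, hc⟩
    rw [this, Nat.card_zmod]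
  have hcard : Nat.card ↥(pr β ρ).ker = 2 ^ (2 * n + 1) := by
    have h1 := Subgroup.card_mul_index χ.ker
    rw [Subgroup.index_ker, MonoidHom.range_eq_top.2 hχs, Subgroup.card_top] at h1
    rw [← h1, hkc]
    change 2 * Nat.card U = _
    rw [hcardU, pow_succ, mul_comm]
  have hsq : ∀ a : ↥(pr β ρ).ker, w (a * a) = 0 ∧ d (a * a) = q (w a) := by
    intro a
    refine ⟨?_, ?_⟩
    · rw [(hmul _ _).1, add_self]
    · rw [(hmul _ _).2, hβ, CharTwo.add_self_eq_zero, zero_add]
  have hsq1 : ∀ a : ↥(pr β ρ).ker, a * a = 1 ↔ q (Multiplicative.toAdd (χ a)) = 0 := by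
    intro a
    rw [hχ]
    constructor
    · intro h
      rw [← (hsq a).2, h, hone.2]
    · intro h
      apply hext
      · rw [(hsq a).1, hone.1]
      · rw [(hsq a).2, hone.2, h]
  have hES : Cfsg.IsExtraspecial 2 ↥(pr β ρ).ker := by
    apply Cfsg.Agent.J2.ExtQuot.isExtraspecial_two
    · exact IsPGroup.of_card hcard
    · rw [← hcen]; exact hkc
    · intro a
      rw [← hcen, pow_two, hχk]
      exact (hsq a).1
    · by_contra hcon
      push Not at hcon
      have hnt : Nontrivial U := by
        rw [← Finite.one_lt_card_iff_nontrivial, hcardU]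
        exact Nat.one_lt_pow (by omega) (by norm_num)
      obtain ⟨u, hu⟩ := exists_ne (0 : U)
      apply hu
      apply hndβ
      intro v
      obtain ⟨a, ha, _⟩ := hsurj u 0
      obtain ⟨b, hb, _⟩ := hsurj v 0
      have h := congrArg d (hcon a b)
      rw [(hmul _ _).2, (hmul _ _).2, ha, hb] at h
      have key : ∀ x y s t : ZMod 2, s + t + x = t + s + y → x + y = 0 := by decide
      exact key _ _ _ _ h
  refine ⟨↥(GG β ρ), inferInstance, hfG, (pr β ρ).ker, inferInstance,
    QuotientGroup.quotientKerEquivOfSurjective (pr β ρ) (pr_surjective β ρ hndβ hqβ), χ,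
    hES, hcard, hχs, hcen, ?_, hsq1⟩
  intro r a
  have e1 : (QuotientGroup.quotientKerEquivOfSurjective (pr β ρ) (pr_surjective β ρ hndβ hqβ))
      (r : ↥(GG β ρ) ⧸ (pr β ρ).ker) = r.1.1 := rfl
  rw [e1, hχ]
  change Multiplicative.ofAdd (w _) = _
  congr 1
  obtain ⟨s, hs⟩ := r.2.2 (w a)
  refine (huniq _ (ρ r.1.1 (w a)) (d a + s) ?_).1
  intro h
  change r.1.2 (a.1.1.2 (r.1.2.symm h)) = _
  rw [hwd, map_smul, hs, LinearEquiv.apply_symm_apply, smul_smul, sg_add]

/-- Let K be a group acting faithfully and linearly on a finite-dimensional vector space U of dimension 2n ≥ 2 over the field with two elements, preserving a quadratic form q whose polar bilinear form is non-degenerate and which vanishes on some n-dimensional subspace (a non-singular form of plus type). Then there is a finite group R with a normal extraspecial 2-subgroup Q of order 2^(2n+1), an isomorphism of R/Q with K, and a surjective homomorphism χ from Q onto (the additive group of) U with kernel the centre of Q, such that χ carries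 conjugation by any r in R to the action of the image of r in K, and an element a of Q squares to the identity exactly when q vanishes at χ(a). -/
theorem result {K : Type*} [Group K] {U : Type*} [AddCommGroup U] [Module (ZMod 2) U] [Module.Finite (ZMod 2) U] (n : ℕ) (hn1 : 1 ≤ n) (hn : Module.finrank (ZMod 2) U = 2 * n) (ρ : Representation (ZMod 2) K U) (hρ : Function.Injective ρ) (q : QuadraticForm (ZMod 2) U) (hq : ∀ (k : K) (u : U), q (ρ k u) = q u) (hnd : (QuadraticMap.polarBilin q).Nondegenerate) (hplus : ∃ W : Submodule (ZMod 2) U, Module.finrank (ZMod 2) ↥W = n ∧ ∀ w ∈ W, q w = 0) : ∃ (R : Type) (_ : Group R) (_ : Finite R) (Q : Subgroup R) (hN : Q.Normal) (e : R ⧸ Q ≃* K) (χ : ↥Q →* Multiplicative U), Cfsg.IsExtraspecial 2 ↥Q ∧ Nat.card ↥Q = 2 ^ (2 * n + 1) ∧ Function.Surjective χ ∧ χ.ker = Subgroup.center ↥Q ∧ (∀ (r : R) (a : ↥Q), χ ⟨r * a * r⁻¹, hN.conj_mem (a : R) a.2 r⟩ = Multiplicative.ofAdd (ρ (e (r : R ⧸ Q)) (Multiplicative.toAdd (χ a)))) ∧ ∀ a : ↥Q, a * a = 1 ↔ q (Multiplicative.toAdd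 (χ a)) = 0 := by
  have hfU : Finite U := Module.finite_of_finite (ZMod 2)
  have hfE : Finite (Module.End (ZMod 2) U) :=
    Finite.of_injective (fun T => (T : U → U)) DFunLike.coe_injective
  have hfK : Finite K := Finite.of_injective ρ hρ
  have hsK : Small.{0} K := Countable.toSmall K
  let eK : Shrink.{0} K ≃* K := Shrink.mulEquiv
  have hfK' : Finite (Shrink.{0} K) := Finite.of_equiv K eK.symm.toEquiv
  let eU : U ≃ₗ[ZMod 2] (Fin (2 * n) → ZMod 2) := (Module.finBasisOfFinrankEq (ZMod 2) U hn).equivFun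
  let ρ' : Representation (ZMod 2) (Shrink.{0} K) (Fin (2 * n) → ZMod 2) :=
    { toFun := fun k => eU.toLinearMap ∘ₗ ρ (eK k) ∘ₗ eU.symm.toLinearMap
      map_one' := by
        apply LinearMap.ext
        intro x
        simp
      map_mul' := by
        intro a b
        apply LinearMap.ext
        intro x
        simp [Module.End.mul_apply] }
  have hρ' : ∀ k x, ρ' k x = eU (ρ (eK k) (eU.symm x)) := fun k x => rfl
  let q' : QuadraticForm (ZMod 2) (Fin (2 * n) → ZMod 2) := q.comp eU.symm.toLinearMap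
  have hq' : ∀ x, q' x = q (eU.symm x) := fun x => rfl
  obtain ⟨R, hG, hF, Q, hN, e, χ, h1, h2, h3, h4, h5, h6⟩ := main0 n hn1 (by simp) ρ' q'
    (by intro k u; rw [hq', hq', hρ', LinearEquiv.symm_apply_apply, hq])
    (by
      have hp : ∀ x y, QuadraticMap.polar q' x y = QuadraticMap.polar q (eU.symm x) (eU.symm y) := by
        intro x y
        rw [QuadraticMap.polar, QuadraticMap.polar, hq', hq', hq', map_add]
      refine ⟨?_, ?_⟩
      · intro x hx
        have : eU.symm x = 0 := by
          apply hnd.1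
          intro v
          have := hx (eU v)
          rw [QuadraticMap.polarBilin_apply_apply, hp, LinearEquiv.symm_apply_apply] at this
          rw [QuadraticMap.polarBilin_apply_apply]; exact this
        exact (LinearEquiv.map_eq_zero_iff _).1 this
      · intro x hx
        have : eU.symm x = 0 := by
          apply hnd.2
          intro v
          have := hx (eU v)
          rw [QuadraticMap.polarBilin_apply_apply, hp, LinearEquiv.symm_apply_apply] at this
          rw [QuadraticMap.polarBilin_apply_apply]; exact this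
        exact (LinearEquiv.map_eq_zero_iff _).1 this)
  let ψ : Multiplicative (Fin (2 * n) → ZMod 2) ≃* Multiplicative U :=
    AddEquiv.toMultiplicative eU.symm.toAddEquiv
  have hψ : ∀ x, Multiplicative.toAdd (ψ x) = eU.symm (Multiplicative.toAdd x) := fun x => rfl
  refine ⟨R, hG, hF, Q, hN, e.trans eK, ψ.toMonoidHom.comp χ, h1, h2, ?_, ?_, ?_, ?_⟩
  · exact ψ.surjective.comp h3
  · rw [← h4]
    ext a
    rw [MonoidHom.mem_ker, MonoidHom.mem_ker]
    exact MulEquiv.map_eq_one_iff ψ
  · intro r a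
    change ψ (χ _) = _
    rw [h5]
    change Multiplicative.ofAdd (eU.symm _) = Multiplicative.ofAdd (ρ (eK (e _)) (eU.symm _))
    rw [toAdd_ofAdd, hρ', LinearEquiv.symm_apply_apply]
  · intro a
    rw [h6, hq']
    rfl

end Cfsg.Agent.S3084
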