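import Cfsg.Statements.S3085
import Cfsg.Agent.Transfer.Extraspecial

set_option autoImplicit false
open Cfsg

namespace Cfsg.Agent.S3085

open Subgroup

/-- The data of an extraspecial 2-group. -/
structure Hyp (Q : Type*) [Group Q] (z : Q) : Prop where
  ne : z ≠ 1
  sq : z * z = 1
  comm : ∀ a, z * a = a * z
  cen : ∀ a, a ∈ center Q ↔ a = 1 ∨ a = z
  cc : ∀ a b : Q, a * b = b * a ∨ a * b = b * a * z

section
variable {Q : Type*} [Group Q] {z : Q}

open Classical in
/-- the automorphism `φ_x` as a function -/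
noncomputable def phi (x : Q) (a : Q) : Q := if a * x = x * a then a else a * x

theorem phi_mul (h : Hyp Q z) {x : Q} (hx : x * x = z) (a b : Q) :
    phi x (a * b) = phi x a * phi x b := by
  have hz := h.comm
  by_cases ha : a * x = x * a
  · by_cases hb : b * x = x * b
    · have hab : a * b * x = x * (a * b) := by rw [mul_assoc, hb, ← mul_assoc, ha, mul_assoc]
      rw [phi, phi, phi, if_pos ha, if_pos hb, if_pos hab]
    · have hab : ¬ a * b * x = x * (a * b) := by
        intro hab
        apply hb
        have : a * (b * x) = a * (x * b) := by rw [← mul_assoc, hab, ← mul_assoc, ← mul_assoc, ha]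
        exact mul_left_cancel this
      rw [phi, phi, phi, if_pos ha, if_neg hb, if_neg hab, mul_assoc]
  · have ha' : a * x = x * a * z := (h.cc a x).resolve_left ha
    by_cases hb : b * x = x * b
    · have hab : ¬ a * b * x = x * (a * b) := by
        intro hab
        apply ha
        have : a * x * b = x * a * b := by rw [mul_assoc, ← hb, ← mul_assoc, hab, mul_assoc]
        exact mul_right_cancel this
      rw [phi, phi, phi, if_neg ha, if_pos hb, if_neg hab, mul_assoc, hb, mul_assoc]
    · have hb' : b * x = x * b * z := (h.cc b x).resolve_left hb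
      have hab : a * b * x = x * (a * b) := by
        calc a * b * x = a * (b * x) := mul_assoc _ _ _
          _ = a * x * (b * z) := by rw [hb']; group
          _ = x * a * (z * b * z) := by rw [ha']; group
          _ = x * a * (b * (z * z)) := by rw [hz b]; group
          _ = x * (a * b) := by rw [h.sq]; group
      rw [phi, phi, phi, if_neg ha, if_neg hb, if_pos hab]
      calc a * b = a * (b * (z * z)) := by rw [h.sq]; group
        _ = a * ((b * z) * z) := by group
        _ = a * (z * (b * z)) := by rw [hz (b * z)]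
        _ = a * (x * x) * (b * z) := by rw [hx]; group
        _ = a * x * (x * b * z) := by group
        _ = a * x * (b * x) := by rw [hb']

theorem phi_self (x : Q) : phi x x = x := by rw [phi, if_pos rfl]

theorem phi_of_comm {x a : Q} (h : a * x = x * a) : phi x a = a := by rw [phi, if_pos h]
theorem phi_of_not_comm {x a : Q} (h : a * x ≠ x * a) : phi x a = a * x := by rw [phi, if_neg h]

theorem phi_comm_iff (x a : Q) : phi x a * x = x * phi x a ↔ a * x = x * a := by
  by_cases h : a * x = x * a
  · rw [phi_of_comm h]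
  · rw [phi_of_not_comm h]
    constructor
    · intro h2
      rw [← mul_assoc] at h2
      exact mul_right_cancel h2
    · intro h2; exact absurd h2 h

theorem phi_phi (h : Hyp Q z) {x : Q} (hx : x * x = z) (a : Q) : phi x (phi x a) = x * a * x⁻¹ := by
  by_cases ha : a * x = x * a
  · rw [phi_of_comm ha, phi_of_comm ha, ← ha]; group
  · have h2 : phi x a * x ≠ x * phi x a := fun h' => ha ((phi_comm_iff x a).1 h')
    rw [phi_of_not_comm h2, phi_of_not_comm ha, mul_assoc, hx]
    have ha' : a * x = x * a * z := (h.cc a x).resolve_left ha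
    have : x * a = a * x * z := by rw [ha', mul_assoc, h.sq, mul_one]
    rw [this, mul_assoc, mul_assoc, h.comm x⁻¹]; group

theorem phi_bij (h : Hyp Q z) {x : Q} (hx : x * x = z) : Function.Bijective (phi x : Q → Q) := by
  have hb : Function.Bijective (fun a => phi x (phi x a)) := by
    have : (fun a => phi x (phi x a)) = (MulAut.conj x : MulAut Q) := by
      funext a
      rw [phi_phi h hx, MulAut.conj_apply]
    rw [this]
    exact MulEquiv.bijective _
  refine ⟨?_, ?_⟩
  · intro a b hab
    apply hb.1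
    simp only [hab]
  · intro b
    obtain ⟨a, ha⟩ := hb.2 b
    exact ⟨phi x a, ha⟩

/-- the automorphism `φ_x` -/
noncomputable def Phi (h : Hyp Q z) {x : Q} (hx : x * x = z) : MulAut Q :=
  MulEquiv.ofBijective (MonoidHom.mk' (phi x) (phi_mul h hx)) (phi_bij h hx)

theorem Phi_apply (h : Hyp Q z) {x : Q} (hx : x * x = z) (a : Q) : Phi h hx a = phi x a := rfl

theorem Phi_conj (h : Hyp Q z) {x : Q} (hx : x * x = z) (w : Q) :
    Phi h hx * MulAut.conj w = MulAut.conj (phi x w) * Phi h hx := by
  apply MulEquiv.ext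
  intro a
  rw [MulAut.mul_apply, MulAut.mul_apply, MulAut.conj_apply, MulAut.conj_apply, map_mul, map_mul,
    map_inv, Phi_apply, Phi_apply]

theorem Phi_sq (h : Hyp Q z) {x : Q} (hx : x * x = z) : Phi h hx * Phi h hx = MulAut.conj x := by
  apply MulEquiv.ext
  intro a
  rw [MulAut.mul_apply, MulAut.conj_apply, Phi_apply, Phi_apply, phi_phi h hx]

theorem phi_phi_comm {x y : Q} (hxy : x * y = y * x) (a : Q) : phi x (phi y a) = phi y (phi x a) := by
  by_cases ha : a * x = x * a
  · rw [phi_of_comm ha]
    by_cases hb : a * y = y * a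
    · rw [phi_of_comm hb, phi_of_comm ha]
    · rw [phi_of_not_comm hb]
      apply phi_of_comm
      rw [mul_assoc, ← hxy, ← mul_assoc, ha, mul_assoc]
  · rw [phi_of_not_comm ha]
    by_cases hb : a * y = y * a
    · rw [phi_of_comm hb, phi_of_not_comm ha]
      symm
      apply phi_of_comm
      rw [mul_assoc, hxy, ← mul_assoc, hb, mul_assoc]
    · rw [phi_of_not_comm hb]
      have h1 : a * y * x ≠ x * (a * y) := by
        intro h1
        apply ha
        have : a * x * y = x * a * y := by rw [mul_assoc, hxy, ← mul_assoc, h1, mul_assoc]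
        exact mul_right_cancel this
      have h2 : a * x * y ≠ y * (a * x) := by
        intro h1
        apply hb
        have : a * y * x = y * a * x := by rw [mul_assoc, ← hxy, ← mul_assoc, h1, mul_assoc]
        exact mul_right_cancel this
      rw [phi_of_not_comm h1, phi_of_not_comm h2, mul_assoc, mul_assoc, hxy]

theorem Phi_comm (h : Hyp Q z) {x y : Q} (hx : x * x = z) (hy : y * y = z) (hxy : x * y = y * x) :
    Phi h hx * Phi h hy = Phi h hy * Phi h hx := by
  apply MulEquiv.ext
  intro a
  rw [MulAut.mul_apply, MulAut.mul_apply, Phi_apply, Phi_apply, Phi_apply, Phi_apply,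
    phi_phi_comm hxy]

theorem conj_eq_one (h : Hyp Q z) {w : Q} (hw : MulAut.conj w = 1) : w = 1 ∨ w = z := by
  rw [← h.cen, mem_center_iff]
  intro a
  have := congrArg (fun f : MulAut Q => f a) hw
  simp only [MulAut.conj_apply, MulAut.one_apply] at this
  rw [mul_inv_eq_iff_eq_mul] at this
  exact this.symm

theorem conj_eq_conj (h : Hyp Q z) {v w : Q} (hw : MulAut.conj v = MulAut.conj w) :
    v = w ∨ v = w * z := by
  have : MulAut.conj (w⁻¹ * v) = 1 := by rw [map_mul, map_inv, hw, inv_mul_cancel]
  rcases conj_eq_one h this with h1 | h1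
  · left; rw [inv_mul_eq_one] at h1; exact h1.symm
  · right; rw [inv_mul_eq_iff_eq_mul] at h1; exact h1

/-- equality modulo `z` -/
def Eqv (z a b : Q) : Prop := a = b ∨ a = b * z

theorem Eqv.trans (h : Hyp Q z) {a b c : Q} (h1 : Eqv z a b) (h2 : Eqv z b c) : Eqv z a c := by
  rcases h1 with rfl | rfl
  · exact h2
  · rcases h2 with rfl | rfl
    · right; rfl
    · left; rw [mul_assoc, h.sq, mul_one]

theorem Eqv.mul_right (h : Hyp Q z) {a b : Q} (h1 : Eqv z a b) (c : Q) : Eqv z (a * c) (b * c) := by
  rcases h1 with rfl | rfl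
  · left; rfl
  · right; rw [mul_assoc, h.comm, mul_assoc]

theorem Eqv.cancel {a b c : Q} (h1 : Eqv z (a * b) (a * c)) : Eqv z b c := by
  rcases h1 with h1 | h1
  · left; exact mul_left_cancel h1
  · right; rw [mul_assoc] at h1; exact mul_left_cancel h1

/-- The key lemma. -/
theorem key (h : Hyp Q z) (L : Subgroup (MulAut Q)) (hL : (Cfsg.Inn Q).IsComplement' L)
    {x y₁ y₂ : Q} (hx : x * x = z) (h1 : y₁ * y₁ = z) (h2 : y₂ * y₂ = z)
    (hx1 : x * y₁ = y₁ * x) (hx2 : x * y₂ = y₂ * x) (h12 : y₁ * y₂ = y₂ * y₁)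
    (hn1 : x ≠ y₁) (hn1' : x ≠ y₁ * z) (hn2 : x ≠ y₂) (hn2' : x ≠ y₂ * z) (hn3 : y₁ ≠ y₂)
    (hn3' : y₁ ≠ y₂ * z) : False := by
  have hz := h.comm
  have hlift : ∀ {v : Q} (hv : v * v = z), ∃ w : Q, MulAut.conj w * Phi h hv ∈ L := by
    intro v hv
    obtain ⟨⟨⟨i, ⟨w, rfl⟩⟩, l⟩, hil⟩ := hL.2 (Phi h hv)
    refine ⟨w⁻¹, ?_⟩
    simp only at hil
    rw [← hil, map_inv, inv_mul_cancel_left]
    exact l.2
  have hdisj : ∀ w : Q, MulAut.conj w ∈ L → MulAut.conj w = 1 := by
    intro w hw
    have := hL.disjoint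
    rw [Subgroup.disjoint_def] at this
    exact this ⟨w, rfl⟩ hw
  obtain ⟨w, hw⟩ := hlift hx
  -- (i)
  have hi : w * x ≠ x * w := by
    intro hwx
    have e : MulAut.conj w * Phi h hx * (MulAut.conj w * Phi h hx) = MulAut.conj (w * w * x) := by
      calc MulAut.conj w * Phi h hx * (MulAut.conj w * Phi h hx)
          = MulAut.conj w * (Phi h hx * MulAut.conj w) * Phi h hx := by group
        _ = MulAut.conj w * MulAut.conj (phi x w) * (Phi h hx * Phi h hx) := by
            rw [Phi_conj]; group
        _ = MulAut.conj (w * w * x) := by rw [Phi_sq, phi_of_comm hwx, map_mul, map_mul]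
    have h3 := hdisj _ (e ▸ L.mul_mem hw hw)
    have hww : w * w = 1 ∨ w * w = z := by
      have h4 : ∀ a, a * (w * w) = (w * w) * a := by
        intro a
        rcases h.cc a w with h5 | h5
        · rw [← mul_assoc, h5, mul_assoc, h5, ← mul_assoc]
        · calc a * (w * w) = a * w * w := by group
            _ = w * a * (z * w) := by rw [h5]; group
            _ = w * (a * w) * z := by rw [hz w]; group
            _ = w * w * a * (z * z) := by rw [h5]; group
            _ = (w * w) * a := by rw [h.sq]; group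
      rw [← h.cen, mem_center_iff]
      exact h4
    have hxx : x = 1 ∨ x = z := by
      rcases conj_eq_one h h3 with h4 | h4 <;> rcases hww with h5 | h5
      · left; rwa [h5, one_mul] at h4
      · right
        rw [h5] at h4
        have : z * (z * x) = z := by rw [h4, mul_one]
        rwa [← mul_assoc, h.sq, one_mul] at this
      · right; rwa [h5, one_mul] at h4
      · left
        rw [h5] at h4
        exact mul_left_cancel (a := z) (by rw [h4, mul_one])
    rcases hxx with h4 | h4
    · rw [h4, one_mul] at hx; exact h.ne hx.symm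
    · rw [h4, h.sq] at hx; exact h.ne hx.symm
  -- (ii)
  have hii : ∀ y : Q, y * y = z → x * y = y * x → x ≠ y → x ≠ y * z → w * y = y * w := by
    intro y hy hxy hne hne'
    by_contra hcon
    obtain ⟨v, hv⟩ := hlift hy
    have e1 : MulAut.conj w * Phi h hx * (MulAut.conj v * Phi h hy) =
        MulAut.conj (w * phi x v) * (Phi h hx * Phi h hy) := by
      calc MulAut.conj w * Phi h hx * (MulAut.conj v * Phi h hy)
          = MulAut.conj w * (Phi h hx * MulAut.conj v) * Phi h hy := by group
        _ = _ := by rw [Phi_conj, map_mul]; group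
    have e2 : MulAut.conj v * Phi h hy * (MulAut.conj w * Phi h hx) =
        MulAut.conj (v * phi y w) * (Phi h hx * Phi h hy) := by
      calc MulAut.conj v * Phi h hy * (MulAut.conj w * Phi h hx)
          = MulAut.conj v * (Phi h hy * MulAut.conj w) * Phi h hx := by group
        _ = _ := by rw [Phi_conj, Phi_comm h hx hy hxy, map_mul]; group
    have e3 : MulAut.conj ((w * phi x v) * (v * phi y w)⁻¹) =
        (MulAut.conj w * Phi h hx * (MulAut.conj v * Phi h hy)) *
        (MulAut.conj v * Phi h hy * (MulAut.conj w * Phi h hx))⁻¹ := by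
      rw [e1, e2, map_mul, map_inv]; group
    have h3 := hdisj _ (e3 ▸ L.mul_mem (L.mul_mem hw hv) (L.inv_mem (L.mul_mem hv hw)))
    have h4 : MulAut.conj (w * phi x v) = MulAut.conj (v * phi y w) := by
      rw [map_mul MulAut.conj _ (v * phi y w)⁻¹, map_inv] at h3
      exact mul_inv_eq_one.1 h3
    have h5 := conj_eq_conj h h4
    rw [phi_of_not_comm hcon] at h5
    have hyne : y ≠ 1 := by rintro rfl; rw [one_mul] at hy; exact h.ne hy.symm
    have hynz : y ≠ z := by rintro rfl; rw [h.sq] at hy; exact h.ne hy.symm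
    have h5' : Eqv z (w * phi x v) (w * v * y) := by
      have h6 : Eqv z (v * (w * y)) (w * v * y) := by
        rw [← mul_assoc]
        exact Eqv.mul_right h (h.cc v w) y
      exact Eqv.trans h h5 h6
    by_cases hv' : v * x = x * v
    · rw [phi_of_comm hv'] at h5'
      have h6 : Eqv z (w * v * 1) (w * v * y) := by rwa [mul_one]
      rcases Eqv.cancel h6 with h7 | h7
      · exact hyne h7.symm
      · apply hynz
        have : z = y * z * z := by rw [← h7, one_mul]
        rw [mul_assoc, h.sq, mul_one] at this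
        exact this.symm
    · rw [phi_of_not_comm hv', ← mul_assoc] at h5'
      rcases Eqv.cancel h5' with h7 | h7
      · exact hne h7
      · exact hne' h7
  have c1 := hii y₁ h1 hx1 hn1 hn1'
  have c2 := hii y₂ h2 hx2 hn2 hn2'
  have c3 : w * (x * y₁ * y₂) = x * y₁ * y₂ * w := by
    apply hii
    · calc x * y₁ * y₂ * (x * y₁ * y₂) = x * y₁ * (y₂ * x) * (y₁ * y₂) := by group
        _ = x * (y₁ * x) * y₂ * (y₁ * y₂) := by rw [← hx2]; group
        _ = (x * x) * y₁ * (y₂ * y₁) * y₂ := by rw [← hx1]; group
        _ = (x * x) * (y₁ * y₁) * (y₂ * y₂) := by rw [← h12]; group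
        _ = z := by rw [hx, h1, h2, h.sq, one_mul]
    · calc x * (x * y₁ * y₂) = x * (x * y₁) * y₂ := by group
        _ = x * y₁ * (x * y₂) := by rw [hx1, ← mul_assoc, hx1]; group
        _ = x * y₁ * y₂ * x := by rw [hx2]; group
    · intro h3
      have h4 : y₁ * y₂ = 1 := by
        have : x * (y₁ * y₂) = x * 1 := by rw [mul_one, ← mul_assoc]; exact h3.symm
        exact mul_left_cancel this
      apply hn3'
      have h5 : y₁ * (y₂ * y₂) = y₂ := by rw [← mul_assoc, h4, one_mul]
      rw [h2] at h5
      rw [← h5, mul_assoc, h.sq, mul_one]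
    · intro h3
      have h4 : y₁ * y₂ * z = 1 := by
        have : x * (y₁ * y₂ * z) = x * 1 := by rw [mul_one, ← mul_assoc, ← mul_assoc]; exact h3.symm
        exact mul_left_cancel this
      apply hn3
      have h5 : y₁ * y₂ = z := by
        have : y₁ * y₂ * z * z = z := by rw [h4, one_mul]
        rwa [mul_assoc, h.sq, mul_one] at this
      have h6 : y₁ * (y₂ * y₂) = z * y₂ := by rw [← mul_assoc, h5]
      rw [h2, hz] at h6
      exact mul_right_cancel h6
  apply hi
  have c4 : w * x * (y₁ * y₂) = x * w * (y₁ * y₂) := by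
    calc w * x * (y₁ * y₂) = w * (x * y₁ * y₂) := by group
      _ = x * y₁ * y₂ * w := c3
      _ = x * y₁ * (y₂ * w) := by group
      _ = x * (y₁ * w) * y₂ := by rw [← c2]; group
      _ = x * w * (y₁ * y₂) := by rw [← c1]; group
  exact mul_right_cancel c4

theorem exists_hyp [Finite Q] (hQ : Cfsg.IsExtraspecial 2 Q) : ∃ z : Q, Hyp Q z := by
  obtain ⟨hs, hc⟩ := hQ
  have h1 : ∃ z : center Q, z ≠ 1 := by
    have : Nontrivial (center Q) := by
      rw [← Finite.one_lt_card_iff_nontrivial, hc]; norm_num
    exact exists_ne 1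
  obtain ⟨⟨z, hz⟩, hz1⟩ := h1
  have hzne : z ≠ 1 := fun h => hz1 (Subtype.ext h)
  have hQ' : Cfsg.IsExtraspecial 2 Q := ⟨hs, hc⟩
  have hsq : z * z = 1 := by
    have := Transfer.Extraspecial.pow_eq_one_of_mem_center hQ' hz
    rwa [pow_two] at this
  have hcomm : ∀ a, z * a = a * z := fun a => (mem_center_iff.1 hz a).symm
  have hcen : ∀ a, a ∈ center Q ↔ a = 1 ∨ a = z := by
    intro a
    constructor
    · intro ha
      by_contra hcon
      push Not at hcon
      have h3 : Set.ncard ({1, z, a} : Set Q) = 3 := by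
        rw [Set.ncard_eq_three]
        exact ⟨1, z, a, hzne.symm, hcon.1.symm, hcon.2.symm, rfl⟩
      have h4 : Set.ncard ({1, z, a} : Set Q) ≤ Set.ncard (center Q : Set Q) := by
        apply Set.ncard_le_ncard
        · intro b hb
          rcases hb with rfl | rfl | rfl
          · exact one_mem _
          · exact hz
          · exact ha
        · exact Set.toFinite _
      have h5 : Set.ncard (center Q : Set Q) = 2 := hc
      omega
    · rintro (rfl | rfl)
      · exact one_mem _
      · exact hz
  refine ⟨z, hzne, hsq, hcomm, hcen, ?_⟩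
  intro a b
  have h3 := (hcen _).1 (Transfer.Extraspecial.comm_mem_center hQ' a b)
  rw [commutatorElement_def] at h3
  rcases h3 with h3 | h3
  · left
    rw [mul_inv_eq_one] at h3
    have : a * b = b * a := by
      rw [mul_inv_eq_iff_eq_mul] at h3; exact h3
    exact this
  · right
    have : a * b = z * b * a := by
      rw [← h3]; group
    rw [this, hcomm, mul_assoc, hcomm, ← mul_assoc]

theorem exists_sq [Finite Q] (hQ : Cfsg.IsExtraspecial 2 Q) (h : Hyp Q z) : ∃ t : Q, t * t = z := by
  by_contra hcon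
  push Not at hcon
  have h1 : ∀ t : Q, t * t = 1 := by
    intro t
    have := Transfer.Extraspecial.pow_mem_center hQ t
    rw [h.cen, pow_two] at this
    exact this.resolve_right (hcon t)
  obtain ⟨x, y, hxy⟩ := Transfer.Extraspecial.exists_comm_ne_one (by norm_num) hQ
  apply hxy
  rw [commutatorElement_def]
  have hi : ∀ t : Q, t⁻¹ = t := fun t => inv_eq_of_mul_eq_one_left (h1 t)
  rw [hi, hi, mul_assoc (x * y), h1]

end

/-- Let Q be an extraspecial 2-group of order 2^(2n+1) with n ≥ 3 that is of plus type (it contains an elementary abelian subgroup of order 2^(n+1)). Then the group of inner automorphisms of Q has no complement in the full automorphism group of Q: the extension of the inner automorphism group (elementary abelian of order 2^(2n)) by the outer automorphism group (the orthogonal group of plus type) does not split. -/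
theorem result {Q : Type*} [Group Q] [Finite Q] (n : ℕ) (hn : 3 ≤ n) (hQ : Cfsg.IsExtraspecial 2 Q) (hcard : Nat.card Q = 2 ^ (2 * n + 1)) (hplus : ∃ E : Subgroup Q, Cfsg.IsElementaryAbelian 2 E ∧ Nat.card ↥E = 2 ^ (n + 1)) (L : Subgroup (MulAut Q)) : ¬ (Cfsg.Inn Q).IsComplement' L := by
  classical
  intro hL
  obtain ⟨z, h⟩ := exists_hyp hQ
  obtain ⟨t, ht⟩ := exists_sq hQ h
  obtain ⟨E, hE, hEc⟩ := hplus
  have hEsq : ∀ e ∈ E, e * e = 1 := fun e he => by rw [← pow_two]; exact hE.2 e he
  have hEcomm : ∀ a ∈ E, ∀ b ∈ E, a * b = b * a := by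
    intro a ha b hb
    have := hE.1.is_comm.comm ⟨a, ha⟩ ⟨b, hb⟩
    exact congrArg Subtype.val this
  have hz := h.comm
  let E₁ : Subgroup Q := E ⊓ centralizer {t}
  have hE₁ : ∀ e, e ∈ E₁ ↔ e ∈ E ∧ e * t = t * e := by
    intro e
    rw [mem_inf, mem_centralizer_singleton_iff]
  have hidx : E₁.relIndex E ∣ 2 := by
    rw [relIndex_dvd_two_iff]
    by_cases hc : ∀ a ∈ E, a * t = t * a
    · exact ⟨1, one_mem _, fun b hb => Or.inr ((hE₁ b).2 ⟨hb, hc b hb⟩)⟩
    · push Not at hc
      obtain ⟨a, ha, hat⟩ := hc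
      refine ⟨a, ha, fun b hb => ?_⟩
      by_cases hbt : b * t = t * b
      · exact Or.inr ((hE₁ b).2 ⟨hb, hbt⟩)
      · left
        rw [hE₁]
        refine ⟨mul_mem hb ha, ?_⟩
        have e1 := (h.cc a t).resolve_left hat
        have e2 := (h.cc b t).resolve_left hbt
        calc b * a * t = b * (a * t) := by group
          _ = b * t * (a * z) := by rw [e1]; group
          _ = t * b * (z * (a * z)) := by rw [e2]; group
          _ = t * b * a * (z * z) := by rw [hz]; group
          _ = t * (b * a) := by rw [h.sq]; group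
  have hc8 : 8 ≤ Nat.card E₁ := by
    have h1 : Nat.card E₁ * E₁.relIndex E = Nat.card E := by
      have := relIndex_mul_relIndex (⊥ : Subgroup Q) E₁ E bot_le inf_le_left
      rwa [relIndex_bot_left, relIndex_bot_left] at this
    have h2 : E₁.relIndex E ≤ 2 := Nat.le_of_dvd (by norm_num) hidx
    have h3 : 16 ≤ Nat.card E := by
      rw [hEc]
      calc 16 = 2 ^ 4 := by norm_num
        _ ≤ 2 ^ (n + 1) := Nat.pow_le_pow_right (by norm_num) (by omega)
    have h4 : Nat.card E₁ * E₁.relIndex E ≤ Nat.card E₁ * 2 := Nat.mul_le_mul_left _ h2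
    omega
  have hpick : ∀ s : Finset Q, s.card ≤ 4 → ∃ e ∈ E₁, e ∉ s := by
    intro s hs
    by_contra hcon
    push Not at hcon
    have h1 : Nat.card E₁ ≤ s.card := by
      have : (E₁ : Set Q) ⊆ (s : Set Q) := fun e he => hcon e he
      have h2 := Set.ncard_le_ncard this (Finset.finite_toSet s)
      rw [Set.ncard_coe_finset] at h2
      exact h2
    omega
  obtain ⟨e₁, he₁, hn₁⟩ := hpick {1, z} ((Finset.card_le_two).trans (by norm_num))
  obtain ⟨e₂, he₂, hn₂⟩ := hpick {1, z, e₁, e₁ * z} (Finset.card_le_four)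
  simp only [Finset.mem_insert, Finset.mem_singleton, not_or] at hn₁ hn₂
  rw [hE₁] at he₁ he₂
  have hcc := hEcomm e₁ he₁.1 e₂ he₂.1
  refine key h L hL (x := t) (y₁ := t * e₁) (y₂ := t * e₂) ht ?_ ?_ ?_ ?_ ?_ ?_ ?_ ?_ ?_ ?_ ?_
  · calc t * e₁ * (t * e₁) = t * (e₁ * t) * e₁ := by group
      _ = (t * t) * (e₁ * e₁) := by rw [he₁.2]; group
      _ = z := by rw [ht, hEsq e₁ he₁.1, mul_one]
  · calc t * e₂ * (t * e₂) = t * (e₂ * t) * e₂ := by group
      _ = (t * t) * (e₂ * e₂) := by rw [he₂.2]; group
      _ = z := by rw [ht, hEsq e₂ he₂.1, mul_one]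
  · rw [mul_assoc, he₁.2]
  · rw [mul_assoc, he₂.2]
  · calc t * e₁ * (t * e₂) = t * (e₁ * t) * e₂ := by group
      _ = t * t * (e₁ * e₂) := by rw [he₁.2]; group
      _ = t * (t * e₂) * e₁ := by rw [hcc]; group
      _ = t * (e₂ * t) * e₁ := by rw [he₂.2]
      _ = t * e₂ * (t * e₁) := by group
  · intro h1
    exact hn₁.1 (by simpa using h1)
  · intro h1
    apply hn₁.2
    have h2 : e₁ * z = 1 := by
      rw [mul_assoc] at h1; simpa using h1
    calc e₁ = e₁ * (z * z) := by rw [h.sq, mul_one]
      _ = (e₁ * z) * z := by group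
      _ = z := by rw [h2, one_mul]
  · intro h1
    exact hn₂.1 (by simpa using h1)
  · intro h1
    apply hn₂.2.1
    have h2 : e₂ * z = 1 := by
      rw [mul_assoc] at h1; simpa using h1
    calc e₂ = e₂ * (z * z) := by rw [h.sq, mul_one]
      _ = (e₂ * z) * z := by group
      _ = z := by rw [h2, one_mul]
  · intro h1
    exact hn₂.2.2.1 (mul_left_cancel h1).symm
  · intro h1
    apply hn₂.2.2.2
    rw [mul_assoc] at h1
    have h2 := mul_left_cancel h1
    rw [h2, mul_assoc, h.sq, mul_one]

end Cfsg.Agent.S3085
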