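import Cfsg.Statements.S3098
import Cfsg.Agent.H284.EvenBig
import Cfsg.Agent.H284.EvenSmall

set_option autoImplicit false
open Cfsg

namespace Cfsg.Agent.S3098

open Subgroup Cfsg.Agent.H284 Cfsg.Agent.H284.StdRed Cfsg.Agent.SignalizersComponents

theorem card_alt {X : Type*} [Group X] {n : ℕ} (hn : 2 ≤ n) (e : X ≃* ↥(alternatingGroup (Fin n))) :
    2 * Nat.card X = n.factorial := by
  have : Nontrivial (Fin n) := Fin.nontrivial_iff_two_le.2 hn
  rw [Nat.card_congr e.toEquiv, Nat.card_eq_fintype_card, two_mul_card_alternatingGroup, Fintype.card_perm,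
    Fintype.card_fin]

theorem card_eq {A K : Type*} [Group A] [Group K] (f : K ≃* A) {n : ℕ} (hn : 2 ≤ n)
    (e : A ⧸ center A ≃* ↥(alternatingGroup (Fin n))) {F : Type} [Field F] [Fintype F] (ho : Odd (Fintype.card F))
    (g : K ≃* Matrix.SpecialLinearGroup (Fin 2) F) : Fintype.card F * (Fintype.card F ^ 2 - 1) = n.factorial := by
  have h : (center A).map ((f.symm.trans g : A ≃* Matrix.SpecialLinearGroup (Fin 2) F) : A →* _) =
      center (Matrix.SpecialLinearGroup (Fin 2) F) := QsBasic.map_center_mulEquiv _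
  have e1 := (QuotientGroup.congr _ _ (f.symm.trans g) h).symm.trans e
  rw [← card_alt hn e1]
  exact (SmallSimple.PSLTwoPart.card_psl_two_odd ho).symm

theorem arith {q n : ℕ} (hn : n = 5 ∨ n = 6 ∨ n = 7) (h : q * (q ^ 2 - 1) = n.factorial) :
    (n = 5 ∧ q = 5) ∨ (n = 6 ∧ q = 9) := by
  have hb : q < 18 := by
    by_contra hq
    push Not at hq
    have h1 : 18 * (18 ^ 2 - 1) ≤ q * (q ^ 2 - 1) :=
      Nat.mul_le_mul hq (Nat.sub_le_sub_right (Nat.pow_le_pow_left hq 2) 1)
    have h2 : n.factorial ≤ 5040 := by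
      rcases hn with rfl | rfl | rfl <;> decide
    omega
  rcases hn with rfl | rfl | rfl <;> (interval_cases q <;> revert h <;> decide)

/-- Let G be a finite group with no nontrivial normal subgroup of odd order in which every section has the B-property, and let A be a standard subgroup of G that is not normal in G and whose centralizer has cyclic Sylow 2-subgroups. Suppose the centre of A has even order and A modulo its centre is isomorphic to the alternating group of degree n ≥ 5. Then one of the following holds: n = 8 and the layer E(G) is isomorphic to the McLaughlin group; n = 11 and E(G) is isomorphic to the Lyons group; n = 5 and E(G) is isomorphic to the projective special linear or projective special unitary group of dimension 3 over the field with 5 elements (the latter realised over the field with 25 elements); or n = 6 and E(G) is isomorphic to the projective special linear or projective special unitary group of dimension 3 over the field with 9 elements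 (the latter realised over the field with 81 elements). -/
theorem result {G : Type*} [Group G] [Finite G] (hO : Cfsg.oddCore G = ⊥) (hB : Cfsg.HasStrongBProperty G)
    (A : Subgroup G) (hA : Cfsg.IsStandardSubgroup A) (hnA : ¬ A.Normal)
    (hR : ∀ R : Sylow 2 ↥(Subgroup.centralizer (A : Set G)), IsCyclic ↥(R : Subgroup ↥(Subgroup.centralizer (A : Set G))))
    (hZ : Even (Nat.card ↥(Subgroup.center ↥A))) (n : ℕ) (hn : 5 ≤ n)
    (hAX : Nonempty (↥A ⧸ Subgroup.center ↥A ≃* ↥(alternatingGroup (Fin n)))) :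
    (n = 8 ∧ Cfsg.Spor.IsoMcL ↥(Cfsg.layer G)) ∨ (n = 11 ∧ Cfsg.Spor.IsoLy ↥(Cfsg.layer G)) ∨
      (n = 5 ∧ ((∃ (F : Type) (_ : Field F) (_ : Fintype F), Fintype.card F = 5 ∧
          Nonempty (↥(Cfsg.layer G) ≃* Matrix.ProjectiveSpecialLinearGroup (Fin 3) F)) ∨
        (∃ (F : Type) (_ : Field F) (_ : Fintype F), Fintype.card F = 25 ∧ Nonempty (↥(Cfsg.layer G) ≃* Cfsg.PSU 3 F 5)))) ∨
      (n = 6 ∧ ((∃ (F : Type) (_ : Field F) (_ : Fintype F), Fintype.card F = 9 ∧
          Nonempty (↥(Cfsg.layer G) ≃* Matrix.ProjectiveSpecialLinearGroup (Fin 3) F)) ∨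
        (∃ (F : Type) (_ : Field F) (_ : Fintype F), Fintype.card F = 81 ∧ Nonempty (↥(Cfsg.layer G) ≃* Cfsg.PSU 3 F 9)))) := by
  obtain ⟨e⟩ := hAX
  obtain h8 | h8 := le_or_gt 8 n
  · rcases EvenBig.main hO hA hnA hZ h8 e with h | h
    · exact Or.inl h
    · exact Or.inr (Or.inl h)
  have hn' : n = 5 ∨ n = 6 ∨ n = 7 := by omega
  obtain ⟨hAE, hs, hna, -⟩ := red hO hA hnA hZ
  obtain ⟨-, hd⟩ := double_cover hA.1 hZ hn e
  have hm : OneFam.Mem A := ⟨hA.1, quasisimple_even hZ, EvenSmall.rank_of_core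
    (SporadicB.DoubleCoverUnique.unique_involution (by omega) hd)⟩
  let f := subgroupOfEquivOfLe hAE
  have hm' : OneFam.Mem (A.subgroupOf (layer G)) := ⟨QsBasic.isQuasisimple_of_mulEquiv f.symm hm.qs,
    by rw [Nat.card_congr f.toEquiv]; exact hm.even, OneFam.rank_congr f.symm hm.rank⟩
  rcases EvenSmall.cases hm' (ti_subgroupOf (ti hA) hAE) ((NC.noCom hR).subgroupOf hAE) with
    ⟨F, i1, i2, ho, ⟨eG⟩, ⟨g⟩⟩ | ⟨F, i1, i2, q, hF, ho, ⟨eG⟩, F1, j1, j2, hF1, ⟨g⟩⟩ | h24
  · rcases arith hn' (card_eq f (by omega) e ho g) with ⟨h1, h2⟩ | ⟨h1, h2⟩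
    · exact Or.inr (Or.inr (Or.inl ⟨h1, Or.inl ⟨F, i1, i2, h2, ⟨eG⟩⟩⟩))
    · exact Or.inr (Or.inr (Or.inr ⟨h1, Or.inl ⟨F, i1, i2, h2, ⟨eG⟩⟩⟩))
  · have h3 := card_eq f (by omega) e (by rw [hF1]; exact ho) g
    rw [hF1] at h3
    rcases arith hn' h3 with ⟨h1, h2⟩ | ⟨h1, h2⟩
    · subst h2
      exact Or.inr (Or.inr (Or.inl ⟨h1, Or.inr ⟨F, i1, i2, by rw [hF]; norm_num, ⟨eG⟩⟩⟩))
    · subst h2
      exact Or.inr (Or.inr (Or.inr ⟨h1, Or.inr ⟨F, i1, i2, by rw [hF]; norm_num, ⟨eG⟩⟩⟩))
  · exfalso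
    rw [Nat.card_congr f.toEquiv] at h24
    have h1 := card_alt (by omega) e
    have h2 : Nat.card (↥A ⧸ center ↥A) ∣ Nat.card A := Subgroup.card_quotient_dvd_card _
    rw [h24] at h2
    have h3 := Nat.le_of_dvd (by norm_num) h2
    have h4 : 120 ≤ n.factorial := by
      calc 120 = Nat.factorial 5 := rfl
        _ ≤ n.factorial := Nat.factorial_le hn
    omega

end Cfsg.Agent.S3098
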