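import Cfsg.Statements.S3103
import Cfsg.Agent.PLocal.PConstrained
import Cfsg.Agent.PLocal.SectionFrattini
import Cfsg.Agent.Lib.FrattiniPGroup
import Cfsg.Agent.H285.ElemAut

set_option autoImplicit false
set_option linter.style.haveILetI false
open Cfsg

namespace Cfsg.Agent.S3103

open scoped commutatorElement

/-- Let X be a finite 2-constrained group with no nontrivial normal subgroup of odd order such that O₂(X) has sectional 2-rank at most 4. Then X/O₂(X) is isomorphic to a subgroup of the alternating group of degree 8. -/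
theorem result {X : Type*} [Group X] [Finite X] (hc : Cfsg.IsPConstrained 2 X) (hO : Cfsg.oddCore X = ⊥)
    (h4 : Cfsg.SectionalPRankLE 2 4 ↥(Cfsg.pCore 2 X)) :
    ∃ f : X ⧸ Cfsg.pCore 2 X →* ↥(alternatingGroup (Fin 8)), Function.Injective f := by
  classical
  have hcen : Subgroup.centralizer (pCore 2 X : Set X) ≤ pCore 2 X :=
    (Cfsg.Agent.PLocal.PConstrained.isPConstrained_iff_of_pPrimeCore_eq_bot hO).1 hc
  have hQ : IsPGroup 2 (pCore 2 X) := Cfsg.Agent.PLocal.PConstrained.isPGroup_pCore 2 X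
  have hker := Cfsg.Agent.PLocal.SectionFrattini.isPGroup_sectionKernel_frattini (pCore 2 X) hQ hcen
  -- the Frattini quotient
  set Q : Subgroup X := pCore 2 X with hQdef
  haveI : Finite (↥Q ⧸ frattini ↥Q) := inferInstance
  have hsq : ∀ v : ↥Q ⧸ frattini ↥Q, v ^ 2 = 1 := by
    intro v
    obtain ⟨q, rfl⟩ := QuotientGroup.mk'_surjective _ v
    rw [← map_pow]
    exact (QuotientGroup.eq_one_iff _).2 (Cfsg.Agent.Lib.FrattiniPGroup.pow_mem_frattini hQ q)
  have hcard : Nat.card (↥Q ⧸ frattini ↥Q) ≤ 16 := by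
    haveI hN : ((frattini ↥Q).subgroupOf (⊤ : Subgroup ↥Q)).Normal := inferInstance
    have h1 := h4 ⊤ ((frattini ↥Q).subgroupOf ⊤) ⊤
    have hcomm : ∀ x y : (↥(⊤ : Subgroup ↥Q)) ⧸ ((frattini ↥Q).subgroupOf (⊤ : Subgroup ↥Q)),
        x * y = y * x := by
      intro x y
      obtain ⟨x, rfl⟩ := QuotientGroup.mk'_surjective _ x
      obtain ⟨y, rfl⟩ := QuotientGroup.mk'_surjective _ y
      rw [← commutatorElement_eq_one_iff_mul_comm, ← map_commutatorElement]
      apply (QuotientGroup.eq_one_iff _).2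
      rw [Subgroup.mem_subgroupOf]
      exact Cfsg.Agent.Lib.FrattiniPGroup.commutator_mem_frattini hQ (x : ↥Q) (y : ↥Q)
    have h2 := h1 ⟨⟨fun x y => Subtype.ext (hcomm x y)⟩⟩ (by
      rintro x -
      obtain ⟨x, rfl⟩ := QuotientGroup.mk'_surjective _ x
      rw [← map_pow]
      apply (QuotientGroup.eq_one_iff _).2
      rw [Subgroup.mem_subgroupOf]
      exact Cfsg.Agent.Lib.FrattiniPGroup.pow_mem_frattini hQ (x : ↥Q))
    rw [Subgroup.card_top] at h2
    have h3 : Nat.card ((↥(⊤ : Subgroup ↥Q)) ⧸ ((frattini ↥Q).subgroupOf (⊤ : Subgroup ↥Q))) =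
        Nat.card (↥Q ⧸ frattini ↥Q) := by
      change ((frattini ↥Q).subgroupOf (⊤ : Subgroup ↥Q)).index = (frattini ↥Q).index
      change (frattini ↥Q).relIndex ⊤ = (frattini ↥Q).index
      exact Subgroup.relIndex_top_right _
    rw [h3] at h2
    exact h2
  obtain ⟨f, hf⟩ := Cfsg.Agent.H285.ElemAut.exists_mulAut hsq hcard
  -- the action on the Frattini quotient
  have hchar : ∀ φ : MulAut ↥Q, (frattini ↥Q).map φ.toMonoidHom = frattini ↥Q := by
    intro φ
    exact Subgroup.characteristic_iff_map_eq.1 inferInstance φ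
  let act : MulAut ↥Q →* MulAut (↥Q ⧸ frattini ↥Q) :=
    { toFun := fun φ => QuotientGroup.congr _ _ φ (hchar φ)
      map_one' := by
        ext v
        obtain ⟨q, rfl⟩ := QuotientGroup.mk'_surjective _ v
        rfl
      map_mul' := by
        intro φ ψ
        ext v
        obtain ⟨q, rfl⟩ := QuotientGroup.mk'_surjective _ v
        rfl }
  let ρ : X →* MulAut (↥Q ⧸ frattini ↥Q) := act.comp (MulAut.conjNormal (H := Q))
  have hρ : ∀ (x : X) (q : ↥Q), ρ x (QuotientGroup.mk q) = QuotientGroup.mk (MulAut.conjNormal x q) :=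
    fun x q => rfl
  have hρker : ρ.ker = Q := by
    apply le_antisymm
    · -- the kernel is a normal 2-subgroup
      have hle : ρ.ker ≤ sectionKernel Q ((frattini ↥Q).map Q.subtype) := by
        intro x hx
        rw [Cfsg.Agent.PLocal.SectionFrattini.mem_sectionKernel]
        intro k hk
        have h1 : ρ x (QuotientGroup.mk ⟨k, hk⟩⁻¹) = QuotientGroup.mk ⟨k, hk⟩⁻¹ := by
          rw [MonoidHom.mem_ker.1 hx]
          rfl
        rw [hρ, QuotientGroup.eq] at h1
        have h2 := (frattini ↥Q).inv_mem h1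
        refine ⟨_, h2, ?_⟩
        simp only [Subgroup.subtype_apply, Subgroup.coe_inv, Subgroup.coe_mul,
          MulAut.conjNormal_apply, commutatorElement_def]
        group
      exact Cfsg.Agent.PLocal.PConstrained.le_pCore inferInstance (hker.to_le hle)
    · intro x hx
      rw [MonoidHom.mem_ker]
      ext v
      obtain ⟨q, rfl⟩ := QuotientGroup.mk'_surjective _ v
      change ρ x (QuotientGroup.mk q) = QuotientGroup.mk q
      rw [hρ, QuotientGroup.eq]
      have h1 := Cfsg.Agent.Lib.FrattiniPGroup.commutator_mem_frattini hQ (⟨x, hx⟩ : ↥Q) q⁻¹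
      have h2 : (MulAut.conjNormal x q)⁻¹ * q = ⁅(⟨x, hx⟩ : ↥Q), q⁻¹⁆ := by
        apply Subtype.ext
        simp only [Subgroup.coe_inv, Subgroup.coe_mul,
          MulAut.conjNormal_apply, commutatorElement_def]
        group
      rw [h2]
      exact h1
  refine ⟨(f.comp (QuotientGroup.kerLift ρ)).comp
    (QuotientGroup.quotientMulEquivOfEq hρker.symm).toMonoidHom, ?_⟩
  exact (hf.comp (QuotientGroup.kerLift_injective ρ)).comp
    (QuotientGroup.quotientMulEquivOfEq hρker.symm).injective

end Cfsg.Agent.S3103
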