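import Cfsg.Statements.S3104
import Cfsg.Agent.S3103
import Cfsg.Agent.H286.AltEightThree
import Cfsg.Agent.GH.C2SylConv
import Cfsg.Agent.GH.C2Five
import Cfsg.Agent.GH.C2Act
import Cfsg.Agent.GH.C2TwoMain
import Cfsg.Agent.PLocal.SectionFrattini
import Cfsg.Agent.PLocal.PConstrained
import Cfsg.Agent.Lib.FrattiniPGroup

set_option autoImplicit false
open Cfsg

namespace Cfsg.Agent.S3104

open Subgroup Cfsg Cfsg.Agent.TwoFusion.SectionalRank Cfsg.Agent.GH.C2Base Cfsg.Agent.GH.C2Five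
open Cfsg.Agent.GH.C2SylGlue Cfsg.Agent.GH.C2Syl
open Cfsg.Agent.GH.C2TwoMain
open scoped commutatorElement

/-- `O₂(X / O₂(X)) = 1` -/
theorem pCore_quotient {X : Type*} [Group X] [Finite X] : pCore 2 (X ⧸ pCore 2 X) = ⊥ := by
  have h2 : Fact (Nat.Prime 2) := ⟨Nat.prime_two⟩
  set Q := pCore 2 X with hQ
  set N := (pCore 2 (X ⧸ Q)).comap (QuotientGroup.mk' Q) with hN
  have hNn : N.Normal := inferInstance
  have hNp : IsPGroup 2 N := by
    have h1 : IsPGroup 2 (pCore 2 (X ⧸ Q)) := Lib.Cores.pCore_isPGroup 2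
    refine h1.comap_of_ker_isPGroup (QuotientGroup.mk' Q) ?_
    rw [QuotientGroup.ker_mk']
    exact Lib.Cores.pCore_isPGroup 2
  have h1 : N ≤ Q := Lib.Cores.le_pCore hNn hNp
  rw [eq_bot_iff]
  intro x hx
  obtain ⟨g, rfl⟩ := QuotientGroup.mk'_surjective Q x
  have h2 : g ∈ N := hx
  exact mem_bot.2 ((QuotientGroup.eq_one_iff g).2 (h1 h2))

/-- The 2-part of `|X / O₂(X)|` is at most 8 if `X` has sectional 2-rank at most four and 5 divides `|X|`. -/
theorem not_sixteen_dvd {X : Type*} [Group X] [Finite X] (hns : ¬ Group.IsSolvable X) (hr : R4 X)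
    (hc : centralizer (pCore 2 X : Set X) ≤ pCore 2 X) (h5 : 5 ∣ Nat.card (X ⧸ pCore 2 X)) :
    ¬ 16 ∣ Nat.card (X ⧸ pCore 2 X) := by
  intro h16d
  have h2 : Fact (Nat.Prime 2) := ⟨Nat.prime_two⟩
  set Q : Subgroup X := pCore 2 X with hQ
  have hQn : Q.Normal := Lib.Cores.pCore_normal 2
  have hQp : IsPGroup 2 Q := Lib.Cores.pCore_isPGroup 2
  set F : Subgroup X := (_root_.frattini Q).map Q.subtype with hF
  have hFn : F.Normal := by
    have h1 : (_root_.frattini Q).Characteristic := frattini_characteristic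
    exact inferInstance
  have hFQ : F ≤ Q := map_subtype_le _
  have hker := PLocal.SectionFrattini.isPGroup_sectionKernel_frattini Q hQp hc
  set π := QuotientGroup.mk' F with hπdef
  have hπ : ∀ g : X, π g = 1 ↔ g ∈ F := fun g => by
    rw [hπdef, QuotientGroup.mk'_apply, QuotientGroup.eq_one_iff]
  have hπs : Function.Surjective π := QuotientGroup.mk'_surjective F
  set V := Q.map π with hV
  have hVn : V.Normal := hQn.map π hπs
  have hsec : ElemSection 2 Q F := by
    refine ⟨hFQ, fun x hx y hy => ?_, fun x hx => ?_⟩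
    · exact ⟨_, Lib.FrattiniPGroup.commutator_mem_frattini hQp ⟨x, hx⟩ ⟨y, hy⟩, rfl⟩
    · exact ⟨_, Lib.FrattiniPGroup.pow_mem_frattini hQp ⟨x, hx⟩, rfl⟩
  have hVsq : ∀ v ∈ V, v * v = 1 := by
    rintro _ ⟨x, hx, rfl⟩
    rw [← map_mul, hπ, ← pow_two]
    exact hsec.pow x hx
  have hV16 : Nat.card V ≤ 16 := by
    have h1 := hr Q F hsec
    have h3 := card_eq_map_mul π Q
    rw [hπdef, QuotientGroup.ker_mk', inf_eq_right.mpr hFQ] at h3
    rw [h3] at h1
    exact Nat.le_of_mul_le_mul_right h1 Nat.card_pos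
  -- `C(V) ≤ V`
  have hCV : centralizer (V : Set (X ⧸ F)) ≤ V := by
    intro x hx
    obtain ⟨g, rfl⟩ := hπs x
    have hkn : (sectionKernel Q F).Normal := by
      have h3 : (centralizer (V : Set (X ⧸ F))).Normal := inferInstance
      exact h3.comap π
    have h1 : g ∈ sectionKernel Q F := hx
    exact mem_map_of_mem π (Lib.Cores.le_pCore hkn hker h1)
  -- the quotient by `V`
  have hVX : ∀ g : X, π g ∈ V ↔ g ∈ Q := by
    intro g
    constructor
    · rintro ⟨q, hq, hqg⟩
      have h1 : q⁻¹ * g ∈ F := by rw [← hπ, map_mul, map_inv, hqg, inv_mul_cancel]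
      have h2 := mul_mem hq (hFQ h1)
      rwa [mul_inv_cancel_left] at h2
    · exact fun h => mem_map_of_mem π h
  have hcardY : Nat.card ((X ⧸ F) ⧸ V) = Nat.card (X ⧸ Q) := by
    have h1 : V.comap π = Q := by
      ext g; exact hVX g
    have h2 : (V.comap π).index = V.index := V.index_comap_of_surjective hπs
    rw [h1] at h2
    exact h2.symm
  have hEl : El V := ⟨hVn, hVsq⟩
  have hact : Act V (QuotientGroup.mk' V) (actQ V hVsq) := act_actQ hVsq
  have hinj : Function.Injective (actQ V hVsq) := by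
    rw [injective_iff_map_eq_one]
    intro q hq
    obtain ⟨x, rfl⟩ := QuotientGroup.mk'_surjective V q
    rw [hact.ker]
    apply hCV
    rw [mem_centralizer_iff]
    intro v hv
    have h1 := hact.act x ⟨v, hv⟩
    rw [hq] at h1
    change v = x * v * x⁻¹ at h1
    exact (eq_mul_inv_iff_mul_eq.1 h1)
  have hnsY : ¬ Group.IsSolvable ((X ⧸ F) ⧸ V) := by
    intro h
    apply hns
    have h3 : Group.IsSolvable Q := by
      have : Group.IsNilpotent Q := hQp.isNilpotent
      infer_instance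
    refine Group.isSolvable_of_ker_le_range Q.subtype ((QuotientGroup.mk' V).comp π) ?_
    rw [range_subtype]
    intro g hg
    have h4 : (QuotientGroup.mk' V) (π g) = 1 := hg
    rw [hact.ker] at h4
    exact (hVX g).1 h4
  have h5Y : 5 ∣ Nat.card ((X ⧸ F) ⧸ V) := by rw [hcardY]; exact h5
  -- `|V| = 16`
  have h16 : Nat.card V = 16 := by
    have h5F : Fact (Nat.Prime 5) := ⟨Nat.prime_five⟩
    obtain ⟨x, hx⟩ := exists_prime_orderOf_dvd_card' 5 h5Y
    have hx5 : x ^ 5 = 1 := by rw [← hx]; exact pow_orderOf_eq_one x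
    have hx1 : x ≠ 1 := by
      rintro rfl
      rw [orderOf_one] at hx
      omega
    exact (GH.C2Act.fix_one hinj (fun v : V => Subtype.ext (hVsq v v.2)) hV16 hx5 hx1).1
  obtain ⟨T⟩ : Nonempty (Sylow 2 (X ⧸ F)) := inferInstance
  have hrF : R4 (X ⧸ F) := r4_quotient hr F
  have h256 : 2 ^ 8 ∣ Nat.card (X ⧸ F) := by
    have h1 := V.card_eq_card_quotient_mul_card_subgroup
    rw [h1, hcardY, h16]
    have h3 : (2 : ℕ) ^ 8 = 16 * 16 := by norm_num
    rw [h3]
    exact Nat.mul_dvd_mul_right h16d 16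
  have hT256 : 2 ^ 8 ∣ Nat.card T := T.pow_dvd_card_of_pow_dvd_card h256
  have hT : Nat.card T = 64 ∨ Nat.card T = 128 := by
    rcases GH.C2SylConv.five hact hinj hEl h16 hnsY h5Y hrF T with
      ⟨-, h, -⟩ | ⟨-, h, -⟩ | ⟨-, h, -⟩ | ⟨-, h, -⟩
    · exact Or.inl h
    · exact Or.inr h
    · exact Or.inl h
    · exact Or.inr h
  rcases hT with h | h <;> rw [h] at hT256 <;> norm_num at hT256

/-- Let X be a finite nonsolvable 2-constrained group with no nontrivial normal subgroup of odd order such that O₂(X) has sectional 2-rank at most 4, and write Q for X/O₂(X). Then Q is isomorphic to the projective special linear group of dimension 3 over the field with 2 elements, to an alternating group of degree n with 5 ≤ n ≤ 8, to a symmetric group of degree n with 5 ≤ n ≤ 7, or else O₃(Q) has order 3 and Q/O₃(Q) is isomorphic to the alternating or the symmetric group of degree 5 (so Q is the direct product of a group of order 3 with the alternating group of degree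 5, or an extension of that direct product by a group of order 2). If moreover X itself has sectional 2-rank at most 4, then Q is not isomorphic to the symmetric group of degree 6 or 7 nor to the alternating group of degree 8. -/
theorem result {X : Type*} [Group X] [Finite X] (hns : ¬ Group.IsSolvable X) (hc : Cfsg.IsPConstrained 2 X) (hO : Cfsg.oddCore X = ⊥)
    (h4 : Cfsg.SectionalPRankLE 2 4 ↥(Cfsg.pCore 2 X)) :
    ((∃ (F : Type) (_ : Field F) (_ : Fintype F), Fintype.card F = 2 ∧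
          Nonempty (X ⧸ Cfsg.pCore 2 X ≃* Matrix.ProjectiveSpecialLinearGroup (Fin 3) F)) ∨
        (∃ n : ℕ, 5 ≤ n ∧ n ≤ 8 ∧ Nonempty (X ⧸ Cfsg.pCore 2 X ≃* ↥(alternatingGroup (Fin n)))) ∨
        (∃ n : ℕ, 5 ≤ n ∧ n ≤ 7 ∧ Nonempty (X ⧸ Cfsg.pCore 2 X ≃* Equiv.Perm (Fin n))) ∨
        (Nat.card ↥(Cfsg.pCore 3 (X ⧸ Cfsg.pCore 2 X)) = 3 ∧
          (Nonempty ((X ⧸ Cfsg.pCore 2 X) ⧸ Cfsg.pCore 3 (X ⧸ Cfsg.pCore 2 X) ≃* ↥(alternatingGroup (Fin 5))) ∨
            Nonempty ((X ⧸ Cfsg.pCore 2 X) ⧸ Cfsg.pCore 3 (X ⧸ Cfsg.pCore 2 X) ≃* Equiv.Perm (Fin 5))))) ∧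
      (Cfsg.SectionalPRankLE 2 4 X →
        ¬ (Nonempty (X ⧸ Cfsg.pCore 2 X ≃* Equiv.Perm (Fin 6)) ∨ Nonempty (X ⧸ Cfsg.pCore 2 X ≃* Equiv.Perm (Fin 7)) ∨
            Nonempty (X ⧸ Cfsg.pCore 2 X ≃* ↥(alternatingGroup (Fin 8))))) := by
  have hcen : Subgroup.centralizer (pCore 2 X : Set X) ≤ pCore 2 X :=
    (Cfsg.Agent.PLocal.PConstrained.isPConstrained_iff_of_pPrimeCore_eq_bot hO).1 hc
  have hQp : IsPGroup 2 (pCore 2 X) := Cfsg.Agent.PLocal.PConstrained.isPGroup_pCore 2 X
  constructor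
  · obtain ⟨f, hf⟩ := S3103.result hc hO h4
    have h2 : Fact (Nat.Prime 2) := ⟨Nat.prime_two⟩
    have h3 : Group.IsSolvable (pCore 2 X) := by
      have : Group.IsNilpotent (pCore 2 X) := hQp.isNilpotent
      infer_instance
    exact H286.AltEightThree.main (H286.AltEightThree.not_solvable_quotient hns (pCore 2 X) h3)
      pCore_quotient f hf
  · intro hr hcon
    have hr' : R4 X := r4_iff.mpr hr
    have key : ∀ n : ℕ, 5 ∣ n → 16 ∣ n → Nat.card (X ⧸ pCore 2 X) ≠ n := by
      rintro n h5 h16 rfl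
      exact not_sixteen_dvd hns hr' hcen h5 h16
    rcases hcon with ⟨⟨e⟩⟩ | ⟨⟨e⟩⟩ | ⟨⟨e⟩⟩
    · refine key 720 (by norm_num) (by norm_num) ?_
      rw [Nat.card_congr e.toEquiv, Nat.card_perm, Nat.card_fin]
      rfl
    · refine key 5040 (by norm_num) (by norm_num) ?_
      rw [Nat.card_congr e.toEquiv, Nat.card_perm, Nat.card_fin]
      rfl
    · refine key 20160 (by norm_num) (by norm_num) ?_
      rw [Nat.card_congr e.toEquiv, H168.NoSolv.card_alt_eight]

end Cfsg.Agent.S3104
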