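import Cfsg.Statements.S3105
import Cfsg.Agent.GH.C2ThreeTwo
import Cfsg.Agent.GH.C2SevenShape
import Cfsg.Agent.GH.C2SevenTop
import Cfsg.Agent.H3.CenT
import Cfsg.Agent.PLocal.PConstrained

set_option autoImplicit false
open Cfsg

namespace Cfsg.Agent.S3105

open Subgroup Cfsg.Agent.GH.C2Five Cfsg.Agent.GH.C2ThreeNat Cfsg.Agent.GH.C2ThreeMin
open Cfsg.Agent.GH.C2ThreeMinE Cfsg.Agent.GH.C2ThreeOne

/-- `Q / O₂` is simple of order 168 -/
theorem l32_of {X : Type*} [Group X] [Finite X] (hns : ¬ Group.IsSolvable X) {Q : Subgroup X} [Q.Normal]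
    (hQp : IsPGroup 2 Q) (hi : Nat.card (X ⧸ Q) = 168) : L32 Q := by
  have hs : ¬ Group.IsSolvable (X ⧸ Q) := by
    intro h
    have h2 : Fact (Nat.Prime 2) := ⟨Nat.prime_two⟩
    have h3 : Group.IsSolvable Q := by
      have : Group.IsNilpotent Q := hQp.isNilpotent
      infer_instance
    exact hns (GH.C2SevenTop.solvable_of_quotient Q h3 h)
  refine ⟨inferInstance, hQp, by rw [Subgroup.index_eq_card]; exact hi, ?_⟩
  intro N hN hle
  have hNm : (N.map (QuotientGroup.mk' Q)).Normal := hN.map _ (QuotientGroup.mk'_surjective Q)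
  rcases GH.C2SevenTop.simple_of_dvd hs (by rw [hi]) _ hNm with h | h
  · left
    refine le_antisymm ?_ hle
    rw [Subgroup.map_eq_bot_iff, QuotientGroup.ker_mk'] at h
    exact h
  · right
    rw [eq_top_iff]
    intro x _
    have hx : QuotientGroup.mk' Q x ∈ N.map (QuotientGroup.mk' Q) := by rw [h]; exact mem_top _
    obtain ⟨n, hn, hnx⟩ := hx
    have h1 : n⁻¹ * x ∈ Q := by
      rw [← QuotientGroup.eq]; exact hnx
    have h2 := mul_mem hn (hle h1)
    rwa [mul_inv_cancel_left] at h2

theorem exists_y {X : Type*} [Group X] [Finite X] {Q : Subgroup X} (hQ : L32 Q)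
    (hc : centralizer (Q : Set X) ≤ Q) :
    ∃ y : X, y ^ 7 = 1 ∧ y ∉ Q ∧ ∃ v ∈ Q, y * v ≠ v * y := by
  have h7 : Fact (Nat.Prime 7) := ⟨by norm_num⟩
  have hd : 7 ∣ Nat.card X := by
    have h1 := Q.index_dvd_card
    rw [hQ.index] at h1
    exact (by norm_num : 7 ∣ 168).trans h1
  obtain ⟨y, hy⟩ := exists_prime_orderOf_dvd_card' 7 hd
  have hy7 : y ^ 7 = 1 := by rw [← hy]; exact pow_orderOf_eq_one y
  have hyQ : y ∉ Q := by
    intro h
    obtain ⟨n, hn⟩ := hQ.two ⟨y, h⟩
    have h1 : y ^ 2 ^ n = 1 := congrArg Subtype.val hn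
    have h3 := orderOf_dvd_of_pow_eq_one h1
    rw [hy] at h3
    exact absurd ((by norm_num : Nat.Prime 7).dvd_of_dvd_pow h3) (by norm_num)
  refine ⟨y, hy7, hyQ, ?_⟩
  by_contra h
  push Not at h
  exact hyQ (hc (mem_centralizer_iff.mpr fun v hv => (h v hv).symm))

/-- the homomorphism from the cyclic group of order 4 -/
def fourHom {X : Type*} [Group X] (d : X) (hd : d ^ 4 = 1) : Multiplicative (ZMod 4) →* X where
  toFun a := d ^ (Multiplicative.toAdd a).val
  map_one' := by
    change d ^ (0 : ZMod 4).val = 1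
    rw [ZMod.val_zero, pow_zero]
  map_mul' a b := by
    change d ^ (Multiplicative.toAdd a + Multiplicative.toAdd b).val = _
    rw [ZMod.val_add, ← pow_eq_pow_mod _ hd, pow_add]

/-- the homomorphism from the elementary group of order 8 -/
def threeHom {X : Type*} [Group X] {W : Subgroup X} {w : T3 → X} (h : Coord W w) :
    (Fin 3 → Multiplicative (ZMod 2)) →* X where
  toFun a := w (Multiplicative.toAdd (a 0), Multiplicative.toAdd (a 1), Multiplicative.toAdd (a 2))
  map_one' := h.zero
  map_mul' a b := by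
    rw [← h.mul]
    rfl

theorem equiv_of {X : Type*} [Group X] [Finite X] {Q W : Subgroup X} {w : T3 → X} (hw : Coord W w)
    (hWQ : W ≤ Q) {d z0 : X} (hd : d ∈ Q) (hdz : d * d = z0) (hz0W : z0 ∉ W)
    (hz0 : z0 * z0 = 1)
    (hcomm : ∀ a ∈ Q, ∀ b ∈ Q, a * b = b * a) (hinv : ∀ u : X, u * u = 1 → u ∈ W ∨ u * z0 ∈ W)
    (hsq : ∀ x ∈ Q, x * x = 1 ∨ x * x = z0) :
    Nonempty (↥Q ≃* Multiplicative (ZMod 4) × (Fin 3 → Multiplicative (ZMod 2))) := by
  have hd4 : d ^ 4 = 1 := by
    rw [show 4 = 2 + 2 from rfl, pow_add, pow_two, hdz, hz0]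
  have hcm : ∀ a b, Commute (fourHom d hd4 a) (threeHom hw b) := by
    intro a b
    exact hcomm _ (pow_mem hd _) _ (hWQ (hw.mem_w _))
  let F := MonoidHom.noncommCoprod (fourHom d hd4) (threeHom hw) hcm
  have hF : ∀ a b, F (a, b) = fourHom d hd4 a * threeHom hw b := fun a b => rfl
  have hinj : Function.Injective F := by
    rw [injective_iff_map_eq_one]
    rintro ⟨a, b⟩ h
    rw [hF] at h
    have hb : threeHom hw b ∈ W := hw.mem_w _
    have ha : fourHom d hd4 a ∈ W := by
      rw [eq_inv_of_mul_eq_one_left h]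
      exact inv_mem hb
    have ha0 : a = 1 := by
      have hk : (Multiplicative.toAdd a).val < 4 := ZMod.val_lt _
      have hdef : fourHom d hd4 a = d ^ (Multiplicative.toAdd a).val := rfl
      rw [hdef] at ha
      have hval : (Multiplicative.toAdd a).val = 0 := by
        generalize (Multiplicative.toAdd a).val = k at hk ha
        interval_cases k
        · rfl
        · exfalso
          rw [pow_one] at ha
          exact hz0W (hdz ▸ mul_mem ha ha)
        · exfalso
          rw [pow_two, hdz] at ha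
          exact hz0W ha
        · exfalso
          have h3 := mul_mem ha ha
          rw [← pow_add, show 3 + 3 = 4 + 2 from rfl, pow_add, hd4, one_mul, pow_two, hdz] at h3
          exact hz0W h3
      have h0 : Multiplicative.toAdd a = 0 := (ZMod.val_eq_zero _).1 hval
      exact h0
    rw [ha0, map_one, one_mul] at h
    have hb0 : b = 1 := by
      have h1 := hw.injective (h.trans hw.zero.symm)
      simp only [Prod.mk_eq_zero] at h1
      funext i
      fin_cases i
      · exact h1.1
      · exact h1.2.1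
      · exact h1.2.2
    rw [ha0, hb0]; rfl
  have hrange : F.range = Q := by
    apply le_antisymm
    · rintro _ ⟨⟨a, b⟩, rfl⟩
      rw [hF]
      exact mul_mem (pow_mem hd _) (hWQ (hw.mem_w _))
    · have hW : ∀ x ∈ W, x ∈ F.range := by
        intro x hx
        obtain ⟨p, rfl⟩ := (hw.mem _).1 hx
        refine ⟨(1, fun i => Multiplicative.ofAdd (![p.1, p.2.1, p.2.2] i)), ?_⟩
        rw [hF, map_one, one_mul]
        rfl
      have hdr : d ∈ F.range := by
        refine ⟨(Multiplicative.ofAdd 1, 1), ?_⟩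
        rw [hF, (threeHom hw).map_one, mul_one]
        change d ^ (1 : ZMod 4).val = d
        rw [show (1 : ZMod 4).val = 1 from rfl, pow_one]
      have hzr : z0 ∈ F.range := by rw [← hdz]; exact mul_mem hdr hdr
      have hone : ∀ x ∈ Q, x * x = 1 → x ∈ F.range := by
        intro x hx h1
        rcases hinv x h1 with h2 | h2
        · exact hW x h2
        · have h3 := mul_mem (hW _ h2) (inv_mem hzr)
          rwa [mul_inv_cancel_right] at h3
      intro x hx
      rcases hsq x hx with h1 | h1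
      · exact hone x hx h1
      · have h2 : (x * d) * (x * d) = 1 := by
          calc (x * d) * (x * d) = x * (d * x) * d := by group
            _ = x * (x * d) * d := by rw [hcomm d hd x hx]
            _ = (x * x) * (d * d) := by group
            _ = 1 := by rw [h1, hdz, hz0]
        have h3 := mul_mem (hone _ (mul_mem hx hd) h2) (inv_mem hdr)
        rwa [mul_inv_cancel_right] at h3
  exact ⟨((MonoidHom.ofInjective hinj).trans (MulEquiv.subgroupCongr hrange)).symm⟩

/-- Let X be a finite nonsolvable 2-constrained group with no nontrivial normal subgroup of odd order and of sectional 2-rank at most 4, and suppose X/O₂(X) is isomorphic to the projective special linear group of dimension 3 over the field with 2 elements. Then O₂(X) is elementary abelian of order 8 or 16, or is isomorphic to the direct product of a cyclic group of order 4 and an elementary abelian group of order 8. -/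
theorem result {X : Type*} [Group X] [Finite X] (hns : ¬ Group.IsSolvable X) (hc : Cfsg.IsPConstrained 2 X) (hO : Cfsg.oddCore X = ⊥)
    (h4 : Cfsg.SectionalPRankLE 2 4 X) {F : Type*} [Field F] [Fintype F] (hF : Fintype.card F = 2)
    (hQ : Nonempty (X ⧸ Cfsg.pCore 2 X ≃* Matrix.ProjectiveSpecialLinearGroup (Fin 3) F)) :
    (Cfsg.IsElementaryAbelian 2 (Cfsg.pCore 2 X) ∧ (Nat.card ↥(Cfsg.pCore 2 X) = 8 ∨ Nat.card ↥(Cfsg.pCore 2 X) = 16)) ∨
      Nonempty (↥(Cfsg.pCore 2 X) ≃* Multiplicative (ZMod 4) × (Fin 3 → Multiplicative (ZMod 2))) := by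
  have hcen : Subgroup.centralizer (pCore 2 X : Set X) ≤ pCore 2 X :=
    (Cfsg.Agent.PLocal.PConstrained.isPConstrained_iff_of_pPrimeCore_eq_bot hO).1 hc
  have hQp : IsPGroup 2 (pCore 2 X) := Cfsg.Agent.PLocal.PConstrained.isPGroup_pCore 2 X
  have hr : R4 X := r4_iff.mpr h4
  obtain ⟨e⟩ := hQ
  have hcard : Nat.card (X ⧸ pCore 2 X) = 168 :=
    (Nat.card_congr e.toEquiv).trans (H3.CenT.card_psl_three_two hF)
  have hl : L32 (pCore 2 X) := l32_of hns hQp hcard
  obtain ⟨y, hy, -, hne⟩ := exists_y hl hcen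
  obtain ⟨W, hW, -⟩ := exists_minc hl.normal le_rfl hne
  have hone := GH.C2ThreeTwo.two hr hl hy hW
  have hsqW := minc_sq hr hl hy hW
  -- elementary abelian from squares
  have helem : (∀ x ∈ pCore 2 X, x * x = 1) → IsElementaryAbelian 2 (pCore 2 X) := by
    intro h
    have hcm := comm_of_sq_one h
    refine ⟨⟨⟨fun a b => Subtype.ext (hcm a a.2 b b.2)⟩⟩, fun a ha => ?_⟩
    rw [pow_two]; exact h a ha
  rcases GH.C2ThreeTwo.structure_main hr hl hy hW with h1 | ⟨h8, z0, hzQ, hzW, hzz, hzc, hinv⟩ | ⟨h8, h16, hsq, -⟩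
  · left
    refine ⟨helem (by rw [h1]; exact hsqW), ?_⟩
    rw [h1]
    rcases shape hr hl hy hW hsqW with ⟨h, -⟩ | ⟨h, -⟩
    · exact Or.inl h
    · exact Or.inr h
  · obtain ⟨hcomm, hsq | ⟨⟨d, hd, hdz⟩, hsq⟩⟩ :=
      GH.C2SevenShape.shape_of_two hr (hyp_of hl hy hW hsqW hone) h8 hzc hinv
    · left
      refine ⟨helem hsq, Or.inr ?_⟩
      -- `Q = W ∪ z₀ W`
      have hidx : (W.subgroupOf (pCore 2 X)).index = 2 := by
        rw [Subgroup.index_eq_two_iff]
        refine ⟨⟨z0, hzQ⟩, fun b => ?_⟩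
        rw [mem_subgroupOf, mem_subgroupOf]
        change Xor ((b : X) * z0 ∈ W) ((b : X) ∈ W)
        rcases hinv b (hsq b b.2) with h | h
        · right
          refine ⟨h, fun h2 => hzW ?_⟩
          have h3 := mul_mem (inv_mem h) h2
          rwa [inv_mul_cancel_left] at h3
        · left
          refine ⟨h, fun h2 => hzW ?_⟩
          have h3 := mul_mem (inv_mem h2) h
          rwa [inv_mul_cancel_left] at h3
      have h3 := (W.subgroupOf (pCore 2 X)).card_mul_index
      rw [hidx, Nat.card_congr (subgroupOfEquivOfLe hW.le).toEquiv, h8] at h3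
      rw [← h3]
    · right
      obtain ⟨w, hw⟩ := exists_coord hsqW h8
      exact equiv_of hw hW.le hd hdz hzW hzz hcomm hinv hsq
  · left
    exact ⟨helem hsq, Or.inr h16⟩

end Cfsg.Agent.S3105
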