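import Cfsg.Statements.S3111
import Cfsg.Agent.S0205
import Cfsg.Agent.S1291
import Cfsg.Agent.H447.CoreW
import Cfsg.Agent.H447.UnbalTriple

set_option autoImplicit false
open Cfsg

namespace Cfsg.Agent.S3111

/-- Let G be a non-abelian finite simple group some Sylow 2-subgroup of which has a self-centralizing abelian normal subgroup of 2-rank at least 3. Then either the centralizer of every involution of G has no nontrivial normal subgroup of odd order, or G has an unbalancing triple: commuting involutions a, x and an x-invariant 2-component L of C_G(a) with L = O(L)[L, O(C_G(x)) ∩ C_G(a)], where O(·) denotes the largest normal subgroup of odd order. -/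
theorem result {G : Type*} [Group G] [Finite G] [IsSimpleGroup G] (hG : ¬ IsMulCommutative G)
    (S : Sylow 2 G) (A : Subgroup ↥(S : Subgroup G)) (hAn : A.Normal) (hAab : IsMulCommutative ↥A)
    (hAC : Subgroup.centralizer (A : Set ↥(S : Subgroup G)) = A) (hA3 : ¬ Cfsg.PRankLE 2 2 ↥A) :
    (∀ t : G, orderOf t = 2 → Cfsg.centralizerPPrimeCore 2 t = ⊥) ∨
      ∃ (a x : G) (L : Subgroup ↥(Subgroup.centralizer ({a} : Set G))), orderOf a = 2 ∧ orderOf x = 2 ∧ Commute a x ∧
        Cfsg.IsPComponent 2 L ∧ (∀ l ∈ L.map (Subgroup.centralizer ({a} : Set G)).subtype, x * l * x⁻¹ ∈ L.map (Subgroup.centralizer ({a} : Set G)).subtype) ∧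
        L.map (Subgroup.centralizer ({a} : Set G)).subtype =
          (Cfsg.oddCore ↥L).map ((Subgroup.centralizer ({a} : Set G)).subtype.comp L.subtype) ⊔
            ⁅L.map (Subgroup.centralizer ({a} : Set G)).subtype, Cfsg.centralizerPPrimeCore 2 x ⊓ Subgroup.centralizer ({a} : Set G)⁆ := by
  by_cases hb : Cfsg.IsBalanced G
  · left
    obtain ⟨hS, E, -, hE, hE3⟩ := H447.CoreW.fourConnected S A hAn hAab hA3 S
    refine S1291.result hb
      (H447.CoreW.oddCore_eq_bot (fun X hX => S0205.result hX) hG) ?_ (Or.inr ⟨S, hS⟩)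
    intro h
    have h1 := h E hE.1 hE.2
    norm_num at hE3
    omega
  · exact Or.inr (H447.UnbalTriple.exists_of_not_balanced hb)

end Cfsg.Agent.S3111
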