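import Cfsg.Statements.S3112
import Cfsg.Agent.S0205
import Cfsg.Agent.S1221
import Cfsg.Agent.SignalizersComponents.BalEnd
import Cfsg.Agent.H288.SigFunc

set_option autoImplicit false
open Cfsg

namespace Cfsg.Agent.S3112

open Subgroup
open Cfsg.Agent.Dichotomy.Elem
open Cfsg.Agent.H288.SigFunc

/-- The involutions of a commutative subgroup of rank at least 3 and the identity form a big
subgroup. -/
theorem exists_omega {G : Type*} [Group G] [Finite G] (B : Subgroup G)
    (hB : IsMulCommutative ↥B) (hr : ¬ Cfsg.PRankLE 2 2 ↥B) :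
    ∃ E : Subgroup G, Big E ∧ E ≤ B ∧ ∀ x ∈ B, x * x = 1 → x ∈ E := by
  have hcomm : ∀ a ∈ B, ∀ b ∈ B, a * b = b * a := fun a ha b hb => setLike_mul_comm ha hb
  let E : Subgroup G :=
    { carrier := {x | x ∈ B ∧ x * x = 1}
      one_mem' := ⟨B.one_mem, one_mul 1⟩
      mul_mem' := by
        rintro a b ⟨ha, ha2⟩ ⟨hb, hb2⟩
        refine ⟨B.mul_mem ha hb, ?_⟩
        calc a * b * (a * b) = a * (b * a) * b := by group
          _ = a * (a * b) * b := by rw [hcomm b hb a ha]
          _ = (a * a) * (b * b) := by group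
          _ = 1 := by rw [ha2, hb2, one_mul]
      inv_mem' := by
        rintro a ⟨ha, ha2⟩
        refine ⟨B.inv_mem ha, ?_⟩
        rw [← mul_inv_rev, ha2, inv_one] }
  have hE : IsElementaryAbelian 2 E :=
    isElementaryAbelian_of (fun a ha b hb => hcomm a ha.1 b hb.1) (fun a ha => ha.2)
  refine ⟨E, ⟨hE, ?_⟩, fun x hx => hx.1, fun x hx h2 => ⟨hx, h2⟩⟩
  unfold PRankLE at hr
  push Not at hr
  obtain ⟨A, hA1, hA2, hA3⟩ := hr
  refine card_ge hE (lt_of_lt_of_le hA3 ?_)
  have h1 : Nat.card (A.map B.subtype) = Nat.card A :=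
    Nat.card_congr (A.equivMapOfInjective B.subtype B.subtype_injective).symm.toEquiv
  rw [← h1]
  refine Subgroup.card_le_of_le ?_
  rintro _ ⟨a, ha, rfl⟩
  refine ⟨a.2, ?_⟩
  have := hA2 a ha
  rw [pow_two] at this
  exact congrArg Subtype.val this

/-- Let G be a finite group with no nontrivial normal subgroup of odd order, some Sylow 2-subgroup of which has a self-centralizing abelian normal subgroup of 2-rank at least 3. Let θ assign to each element a of G a subgroup θ(a), equivariantly (θ(g a g⁻¹) is the conjugate of θ(a) by g, for all g and a), in such a way that for every abelian 2-subgroup A of G of 2-rank at least 3 the restriction of θ to A is an A-signalizer functor (for the prime 2). Then θ(a) = 1 for every involution a lying in some abelian 2-subgroup of 2-rank at least 3. -/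
theorem result {G : Type*} [Group G] [Finite G] (hO : Cfsg.oddCore G = ⊥)
    (S : Sylow 2 G) (A : Subgroup ↥(S : Subgroup G)) (hAn : A.Normal) (hAab : IsMulCommutative ↥A)
    (hAC : Subgroup.centralizer (A : Set ↥(S : Subgroup G)) = A) (hA3 : ¬ Cfsg.PRankLE 2 2 ↥A)
    (θ : G → Subgroup G) (heq : ∀ (g a : G), θ (g * a * g⁻¹) = (θ a).map (MulAut.conj g).toMonoidHom)
    (hθ : ∀ B : Subgroup G, IsMulCommutative ↥B → IsPGroup 2 ↥B → ¬ Cfsg.PRankLE 2 2 ↥B → Cfsg.IsSignalizerFunctor 2 B θ) :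
    ∀ B : Subgroup G, IsMulCommutative ↥B → IsPGroup 2 ↥B → ¬ Cfsg.PRankLE 2 2 ↥B → ∀ a ∈ B, orderOf a = 2 → θ a = ⊥ := by
  have hbig : ∀ E : Subgroup G, Big E → IsSignalizerFunctor 2 E θ := by
    intro E hE
    refine hθ E hE.1.1 (isPGroup_of_elem hE.1) ?_
    intro h
    have h1 := h (⊤ : Subgroup E) (by
        have := hE.1.1
        infer_instance) (by
        intro a _
        ext
        simpa using hE.1.2 a a.2)
    rw [Subgroup.card_top] at h1
    have := hE.2
    omega
  have hT : Th θ := by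
    refine ⟨heq, ?_, hbig⟩
    intro E hE a ha ha1
    refine Cfsg.Agent.S0205.result ?_
    rw [← Nat.not_even_iff_odd, even_iff_two_dvd]
    exact (hbig E hE).2.1 a ha ha1
  -- the normal subgroup `Ω₁(A)` of `S`
  obtain ⟨E, hE, hEA, hEm⟩ := exists_omega A hAab hA3
  have hsub : Function.Injective (S : Subgroup G).subtype := Subtype.val_injective
  set U : Subgroup G := E.map (S : Subgroup G).subtype with hUdef
  have hUS : U ≤ (S : Subgroup G) := Subgroup.map_subtype_le E
  have hU : Big U := by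
    refine ⟨isElementaryAbelian_of ?_ ?_, ?_⟩
    · rintro _ ⟨a, ha, rfl⟩ _ ⟨b, hb, rfl⟩
      exact congrArg Subtype.val (elem_comm hE.1 a ha b hb)
    · rintro _ ⟨a, ha, rfl⟩
      exact congrArg Subtype.val (elem_sq hE.1 ha)
    · rw [hUdef, Nat.card_congr (E.equivMapOfInjective _ hsub).symm.toEquiv]
      exact hE.2
  have hn : (S : Subgroup G) ≤ normalizer (U : Set G) := by
    have key : ∀ s ∈ (S : Subgroup G), ∀ u ∈ U, s * u * s⁻¹ ∈ U := by
      rintro s hs _ ⟨u, hu, rfl⟩
      have h1 : (⟨s, hs⟩ : (S : Subgroup G)) * u * (⟨s, hs⟩ : (S : Subgroup G))⁻¹ ∈ A :=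
        hAn.conj_mem u (hEA hu) _
      have h2 : u * u = 1 := elem_sq hE.1 hu
      refine ⟨_, hEm _ h1 ?_, rfl⟩
      calc (⟨s, hs⟩ : (S : Subgroup G)) * u * (⟨s, hs⟩ : (S : Subgroup G))⁻¹ *
            ((⟨s, hs⟩ : (S : Subgroup G)) * u * (⟨s, hs⟩ : (S : Subgroup G))⁻¹) =
            (⟨s, hs⟩ : (S : Subgroup G)) * (u * u) * (⟨s, hs⟩ : (S : Subgroup G))⁻¹ := by group
        _ = 1 := by rw [h2, mul_one, mul_inv_cancel]
    intro s hs
    rw [mem_normalizer_iff]
    intro u
    constructor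
    · exact key s hs u
    · intro hu
      have := key s⁻¹ (inv_mem hs) _ hu
      have e : s⁻¹ * (s * u * s⁻¹) * s⁻¹⁻¹ = u := by group
      rwa [e] at this
  have hL := localSetup hT S hUS hU hn
  have hW := Cfsg.Agent.H288.SigRed.eq_bot hL hO
    (fun _ _ _ H hH => Cfsg.Agent.S1221.result H hH)
    (Cfsg.Agent.SignalizersComponents.BalEnd.end_all
      (fun _ _ _ H hH => Cfsg.Agent.S1221.result H hH))
  intro B hB hB2 hBr a ha ha2
  -- conjugate `Ω₁(B)` into `S`
  obtain ⟨D, hD, hDB, hDm⟩ := exists_omega B hB hBr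
  have haD : a ∈ D := hDm a ha (sq_of_orderOf ha2)
  obtain ⟨g, -, hg⟩ := Cfsg.Agent.SignalizersComponents.BalRedTwo.exists_conj_le S
    (le_top : (S : Subgroup G) ≤ ⊤) le_top (isPGroup_of_elem hD.1)
  have hD' : Big (D.map (MulAut.conj g).toMonoidHom) := big_map hD (MulAut.conj g).injective
  have h1 := W_eq_of_pgroup hT S.isPGroup' hg hD' hUS hU
  have h2 : θ (g * a * g⁻¹) ≤ W θ (D.map (MulAut.conj g).toMonoidHom) := by
    refine le_W _ ⟨a, haD, rfl⟩ ?_
    intro h
    apply ne_one_of_orderOf ha2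
    have := congrArg (fun x => g⁻¹ * x * g) h
    simpa [mul_assoc] using this
  rw [h1, hW, le_bot_iff, heq] at h2
  exact (Subgroup.map_eq_bot_iff_of_injective _ (MulAut.conj g).injective).mp h2

end Cfsg.Agent.S3112
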