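import Cfsg.Statements.S3114
import Cfsg.Agent.H288.SmallRows
import Cfsg.Agent.GH.FinalKFour
import Cfsg.Agent.S1738

set_option autoImplicit false
open Cfsg

namespace Cfsg.Agent.S3114

/-- Let G be a non-abelian finite simple group of sectional 2-rank at most 4 in which the centralizer of every 2-central involution (an involution central in some Sylow 2-subgroup) is solvable, and suppose some 2-local subgroup of G is nonsolvable and 2-constrained. Then G is isomorphic to one of: the projective special linear group of dimension 4 over the field with 3 elements, the projective special unitary group PSU₄(3) (q = 3, realised over the field with 9 elements), the projective symplectic group of dimension 4 over the field with 3 elements, the Chevalley group of type G₂ over the field with 3 elements, the projective special linear group of dimension 3 over the field with 4 elements, an alternating group of degree 8, 9, 10 or 11, or the Mathieu group of degree 22. -/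
theorem result {G : Type*} [Group G] [Finite G] [IsSimpleGroup G] (hG : ¬ IsMulCommutative G) (h4 : Cfsg.SectionalPRankLE 2 4 G)
    (hc : ∀ t : G, Cfsg.IsTwoCentralInvolution t → Group.IsSolvable ↥(Subgroup.centralizer ({t} : Set G)))
    (hl : ∃ T : Subgroup G, IsPGroup 2 ↥T ∧ T ≠ ⊥ ∧ ¬ Group.IsSolvable ↥(Subgroup.normalizer (T : Set G)) ∧
      Cfsg.IsPConstrained 2 ↥(Subgroup.normalizer (T : Set G))) :
    (∃ (F : Type) (_ : Field F) (_ : Fintype F), Fintype.card F = 3 ∧
        (Nonempty (G ≃* Matrix.ProjectiveSpecialLinearGroup (Fin 4) F) ∨ Nonempty (G ≃* Cfsg.PSp 2 F) ∨ Nonempty (G ≃* ↥(Cfsg.Lie.chevG2.group F)))) ∨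
      (∃ (F : Type) (_ : Field F) (_ : Fintype F), Fintype.card F = 9 ∧ Nonempty (G ≃* Cfsg.PSU 4 F 3)) ∨
      (∃ (F : Type) (_ : Field F) (_ : Fintype F), Fintype.card F = 4 ∧ Nonempty (G ≃* Matrix.ProjectiveSpecialLinearGroup (Fin 3) F)) ∨
      (∃ n : ℕ, 8 ≤ n ∧ n ≤ 11 ∧ Nonempty (G ≃* ↥(alternatingGroup (Fin n)))) ∨ Cfsg.Spor.IsoM22 G := by
  have h1738 : Cfsg.Agent.GH.AltOut.St1738 G := Cfsg.Agent.S1738.result
  obtain ⟨T, hT, hne, hns, hpc⟩ := hl
  have hLC : Cfsg.Agent.H288.SmallRows.LC G := Cfsg.Agent.H288.Light.light h4 _ hns hpc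
  -- a 2-central involution
  obtain ⟨t, ht⟩ : ∃ t : G, Cfsg.IsTwoCentralInvolution t :=
    Cfsg.Agent.H288.SmallRows.exists_central (Dvd.dvd.trans (by norm_num) hLC.dvd)
  have hs := hc t ht
  have hb : ¬ Cfsg.Agent.H288.KillLong.Bad t := fun h => h.not_solvable hs
  have hL := Cfsg.Agent.H288.Rest.rest_of_not_bad (Cfsg.Agent.GH.FinalKFour.k4 G hG h4) ht hb
  rcases Cfsg.Agent.H288.SmallRows.table hG h4 h1738 hL ht hs hLC hT hne hns with h | h | h | h | h | h | h
  · exact Or.inr (Or.inr (Or.inl h))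
  · exact Or.inr (Or.inr (Or.inr (Or.inl h)))
  · obtain ⟨F, i, j, hF, e⟩ := h
    exact Or.inl ⟨F, i, j, hF, Or.inr (Or.inl e)⟩
  · obtain ⟨F, i, j, hF, e⟩ := h
    exact Or.inl ⟨F, i, j, hF, Or.inl e⟩
  · obtain ⟨F, i, j, hF, e⟩ := h
    exact Or.inr (Or.inl ⟨F, i, j, by rw [hF]; norm_num, e⟩)
  · obtain ⟨F, i, j, hF, e⟩ := h
    exact Or.inl ⟨F, i, j, hF, Or.inr (Or.inr e)⟩
  · exact Or.inr (Or.inr (Or.inr (Or.inr h)))

end Cfsg.Agent.S3114
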