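import Cfsg.Statements.S3115
import Cfsg.Agent.H325.ConOdd
import Cfsg.Agent.H325.ConSmall
import Cfsg.Agent.H325.ConM12
import Cfsg.Agent.H325.ConM22
import Cfsg.Agent.H325.ConAlt
import Cfsg.Agent.GH.FinalKFour
import Cfsg.Agent.H288.CompRows
import Cfsg.Agent.S1738

set_option autoImplicit false
open Cfsg

namespace Cfsg.Agent.S3115

open Cfsg.Agent.H325.Con

/-- Let G be a non-abelian finite simple group of sectional 2-rank at most 4 in which the centralizer of some involution is nonsolvable and 2-constrained. Then G is isomorphic to the second Janko group, the third Janko group, or the Mathieu group of degree 23. -/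
theorem result {G : Type*} [Group G] [Finite G] [IsSimpleGroup G] (hG : ¬ IsMulCommutative G) (h4 : Cfsg.SectionalPRankLE 2 4 G)
    (t : G) (ht : orderOf t = 2) (hns : ¬ Group.IsSolvable ↥(Subgroup.centralizer ({t} : Set G)))
    (hc : Cfsg.IsPConstrained 2 ↥(Subgroup.centralizer ({t} : Set G))) :
    Cfsg.Spor.IsoJ2 G ∨ Cfsg.Spor.IsoJ3 G ∨ Cfsg.Spor.IsoM23 G := by
  have hnc : ¬ NC G := fun h => hns (h t ht hc)
  have hree : ¬ Lie.IsoRee G := fun h => hnc (nc_ree h)
  have hodd : ∀ h : _, False := fun h => hnc (nc_of_odd_rows (X := G) h hree)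
  rcases GH.FinalKFour.k4 G hG h4 with h | h | h | h | h | h | h | h | h | h | h | h | h | h | h | h | h | h
  · rcases h with h | h | h | h | h | h
    · exact (hodd (Or.inl h)).elim
    · exact (hodd (Or.inr (Or.inl h))).elim
    · exact (hodd (Or.inr (Or.inr (Or.inl h)))).elim
    · exact (hnc (nc_u34 h)).elim
    · exact (hnc (H325.ConAlt.nc_isAlt (by norm_num) h)).elim
    · exact (hnc (nc_m11 h)).elim
  · rcases h with h | h | h | h
    · exact (hnc (nc_l28 h)).elim
    · exact (hnc (nc_sz8 h)).elim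
    · exact (hree h).elim
    · exact (hnc (nc_j1 h)).elim
  · exact (hnc (nc_l216 h)).elim
  · exact (hnc (nc_l34 h)).elim
  · obtain ⟨n, -, hn, h⟩ := h
    exact (hnc (H325.ConAlt.nc_isAlt hn h)).elim
  · exact (hodd (Or.inr (Or.inr (Or.inr (Or.inl h))))).elim
  · exact (hodd (Or.inr (Or.inr (Or.inr (Or.inr (Or.inl h)))))).elim
  · exact (hodd (Or.inr (Or.inr (Or.inr (Or.inr (Or.inr (Or.inl h))))))).elim
  · exact (hodd (Or.inr (Or.inr (Or.inr (Or.inr (Or.inr (Or.inr (Or.inl h)))))))).elim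
  · exact (hodd (Or.inr (Or.inr (Or.inr (Or.inr (Or.inr (Or.inr (Or.inr (Or.inl h))))))))).elim
  · exact (hodd (Or.inr (Or.inr (Or.inr (Or.inr (Or.inr (Or.inr (Or.inr (Or.inr (Or.inl h.1)))))))))).elim
  · exact (hodd (Or.inr (Or.inr (Or.inr (Or.inr (Or.inr (Or.inr (Or.inr (Or.inr (Or.inr h.1)))))))))).elim
  · exact (hnc (H325.ConM12.nc h)).elim
  · exact (hnc (H325.ConM22.nc h)).elim
  · exact Or.inr (Or.inr h)
  · exact Or.inl h
  · exact Or.inr (Or.inl h)
  · exact ((H288.CompRows.alt hG (fun hO hF t ht K hK htK n hn hKA =>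
      Cfsg.Agent.S1738.result hO hF t ht K hK htK n hn hKA) h ht).not_constrained hc).elim

end Cfsg.Agent.S3115
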