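import Cfsg.Statements.S3117
import Cfsg.Agent.S0093
import Cfsg.Agent.S0121
import Cfsg.Agent.S0014
import Cfsg.Agent.S0501
import Cfsg.Agent.Schreier.Basic
import Cfsg.Agent.Schreier.Tools
import Cfsg.Agent.H289.QuadPerf

set_option autoImplicit false
open Cfsg

namespace Cfsg.Agent.S3117

open Cfsg.Agent.Schreier.Basic Cfsg.Agent.Schreier.Tools Cfsg.Agent.H289.QuadPerf

/-- The elements of square 1 form a subgroup of order 4. -/
theorem exists_V {X : Type*} [Group X] [Finite X] (h2 : IsPGroup 2 X)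
    (h3 : Nat.card {x : X // orderOf x = 2} = 3) :
    ∃ V : Subgroup X, (∀ x, x ∈ V ↔ x * x = 1) ∧ Nat.card V = 4 ∧ ∃ z ∈ Subgroup.center X, z ∈ V ∧ z ≠ 1 := by
  classical
  have hp2 : Fact (Nat.Prime 2) := ⟨Nat.prime_two⟩
  have hord : ∀ x : X, orderOf x = 2 ↔ (x * x = 1 ∧ x ≠ 1) := by
    intro x
    rw [orderOf_eq_iff (by norm_num)]
    constructor
    · rintro ⟨ha, hb⟩
      refine ⟨by rw [← sq]; exact ha, ?_⟩
      have := hb 1 (by norm_num) (by norm_num)
      simpa using this
    · rintro ⟨ha, hb⟩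
      refine ⟨by rw [sq]; exact ha, ?_⟩
      intro m hm hm0
      have : m = 1 := by omega
      subst this
      simpa using hb
  set I : Set X := {x | orderOf x = 2} with hI
  have hI3 : I.ncard = 3 := by rw [← Nat.card_coe_set_eq]; exact h3
  have hnt : Nontrivial X := by
    obtain ⟨x, hx⟩ : I.Nonempty := (Set.ncard_pos (Set.toFinite _)).1 (by omega)
    exact ⟨x, 1, ((hord x).1 hx).2⟩
  -- a central involution
  obtain ⟨z, hzc, hz⟩ : ∃ z : X, z ∈ Subgroup.center X ∧ orderOf z = 2 := by
    have h4 : Nontrivial (Subgroup.center X) := h2.center_nontrivial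
    have h5 : IsPGroup 2 (Subgroup.center X) := h2.to_subgroup _
    obtain ⟨n, hn0, hn⟩ := h5.nontrivial_iff_card.1 h4
    have h6 : 2 ∣ Nat.card (Subgroup.center X) := by rw [hn]; exact dvd_pow_self 2 hn0.ne'
    obtain ⟨z, hz⟩ := exists_prime_orderOf_dvd_card' 2 h6
    exact ⟨z, z.2, by rw [Subgroup.orderOf_coe, hz]⟩
  have hz2 := (hord z).1 hz
  have hzcomm : ∀ x, z * x = x * z := fun x => ((Subgroup.mem_center_iff.1 hzc) x).symm
  obtain ⟨t, htI, htz⟩ : ∃ t ∈ I, t ≠ z := by
    by_contra hcon
    push Not at hcon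
    have h4 : I ⊆ {z} := fun x hx => hcon x hx
    have h5 := Set.ncard_le_ncard h4 (Set.toFinite _)
    rw [Set.ncard_singleton] at h5
    omega
  have ht2 := (hord t).1 htI
  have hzt : z * t ∈ I := by
    refine (hord _).2 ⟨?_, ?_⟩
    · rw [mul_assoc, ← mul_assoc t, ← hzcomm t, mul_assoc z t t, ht2.1, mul_one, hz2.1]
    · intro h
      apply htz
      calc t = z * (z * t) := by rw [← mul_assoc, hz2.1, one_mul]
        _ = z := by rw [h, mul_one]
  have hzI : z ∈ I := hz
  have hIeq : I = {z, t, z * t} := by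
    symm
    apply Set.eq_of_subset_of_ncard_le
    · intro x hx
      simp only [Set.mem_insert_iff, Set.mem_singleton_iff] at hx
      rcases hx with rfl | rfl | rfl
      · exact hzI
      · exact htI
      · exact hzt
    · rw [hI3, Set.ncard_eq_three.2 ⟨z, t, z * t, htz.symm, ?_, ?_, rfl⟩]
      · intro h
        exact ht2.2 (mul_eq_left.1 h.symm)
      · intro h
        exact hz2.2 (mul_eq_right.1 h.symm)
    · exact Set.toFinite _
  have hsq : ∀ x : X, x * x = 1 ↔ x = 1 ∨ x = z ∨ x = t ∨ x = z * t := by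
    intro x
    constructor
    · intro hx
      by_cases hx1 : x = 1
      · exact Or.inl hx1
      · right
        have h4 : x ∈ I := (hord x).2 ⟨hx, hx1⟩
        rw [hIeq] at h4
        simpa using h4
    · rintro (rfl | rfl | rfl | rfl)
      · simp
      · exact hz2.1
      · exact ht2.1
      · exact ((hord _).1 hzt).1
  let V : Subgroup X :=
    { carrier := {x | x * x = 1}
      mul_mem' := by
        intro a b ha hb
        have ha' : a * a = 1 := ha
        have hb' : b * b = 1 := hb
        have hab : a * b = b * a := by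
          rcases (hsq a).1 ha' with rfl | rfl | rfl | rfl <;> rcases (hsq b).1 hb' with rfl | rfl | rfl | rfl <;>
            simp [hzcomm, mul_assoc]
        show a * b * (a * b) = 1
        rw [mul_assoc, ← mul_assoc b, ← hab, mul_assoc, hb', mul_one, ha']
      one_mem' := by simp
      inv_mem' := by
        intro a ha
        have ha' : a * a = 1 := ha
        show a⁻¹ * a⁻¹ = 1
        rw [← mul_inv_rev, ha', inv_one] }
  refine ⟨V, fun x => Iff.rfl, ?_, z, hzc, hz2.1, hz2.2⟩
  have h4 : (V : Set X) = insert 1 I := by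
    ext x
    constructor
    · intro hx
      have hx' : x * x = 1 := hx
      by_cases hx1 : x = 1
      · exact Or.inl hx1
      · exact Or.inr ((hord x).2 ⟨hx', hx1⟩)
    · rintro (rfl | hx)
      · exact one_mem V
      · exact ((hord x).1 hx).1
  have h5 : Nat.card V = (V : Set X).ncard := (Nat.card_coe_set_eq _)
  rw [h5, h4, Set.ncard_insert_of_notMem, hI3]
  intro h
  exact ((hord 1).1 h).2 rfl

/-- The action of an invariant group of automorphisms on a section. -/
theorem exists_section_hom {X : Type*} [Group X] {D : Subgroup (MulAut X)} {A B : Subgroup X}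
    (hA : Inv D A) (hB : Inv D B) [hn : (B.subgroupOf A).Normal] :
    ∃ ρ : D →* MulAut (A ⧸ B.subgroupOf A), ∀ (φ : D) (a : A),
      ρ φ (QuotientGroup.mk a) = QuotientGroup.mk (hA.res φ a) := by
  have hmap : ∀ φ : D, (B.subgroupOf A).map (hA.res φ).toMonoidHom = B.subgroupOf A := by
    intro φ
    apply le_antisymm
    · rintro _ ⟨a, ha, rfl⟩
      have ha' : (a : X) ∈ B := ha
      exact hB.apply_mem φ.2 ha'
    · intro a ha
      have ha' : (a : X) ∈ B := ha
      refine ⟨hA.res φ⁻¹ a, ?_, ?_⟩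
      · exact hB.apply_mem (φ⁻¹).2 ha'
      · show hA.res φ (hA.res φ⁻¹ a) = a
        rw [← MulAut.mul_apply, ← map_mul, mul_inv_cancel, map_one, MulAut.one_apply]
  refine ⟨{ toFun := fun φ => QuotientGroup.congr (B.subgroupOf A) (B.subgroupOf A) (hA.res φ) (hmap φ)
            map_one' := ?_
            map_mul' := ?_ }, ?_⟩
  · apply MulEquiv.ext
    intro w
    induction w using QuotientGroup.induction_on with
    | H a => rfl
  · intro φ ψ
    apply MulEquiv.ext
    intro w
    induction w using QuotientGroup.induction_on with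
    | H a => rfl
  · intro φ a
    rfl

/-- If X is a finite 2-group containing exactly three involutions, then the automorphism group of X is solvable. -/
theorem result {X : Type*} [Group X] [Finite X] (h2 : IsPGroup 2 X) (h3 : Nat.card {x : X // orderOf x = 2} = 3) : Group.IsSolvable (MulAut X) := by
  classical
  have hp2 : Fact (Nat.Prime 2) := ⟨Nat.prime_two⟩
  obtain ⟨V, hV, hV4, z₀, hz₀c, hz₀V, hz₀1⟩ := exists_V h2 h3
  have hXsol : Group.IsSolvable X := by
    have := h2.isNilpotent
    infer_instance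
  have hsub : ∀ A : Subgroup X, Group.IsSolvable A := fun A => inferInstance
  -- sectional rank
  have hsec : Cfsg.SectionalPRankLE 2 4 X := by
    apply Cfsg.Agent.S0501.result h2
    intro A _ _ hA
    have h4 : A ≤ V := fun a ha => (hV a).2 (by rw [← sq]; exact hA a ha)
    have h5 := Subgroup.card_le_of_le h4
    omega
  obtain ⟨H, hHc, hH1, hH2, hH3⟩ := Cfsg.Agent.S0093.result h2
  obtain ⟨Z, hZ⟩ : ∃ Z : Subgroup X, Z = H ⊓ Subgroup.centralizer (H : Set X) := ⟨_, rfl⟩
  have hZH : Z ≤ H := by rw [hZ]; exact inf_le_left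
  -- squares of elements of H lie in Z
  have hsqZ : ∀ a ∈ H, a * a ∈ Z := by
    intro a ha
    rw [hZ]
    refine ⟨mul_mem ha ha, ?_⟩
    apply hH1
    refine ⟨⟨a * a, mul_mem ha ha⟩, ?_, rfl⟩
    have hHp : IsPGroup 2 H := h2.to_subgroup H
    have h4 := Cfsg.Agent.S0014.pow_mem_frattini hHp (⟨a, ha⟩ : H)
    rw [sq] at h4
    exact h4
  have hcomZ : ∀ a ∈ H, ∀ b ∈ H, a⁻¹ * b * a * b⁻¹ ∈ Z := by
    intro a ha b hb
    have h4 := hH2 (Subgroup.commutator_mem_commutator (inv_mem ha) (Subgroup.mem_top b))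
    rw [hZ]
    simpa [commutatorElement_def] using h4
  have hZc : ∀ z ∈ Z, ∀ a ∈ H, a * z = z * a := by
    intro z hz a ha
    rw [hZ] at hz
    exact (Subgroup.mem_centralizer_iff.1 hz.2) a ha
  have hZZ : ∀ z ∈ Z, ∀ w ∈ Z, w * z = z * w := fun z hz w hw => hZc z hz w (hZH hw)
  -- the square of a product
  have hsqmul : ∀ a b : X, a * b * (a * b) = (a * a) * (a⁻¹ * b * a * b⁻¹) * (b * b) := by
    intro a b; group
  have hc2 : ∀ a ∈ H, ∀ b ∈ H, (a⁻¹ * b * a * b⁻¹) * (a⁻¹ * b * a * b⁻¹) = 1 := by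
    intro a ha b hb
    have hc := hcomZ a ha b hb
    set c := a⁻¹ * b * a * b⁻¹ with hcdef
    have h4 : a⁻¹ * b * a = c * b := by rw [hcdef]; group
    have h5 : a⁻¹ * (b * b) * a = (c * c) * (b * b) := by
      calc a⁻¹ * (b * b) * a = (a⁻¹ * b * a) * (a⁻¹ * b * a) := by group
        _ = c * (b * c) * b := by rw [h4]; group
        _ = (c * c) * (b * b) := by rw [hZc c hc b hb]; group
    have h6 : a⁻¹ * (b * b) * a = b * b := by
      rw [mul_assoc, ← hZc (b * b) (hsqZ b hb) a ha]
      group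
    rw [h6] at h5
    exact (mul_eq_right.1 h5.symm)
  let D0 : Subgroup X :=
    { carrier := {d | d ∈ H ∧ (d * d) * (d * d) = 1}
      mul_mem' := by
        rintro a b ⟨ha, ha4⟩ ⟨hb, hb4⟩
        refine ⟨mul_mem ha hb, ?_⟩
        have hc := hcomZ a ha b hb
        have hcc := hc2 a ha b hb
        rw [hsqmul a b]
        set c := a⁻¹ * b * a * b⁻¹ with hcdef
        have e1 := hZZ (a * a) (hsqZ a ha) (b * b) (hsqZ b hb)
        have e2 := hZZ c hc (b * b) (hsqZ b hb)
        have e3 := hZZ c hc (a * a) (hsqZ a ha)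
        set A := a * a with hA
        set B := b * b with hB
        calc A * c * B * (A * c * B) = A * c * (B * A) * c * B := by group
          _ = A * (c * A) * (B * c) * B := by rw [e1]; group
          _ = (A * A) * (c * c) * (B * B) := by rw [← e3, e2]; group
          _ = 1 := by rw [ha4, hcc, hb4]; simp
      one_mem' := ⟨one_mem H, by simp⟩
      inv_mem' := by
        rintro a ⟨ha, ha4⟩
        refine ⟨inv_mem ha, ?_⟩
        rw [← mul_inv_rev, ← mul_inv_rev, ha4, inv_one] }
  have hD0 : ∀ d, d ∈ D0 ↔ d ∈ H ∧ (d * d) * (d * d) = 1 := fun d => Iff.rfl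
  clear_value D0
  have hD0H : D0 ≤ H := fun d hd => ((hD0 d).1 hd).1
  set V0 : Subgroup X := V ⊓ Z with hV0
  have hV0D0 : V0 ≤ D0 := by
    intro v hv
    rw [hD0]
    refine ⟨hZH hv.2, ?_⟩
    rw [(hV v).1 hv.1, mul_one]
  have hsq0 : ∀ d ∈ D0, d * d ∈ V0 := by
    intro d hd
    rw [hD0] at hd
    exact ⟨(hV _).2 hd.2, hsqZ d hd.1⟩
  have hnorm : (V0.subgroupOf D0).Normal := by
    constructor
    intro v hv d
    rw [Subgroup.mem_subgroupOf] at hv ⊢
    have h4 := hZc v hv.2 d (hD0H d.2)
    have h5 : ((d * v * d⁻¹ : D0) : X) = v := by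
      rw [Subgroup.coe_mul, Subgroup.coe_mul, h4, Subgroup.coe_inv, mul_assoc, mul_inv_cancel, mul_one]
    rw [h5]
    exact hv
  let s : D0 ⧸ V0.subgroupOf D0 → V0 := Quotient.lift (fun d : D0 => (⟨d * d, hsq0 d d.2⟩ : V0)) (by
    intro a b hab
    have hab' : a⁻¹ * b ∈ V0.subgroupOf D0 := QuotientGroup.leftRel_apply.1 hab
    rw [Subgroup.mem_subgroupOf] at hab'
    apply Subtype.ext
    show (a : X) * a = b * b
    set v : X := ((a⁻¹ * b : D0) : X) with hv
    have hbv : (b : X) = a * v := by rw [hv]; simp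
    have h4 := hZc v hab'.2 a (hD0H a.2)
    have h5 : v * v = 1 := (hV v).1 hab'.1
    calc (a : X) * a = a * a * (v * v) := by rw [h5, mul_one]
      _ = a * (a * v) * v := by group
      _ = a * (v * a) * v := by rw [h4]
      _ = a * v * (a * v) := by group
      _ = b * b := by rw [← hbv])
  have hs : ∀ d : D0, ((s (QuotientGroup.mk d) : V0) : X) = d * d := fun d => rfl
  have hV0c : ∀ a b : V0, a * b = b * a := by
    intro a b
    apply Subtype.ext
    show (a : X) * b = b * a
    exact hZZ b b.2.2 a a.2.2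
  have hV02 : ∀ a : V0, a * a = 1 := by
    intro a
    apply Subtype.ext
    show (a : X) * a = 1
    exact (hV _).1 a.2.1
  -- the bilinear form
  have hform : ∀ a b : D0, ((s (QuotientGroup.mk (a * b)) * s (QuotientGroup.mk a) * s (QuotientGroup.mk b) : V0) : X) =
      (a : X)⁻¹ * b * a * (b : X)⁻¹ := by
    intro a b
    show ((a : X) * b * (a * b)) * (a * a) * (b * b) = _
    rw [hsqmul]
    have hc := hcomZ a (hD0H a.2) b (hD0H b.2)
    set c := (a : X)⁻¹ * b * a * (b : X)⁻¹ with hcdef
    have e1 := hZZ ((a : X) * a) (hsqZ a (hD0H a.2)) (b * b) (hsqZ b (hD0H b.2))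
    have e3 := hZZ c hc ((a : X) * a) (hsqZ a (hD0H a.2))
    have ha4 := ((hD0 a).1 a.2).2
    have hb4 := ((hD0 b).1 b.2).2
    set A := (a : X) * a with hA
    set B := (b : X) * b with hB
    calc A * c * B * A * B = A * c * (B * A) * B := by group
      _ = A * (c * A) * (B * B) := by rw [e1]; group
      _ = (A * A) * c * (B * B) := by rw [← e3]; group
      _ = c := by rw [ha4, hb4]; simp
  have hQM : QM s := by
    refine ⟨?_, hV02, ?_⟩
    · intro w
      induction w using QuotientGroup.induction_on with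
      | H a =>
        rw [← QuotientGroup.mk_mul, QuotientGroup.eq_one_iff, Subgroup.mem_subgroupOf]
        exact hsq0 a a.2
    · intro x y z
      induction x using QuotientGroup.induction_on with
      | H a =>
      induction y using QuotientGroup.induction_on with
      | H b =>
      induction z using QuotientGroup.induction_on with
      | H c =>
        apply Subtype.ext
        rw [Subgroup.coe_mul (x := s _ * s _ * s _)]
        simp only [← QuotientGroup.mk_mul]
        rw [hform, hform, hform]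
        have hc := hcomZ a (hD0H a.2) c (hD0H c.2)
        have h5 := hZc _ hc _ (inv_mem (hD0H b.2))
        rw [Subgroup.coe_mul]
        calc ((a : X) * b)⁻¹ * c * (a * b) * (c : X)⁻¹ =
            (b : X)⁻¹ * ((a : X)⁻¹ * c * a * (c : X)⁻¹) * (c * b * (c : X)⁻¹) := by group
          _ = ((a : X)⁻¹ * c * a * (c : X)⁻¹) * (b : X)⁻¹ * (c * b * (c : X)⁻¹) := by rw [h5]
          _ = _ := by group
  have hWcard : Nat.card (D0 ⧸ V0.subgroupOf D0) ≤ 16 := by
    have h4 := hsec D0 (V0.subgroupOf D0) ⊤ ⟨⟨fun a b => Subtype.ext (comm_of_two hQM.w2 a.1 b.1)⟩⟩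
      (fun a _ => by rw [sq]; exact hQM.w2 a)
    rw [Subgroup.card_top] at h4
    simpa using h4
  have hVcard : Nat.card V0 ≤ 4 := by
    have h4 : V0 ≤ V := inf_le_left
    have h5 := Subgroup.card_le_of_le h4
    omega
  have hZ0 : z₀ ∈ V0 := by
    refine ⟨hz₀V, ?_⟩
    have h4 : z₀ ∈ Subgroup.centralizer (H : Set X) := Subgroup.mem_centralizer_iff.2 fun h _ =>
      (Subgroup.mem_center_iff.1 hz₀c h)
    rw [hZ]
    exact ⟨hH3 h4, h4⟩
  have hzeros : ∃ c, ∀ w, s w = 1 → w = 1 ∨ w = c := by
    by_cases hall : ∀ w, s w = 1 → w = 1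
    · exact ⟨1, fun w hw => Or.inl (hall w hw)⟩
    push Not at hall
    obtain ⟨c, hc, hc1⟩ := hall
    refine ⟨c, fun w hw => ?_⟩
    by_contra hcon
    push Not at hcon
    induction w using QuotientGroup.induction_on with
    | H a =>
    induction c using QuotientGroup.induction_on with
    | H b =>
      -- `a, b ∈ V`, `a, b, a b ∉ V0`
      have ha : (a : X) ∈ V := (hV _).2 (by rw [← hs a, hw]; rfl)
      have hb : (b : X) ∈ V := (hV _).2 (by rw [← hs b, hc]; rfl)
      have ha0 : (a : X) ∉ V0 := fun h => hcon.1 ((QuotientGroup.eq_one_iff a).2 (Subgroup.mem_subgroupOf.2 h))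
      have hb0 : (b : X) ∉ V0 := fun h => hc1 ((QuotientGroup.eq_one_iff b).2 (Subgroup.mem_subgroupOf.2 h))
      have hab0 : (a : X)⁻¹ * b ∉ V0 := fun h => hcon.2 (QuotientGroup.eq.2 (Subgroup.mem_subgroupOf.2 h))
      have hle : V0 ≤ V := inf_le_left
      -- five elements of V
      have h4 : ({1, z₀, (a : X), (b : X), (a : X) * z₀} : Set X) ⊆ (V : Set X) := by
        intro x hx
        simp only [Set.mem_insert_iff, Set.mem_singleton_iff] at hx
        rcases hx with rfl | rfl | rfl | rfl | rfl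
        · exact one_mem V
        · exact hz₀V
        · exact ha
        · exact hb
        · exact mul_mem ha hz₀V
      have h5 := Set.ncard_le_ncard h4 (Set.toFinite _)
      have h6 : (V : Set X).ncard = 4 := by rw [← Nat.card_coe_set_eq]; exact hV4
      have n1 : (1 : X) ≠ z₀ := hz₀1.symm
      have n2 : (1 : X) ≠ a := fun h => ha0 (h ▸ one_mem V0)
      have n3 : (1 : X) ≠ b := fun h => hb0 (h ▸ one_mem V0)
      have n4 : (1 : X) ≠ a * z₀ := fun h => ha0 (by
        have : (a : X) = z₀⁻¹ := eq_inv_of_mul_eq_one_left h.symm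
        rw [this]; exact inv_mem hZ0)
      have n5 : z₀ ≠ a := fun h => ha0 (h ▸ hZ0)
      have n6 : z₀ ≠ b := fun h => hb0 (h ▸ hZ0)
      have n7 : z₀ ≠ a * z₀ := fun h => n2 (mul_eq_right.1 h.symm).symm
      have n8 : (a : X) ≠ b := fun h => hab0 (by rw [h, inv_mul_cancel]; exact one_mem _)
      have n9 : (a : X) ≠ a * z₀ := fun h => hz₀1 (mul_eq_left.1 h.symm)
      have n10 : (b : X) ≠ a * z₀ := fun h => hab0 (by rw [h, ← mul_assoc, inv_mul_cancel, one_mul]; exact hZ0)
      rw [h6, Set.ncard_insert_of_notMem (by simp [n1, n2, n3, n4]),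
        Set.ncard_insert_of_notMem (by simp [n5, n6, n7]),
        Set.ncard_insert_of_notMem (by simp [n8, n9]), Set.ncard_pair n10] at h5
      omega
  -- perfect groups of automorphisms
  have key : ∀ D : Subgroup (MulAut X), ⁅D, D⁆ = D → D = ⊥ := by
    intro D hD
    have hIV : Inv D V := inv_iff.2 fun φ _ a ha => (hV _).2 (by rw [← map_mul, (hV a).1 ha, map_one])
    have hTV : Tr D V := by
      rw [← trMod_bot]
      exact trMod_of_relIndex_le_four hD hIV (inv_bot D) (by rw [Subgroup.relIndex_bot_left, hV4]; norm_num)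
        (by rw [Subgroup.relIndex_bot_left, hV4])
    have hIH : Inv D H := fun φ _ => Subgroup.characteristic_iff_map_eq.1 hHc φ
    have hIZ : Inv D Z := by rw [hZ]; exact hIH.center
    -- D centralises Z
    have hTZ : ∀ k : ℕ, ∀ φ ∈ D, ∀ z ∈ Z, z ^ 2 ^ k = 1 → φ z = z := by
      intro k
      induction k with
      | zero => intro φ _ z _ hz; rw [pow_zero, pow_one] at hz; rw [hz, map_one]
      | succ k ih =>
        -- the subgroup of elements of `Z` with `z ^ 2 ^ (k+1) = 1`
        let A : Subgroup X :=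
          { carrier := {z | z ∈ Z ∧ z ^ 2 ^ (k + 1) = 1}
            mul_mem' := by
              rintro a b ⟨ha, ha1⟩ ⟨hb, hb1⟩
              refine ⟨mul_mem ha hb, ?_⟩
              have h4 : Commute a b := hZZ b hb a ha
              rw [h4.mul_pow, ha1, hb1, mul_one]
            one_mem' := ⟨one_mem Z, one_pow _⟩
            inv_mem' := by
              rintro a ⟨ha, ha1⟩
              exact ⟨inv_mem ha, by rw [inv_pow, ha1, inv_one]⟩ }
        have hA : ∀ z, z ∈ A ↔ z ∈ Z ∧ z ^ 2 ^ (k + 1) = 1 := fun z => Iff.rfl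
        have h5 : TrMod D A V := by
          intro φ hφ a ha
          rw [hA] at ha
          have h6 : φ (a * a) = a * a := by
            apply ih φ hφ _ (mul_mem ha.1 ha.1)
            rw [← sq, ← pow_mul, ← pow_succ']
            exact ha.2
          rw [map_mul] at h6
          have h7 := hZZ (φ a) (hIZ.apply_mem hφ ha.1) (a⁻¹) (inv_mem ha.1)
          rw [hV]
          calc a⁻¹ * φ a * (a⁻¹ * φ a) = a⁻¹ * φ a * (φ a * a⁻¹) := by rw [h7]
            _ = a⁻¹ * (φ a * φ a) * a⁻¹ := by group
            _ = 1 := by rw [h6]; group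
        have h6 := tr_of_trMod hD (hsub V) hTV h5
        intro φ hφ z hz hz1
        exact h6 φ hφ z ((hA z).2 ⟨hz, hz1⟩)
    have hTZ' : Tr D Z := by
      intro φ hφ z hz
      obtain ⟨k, hk⟩ := h2 z
      exact hTZ k φ hφ z hz hk
    have hID : Inv D D0 := inv_iff.2 fun φ hφ a ha => by
      rw [hD0] at ha ⊢
      refine ⟨hIH.apply_mem hφ ha.1, ?_⟩
      rw [← map_mul, ← map_mul, ha.2, map_one]
    have hIV0 : Inv D V0 := hIV.inf hIZ
    -- H over D0
    have hHD : TrMod D H D0 := by
      intro φ hφ a ha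
      have hφa := hIH.apply_mem hφ ha
      rw [hD0]
      have hd : a⁻¹ * φ a ∈ H := mul_mem (inv_mem ha) hφa
      refine ⟨hd, ?_⟩
      set d := a⁻¹ * φ a with hddef
      have h6 : φ a = a * d := by rw [hddef]; group
      have h7 : φ (a * a) = a * a := hTZ' φ hφ _ (hsqZ a ha)
      rw [map_mul, h6, hsqmul] at h7
      -- `a a c (d d) = a a`
      have h8 : (a⁻¹ * d * a * d⁻¹) * (d * d) = 1 := by
        rw [mul_assoc] at h7
        exact mul_eq_left.1 h7
      have h9 := hc2 a ha d hd
      have h10 : d * d = (a⁻¹ * d * a * d⁻¹) := by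
        set c := a⁻¹ * d * a * d⁻¹ with hcdef
        calc d * d = c * c * (d * d) := by rw [h9, one_mul]
          _ = c := by rw [mul_assoc, h8, mul_one]
      rw [h10, h9]
    obtain ⟨ρ, hρ⟩ := exists_section_hom hID hIV0
    have h4 : (⊤ : Subgroup D).map ρ = ⊥ := by
      apply hQM.eq_bot hWcard hVcard hzeros
      · exact map_perfect ρ (top_perfect hD)
      · rintro _ ⟨φ, -, rfl⟩ w
        induction w using QuotientGroup.induction_on with
        | H a =>
          rw [hρ]
          apply Subtype.ext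
          rw [hs, hs]
          show (φ : MulAut X) a * (φ : MulAut X) a = _
          rw [← map_mul]
          exact hTV φ φ.2 _ (hsq0 a a.2).1
    have h5 : TrMod D D0 V0 := by
      intro φ hφ a ha
      have h6 : ρ ⟨φ, hφ⟩ ∈ (⊤ : Subgroup D).map ρ := ⟨_, Subgroup.mem_top _, rfl⟩
      rw [h4, Subgroup.mem_bot] at h6
      have h7 := hρ ⟨φ, hφ⟩ ⟨a, ha⟩
      rw [h6, MulAut.one_apply, QuotientGroup.eq, Subgroup.mem_subgroupOf] at h7
      exact h7
    have h6 : Tr D D0 := tr_of_trMod hD (hsub V0) (hTV.mono inf_le_left) h5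
    have h7 : Tr D H := tr_of_trMod hD (hsub D0) h6 hHD
    have h8 : IsPGroup 2 D := by
      intro φ
      obtain ⟨k, m, hm, hk⟩ := Nat.exists_eq_two_pow_mul_odd (orderOf_pos φ).ne'
      refine ⟨k, ?_⟩
      apply Subtype.ext
      show ((φ : MulAut X)) ^ 2 ^ k = 1
      apply Cfsg.Agent.S0121.result h2 H hHc hH1 hH2 hH3
      · rw [← Subgroup.coe_pow, Subgroup.orderOf_coe, orderOf_pow, hk, Nat.gcd_mul_right_left,
          Nat.mul_div_cancel_left _ (by positivity)]
        exact Nat.coprime_two_right.2 hm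
      · intro x hx
        exact h7 _ (pow_mem φ.2 _) x hx
    have h9 : Group.IsSolvable D := by
      have := h8.isNilpotent
      infer_instance
    exact eq_bot_of_perfect_of_solvable hD h9
  have h7 := isSolvable_of_perfect_eq_bot (⊤ : Subgroup (MulAut X)) (fun D _ hD => key D hD)
  exact Group.isSolvable_of_surjective (f := (Subgroup.topEquiv (G := MulAut X)).toMonoidHom)
    (Subgroup.topEquiv (G := MulAut X)).surjective

end Cfsg.Agent.S3117
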