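import Cfsg.Statements.S3121
import Cfsg.Agent.S0205
import Cfsg.Agent.H290.HoltUF
import Cfsg.Agent.ClosedTwo.Row
import Cfsg.Agent.ClosedAlt.Alt
import Cfsg.Agent.Lib.GenFitting
import Cfsg.Agent.Transfer.PGroupNormal
import Cfsg.Agent.OddHalf.D3.ZStar
import Cfsg.Agent.SignalizersComponents.IntrinsicDiag

set_option autoImplicit false
open Cfsg

namespace Cfsg.Agent.S3121

open Subgroup Cfsg.Agent.HoltZ

section

universe u

variable {G : Type u} [Group G] [Finite G]

theorem orderOf_conj' (g x : G) : orderOf (g * x * g⁻¹) = orderOf x := by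
  have : g * x * g⁻¹ = MulAut.conj g x := rfl
  rw [this, MulEquiv.orderOf_eq]

/-- the basic control property -/
theorem key {H : Subgroup G} (hodd : ∀ g : G, g ∉ normalizer (H : Set G) →
      Odd (Nat.card ↥(H.map (MulAut.conj g).toMonoidHom ⊓ normalizer (H : Set G))))
    {x : G} (hx : x ∈ H) (hev : 2 ∣ orderOf x) {g : G} (hg : g * x * g⁻¹ ∈ normalizer (H : Set G)) :
    g ∈ normalizer (H : Set G) := by
  by_contra hgn
  have h1 := hodd g hgn
  have h3 : g * x * g⁻¹ ∈ H.map (MulAut.conj g).toMonoidHom ⊓ normalizer (H : Set G) := ⟨⟨x, hx, rfl⟩, hg⟩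
  have h4 := orderOf_dvd_natCard (⟨_, h3⟩ : ↥(H.map (MulAut.conj g).toMonoidHom ⊓ normalizer (H : Set G)))
  rw [Subgroup.orderOf_mk, orderOf_conj'] at h4
  exact Nat.not_even_iff_odd.2 h1 (even_iff_two_dvd.2 (hev.trans h4))

theorem exists_invol {K : Subgroup G} (h : 2 ∣ Nat.card K) : ∃ z ∈ K, orderOf z = 2 := by
  have : Fact (Nat.Prime 2) := ⟨Nat.prime_two⟩
  obtain ⟨⟨z, hz⟩, hz2⟩ := exists_prime_orderOf_dvd_card' 2 h
  rw [Subgroup.orderOf_mk] at hz2
  exact ⟨z, hz, hz2⟩

/-- the strongly embedded case -/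
theorem strongly_of_sylow {L : Type*} [Group L] [Finite L] {M K : Subgroup L} (hM : M ≠ ⊤)
    (hKM : K ≤ M) (hKn : ∀ m ∈ M, ∀ k ∈ K, m * k * m⁻¹ ∈ K) (P : Sylow 2 L) (hP : (P : Subgroup L) ≤ K)
    (hev : 2 ∣ Nat.card K)
    (hctrl : ∀ x ∈ K, 2 ∣ orderOf x → ∀ g : L, g * x * g⁻¹ ∈ M → g ∈ M) : IsStronglyEmbedded M := by
  have : Fact (Nat.Prime 2) := ⟨Nat.prime_two⟩
  -- all involutions of `M` are in `K`
  have hin : ∀ t ∈ M, orderOf t = 2 → t ∈ K := by
    intro t ht ht2
    let PM : Sylow 2 M := P.subtype (hP.trans hKM)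
    have hzo : orderOf (⟨t, ht⟩ : M) = 2 := by rw [Subgroup.orderOf_mk, ht2]
    have h2 : IsPGroup 2 (zpowers (⟨t, ht⟩ : M)) :=
      IsPGroup.of_card (n := 1) (by rw [Nat.card_zpowers, hzo, pow_one])
    obtain ⟨Q, hQ⟩ := h2.exists_le_sylow
    obtain ⟨k, hk⟩ := MulAction.exists_smul_eq M Q PM
    have h3 : k * (⟨t, ht⟩ : M) * k⁻¹ ∈ PM := by
      rw [← hk]
      exact ⟨_, hQ (mem_zpowers _), rfl⟩
    have h4 : (k : L) * t * (k : L)⁻¹ ∈ K := hP h3
    have h5 := hKn _ (M.inv_mem k.2) _ h4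
    have e : (k : L)⁻¹ * ((k : L) * t * (k : L)⁻¹) * ((k : L)⁻¹)⁻¹ = t := by group
    rwa [e] at h5
  refine ⟨hM, ?_, ?_⟩
  · exact even_iff_two_dvd.2 (hev.trans (Subgroup.card_dvd_of_le hKM))
  · intro g hg
    rw [← Nat.not_even_iff_odd]
    intro hcon
    obtain ⟨t, ht, ht2⟩ := exists_invol (even_iff_two_dvd.1 hcon)
    obtain ⟨ht1, x, hx, hxt⟩ := Subgroup.mem_inf.1 ht
    change g * x * g⁻¹ = t at hxt
    have hx2 : orderOf x = 2 := by rw [← ht2, ← hxt, orderOf_conj']
    apply hg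
    refine hctrl x (hin x hx hx2) (dvd_of_eq hx2.symm) g ?_
    rw [hxt]; exact ht1

theorem main {L : Subgroup G} (hLn : L.Normal) (hs : IsSimpleGroup L) (hna : ¬ IsMulCommutative L)
    (hc : centralizer (L : Set G) = ⊥) (H : Subgroup G) (hH : IsTightlyEmbedded H)
    (hodd : ∀ g : G, g ∉ normalizer (H : Set G) →
      Odd (Nat.card ↥(H.map (MulAut.conj g).toMonoidHom ⊓ normalizer (H : Set G)))) :
    H.Normal ∨ ∃ M : Subgroup L, IsStronglyEmbedded M := by
  have : Fact (Nat.Prime 2) := ⟨Nat.prime_two⟩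
  classical
  set N := normalizer (H : Set G) with hN
  by_cases hNt : N = ⊤
  · exact Or.inl (Subgroup.normalizer_eq_top_iff.1 hNt)
  have hHN : H ≤ N := Subgroup.le_normalizer
  have hkey : ∀ x ∈ H, 2 ∣ orderOf x → ∀ g : G, g * x * g⁻¹ ∈ N → g ∈ N := fun x hx h2 g hg => key hodd hx h2 hg
  have hNH : ∀ n ∈ N, ∀ x ∈ H, n * x * n⁻¹ ∈ H := fun n hn x hx => (mem_normalizer_iff.1 hn x).1 hx
  by_cases hHL : 2 ∣ Nat.card ↥(H ⊓ L)
  · -- Case A
    obtain ⟨z0, hz0, hz02⟩ := exists_invol hHL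
    obtain ⟨hz0H, hz0L⟩ := Subgroup.mem_inf.1 hz0
    by_cases hLN : L ≤ N
    · -- `L ≤ N`
      exfalso
      have hHn : (H.subgroupOf L).Normal := by
        refine ⟨fun x hx l => ?_⟩
        rw [Subgroup.mem_subgroupOf] at hx ⊢
        exact hNH _ (hLN l.2) _ hx
      have hLH : L ≤ H := by
        rcases hHn.eq_bot_or_eq_top with h1 | h1
        · exfalso
          have h2 : (⟨z0, hz0L⟩ : L) ∈ H.subgroupOf L := Subgroup.mem_subgroupOf.2 hz0H
          rw [h1, mem_bot] at h2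
          have h3 : z0 = 1 := congrArg Subtype.val h2
          rw [h3, orderOf_one] at hz02
          exact absurd hz02 (by norm_num)
        · exact Subgroup.subgroupOf_eq_top.1 h1
      apply hNt
      rw [eq_top_iff]
      intro g _
      by_contra hg
      have h1 := hH.2 g hg
      have h2 : z0 ∈ H ⊓ H.map (MulAut.conj g).toMonoidHom := by
        refine ⟨hz0H, g⁻¹ * z0 * g⁻¹⁻¹, hLH (hLn.conj_mem z0 hz0L g⁻¹), ?_⟩
        change g * (g⁻¹ * z0 * g⁻¹⁻¹) * g⁻¹ = z0
        group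
      have h4 := orderOf_dvd_natCard (⟨_, h2⟩ : ↥(H ⊓ H.map (MulAut.conj g).toMonoidHom))
      rw [Subgroup.orderOf_mk, hz02] at h4
      exact Nat.not_even_iff_odd.2 h1 (even_iff_two_dvd.2 h4)
    right
    set M : Subgroup L := N.subgroupOf L with hM
    have hMt : M ≠ ⊤ := fun h => hLN (Subgroup.subgroupOf_eq_top.1 h)
    set K : Subgroup L := H.subgroupOf L with hK
    have hKM : K ≤ M := Subgroup.comap_mono hHN
    have hKn : ∀ m ∈ M, ∀ k ∈ K, m * k * m⁻¹ ∈ K := by
      intro m hm k hk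
      rw [hK, Subgroup.mem_subgroupOf] at hk ⊢
      exact hNH _ (Subgroup.mem_subgroupOf.1 hm) _ hk
    have hctrl : ∀ x ∈ K, 2 ∣ orderOf x → ∀ g : L, g * x * g⁻¹ ∈ M → g ∈ M := by
      intro x hx h2 g hg
      rw [hM, Subgroup.mem_subgroupOf] at hg ⊢
      refine hkey x (Subgroup.mem_subgroupOf.1 hx) ?_ g hg
      rwa [Subgroup.orderOf_coe]
    set z1 : L := ⟨z0, hz0L⟩ with hz1
    have hz1K : z1 ∈ K := Subgroup.mem_subgroupOf.2 hz0H
    have hz12 : orderOf z1 = 2 := by rw [hz1, Subgroup.orderOf_mk, hz02]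
    have hU1 : UF M z1 := ⟨hMt, hKM hz1K, fun g hg => hctrl z1 hz1K (dvd_of_eq hz12.symm) g hg⟩
    have h2 : IsPGroup 2 (zpowers z1) :=
      IsPGroup.of_card (n := 1) (by rw [Nat.card_zpowers, hz12, pow_one])
    obtain ⟨P, hP⟩ := h2.exists_le_sylow
    have hz1P : z1 ∈ P := hP (mem_zpowers _)
    have hPM : (P : Subgroup L) ≤ M := hU1.pgroup P.2 hz1P
    -- the closed subgroup
    set A : Subgroup L := K ⊓ P with hA
    have hAn : (A.subgroupOf (P : Subgroup L)).Normal := by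
      refine ⟨fun x hx p => ?_⟩
      rw [Subgroup.mem_subgroupOf] at hx ⊢
      obtain ⟨hx1, hx2⟩ := Subgroup.mem_inf.1 hx
      exact Subgroup.mem_inf.2 ⟨hKn _ (hPM p.2) _ hx1, (p * x * p⁻¹ : ↥(P : Subgroup L)).2⟩
    have hA1 : A.subgroupOf (P : Subgroup L) ≠ ⊥ := by
      intro h
      have h3 : (⟨z1, hz1P⟩ : ↥(P : Subgroup L)) ∈ A.subgroupOf (P : Subgroup L) :=
        Subgroup.mem_subgroupOf.2 (Subgroup.mem_inf.2 ⟨hz1K, hz1P⟩)
      rw [h, mem_bot] at h3
      have h4 : z1 = 1 := congrArg Subtype.val h3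
      rw [h4, orderOf_one] at hz12
      exact absurd hz12 (by norm_num)
    obtain ⟨z, hzA, hzc, hz2⟩ := Cfsg.Agent.Transfer.PGroupNormal.exists_mem_inf_center_orderOf P.2 _ hA1
    have hzA' : (z : L) ∈ A := Subgroup.mem_subgroupOf.1 hzA
    have hz2' : orderOf (z : L) = 2 := by rw [Subgroup.orderOf_coe, hz2]
    have htc : IsTwoCentralInvolution (z : L) := by
      refine ⟨hz2', P, z.2, fun x hx => ?_⟩
      exact congrArg Subtype.val (mem_center_iff.1 hzc ⟨x, hx⟩)
    have hUz : UF M (z : L) := ⟨hMt, hPM z.2, fun g hg => hctrl z hzA'.1 (dvd_of_eq hz2'.symm) g hg⟩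
    have := hs
    rcases Cfsg.Agent.H290.holt_uf hna htc hUz with h | ⟨n, -, ⟨e⟩⟩
    · exact h
    · -- alternating groups
      have hrow : Cfsg.Agent.ClosedTwo.ClosedRow L :=
        Cfsg.Agent.ClosedTwo.ClosedRow.congr e.symm
          (fun S A hA => Cfsg.Agent.ClosedAlt.closed_alternating S A hA)
      have hcl : IsStronglyClosed A (P : Subgroup L) := by
        refine ⟨inf_le_right, fun x hx g hg => ?_⟩
        by_cases hx1 : x = 1
        · subst hx1
          simpa using A.one_mem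
        · have hx2 : 2 ∣ orderOf x := by
            obtain ⟨k, hk⟩ := P.2.exists_orderOf_eq_pow ⟨x, hx.2⟩
            rw [Subgroup.orderOf_mk] at hk
            rcases Nat.eq_zero_or_pos k with h0 | h0
            · rw [h0, pow_zero] at hk
              exact absurd (orderOf_eq_one_iff.1 hk) hx1
            · rw [hk]; exact dvd_pow_self 2 h0.ne'
          have hgM := hctrl x hx.1 hx2 g (hPM hg)
          exact ⟨hKn g hgM x hx.1, hg⟩
      rcases hrow P A hcl with h | h
      · exfalso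
        apply hA1
        rw [h]
        exact Subgroup.bot_subgroupOf _
      · have hPK : (P : Subgroup L) ≤ K := by rw [← h]; exact inf_le_left
        exact ⟨M, strongly_of_sylow hMt hKM hKn P hPK (hz12 ▸ (by
          have := orderOf_dvd_natCard (⟨z1, hz1K⟩ : K)
          rwa [Subgroup.orderOf_mk] at this)) hctrl⟩
  · -- Case B
    exfalso
    obtain ⟨t, htH, ht2⟩ := exists_invol (even_iff_two_dvd.1 hH.1)
    have hUt : UF N t := ⟨hNt, hHN htH, fun g hg => hkey t htH (dvd_of_eq ht2.symm) g hg⟩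
    have htt : t * t = 1 := by rw [← pow_two, ← ht2]; exact pow_orderOf_eq_one t
    have ht1 : t ≠ 1 := by
      rintro rfl
      rw [orderOf_one] at ht2
      exact absurd ht2 (by norm_num)
    -- `t` does not centralise `L`
    have hne : ∃ a ∈ L, t * a ≠ a * t := by
      by_contra hcon
      push Not at hcon
      apply ht1
      rw [← mem_bot, ← hc, mem_centralizer_iff]
      intro a ha
      exact (hcon a ha).symm
    have hLcard : 2 ∣ Nat.card L := by
      by_contra hLodd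
      have h1 : Odd (Nat.card L) := by rwa [← Nat.not_even_iff_odd, even_iff_two_dvd]
      have h2 : Group.IsSolvable L := Cfsg.Agent.S0205.result h1
      exact hna ⟨⟨IsSimpleGroup.comm_iff_isSolvable.2 h2⟩⟩
    obtain ⟨l, hl, hlt, hcomm⟩ := Cfsg.Agent.OddHalf.D3.ZStar.zst (A := L) (Cfsg.Agent.SignalizersComponents.IntrinsicDiag.quasisimple_of_simple hs hna) hLcard htt
      (by
        ext x
        rw [Cfsg.Agent.OddHalf.D3.ThreeDefs.mem_cj]
        constructor
        · intro hx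
          have := hLn.conj_mem _ hx t
          have e : t * (t⁻¹ * x * t) * t⁻¹ = x := by group
          rwa [e] at this
        · intro hx
          have := hLn.conj_mem _ hx t⁻¹
          rwa [inv_inv] at this) hne
    -- `l t l⁻¹ ∈ N`
    have h1 : l * t * l⁻¹ ∈ N := hUt.comm (by rw [hcomm])
    have h2 : l ∈ N := hUt.ctrl l h1
    have h3 : l * t * l⁻¹ ∈ H := hNH l h2 t htH
    have h4 : l * t * l⁻¹ * t ∈ H ⊓ L := by
      refine ⟨H.mul_mem h3 htH, ?_⟩
      have h5 : t * l⁻¹ * t⁻¹ ∈ L := hLn.conj_mem _ (L.inv_mem hl) t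
      have h6 : t⁻¹ = t := inv_eq_of_mul_eq_one_left htt
      have e : l * t * l⁻¹ * t = l * (t * l⁻¹ * t⁻¹) := by
        rw [h6]; group
      rw [e]
      exact L.mul_mem hl h5
    have h5 : (l * t * l⁻¹ * t) * (l * t * l⁻¹ * t) = 1 := by
      calc (l * t * l⁻¹ * t) * (l * t * l⁻¹ * t) = l * t * l⁻¹ * (t * (l * t * l⁻¹)) * t := by group
        _ = l * t * l⁻¹ * (l * t * l⁻¹ * t) * t := by rw [hcomm]
        _ = l * (t * t) * l⁻¹ * (t * t) := by group
        _ = 1 := by rw [htt]; group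
    by_cases h6 : l * t * l⁻¹ * t = 1
    · apply hlt
      have h7 : t⁻¹ = t := inv_eq_of_mul_eq_one_left htt
      rw [mul_eq_one_iff_eq_inv.1 h6, h7]
    · apply hHL
      have h7 : orderOf (l * t * l⁻¹ * t) = 2 := orderOf_eq_prime (by rw [pow_two, h5]) h6
      have h8 := orderOf_dvd_natCard (⟨_, h4⟩ : ↥(H ⊓ L))
      rwa [Subgroup.orderOf_mk, h7] at h8

end

/-- Let G be a finite group whose generalized Fitting subgroup F*(G) is a non-abelian simple group, let H be a tightly embedded subgroup of G and N its normalizer. If H^g ∩ N has odd order for every element g of G outside N, then either H is normal in G or F*(G) has a strongly embedded subgroup. -/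
theorem result {G : Type*} [Group G] [Finite G]
    (hF : IsSimpleGroup ↥(Cfsg.generalizedFittingSubgroup G)) (hF' : ¬ IsMulCommutative ↥(Cfsg.generalizedFittingSubgroup G))
    (H : Subgroup G) (hH : Cfsg.IsTightlyEmbedded H)
    (hodd : ∀ g : G, g ∉ Subgroup.normalizer (H : Set G) →
      Odd (Nat.card ↥(H.map (MulAut.conj g).toMonoidHom ⊓ Subgroup.normalizer (H : Set G)))) :
    H.Normal ∨ ∃ M : Subgroup ↥(Cfsg.generalizedFittingSubgroup G), Cfsg.IsStronglyEmbedded M := by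
  refine main (L := Cfsg.generalizedFittingSubgroup G) Cfsg.Agent.Lib.GenFitting.genFitting_normal hF hF' ?_ H hH hodd
  rw [eq_bot_iff]
  intro x hx
  have hxL := Cfsg.Agent.Lib.GenFitting.centralizer_genFitting_le hx
  have := hF
  have h1 := Cfsg.Agent.H290.center_eq_bot hF'
  have h2 : (⟨x, hxL⟩ : ↥(Cfsg.generalizedFittingSubgroup G)) ∈ center ↥(Cfsg.generalizedFittingSubgroup G) := by
    rw [mem_center_iff]
    intro y
    exact Subtype.ext (mem_centralizer_iff.1 hx y y.2)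
  rw [h1, mem_bot] at h2
  exact mem_bot.2 (congrArg Subtype.val h2)

end Cfsg.Agent.S3121
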