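import Cfsg.Statements.S3132
import Cfsg.Agent.S0000

set_option autoImplicit false
open Cfsg

namespace Cfsg.Agent.S3132

/-- Let G be a finite group whose generalized Fitting subgroup F*(G) is a non-abelian simple group, t an involution of G, and L a 2-component of C_G(t) such that: (a) L modulo its largest normal odd-order subgroup O(L) is isomorphic to the projective special linear group of dimension 2 over a field with q elements, q ≡ ±1 mod 16; (b) every 2-subgroup of G whose elements normalize L and act trivially on L/O(L) by conjugation is cyclic; (c) every proper section of G has the B-property; and (d) for every proper section X of G whose generalized Fitting subgroup F*(X) is non-abelian simple, if for some involution s of X the quotient of C_X(s) by its largest normal odd-order subgroup has a component isomorphic to a projective special linear group of dimension 2 over a field of odd order, then all non-abelian composition factors of F*(X) are known finite simple groups. Then all non-abelian composition factors of F*(G) are known finite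 simple groups (F*(G) is a known simple group). -/
theorem result {G : Type*} [Group G] [Finite G]
    (hF : IsSimpleGroup ↥(Cfsg.generalizedFittingSubgroup G)) (hF' : ¬ IsMulCommutative ↥(Cfsg.generalizedFittingSubgroup G))
    (t : G) (ht : orderOf t = 2) (L : Subgroup ↥(Subgroup.centralizer ({t} : Set G))) (hL : Cfsg.IsPComponent 2 L)
    (ha : ∃ (F : Type) (_ : Field F) (_ : Fintype F), (Fintype.card F % 16 = 1 ∨ Fintype.card F % 16 = 15) ∧
      Nonempty ((↥L ⧸ Cfsg.oddCore ↥L) ≃* Matrix.ProjectiveSpecialLinearGroup (Fin 2) F))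
    (hb : ∀ P : Subgroup G, IsPGroup 2 ↥P →
      (∀ g ∈ P, ∀ l ∈ L.map (Subgroup.centralizer ({t} : Set G)).subtype, ∃ o ∈ (Cfsg.oddCore ↥L).map ((Subgroup.centralizer ({t} : Set G)).subtype.comp L.subtype), g * l * g⁻¹ = l * o) →
      IsCyclic ↥P)
    (hc : ∀ (H : Subgroup G) (N : Subgroup ↥H) [N.Normal], (H ≠ ⊤ ∨ N ≠ ⊥) → Cfsg.HasBProperty (↥H ⧸ N))
    (hd : ∀ (H : Subgroup G) (N : Subgroup ↥H) [N.Normal], (H ≠ ⊤ ∨ N ≠ ⊥) →
      IsSimpleGroup ↥(Cfsg.generalizedFittingSubgroup (↥H ⧸ N)) → ¬ IsMulCommutative ↥(Cfsg.generalizedFittingSubgroup (↥H ⧸ N)) →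
      (∃ (s : ↥H ⧸ N) (K : Subgroup (↥(Subgroup.centralizer ({s} : Set (↥H ⧸ N))) ⧸ Cfsg.oddCore ↥(Subgroup.centralizer ({s} : Set (↥H ⧸ N))))),
        orderOf s = 2 ∧ Cfsg.IsComponent K ∧
        ∃ (F : Type) (_ : Field F) (_ : Fintype F), Odd (Fintype.card F) ∧ Nonempty (↥K ≃* Matrix.ProjectiveSpecialLinearGroup (Fin 2) F)) →
      Cfsg.IsCompositionKGroup ↥(Cfsg.generalizedFittingSubgroup (↥H ⧸ N))) :
    Cfsg.IsCompositionKGroup ↥(Cfsg.generalizedFittingSubgroup G) := by
  intro H _ N _ hs _
  haveI := hs
  exact Cfsg.Agent.S0000.result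

end Cfsg.Agent.S3132
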