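import Cfsg.Statements.S3318
import Cfsg.Agent.S0000
import Cfsg.Agent.OrdDiv.Table
import Cfsg.Agent.H337.JankoOfIso
import Cfsg.Agent.H338.Elim24

set_option autoImplicit false
open Cfsg

namespace Cfsg.Agent.S3318

/-- Let G be a finite group with a self-centralizing elementary abelian subgroup V of order 2^11 whose normalizer satisfies N_G(V)/V ≅ M₂₄, and suppose that for every involution s in the centre of a Sylow 2-subgroup of N_G(V) the centralizer of s in G has no non-trivial normal subgroup of odd order. Then V is normal in G, or G is of Janko-four type: some involution z has centralizer H whose largest normal 2-subgroup E is extraspecial of order 2^13 containing its centralizer in H, with a normal subgroup N ≥ E of H, N/E of order 3, H/N the automorphism group of M₂₂, and a subgroup P ≤ N of order 3 with C_E(P) = ⟨z⟩, N_H(P) ≠ C_H(P) and P ≤ C_H(P)′, or G is a simple group of the order of the largest Fischer group Fi₂₄′, or G is isomorphic to the first Conway group. -/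
theorem result {G : Type*} [Group G] [Finite G] (V : Subgroup G) (hV : Cfsg.IsElementaryAbelian 2 V) (hcard : Nat.card ↥V = 2 ^ 11) (hC : Subgroup.centralizer (V : Set G) = V) (hM : Cfsg.Spor.IsoM24 (↥(Subgroup.normalizer (V : Set G)) ⧸ V.subgroupOf (Subgroup.normalizer (V : Set G)))) (hO : ∀ T : Sylow 2 ↥(Subgroup.normalizer (V : Set G)), ∀ s : ↥(Subgroup.normalizer (V : Set G)), s ∈ (T : Subgroup ↥(Subgroup.normalizer (V : Set G))) → orderOf s = 2 →
      (∀ y ∈ (T : Subgroup ↥(Subgroup.normalizer (V : Set G))), y * s = s * y) → Cfsg.pPrimeCore 2 ↥(Subgroup.centralizer ({(s : G)} : Set G)) = ⊥) :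
    V.Normal ∨ Cfsg.IsOfJankoFourType G ∨ Cfsg.IsFi24' G ∨ Cfsg.Spor.IsoCo1 G := by
  rcases Cfsg.Agent.H338.Big24.main1 V hV hcard hC hM hO with h | ⟨f, B⟩
  · exact Or.inl h
  · have : IsSimpleGroup G := B.simple
    rcases B.final Cfsg.Agent.OrdDiv.table Cfsg.Agent.S0000.result with h | h | h
    · exact Or.inr (Or.inl (Cfsg.Agent.H337.isOfJankoFourType_of_isoJ4 h))
    · exact Or.inr (Or.inr (Or.inr h))
    · exact Or.inr (Or.inr (Or.inl h))

end Cfsg.Agent.S3318
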