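import Cfsg.Statements.S3320
import Cfsg.Agent.S0000
import Cfsg.Agent.OrdDiv.Table
import Cfsg.Agent.H337.JankoOfIso
import Cfsg.Agent.KFacts.J4.SheetJ4
import Cfsg.Agent.H338.L5Asm
import Cfsg.Agent.H338.L5Orth

set_option autoImplicit false
open Cfsg

namespace Cfsg.Agent.S3320

/-- Let G be a finite group with an elementary abelian subgroup A of order 2^10 whose normalizer satisfies N_G(A)/A ≅ L₅(2), with no proper non-trivial subgroup of A normalized by N_G(A), and suppose that for every involution s in the centre of a Sylow 2-subgroup of N_G(A) the centralizer of s in G has no non-trivial normal subgroup of odd order. Then A is normal in G, or G is isomorphic to the commutator subgroup Ω⁺₁₀(2) of the ten-dimensional orthogonal group of plus type over the field of two elements or to that full orthogonal group, or G is of Janko-four type: some involution z has centralizer H whose largest normal 2-subgroup E is extraspecial of order 2^13 containing its centralizer in H, with a normal subgroup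 N ≥ E of H, N/E of order 3, H/N the automorphism group of M₂₂, and a subgroup P ≤ N of order 3 with C_E(P) = ⟨z⟩, N_H(P) ≠ C_H(P) and P ≤ C_H(P)′. -/
theorem result {G : Type*} [Group G] [Finite G] (A : Subgroup G) (hA : Cfsg.IsElementaryAbelian 2 A) (hcard : Nat.card ↥A = 2 ^ 10) (hL : Nonempty (↥(Subgroup.normalizer (A : Set G)) ⧸ A.subgroupOf (Subgroup.normalizer (A : Set G)) ≃* Matrix.SpecialLinearGroup (Fin 5) (ZMod 2))) (hirr : ∀ W : Subgroup G, W ≤ A → Subgroup.normalizer (A : Set G) ≤ Subgroup.normalizer (W : Set G) → W = ⊥ ∨ W = A) (hO : ∀ T : Sylow 2 ↥(Subgroup.normalizer (A : Set G)), ∀ s : ↥(Subgroup.normalizer (A : Set G)), s ∈ (T : Subgroup ↥(Subgroup.normalizer (A : Set G))) → orderOf s = 2 →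
      (∀ y ∈ (T : Subgroup ↥(Subgroup.normalizer (A : Set G))), y * s = s * y) → Cfsg.pPrimeCore 2 ↥(Subgroup.centralizer ({(s : G)} : Set G)) = ⊥) :
    A.Normal ∨ Nonempty (G ≃* ↥(Cfsg.Omega (ZMod 2) (Cfsg.quadFormPlus 5 (ZMod 2)))) ∨
    Nonempty (G ≃* ↥(Cfsg.isometryGroup (ZMod 2) (Cfsg.quadFormPlus 5 (ZMod 2)))) ∨ Cfsg.IsOfJankoFourType G := by
  rcases Cfsg.Agent.H338.L5.main1 A hA hcard hL hirr hO with
    h | ⟨K, hK, hKs, hKna, hC, V, F, ψ, H, hI⟩
  · exact Or.inl h
  · rcases H.final hI hKna Cfsg.Agent.OrdDiv.table Cfsg.Agent.S0000.result with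
      ⟨E, _, _, hE, ⟨e⟩⟩ | h
    · rcases Cfsg.Agent.H338.L5Orth.iso_of K hC hE e with h | h
      · exact Or.inr (Or.inl h)
      · exact Or.inr (Or.inr (Or.inl h))
    · obtain ⟨-, -, ⟨J⟩⟩ := Cfsg.Agent.KFacts.J4.Base.exists_full h
      have hK1 : K = ⊤ := Cfsg.Agent.H338.EmbAut.top_of_inner K hC
        (Cfsg.Agent.KFacts.J4.SheetJ4.inner J)
      have hG : Cfsg.Spor.IsoJ4 G := by
        obtain ⟨e⟩ := h
        subst hK1
        exact ⟨Subgroup.topEquiv.symm.trans e⟩
      exact Or.inr (Or.inr (Or.inr (Cfsg.Agent.H337.isOfJankoFourType_of_isoJ4 hG)))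

end Cfsg.Agent.S3320
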