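import Cfsg.Statements.S3321
import Cfsg.Agent.S0000
import Cfsg.Agent.H339.PentadElim
import Cfsg.Agent.H337.JankoOfIso

set_option autoImplicit false
open Cfsg

namespace Cfsg.Agent.S3321

/-- Let G be a finite non-abelian simple group of characteristic 2 type with a subgroup K such that: the largest normal 2-subgroup L of K is special of order 2^15 with centre Z elementary abelian of order 8; K is the normalizer of Z; K/L is isomorphic to the direct product of the symmetric group of degree 5 and L₃(2); and whenever x, y ∈ K commute and have orders 3 and 7, the centralizer of x in L is Z and the centralizer of y in L is trivial. Then G is of Janko-four type: some involution z has centralizer H whose largest normal 2-subgroup E is extraspecial of order 2^13 containing its centralizer in H, with a normal subgroup N ≥ E of H, N/E of order 3, H/N the automorphism group of M₂₂, and a subgroup P ≤ N of order 3 with C_E(P) = ⟨z⟩, N_H(P) ≠ C_H(P) and P ≤ C_H(P)′. -/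
theorem result {G : Type*} [Group G] [Finite G] [IsSimpleGroup G] (hG : ¬ IsMulCommutative G) (h2 : Cfsg.IsCharacteristicTwoType G) (K L Z : Subgroup G) (hLdef : L = (Cfsg.pCore 2 ↥K).map K.subtype) (hZdef : Z = (Subgroup.center ↥L).map L.subtype) (hLs : Cfsg.IsSpecial 2 ↥L) (hLc : Nat.card ↥L = 2 ^ 15) (hZe : Cfsg.IsElementaryAbelian 2 Z) (hZc : Nat.card ↥Z = 8) (hK : K = Subgroup.normalizer (Z : Set G)) (hq : ∃ _ : (L.subgroupOf K).Normal, Nonempty (↥K ⧸ L.subgroupOf K ≃* Equiv.Perm (Fin 5) × Matrix.SpecialLinearGroup (Fin 3) (ZMod 2))) (hxy : ∀ x y : G, x ∈ K → y ∈ K → orderOf x = 3 → orderOf y = 7 → x * y = y * x → L ⊓ Subgroup.centralizer ({x} : Set G) = Z ∧ L ⊓ Subgroup.centralizer ({y} : Set G) = ⊥) :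
    Cfsg.IsOfJankoFourType G := by
  exact Cfsg.Agent.H337.isOfJankoFourType_of_isoJ4
    (Cfsg.Agent.H339.PentadFacts.isoJ4 (fun X _ _ _ => Cfsg.Agent.S0000.result) hG h2
      ⟨hLdef, hZdef, hLc, hZe, hZc, hK, hq, fun x y hx hy h3 h7 h => (hxy x y hx hy h3 h7 h).1⟩)

end Cfsg.Agent.S3321
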