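import Cfsg.Statements.S3355
import Cfsg.Agent.H347.Rat.Main
import Cfsg.Agent.S0000
import Cfsg.Agent.OrdDiv.Table
import Cfsg.Agent.KFacts.CoTwo.Main
import Cfsg.Agent.KFacts.Co3.Sheet
import Cfsg.Agent.SporRec.Co3.Model
import Cfsg.Agent.KFacts.FiTTh.Has

set_option autoImplicit false
open Cfsg

namespace Cfsg.Agent.S3355

/-- Let G be a finite group with a faithful irreducible rational representation of degree 23 (an injective homomorphism into GL(23, ℚ) leaving no proper non-zero subspace invariant) and with no subgroup of index 23 or 24. Then G is isomorphic to a subgroup of the direct product of a group of order 2 with the second Conway group, or of a group of order 2 with the third Conway group. -/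
theorem result {G : Type*} [Group G] [Finite G]
    (ρ : G →* GL (Fin 23) ℚ) (hρ : Function.Injective ρ)
    (hirr : ∀ W : Submodule ℚ (Fin 23 → ℚ), (∀ g : G, ∀ w ∈ W, ((ρ g : GL (Fin 23) ℚ) : Matrix (Fin 23) (Fin 23) ℚ).mulVec w ∈ W) → W = ⊥ ∨ W = ⊤)
    (hidx : ∀ H : Subgroup G, H.index ≠ 23 ∧ H.index ≠ 24) :
    (∃ f : G →* Multiplicative (ZMod 2) × Cfsg.Spor.Co2, Function.Injective f) ∨
    (∃ f : G →* Multiplicative (ZMod 2) × Cfsg.Spor.Co3, Function.Injective f) := by
  let σ : Representation ℚ G (Fin 23 → ℚ) :=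
    ((Matrix.toLinAlgEquiv' : Matrix (Fin 23) (Fin 23) ℚ ≃ₐ[ℚ] _) : Matrix (Fin 23) (Fin 23) ℚ →* _).comp
      ((Units.coeHom _).comp ρ)
  have hσ : ∀ g v, σ g v = ((ρ g : GL (Fin 23) ℚ) : Matrix (Fin 23) (Fin 23) ℚ).mulVec v := fun g v => rfl
  have hinj : Function.Injective σ := fun a b h => hρ (Units.ext (Matrix.toLinAlgEquiv'.injective h))
  refine Cfsg.Agent.H347.Rat.main (σ := σ) hinj (by simp) (fun W hW => hirr W fun g w hw => ?_) hidx
    Cfsg.Agent.OrdDiv.table (fun S _ _ _ => Cfsg.Agent.S0000.result)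
    (fun α => Cfsg.Agent.KFacts.CoTwo.Main.allInner_iso (MulEquiv.refl _) α)
    (fun α => Cfsg.Agent.KFacts.Co3.Sheet.inner_of Cfsg.Agent.SporRec.Co3.Model.equivCo3 α)
    Cfsg.Agent.KFacts.FiTTh.Has.has
  rw [← hσ]
  exact hW g (Subgroup.mem_top g) w hw

end Cfsg.Agent.S3355
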