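import Cfsg.Statements.S3356
import Cfsg.Agent.H347.HalfTrans

set_option autoImplicit false
open Cfsg

namespace Cfsg.Agent.S3356

/-- Let G be a finite 3/2-transitive permutation group: G acts faithfully and transitively on a finite set, the point stabilizers are non-trivial, and for each point a all orbits of G_a on the remaining points have the same size. Suppose G has a regular normal subgroup N and G is not a Frobenius group (some two-point stabilizer is non-trivial). Then N is an elementary abelian p-group for some prime p, and every non-trivial normal subgroup of G contains N (so N is the unique minimal normal subgroup). -/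
theorem result {G Ω : Type*} [Group G] [Finite G]
    [MulAction G Ω] [FaithfulSMul G Ω] [Finite Ω] (htrans : MulAction.IsPretransitive G Ω)
    (hne : ∀ a : Ω, MulAction.stabilizer G a ≠ ⊥)
    (hhalf : ∀ a b c : Ω, b ≠ a → c ≠ a →
      Nat.card (MulAction.orbit (MulAction.stabilizer G a) b) = Nat.card (MulAction.orbit (MulAction.stabilizer G a) c))
    (N : Subgroup G) [hN : N.Normal] (hNt : MulAction.IsPretransitive N Ω) (hNr : ∀ a : Ω, MulAction.stabilizer N a = ⊥)
    (hnotF : ∃ a b : Ω, a ≠ b ∧ MulAction.stabilizer G a ⊓ MulAction.stabilizer G b ≠ ⊥) :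
    (∃ p : ℕ, p.Prime ∧ IsMulCommutative N ∧ ∀ x ∈ N, x ^ p = 1) ∧
    (∀ M : Subgroup G, M.Normal → M ≠ ⊥ → N ≤ M) := by
  classical
  obtain ⟨a, b, hab, hDab⟩ := hnotF
  let H : Subgroup G := MulAction.stabilizer G a
  -- regularity
  have hreg : ∀ x ∈ N, ∀ c : Ω, x • c = c → x = 1 := by
    intro x hx c hxc
    have h1 : (⟨x, hx⟩ : N) ∈ MulAction.stabilizer N c := hxc
    rw [hNr, Subgroup.mem_bot] at h1
    exact congrArg Subtype.val h1
  -- centralizer in `H` and two-point stabilizers
  have hcent : ∀ x ∈ N, H ⊓ Subgroup.centralizer {x} =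
      MulAction.stabilizer G a ⊓ MulAction.stabilizer G (x • a) := by
    intro x hx
    ext h
    rw [Subgroup.mem_inf, Subgroup.mem_inf, MulAction.mem_stabilizer_iff]
    refine and_congr_right fun (hh : h • a = a) => ?_
    rw [MulAction.mem_stabilizer_iff, Subgroup.mem_centralizer_iff]
    constructor
    · intro h1
      rw [← mul_smul, ← h1 x rfl, mul_smul, hh]
    · intro h1 y hy
      rw [Set.mem_singleton_iff.1 hy]
      have h2 : x⁻¹ * (h * x * h⁻¹) ∈ N := N.mul_mem (N.inv_mem hx) (hN.conj_mem x hx h)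
      have h3 : (x⁻¹ * (h * x * h⁻¹)) • a = a := by
        have h4 : h⁻¹ • a = a := by rw [inv_smul_eq_iff, hh]
        rw [mul_smul, mul_smul, mul_smul, h4, h1, inv_smul_smul]
      have h4 := hreg _ h2 a h3
      have h5 : h * x * h⁻¹ = x := by rwa [inv_mul_eq_one, eq_comm] at h4
      exact (mul_inv_eq_iff_eq_mul.1 h5).symm
  -- sizes
  have hcard : ∀ c : Ω, Nat.card (MulAction.orbit H c) *
      Nat.card ↥(MulAction.stabilizer G a ⊓ MulAction.stabilizer G c) = Nat.card H := by
    intro c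
    have h1 := Nat.card_congr (MulAction.orbitProdStabilizerEquivGroup H c)
    rw [Nat.card_prod] at h1
    rw [← h1]
    congr 1
    refine Nat.card_congr ⟨fun k => ⟨⟨k.1, k.2.1⟩, k.2.2⟩, fun k => ⟨k.1.1, k.1.2, k.2⟩, fun _ => rfl, fun _ => rfl⟩
  have hd : ∀ x ∈ N, x ≠ 1 → Nat.card ↥(H ⊓ Subgroup.centralizer {x}) =
      Nat.card ↥(MulAction.stabilizer G a ⊓ MulAction.stabilizer G b) := by
    intro x hx hx1
    rw [hcent x hx]
    have hxa : x • a ≠ a := fun h => hx1 (hreg x hx a h)
    have h1 := hcard (x • a)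
    have h2 := hcard b
    have h3 : Nat.card (MulAction.orbit H (x • a)) = Nat.card (MulAction.orbit H b) :=
      hhalf a (x • a) b hxa hab.symm
    rw [h3, ← h2] at h1
    have h4 : 0 < Nat.card (MulAction.orbit H b) := by
      have : Nonempty (MulAction.orbit H b) := ⟨⟨b, MulAction.mem_orbit_self b⟩⟩
      exact Nat.card_pos
    exact Nat.eq_of_mul_eq_mul_left h4 h1
  have hfaith : ∀ h ∈ H, (∀ x ∈ N, h * x = x * h) → h = 1 := by
    intro h hh hc
    refine FaithfulSMul.eq_of_smul_eq_smul (α := Ω) fun c => ?_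
    obtain ⟨x, hx⟩ := MulAction.exists_smul_eq N a c
    have hx' : (x : G) • a = c := hx
    rw [← hx', ← mul_smul, hc x x.2, mul_smul, one_smul]
    congr 1
  have hN1 : N ≠ ⊥ := by
    rintro rfl
    obtain ⟨x, hx⟩ := MulAction.exists_smul_eq (⊥ : Subgroup G) a b
    have h1 : x = 1 := Subsingleton.elim _ _
    rw [h1, one_smul] at hx
    exact hab hx
  have hd1 : Nat.card ↥(MulAction.stabilizer G a ⊓ MulAction.stabilizer G b) ≠ 1 := fun h =>
    hDab (Subgroup.card_eq_one.1 h)
  obtain ⟨hirr, p, hp, hcomm, hpow⟩ := Cfsg.Agent.H347.HalfTrans.main N H _ hN1 hfaith hd hd1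
  refine ⟨⟨p, hp, hcomm, hpow⟩, fun M hM hM1 => ?_⟩
  have h1 := hirr (N ⊓ M) inf_le_left fun h _ u hu => ⟨hN.conj_mem u hu.1 h, hM.conj_mem u hu.2 h⟩
  rcases h1 with h1 | h1
  · exfalso
    apply hM1
    rw [Subgroup.eq_bot_iff_forall]
    intro m hm
    have hcm : ∀ x ∈ N, m * x = x * m := by
      intro x hx
      have h2 : m * x * m⁻¹ * x⁻¹ ∈ N ⊓ M := by
        refine ⟨N.mul_mem (hN.conj_mem x hx m) (N.inv_mem hx), ?_⟩
        have e : m * x * m⁻¹ * x⁻¹ = m * (x * m⁻¹ * x⁻¹) := by group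
        rw [e]
        exact M.mul_mem hm (hM.conj_mem _ (M.inv_mem hm) x)
      rw [h1, Subgroup.mem_bot] at h2
      have h3 := mul_inv_eq_one.1 h2
      exact mul_inv_eq_iff_eq_mul.1 h3
    obtain ⟨x, hx⟩ := MulAction.exists_smul_eq N a (m • a)
    have hx' : (x : G) • a = m • a := hx
    have hxm : (x : G)⁻¹ * m ∈ H := by
      change ((x : G)⁻¹ * m) • a = a
      rw [mul_smul, ← hx', inv_smul_smul]
    have h2 := hfaith _ hxm fun y hy => by
      have h3 : (x : G)⁻¹ * y = y * (x : G)⁻¹ := by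
        have := congrArg Subtype.val (hcomm.is_comm.comm (x⁻¹) ⟨y, hy⟩)
        exact this
      rw [mul_assoc, hcm y hy, ← mul_assoc, h3, mul_assoc]
    have h3 : m = x := (inv_mul_eq_one.1 h2).symm
    have h4 : m ∈ N ⊓ M := ⟨h3 ▸ x.2, hm⟩
    rw [h1, Subgroup.mem_bot] at h4
    exact h4
  · rw [← h1]; exact inf_le_right

end Cfsg.Agent.S3356
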