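import Cfsg.Statements.S3361
import Cfsg.Agent.H349.RegNum
import Cfsg.Agent.H349.RegArith
import Cfsg.Agent.H349.RegIdx
import Cfsg.Agent.H349.RegSL

set_option autoImplicit false
open Cfsg

namespace Cfsg.Agent.S3361

open Cfsg.Agent.H349.RegGrp Cfsg.Agent.H349.RegStr Cfsg.Agent.H349.RegQuot Cfsg.Agent.H349.RegNum
  Cfsg.Agent.H349.RegField

theorem not_le {q m k : ℕ} (hq : 2 ≤ q) (hk : 2 ≤ k) (h : q ^ (m * k) - 1 ≤ m * (q ^ m - 1)) (hm : 1 ≤ m) : False := by
  have h1 : 1 < q ^ m := Nat.one_lt_pow (by omega) (by omega)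
  have h2 : m < q ^ m := Nat.lt_pow_self (by omega)
  have h3 : (q ^ m) ^ 2 ≤ q ^ (m * k) := by
    rw [← pow_mul]
    exact Nat.pow_le_pow_right (by omega) (Nat.mul_le_mul_left m hk)
  obtain ⟨Q, hQ⟩ : ∃ Q, q ^ m = Q + 1 := ⟨q ^ m - 1, by omega⟩
  rw [hQ] at h1 h2 h3 h
  have h4 : Q + 1 - 1 = Q := by omega
  rw [h4] at h
  have h5 : m * Q ≤ Q * Q := Nat.mul_le_mul_right Q (by omega)
  have h6 : (Q + 1) ^ 2 = Q * Q + 2 * Q + 1 := by ring
  omega

/-- Let q be a prime and V a non-trivial finite vector space over the field with q elements, and let G be a finite solvable group acting faithfully and linearly on V and regularly on the non-zero vectors (transitively, with only the identity fixing a non-zero vector). Then either V can be identified with the additive group of a finite field F so that every element of G acts as x ↦ a·σ(x) (a ∈ F, σ a field automorphism), or V has 5^2, 7^2, 11^2 or 23^2 elements. Moreover, if q ≠ 2 then G has a normal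 subgroup of index 2, except that when V has 25 elements G may be isomorphic to SL(2,3) and when V has 121 elements G may be isomorphic to SL(2,3) × C₅. -/
theorem result
    (q : ℕ) [Fact q.Prime] {V : Type*} [AddCommGroup V] [Module (ZMod q) V] [Finite V] [Nontrivial V]
    {G : Type*} [Group G] [Finite G] (hsol : Group.IsSolvable G)
    (ρ : G →* (V ≃ₗ[ZMod q] V)) (hρ : Function.Injective ρ)
    (htrans : ∀ v w : V, v ≠ 0 → w ≠ 0 → ∃ g : G, ρ g v = w)
    (hreg : ∀ v : V, v ≠ 0 → ∀ g : G, ρ g v = v → g = 1) :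
    ((∃ (F : Type) (_ : Field F) (_ : Fintype F) (e : V ≃+ F),
        ∀ g : G, ∃ (a : F) (σ : F ≃+* F), ∀ v : V, e (ρ g v) = a * σ (e v)) ∨
      Nat.card V ∈ ({25, 49, 121, 529} : Set ℕ)) ∧
    (q ≠ 2 → (∃ N : Subgroup G, N.Normal ∧ N.index = 2) ∨
      (Nat.card V = 25 ∧ Nonempty (G ≃* Matrix.SpecialLinearGroup (Fin 2) (ZMod 3))) ∨
      (Nat.card V = 121 ∧ Nonempty (G ≃* Matrix.SpecialLinearGroup (Fin 2) (ZMod 3) × Multiplicative (ZMod 5)))) := by
  classical
  have hR : Reg ρ := ⟨htrans, hreg⟩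
  have hGT : GT G := ⟨fun p hp u v huv hu hv hv1 => mem_zpowers hR hp huv hu hv hv1, fun A hA hab => by
    have := hA
    obtain ⟨m, k, -, -, -, hc, -⟩ := abel hR A hab
    exact hc⟩
  obtain ⟨A, hA⟩ := exists_maxAb (G := G)
  have hAn := hA.normal
  have hcG := card_eq hR
  have hq : q.Prime := Fact.out
  have hq1 := hq.two_le
  obtain ⟨m, k, hm, hk, hV, hcyc, hAd, hCi, hk1⟩ := abel hR A hA.ab
  have hm0 : m ≠ 0 := by omega
  by_cases hk1' : k = 1
  · obtain ⟨hsemi, hC1, hC2⟩ := hk1 hk1'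
    refine ⟨Or.inl hsemi, fun hq2 => Or.inl ?_⟩
    apply Cfsg.Agent.H349.RegIdx.of_cyclic (Subgroup.centralizer (A : Set G))
    have h1 : Odd q := hq.odd_of_ne_two hq2
    have h2 : Odd (q ^ (m * k)) := h1.pow
    rw [← hV, ← hcG] at h2
    obtain ⟨j, hj⟩ := h2
    exact ⟨j, by omega⟩
  have hk2 : 2 ≤ k := by omega
  have hCc := (Subgroup.centralizer (A : Set G)).index_mul_card
  have hG1 : Nat.card G = q ^ (m * k) - 1 := by rw [← hV]; omega
  have hqm : 1 < q ^ m := Nat.one_lt_pow (by omega) (by omega)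
  have hCA : ¬ Subgroup.centralizer (A : Set G) ≤ A := by
    intro hCA
    have h1 : Nat.card (Subgroup.centralizer (A : Set G)) ≤ q ^ m - 1 :=
      (Subgroup.card_le_of_le hCA).trans (Nat.le_of_dvd (by omega) hAd)
    have h2 : (Subgroup.centralizer (A : Set G)).index ≤ m := Nat.le_of_dvd hm hCi
    have h3 := Nat.mul_le_mul h2 h1
    rw [hCc, hG1] at h3
    exact not_le hq1 hk2 h3 hm
  obtain ⟨B, z, b, c, hS⟩ := exists_str hsol hGT hA hCA
  obtain ⟨s, hs, hCs, hsN⟩ := card_data hS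
  have ha2 : 2 ∣ Nat.card A := by
    have : Fact (Nat.Prime 2) := ⟨Nat.prime_two⟩
    have h1 : orderOf z = 2 := orderOf_eq_prime (by rw [pow_two]; exact hS.zz) hS.z1
    have h2 : orderOf (⟨z, hS.zA⟩ : A) ∣ Nat.card A := orderOf_dvd_natCard _
    rwa [Subgroup.orderOf_mk, h1] at h2
  have hq2 : q ≠ 2 := by
    intro hq2
    have h1 := ha2.trans hAd
    rw [hq2] at h1
    have h2 : Even (2 ^ m) := (Nat.even_pow.2 ⟨even_two, hm0⟩)
    obtain ⟨j, hj⟩ := h2
    obtain ⟨i, hi⟩ := h1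
    have h3 : 0 < 2 ^ m := by positivity
    omega
  rw [hCs, hG1] at hCc
  obtain ⟨rfl, rfl, hcases⟩ := Cfsg.Agent.H349.RegArith.arith hq hq2 hm hk2 hCi hs hAd ha2 Nat.card_pos hCc.symm
  have hCtop : Subgroup.centralizer (A : Set G) = ⊤ := Subgroup.index_eq_one.1 (Nat.dvd_one.1 hCi)
  have hCi1 : (Subgroup.centralizer (A : Set G)).index = 1 := Nat.dvd_one.1 hCi
  rw [hCi1, one_mul] at hCc
  rcases hcases with ⟨rfl, rfl, ha⟩ | ⟨rfl, rfl, ha⟩ | ⟨rfl, h2s⟩ | ⟨rfl, rfl, ha⟩ | ⟨rfl, h2s⟩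
  · -- order 9
    have hG8 : Nat.card G = 8 := by rw [hG1]; rfl
    have hV9 : Nat.card V = 9 := by rw [hV]; rfl
    have hob : orderOf b = 4 := by
      have : Fact (Nat.Prime 2) := ⟨Nat.prime_two⟩
      have h1 : orderOf b = 2 ^ (1 + 1) := by
        apply orderOf_eq_prime_pow
        · intro h1
          rw [pow_one, pow_two, hS.bb] at h1
          exact hS.z1 h1
        · have h2 : b ^ 2 ^ (1 + 1) = (b * b) * (b * b) := by
            norm_num [pow_succ, mul_assoc]
          rw [h2, hS.bb, hS.zz]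
      rw [h1]
      norm_num
    have hzc : Nat.card (Subgroup.zpowers b) = 4 := by rw [Nat.card_zpowers, hob]
    have hzi : (Subgroup.zpowers b).index = 2 := by
      have h1 := (Subgroup.zpowers b).card_mul_index
      rw [hzc, hG8] at h1
      omega
    have hzn : (Subgroup.zpowers b).Normal := Subgroup.normal_of_index_eq_two hzi
    refine ⟨Or.inl ?_, fun _ => Or.inl ⟨_, hzn, hzi⟩⟩
    obtain ⟨m', k', hm', hk', hV', -, hd', -, hk1'⟩ := abel hR (Subgroup.zpowers b) (by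
      intro x hx y hy
      obtain ⟨i, rfl⟩ := Subgroup.mem_zpowers_iff.1 hx
      obtain ⟨j, rfl⟩ := Subgroup.mem_zpowers_iff.1 hy
      rw [← zpow_add, ← zpow_add, add_comm])
    apply (hk1' ?_).1
    rw [hV9] at hV'
    have h1 : m' * k' = 2 := by
      have h2 : 3 ^ (m' * k') = 3 ^ 2 := by rw [← hV']; rfl
      exact Nat.pow_right_injective (le_refl 2 |>.trans (by norm_num)) h2
    have h2 : m' ∣ 2 := ⟨k', h1.symm⟩
    rcases (Nat.dvd_prime Nat.prime_two).1 h2 with rfl | rfl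
    · exfalso
      rw [hzc] at hd'
      revert hd'
      decide
    · omega
  · -- order 25
    have hG8 : Nat.card G = 24 := by rw [hG1]; rfl
    have hV9 : Nat.card V = 25 := by rw [hV]; rfl
    refine ⟨Or.inr (by rw [hV9]; simp), fun _ => Or.inr (Or.inl ⟨hV9, ?_⟩)⟩
    obtain ⟨K, hK, ⟨e⟩⟩ := Cfsg.Agent.H349.RegSL.sl_prod hGT hA hS (r := 1) (by norm_num) (by rw [ha]) (by rw [hG8]) hCtop
    have hsub : Subsingleton K := (Nat.card_eq_one_iff_unique.1 hK).1
    letI : Unique K := uniqueOfSubsingleton 1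
    exact ⟨e.trans MulEquiv.prodUnique⟩
  · have hV9 : Nat.card V = 49 := by rw [hV]; rfl
    exact ⟨Or.inr (by rw [hV9]; simp), fun _ => Or.inl (hsN h2s)⟩
  · -- order 121
    have hG8 : Nat.card G = 120 := by rw [hG1]; rfl
    have hV9 : Nat.card V = 121 := by rw [hV]; rfl
    refine ⟨Or.inr (by rw [hV9]; simp), fun _ => Or.inr (Or.inr ⟨hV9, ?_⟩)⟩
    obtain ⟨K, hK, ⟨e⟩⟩ := Cfsg.Agent.H349.RegSL.sl_prod hGT hA hS (r := 5) (by norm_num) (by rw [ha]) (by rw [hG8]) hCtop
    have : Fact (Nat.Prime 5) := ⟨Nat.prime_five⟩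
    have hcK : IsCyclic K := isCyclic_of_prime_card hK
    have f : K ≃* Multiplicative (ZMod 5) := mulEquivOfCyclicCardEq (by
      rw [hK, Nat.card_congr Multiplicative.toAdd, Nat.card_zmod])
    exact ⟨e.trans ((MulEquiv.refl _).prodCongr f)⟩
  · have hV9 : Nat.card V = 529 := by rw [hV]; rfl
    exact ⟨Or.inr (by rw [hV9]; simp), fun _ => Or.inl (hsN h2s)⟩

end Cfsg.Agent.S3361
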