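import Cfsg.Statements.S3362

set_option autoImplicit false
open Cfsg

namespace Cfsg.Agent.S3362

/-- codes of the generators `s t u v w x₁ x₂ x₃` -/
def cds : List ℕ := [171139535290896, 92615224025616, 183942805598736, 80841396400656, 164327252963856, 167926364897811, 148896472117761, 114875801284896]
/-- transversal words -/
def tws : List (List (List ℕ)) := [
  [[6, 7], [7], [], [5, 6, 7], [0, 5, 6, 7], [0, 0, 5, 6, 7], [1, 5, 6, 7], [1, 0, 5, 6, 7], [1, 0, 0, 5, 6, 7], [1, 1, 5, 6, 7], [4, 0, 5, 6, 7], [4, 1, 5, 6, 7]],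
  [[6], [], [], [5, 6], [0, 5, 6], [0, 0, 5, 6], [1, 5, 6], [1, 0, 5, 6], [1, 0, 0, 5, 6], [1, 1, 5, 6], [4, 0, 5, 6], [4, 1, 5, 6]],
  [[], [], [], [5], [0, 5], [0, 0, 5], [1, 5], [1, 0, 5], [1, 0, 0, 5], [1, 1, 5], [4, 0, 5], [4, 1, 5]],
  [[], [], [], [], [0], [0, 0], [1], [1, 0], [1, 0, 0], [1, 1], [4, 0], [4, 1]],
  [[], [], [], [], [], [2, 2], [2], [3], [2, 3], [3, 4], [4], [4, 2]]]
/-- Schreier data -/
def rws : List (List (ℕ × ℕ × List ℕ)) := [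
  [(0, 0, [0]), (1, 0, [1, 0]), (2, 0, [3]), (3, 0, [2, 3]),
    (4, 0, [3, 4]), (5, 0, []), (6, 0, []), (7, 0, [6]),
    (0, 1, [0]), (1, 1, [4, 1, 2, 3]), (2, 1, [4, 2]), (3, 1, [3, 4]),
    (4, 1, [2, 3]), (5, 1, [5]), (6, 1, []), (7, 1, []),
    (0, 2, [0]), (1, 2, [1]), (2, 2, [2]), (3, 2, [3]),
    (4, 2, [4]), (5, 2, [5]), (6, 2, [6]), (7, 2, []),
    (0, 3, []), (1, 3, []), (2, 3, [2, 3]), (3, 3, [3]),
    (4, 3, [2]), (5, 3, []), (6, 3, [5]), (7, 3, [6]),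
    (0, 4, []), (1, 4, []), (2, 4, [2, 3]), (3, 4, [3]),
    (4, 4, []), (5, 4, [0, 0, 2, 2]), (6, 4, [5]), (7, 4, [6]),
    (0, 5, []), (1, 5, []), (2, 5, [2, 3]), (3, 5, [4]),
    (4, 5, [2]), (5, 5, [0, 2, 2]), (6, 5, [5]), (7, 5, [6]),
    (0, 6, []), (1, 6, []), (2, 6, [2, 3]), (3, 6, [4]),
    (4, 6, []), (5, 6, [4, 1, 3]), (6, 6, [5]), (7, 6, [6, 2]),
    (0, 7, []), (1, 7, [3, 4]), (2, 7, [2, 3]), (3, 7, [3]),
    (4, 7, [2]), (5, 7, [4, 0, 4, 2]), (6, 7, [5, 4, 2]), (7, 7, [6]),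
    (0, 8, []), (1, 8, [3, 4]), (2, 8, [3]), (3, 8, [3]),
    (4, 8, [2]), (5, 8, [0, 0, 3, 4]), (6, 8, [5, 4, 2]), (7, 8, [6, 2]),
    (0, 9, [3, 4]), (1, 9, []), (2, 9, [2, 3]), (3, 9, [3]),
    (4, 9, [2]), (5, 9, [4, 0, 2, 3]), (6, 9, [5]), (7, 9, [6]),
    (0, 10, []), (1, 10, [2]), (2, 10, [3]), (3, 10, [4]),
    (4, 10, [2, 2]), (5, 10, [1, 2]), (6, 10, [5, 2]), (7, 10, [6, 2]),
    (0, 11, [2]), (1, 11, [2]), (2, 11, [4]), (3, 11, [4]),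
    (4, 11, [2, 2]), (5, 11, [1, 0, 0]), (6, 11, [5, 2]), (7, 11, [6, 2])],
  [(0, 0, [0]), (1, 0, [1, 1]), (2, 0, [3, 4]), (3, 0, [4]),
    (4, 0, [3]), (5, 0, []), (6, 0, []), (0, 1, [0]),
    (1, 1, [1]), (2, 1, [2]), (3, 1, [3]), (4, 1, [4]),
    (5, 1, [5]), (6, 1, []), (0, 3, []), (1, 3, []),
    (2, 3, [4]), (3, 3, [3, 4]), (4, 3, [4, 2]), (5, 3, []),
    (6, 3, [5]), (0, 4, []), (1, 4, []), (2, 4, [4]),
    (3, 4, [3, 4]), (4, 4, []), (5, 4, [0, 0, 2, 2]), (6, 4, [5]),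
    (0, 5, []), (1, 5, []), (2, 5, [4]), (3, 5, [2, 3]),
    (4, 5, [4, 2]), (5, 5, [0, 2, 2]), (6, 5, [5]), (0, 6, []),
    (1, 6, []), (2, 6, [4]), (3, 6, [2, 3]), (4, 6, []),
    (5, 6, [1, 4, 2]), (6, 6, [5]), (0, 7, []), (1, 7, [3]),
    (2, 7, [4]), (3, 7, [3, 4]), (4, 7, [4, 2]), (5, 7, [1, 0, 0, 3]),
    (6, 7, [5, 2]), (0, 8, []), (1, 8, [3]), (2, 8, [3, 4]),
    (3, 8, [3, 4]), (4, 8, [4, 2]), (5, 8, [0, 0, 3]), (6, 8, [5, 2]),
    (0, 9, [3]), (1, 9, []), (2, 9, [4]), (3, 9, [3, 4]),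
    (4, 9, [4, 2]), (5, 9, [1, 0, 0]), (6, 9, [5]), (0, 10, []),
    (1, 10, [4, 2]), (2, 10, [3, 4]), (3, 10, [2, 3]), (4, 10, [2, 2]),
    (5, 10, [4, 1, 2]), (6, 10, [5, 4, 2]), (0, 11, [4, 2]), (1, 11, [4, 2]),
    (2, 11, [2, 3]), (3, 11, [2, 3]), (4, 11, [2, 2]), (5, 11, [4, 0, 2, 3]),
    (6, 11, [5, 4, 2])],
  [(0, 0, [0]), (1, 0, [1]), (2, 0, [2]), (3, 0, [3]),
    (4, 0, [4]), (5, 0, []), (0, 3, []), (1, 3, []),
    (2, 3, [3]), (3, 3, [2]), (4, 3, [2, 3]), (5, 3, []),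
    (0, 4, []), (1, 4, []), (2, 4, [3]), (3, 4, [2]),
    (4, 4, []), (5, 4, [0, 0, 2, 2]), (0, 5, []), (1, 5, []),
    (2, 5, [3]), (3, 5, [4, 2]), (4, 5, [2, 3]), (5, 5, [0, 2, 2]),
    (0, 6, []), (1, 6, []), (2, 6, [3]), (3, 6, [4, 2]),
    (4, 6, []), (5, 6, [1, 1, 2, 3]), (0, 7, []), (1, 7, [4]),
    (2, 7, [3]), (3, 7, [2]), (4, 7, [2, 3]), (5, 7, [4, 1]),
    (0, 8, []), (1, 8, [4]), (2, 8, [2]), (3, 8, [2]),
    (4, 8, [2, 3]), (5, 8, [0, 0, 4]), (0, 9, [4]), (1, 9, []),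
    (2, 9, [3]), (3, 9, [2]), (4, 9, [2, 3]), (5, 9, [4, 1, 2, 3]),
    (0, 10, []), (1, 10, [2, 3]), (2, 10, [2]), (3, 10, [4, 2]),
    (4, 10, [2, 2]), (5, 10, [1, 0, 0, 2, 3]), (0, 11, [2, 3]), (1, 11, [2, 3]),
    (2, 11, [4, 2]), (3, 11, [4, 2]), (4, 11, [2, 2]), (5, 11, [1, 0])],
  [(0, 3, []), (1, 3, []), (2, 3, [2]), (3, 3, [3]),
    (4, 3, [4]), (0, 4, []), (1, 4, []), (2, 4, [2]),
    (3, 4, [3]), (4, 4, []), (0, 5, []), (1, 5, []),
    (2, 5, [2]), (3, 5, [3, 4]), (4, 5, [4]), (0, 6, []),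
    (1, 6, []), (2, 6, [2]), (3, 6, [3, 4]), (4, 6, []),
    (0, 7, []), (1, 7, [2, 3]), (2, 7, [2]), (3, 7, [3]),
    (4, 7, [4]), (0, 8, []), (1, 8, [2, 3]), (2, 8, [3]),
    (3, 8, [3]), (4, 8, [4]), (0, 9, [2, 3]), (1, 9, []),
    (2, 9, [2]), (3, 9, [3]), (4, 9, [4]), (0, 10, []),
    (1, 10, [4]), (2, 10, [3]), (3, 10, [3, 4]), (4, 10, [2, 2]),
    (0, 11, [4]), (1, 11, [4]), (2, 11, [3, 4]), (3, 11, [3, 4]),
    (4, 11, [2, 2])],
  [(2, 4, []), (3, 4, []), (4, 4, []), (2, 5, []),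
    (3, 5, []), (4, 5, []), (2, 6, []), (3, 6, []),
    (4, 6, []), (2, 7, []), (3, 7, []), (4, 7, []),
    (2, 8, []), (3, 8, []), (4, 8, []), (2, 9, []),
    (3, 9, []), (4, 9, []), (2, 10, []), (3, 10, []),
    (4, 10, []), (2, 11, []), (3, 11, []), (4, 11, [])]]

/-- base point of level `k` -/
def bs : List ℕ := [2, 1, 0, 3, 4]
/-- letters of level `k` -/
def lts : List (List ℕ) := [[0, 1, 2, 3, 4, 5, 6, 7], [0, 1, 2, 3, 4, 5, 6], [0, 1, 2, 3, 4, 5], [0, 1, 2, 3, 4], [2, 3, 4], []]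
/-- orbit of level `k` -/
def obs : List (List ℕ) := [[0, 1, 2, 3, 4, 5, 6, 7, 8, 9, 10, 11], [0, 1, 3, 4, 5, 6, 7, 8, 9, 10, 11],
  [0, 3, 4, 5, 6, 7, 8, 9, 10, 11], [3, 4, 5, 6, 7, 8, 9, 10, 11], [4, 5, 6, 7, 8, 9, 10, 11]]

def ap (c x : ℕ) : ℕ := (c >>> (4 * x)) % 16

def evn : List ℕ → ℕ → ℕ
  | [], x => x
  | g :: w, x => ap (cds.getD g 0) (evn w x)

def eqw (a b : List ℕ) : Bool := (List.range 12).all fun x => (evn a x).beq (evn b x)

/-- The check of level `k`. -/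
def chk (k : ℕ) : Bool :=
  ((obs.getD k []).all fun i => (lts.getD k []).all fun g =>
    (rws.getD k []).any fun r => r.1.beq g && r.2.1.beq i) &&
  ((rws.getD k []).all fun r =>
    (obs.getD k []).any (fun j => j.beq (evn [r.1] r.2.1)) &&
    eqw (r.1 :: ((tws.getD k []).getD r.2.1 [])) (((tws.getD k []).getD (evn [r.1] r.2.1) []) ++ r.2.2) &&
    r.2.2.all fun g => (lts.getD (k + 1) []).any fun h => h.beq g) &&
  ((obs.getD k []).all fun i => (evn ((tws.getD k []).getD i []) (bs.getD k 0)).beq i &&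
    (((tws.getD k []).getD i []).all fun g => (lts.getD k []).any fun h => h.beq g))

theorem chk0 : chk 0 = true := by decide +kernel
theorem chk1 : chk 1 = true := by decide +kernel
theorem chk2 : chk 2 = true := by decide +kernel
theorem chk3 : chk 3 = true := by decide +kernel
theorem chk4 : chk 4 = true := by decide +kernel


section

variable {gen : ℕ → Equiv.Perm (Fin 12)}

/-- value of a word -/
def evp (gen : ℕ → Equiv.Perm (Fin 12)) (w : List ℕ) : Equiv.Perm (Fin 12) := (w.map gen).prod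

/-- the generators act as their codes -/
def OK (gen : ℕ → Equiv.Perm (Fin 12)) : Prop := ∀ g < 8, ∀ x : Fin 12, ((gen g x : Fin 12) : ℕ) = ap (cds.getD g 0) x

/-- the group of level `k` -/
def KK (gen : ℕ → Equiv.Perm (Fin 12)) (k : ℕ) : Subgroup (Equiv.Perm (Fin 12)) :=
  Subgroup.closure (gen '' {g | g ∈ lts.getD k []})

theorem evp_val (h : OK gen) (w : List ℕ) (hw : ∀ g ∈ w, g < 8) (x : Fin 12) :
    ((evp gen w x : Fin 12) : ℕ) = evn w x := by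
  induction w with
  | nil => simp [evp, evn]
  | cons g w ih =>
    have h1 := ih (fun g hg => hw g (List.mem_cons_of_mem _ hg))
    simp only [evp, List.map_cons, List.prod_cons, Equiv.Perm.mul_apply] at h1 ⊢
    rw [h g (hw g List.mem_cons_self), h1]
    rfl

theorem evp_append (a b : List ℕ) : evp gen (a ++ b) = evp gen a * evp gen b := by
  simp [evp]

theorem evp_eq (h : OK gen) {a b : List ℕ} (ha : ∀ g ∈ a, g < 8) (hb : ∀ g ∈ b, g < 8)
    (hab : eqw a b = true) : evp gen a = evp gen b := by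
  ext x
  rw [evp_val h a ha, evp_val h b hb]
  have := List.all_eq_true.mp hab x (by simp [x.2])
  exact Nat.eq_of_beq_eq_true this

theorem evp_mem {k : ℕ} {w : List ℕ} (hw : ∀ g ∈ w, g ∈ lts.getD k []) : evp gen w ∈ KK gen k := by
  apply Subgroup.list_prod_mem
  intro x hx
  obtain ⟨g, hg, rfl⟩ := List.mem_map.mp hx
  exact Subgroup.subset_closure ⟨g, hw g hg, rfl⟩

theorem lts_lt {k g : ℕ} (hg : g ∈ lts.getD k []) : g < 8 := by
  rcases Nat.lt_or_ge k 6 with hk | hk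
  · interval_cases k <;> simp [lts] at hg <;> omega
  · rw [List.getD_eq_default] at hg
    · simp at hg
    · simpa [lts] using hk

/-- What the check gives. -/
structure Lev (gen : ℕ → Equiv.Perm (Fin 12)) (k : ℕ) (b : Fin 12) (T : Fin 12 → Equiv.Perm (Fin 12)) : Prop where
  hT : ∀ i : Fin 12, (i : ℕ) ∈ obs.getD k [] → T i b = i ∧ T i ∈ KK gen k
  hb : (b : ℕ) ∈ obs.getD k [] ∧ T b = 1
  hS : ∀ g ∈ lts.getD k [], ∀ i : Fin 12, (i : ℕ) ∈ obs.getD k [] →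
    ((gen g i : Fin 12) : ℕ) ∈ obs.getD k [] ∧ (T (gen g i))⁻¹ * gen g * T i ∈ KK gen (k + 1)
  hf : ∀ g ∈ lts.getD (k + 1) [], gen g ∈ KK gen k ∧ gen g b = b

theorem lev_of_chk (h : OK gen) (k : ℕ) (hk : chk k = true) (b : Fin 12) (hb : bs.getD k 0 = b)
    (hb1 : (b : ℕ) ∈ obs.getD k [] ∧ (tws.getD k []).getD b [] = [])
    (hsub : ∀ g ∈ lts.getD (k + 1) [], g ∈ lts.getD k [] ∧ ap (cds.getD g 0) b = b) :
    Lev gen k b (fun i => evp gen ((tws.getD k []).getD i [])) := by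
  simp only [chk, Bool.and_eq_true, List.all_eq_true, List.any_eq_true] at hk
  obtain ⟨⟨h1, h2⟩, h3⟩ := hk
  have hbeq : ∀ {a b : ℕ}, a.beq b = true → a = b := fun h => Nat.eq_of_beq_eq_true h
  have hT8 : ∀ i ∈ obs.getD k [], ∀ g ∈ (tws.getD k []).getD i [], g ∈ lts.getD k [] := by
    intro i hi g hg
    obtain ⟨x, hx, hxg⟩ := (h3 i hi).2 g hg
    rw [← hbeq hxg]; exact hx
  refine ⟨?_, ?_, ?_, ?_⟩
  · intro i hi
    have hi3 := h3 i hi
    refine ⟨?_, evp_mem (hT8 i hi)⟩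
    apply Fin.ext
    rw [evp_val h _ (fun g hg => lts_lt (hT8 i hi g hg)), ← hb]
    exact hbeq hi3.1
  · refine ⟨hb1.1, ?_⟩
    rw [hb1.2]; rfl
  · intro g hg i hi
    obtain ⟨r, hr, hr1⟩ := h1 i hi g hg
    obtain ⟨r1, r2⟩ := hr1
    obtain ⟨⟨h21, h22⟩, h23⟩ := h2 r hr
    have e1 := hbeq r1
    have e2 := hbeq r2
    have e3 : evn [r.1] r.2.1 = ((gen g i : Fin 12) : ℕ) := by
      rw [e1, e2, h g (lts_lt hg) i]; rfl
    obtain ⟨j, hj, hj1⟩ := h21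
    have hj2 := hbeq hj1
    rw [e3] at hj2 h22
    refine ⟨hj2 ▸ hj, ?_⟩
    have hr8 : ∀ x ∈ r.2.2, x ∈ lts.getD (k + 1) [] := by
      intro x hx
      obtain ⟨y, hy, hyx⟩ := h23 x hx
      rw [← hbeq hyx]; exact hy
    have key := evp_eq h (gen := gen) (a := r.1 :: ((tws.getD k []).getD r.2.1 []))
      (b := ((tws.getD k []).getD ((gen g i : Fin 12) : ℕ) []) ++ r.2.2) ?_ ?_ h22
    · rw [evp_append] at key
      have hc : evp gen (r.1 :: ((tws.getD k []).getD r.2.1 [])) = gen g * evp gen ((tws.getD k []).getD i []) := by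
        rw [e1, e2]; simp [evp]
      rw [hc] at key
      have : (evp gen ((tws.getD k []).getD ((gen g i : Fin 12) : ℕ) []))⁻¹ * gen g *
          evp gen ((tws.getD k []).getD i []) = evp gen r.2.2 := by
        rw [mul_assoc, key]; group
      rw [this]
      exact evp_mem hr8
    · intro x hx
      rcases List.mem_cons.mp hx with rfl | hx
      · rw [e1]; exact lts_lt hg
      · rw [e2] at hx; exact lts_lt (hT8 i hi x hx)
    · intro x hx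
      rcases List.mem_append.mp hx with hx | hx
      · exact lts_lt (hT8 _ (hj2 ▸ hj) x hx)
      · exact lts_lt (hr8 x hx)
  · intro g hg
    refine ⟨Subgroup.subset_closure ⟨g, (hsub g hg).1, rfl⟩, ?_⟩
    apply Fin.ext
    rw [h g (lts_lt hg)]
    exact (hsub g hg).2

namespace Lev

variable {k : ℕ} {b : Fin 12} {T : Fin 12 → Equiv.Perm (Fin 12)}

theorem mem (h : Lev gen k b T) {g : Equiv.Perm (Fin 12)} (hg : g ∈ KK gen k) :
    ((g b : Fin 12) : ℕ) ∈ obs.getD k [] ∧ (T (g b))⁻¹ * g ∈ KK gen (k + 1) := by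
  have hg' : g ∈ Submonoid.closure (gen '' {g | g ∈ lts.getD k []}) := by
    rw [← Subgroup.closure_toSubmonoid_of_finite]; exact hg
  induction hg' using Submonoid.closure_induction_left with
  | one =>
    refine ⟨h.hb.1, ?_⟩
    rw [Equiv.Perm.one_apply, h.hb.2]; simp
  | mul_left x hx y hy ih =>
    obtain ⟨c, hc, rfl⟩ := hx
    have hy' : y ∈ KK gen k := by
      have : y ∈ (Subgroup.closure (gen '' {g | g ∈ lts.getD k []})).toSubmonoid := by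
        rw [Subgroup.closure_toSubmonoid_of_finite]; exact hy
      exact this
    obtain ⟨i1, i2⟩ := ih hy'
    obtain ⟨j1, j2⟩ := h.hS c hc (y b) i1
    refine ⟨j1, ?_⟩
    have := mul_mem j2 i2
    simpa [mul_assoc] using this

theorem le (h : Lev gen k b T) : KK gen (k + 1) ≤ KK gen k := by
  rw [KK, Subgroup.closure_le]
  rintro _ ⟨g, hg, rfl⟩
  exact (h.hf g hg).1

theorem fix (h : Lev gen k b T) {g : Equiv.Perm (Fin 12)} (hg : g ∈ KK gen (k + 1)) : g b = b := by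
  have : KK gen (k + 1) ≤ MulAction.stabilizer (Equiv.Perm (Fin 12)) b := by
    rw [KK, Subgroup.closure_le]
    rintro _ ⟨g, hg, rfl⟩
    exact (h.hf g hg).2
  exact this hg

theorem eq_inf (h : Lev gen k b T) :
    KK gen (k + 1) = KK gen k ⊓ MulAction.stabilizer (Equiv.Perm (Fin 12)) b := by
  apply le_antisymm
  · exact le_inf h.le (fun g hg => h.fix hg)
  · rintro g ⟨hg, hgb⟩
    have hgb' : g b = b := hgb
    have := (h.mem hg).2
    rwa [hgb', h.hb.2, inv_one, one_mul] at this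

theorem card_eq (h : Lev gen k b T) (m : ℕ) (hm : Set.ncard {x : Fin 12 | (x : ℕ) ∈ obs.getD k []} = m) :
    Nat.card (KK gen k) = m * Nat.card (KK gen (k + 1)) := by
  have e1 : (MulAction.orbit (KK gen k) b) = {x : Fin 12 | (x : ℕ) ∈ obs.getD k []} := by
    ext x
    constructor
    · rintro ⟨g, rfl⟩
      exact (h.mem g.2).1
    · intro hx
      exact ⟨⟨T x, (h.hT x hx).2⟩, (h.hT x hx).1⟩
  have e2 := MulAction.index_stabilizer (KK gen k) b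
  rw [e1, hm] at e2
  have e3 : (MulAction.stabilizer (KK gen k) b).map (KK gen k).subtype = KK gen (k + 1) := by
    rw [h.eq_inf]
    ext g
    constructor
    · rintro ⟨x, hx, rfl⟩
      exact ⟨x.2, hx⟩
    · rintro ⟨h1, h2⟩
      exact ⟨⟨g, h1⟩, h2, rfl⟩
  rw [← Subgroup.card_mul_index (MulAction.stabilizer (KK gen k) b), e2, ← e3, mul_comm]
  congr 1
  exact Nat.card_congr ((MulAction.stabilizer (KK gen k) b).equivMapOfInjective _ (Subgroup.subtype_injective _)).toEquiv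

end Lev

end


theorem regular_of_base {G X : Type*} [Group G] [MulAction G X] [Finite X] (x0 : X)
    (hst : MulAction.stabilizer G x0 = ⊥) (hc : Nat.card X ≤ Nat.card G) :
    MulAction.IsPretransitive G X ∧ ∀ y : X, MulAction.stabilizer G y = ⊥ := by
  have horb : MulAction.orbit G x0 = Set.univ := by
    have e2 := MulAction.index_stabilizer G x0
    rw [hst, Subgroup.index_bot] at e2
    apply Set.eq_of_subset_of_ncard_le (Set.subset_univ _)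
    rwa [Set.ncard_univ, ← e2]
  have hex : ∀ y : X, ∃ g : G, g • x0 = y := by
    intro y
    have : y ∈ MulAction.orbit G x0 := by rw [horb]; trivial
    exact this
  constructor
  · refine ⟨fun x y => ?_⟩
    obtain ⟨g, rfl⟩ := hex x
    obtain ⟨h, rfl⟩ := hex y
    exact ⟨h * g⁻¹, by rw [smul_smul]; simp⟩
  · intro y
    obtain ⟨g, rfl⟩ := hex y
    rw [MulAction.stabilizer_smul_eq_stabilizer_map_conj, hst, Subgroup.map_bot]

theorem result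
    (s t u v w x₁ x₂ x₃ : Equiv.Perm (Fin 12))
    (hs : s = Equiv.swap (3 : Fin 12) 5 * Equiv.swap (3 : Fin 12) 4 * Equiv.swap (6 : Fin 12) 8 * Equiv.swap (6 : Fin 12) 7 * Equiv.swap (9 : Fin 12) 11 * Equiv.swap (9 : Fin 12) 10) (ht : t = Equiv.swap (3 : Fin 12) 9 * Equiv.swap (3 : Fin 12) 6 * Equiv.swap (4 : Fin 12) 10 * Equiv.swap (4 : Fin 12) 7 * Equiv.swap (5 : Fin 12) 11 * Equiv.swap (5 : Fin 12) 8)
    (hu : u = Equiv.swap (4 : Fin 12) 9 * Equiv.swap (4 : Fin 12) 5 * Equiv.swap (4 : Fin 12) 6 * Equiv.swap (7 : Fin 12) 10 * Equiv.swap (7 : Fin 12) 11 * Equiv.swap (7 : Fin 12) 8) (hv : v = Equiv.swap (4 : Fin 12) 11 * Equiv.swap (4 : Fin 12) 5 * Equiv.swap (4 : Fin 12) 7 * Equiv.swap (6 : Fin 12) 8 * Equiv.swap (6 : Fin 12) 9 * Equiv.swap (6 : Fin 12) 10) (hw : w = Equiv.swap (4 : Fin 12) 8 * Equiv.swap (4 : Fin 12) 5 * Equiv.swap (4 : Fin 12) 10 * Equiv.swap (6 : Fin 12) 7 * Equiv.swap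 (6 : Fin 12) 9 * Equiv.swap (6 : Fin 12) 11)
    (hx₁ : x₁ = Equiv.swap (0 : Fin 12) 3 * Equiv.swap (6 : Fin 12) 7 * Equiv.swap (8 : Fin 12) 10 * Equiv.swap (9 : Fin 12) 11) (hx₂ : x₂ = Equiv.swap (0 : Fin 12) 1 * Equiv.swap (6 : Fin 12) 9 * Equiv.swap (7 : Fin 12) 10 * Equiv.swap (8 : Fin 12) 11)
    (hx₃ : x₃ = Equiv.swap (1 : Fin 12) 2 * Equiv.swap (6 : Fin 12) 11 * Equiv.swap (7 : Fin 12) 9 * Equiv.swap (8 : Fin 12) 10)
    (M₁₂ M₁₁ : Subgroup (Equiv.Perm (Fin 12))) (hM₁₂ : M₁₂ = Subgroup.closure {s, t, u, v, w, x₁, x₂, x₃})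
    (hM₁₁ : M₁₁ = Subgroup.closure {s, t, u, v, w, x₁, x₂}) :
    MulAction.IsMultiplyPretransitive M₁₂ (Fin 12) 5 ∧ (∀ y : Fin 5 ↪ Fin 12, MulAction.stabilizer M₁₂ y = ⊥) ∧
    Nat.card M₁₂ = 95040 ∧ Nat.card M₁₁ = 7920 ∧
    M₁₁ = M₁₂ ⊓ MulAction.stabilizer (Equiv.Perm (Fin 12)) (2 : Fin 12) := by
  obtain ⟨gen, hgen⟩ : ∃ gen : ℕ → Equiv.Perm (Fin 12), gen = fun g => [s, t, u, v, w, x₁, x₂, x₃].getD g 1 := ⟨_, rfl⟩
  have ok : OK gen := by
    intro g hg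
    interval_cases g
    · rw [hgen]; show ∀ x : Fin 12, ((s x : Fin 12) : ℕ) = _; rw [hs]; decide +kernel
    · rw [hgen]; show ∀ x : Fin 12, ((t x : Fin 12) : ℕ) = _; rw [ht]; decide +kernel
    · rw [hgen]; show ∀ x : Fin 12, ((u x : Fin 12) : ℕ) = _; rw [hu]; decide +kernel
    · rw [hgen]; show ∀ x : Fin 12, ((v x : Fin 12) : ℕ) = _; rw [hv]; decide +kernel
    · rw [hgen]; show ∀ x : Fin 12, ((w x : Fin 12) : ℕ) = _; rw [hw]; decide +kernel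
    · rw [hgen]; show ∀ x : Fin 12, ((x₁ x : Fin 12) : ℕ) = _; rw [hx₁]; decide +kernel
    · rw [hgen]; show ∀ x : Fin 12, ((x₂ x : Fin 12) : ℕ) = _; rw [hx₂]; decide +kernel
    · rw [hgen]; show ∀ x : Fin 12, ((x₃ x : Fin 12) : ℕ) = _; rw [hx₃]; decide +kernel
  have L0 := lev_of_chk ok 0 chk0 2 rfl (by decide) (by decide)
  have L1 := lev_of_chk ok 1 chk1 1 rfl (by decide) (by decide)
  have L2 := lev_of_chk ok 2 chk2 0 rfl (by decide) (by decide)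
  have L3 := lev_of_chk ok 3 chk3 3 rfl (by decide) (by decide)
  have L4 := lev_of_chk ok 4 chk4 4 rfl (by decide) (by decide)
  have hK0 : M₁₂ = KK gen 0 := by
    have e1 : {g : ℕ | g ∈ lts.getD 0 []} = {0, 1, 2, 3, 4, 5, 6, 7} := by
      ext g; simp [lts]
    rw [hM₁₂, KK, e1]
    simp only [Set.image_insert_eq, Set.image_singleton]
    rw [hgen]
    rfl
  have hK1 : M₁₁ = KK gen 1 := by
    have e1 : {g : ℕ | g ∈ lts.getD 1 []} = {0, 1, 2, 3, 4, 5, 6} := by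
      ext g; simp [lts]
    rw [hM₁₁, KK, e1]
    simp only [Set.image_insert_eq, Set.image_singleton]
    rw [hgen]
    rfl
  have hK5 : KK gen 5 = ⊥ := by
    rw [KK]
    simp [lts]
  have c0 := L0.card_eq 12 (by rw [Set.ncard_eq_toFinset_card']; decide)
  have c1 := L1.card_eq 11 (by rw [Set.ncard_eq_toFinset_card']; decide)
  have c2 := L2.card_eq 10 (by rw [Set.ncard_eq_toFinset_card']; decide)
  have c3 := L3.card_eq 9 (by rw [Set.ncard_eq_toFinset_card']; decide)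
  have c4 := L4.card_eq 8 (by rw [Set.ncard_eq_toFinset_card']; decide)
  simp only [Nat.reduceAdd] at c0 c1 c2 c3 c4
  rw [hK5, Subgroup.card_bot] at c4
  have d0 : Nat.card M₁₂ = 95040 := by rw [hK0]; omega
  have d1 : Nat.card M₁₁ = 7920 := by rw [hK1]; omega
  -- the base tuple
  obtain ⟨y0, hy0⟩ : ∃ y0 : Fin 5 ↪ Fin 12, y0 0 = 2 ∧ y0 1 = 1 ∧ y0 2 = 0 ∧ y0 3 = 3 ∧ y0 4 = 4 :=
    ⟨⟨![2, 1, 0, 3, 4], by decide⟩, rfl, rfl, rfl, rfl, rfl⟩
  have st0 : MulAction.stabilizer M₁₂ y0 = ⊥ := by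
    rw [eq_bot_iff]
    intro g hg
    have hg' : ∀ i, (g : Equiv.Perm (Fin 12)) (y0 i) = y0 i := by
      intro i
      have := DFunLike.congr_fun (MulAction.mem_stabilizer_iff.mp hg) i
      exact this
    have g0 : (g : Equiv.Perm (Fin 12)) ∈ KK gen 0 := hK0 ▸ g.2
    have g1 : (g : Equiv.Perm (Fin 12)) ∈ KK gen 1 := by
      rw [L0.eq_inf]; exact ⟨g0, by have := hg' 0; rwa [hy0.1] at this⟩
    have g2 : (g : Equiv.Perm (Fin 12)) ∈ KK gen 2 := by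
      rw [L1.eq_inf]; exact ⟨g1, by have := hg' 1; rwa [hy0.2.1] at this⟩
    have g3 : (g : Equiv.Perm (Fin 12)) ∈ KK gen 3 := by
      rw [L2.eq_inf]; exact ⟨g2, by have := hg' 2; rwa [hy0.2.2.1] at this⟩
    have g4 : (g : Equiv.Perm (Fin 12)) ∈ KK gen 4 := by
      rw [L3.eq_inf]; exact ⟨g3, by have := hg' 3; rwa [hy0.2.2.2.1] at this⟩
    have g5 : (g : Equiv.Perm (Fin 12)) ∈ KK gen 5 := by
      rw [L4.eq_inf]; exact ⟨g4, by have := hg' 4; rwa [hy0.2.2.2.2] at this⟩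
    rw [hK5] at g5
    exact Subgroup.mem_bot.mpr (Subtype.ext (Subgroup.mem_bot.mp g5))
  have hc : Nat.card (Fin 5 ↪ Fin 12) ≤ Nat.card M₁₂ := by
    rw [d0, Nat.card_eq_fintype_card, Fintype.card_embedding_eq]
    simp
  have hreg := regular_of_base y0 st0 hc
  refine ⟨hreg.1, hreg.2, d0, d1, ?_⟩
  · rw [hK1, hK0]; exact L0.eq_inf

end Cfsg.Agent.S3362
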