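import Cfsg.Statements.S3374
import Mathlib
import Cfsg.Agent.PermutationGroups.ZassIcos

set_option autoImplicit false
open Cfsg

namespace Cfsg.Agent.S3374

open Matrix

theorem fact5 : Fact (Nat.Prime 5) := ⟨by norm_num⟩
theorem fact11 : Fact (Nat.Prime 11) := ⟨by norm_num⟩

attribute [local instance] fact5 fact11

/-- the matrix ring -/
abbrev E : Type := Matrix (Fin 2) (Fin 2) (ZMod 11)

/-- first generator -/
def xu : Eˣ := ⟨!![0, -1; 1, -1], !![-1, 1; -1, 0], by decide, by decide⟩

/-- second generator -/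
def yu : Eˣ := ⟨!![0, 9; 6, -1], !![-1, -9; -6, 0], by decide, by decide⟩

/-- linear action -/
def act : Eˣ →* MulAut (Multiplicative (Fin 2 → ZMod 11)) where
  toFun u :=
    { toFun := fun v => Multiplicative.ofAdd ((u : E).mulVec v.toAdd)
      invFun := fun v => Multiplicative.ofAdd (((u⁻¹ : Eˣ) : E).mulVec v.toAdd)
      left_inv := by
        intro v
        show Multiplicative.ofAdd (((u⁻¹ : Eˣ) : E).mulVec ((u : E).mulVec v.toAdd)) = v
        rw [Matrix.mulVec_mulVec, ← Units.val_mul, inv_mul_cancel, Units.val_one, Matrix.one_mulVec]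
        rfl
      right_inv := by
        intro v
        show Multiplicative.ofAdd ((u : E).mulVec (((u⁻¹ : Eˣ) : E).mulVec v.toAdd)) = v
        rw [Matrix.mulVec_mulVec, ← Units.val_mul, mul_inv_cancel, Units.val_one, Matrix.one_mulVec]
        rfl
      map_mul' := by
        intro a b
        show Multiplicative.ofAdd ((u : E).mulVec (a.toAdd + b.toAdd)) = _
        rw [Matrix.mulVec_add]
        rfl }
  map_one' := by
    ext v : 1
    show Multiplicative.ofAdd (((1 : Eˣ) : E).mulVec v.toAdd) = v
    rw [Units.val_one, Matrix.one_mulVec]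
    rfl
  map_mul' := by
    intro a b
    ext v : 1
    show Multiplicative.ofAdd (((a * b : Eˣ) : E).mulVec v.toAdd) =
      Multiplicative.ofAdd ((a : E).mulVec ((b : E).mulVec v.toAdd))
    rw [Matrix.mulVec_mulVec, Units.val_mul]

theorem act_apply (u : Eˣ) (v : Multiplicative (Fin 2 → ZMod 11)) :
    act u v = Multiplicative.ofAdd ((u : E).mulVec v.toAdd) := rfl

/-- A matrix of determinant one and order dividing `120` with a nonzero fixed vector is trivial. -/
theorem eq_one_of_fixed (A : E) (hdet : A.det = 1) (hpow : A ^ 120 = 1) (v : Fin 2 → ZMod 11)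
    (hv : v ≠ 0) (hfix : A.mulVec v = v) : A = 1 := by
  have h0 : (A - 1).det = 0 := by
    rw [← Matrix.exists_mulVec_eq_zero_iff]
    refine ⟨v, hv, ?_⟩
    rw [Matrix.sub_mulVec, hfix, Matrix.one_mulVec, sub_self]
  rw [Matrix.det_fin_two] at h0 hdet
  simp only [Matrix.sub_apply, Matrix.one_apply_eq, ne_eq, not_false_eq_true,
    zero_ne_one, one_ne_zero, Matrix.one_apply_ne, sub_zero] at h0
  have htr : A 0 0 + A 1 1 = 2 := by linear_combination hdet - h0
  have hsq : (A - 1) * (A - 1) = 0 := by
    ext i j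
    rw [Matrix.mul_apply, Fin.sum_univ_two]
    fin_cases i <;> fin_cases j <;>
      simp only [Matrix.sub_apply, Matrix.one_apply_eq, ne_eq, not_false_eq_true,
        zero_ne_one, one_ne_zero, Matrix.one_apply_ne, sub_zero, Matrix.zero_apply,
        Fin.zero_eta, Fin.mk_one, Fin.isValue]
    · linear_combination (A 0 0) * htr - hdet
    · linear_combination (A 0 1) * htr
    · linear_combination (A 1 0) * htr
    · linear_combination (A 1 1) * htr - hdet
  have hn : ∀ n : ℕ, A ^ n = 1 + (n : E) * (A - 1) := by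
    intro n
    induction n with
    | zero => simp
    | succ n ih =>
      rw [pow_succ, ih]
      have e : (1 + (n : E) * (A - 1)) * A = 1 + ((n : E) + 1) * (A - 1) + (n : E) * ((A - 1) * (A - 1)) := by
        noncomm_ring
      rw [e, hsq, mul_zero, add_zero, Nat.cast_succ]
  have h120 := hn 120
  rw [hpow] at h120
  have h1 : ((120 : ℕ) : E) * (A - 1) = 0 := by
    have : (1 : E) = 1 + ((120 : ℕ) : E) * (A - 1) := h120
    exact left_eq_add.1 this
  have h2 : ((120 : ℕ) : E) = -1 := by
    rw [show ((120 : ℕ) : E) = ((120 : ℤ) : E) by norm_num]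
    decide
  rw [h2, neg_mul, one_mul, neg_eq_zero, sub_eq_zero] at h1
  exact h1

/-- SL(2,5) occurs as a Frobenius complement: there is a finite group L with a subgroup H isomorphic to SL(2,5) which is a non-trivial proper subgroup meeting each conjugate gHg⁻¹ with g outside H trivially. -/
theorem result :
    ∃ (L : Type) (_ : Group L) (_ : Finite L) (H : Subgroup L),
      Cfsg.IsFrobeniusComplement H ∧ Nonempty (H ≃* Matrix.SpecialLinearGroup (Fin 2) (ZMod 5)) := by
  obtain ⟨Ψ, hinj, hrange⟩ := Cfsg.Agent.PermutationGroups.ZassIcos.icosahedral (E := E)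
    (IsUnit.of_mul_eq_one (6 : E) (by decide)) (IsUnit.of_mul_eq_one (4 : E) (by decide))
    (IsUnit.of_mul_eq_one (9 : E) (by decide)) xu yu (by decide) (by decide) (by decide)
  have hdet : ∀ s, ((Ψ s : Eˣ) : E).det = 1 := by
    intro s
    have h1 : Ψ s ∈ Subgroup.closure ({xu, yu} : Set Eˣ) := by
      rw [← hrange]; exact ⟨s, rfl⟩
    have h2 : Subgroup.closure ({xu, yu} : Set Eˣ) ≤
        (Units.map (Matrix.detMonoidHom (n := Fin 2) (R := ZMod 11))).ker := by
      rw [Subgroup.closure_le]
      rintro g (rfl | rfl)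
      · rw [SetLike.mem_coe, MonoidHom.mem_ker]
        ext
        show ((xu : Eˣ) : E).det = 1
        decide
      · rw [SetLike.mem_coe, MonoidHom.mem_ker]
        ext
        show ((yu : Eˣ) : E).det = 1
        decide
    have h3 := h2 h1
    rw [MonoidHom.mem_ker] at h3
    exact congrArg Units.val h3
  have hcard : Nat.card (Matrix.SpecialLinearGroup (Fin 2) (ZMod 5)) = 120 := by
    rw [Nat.card_eq_fintype_card]; decide +kernel
  have hfpf : ∀ s, s ≠ 1 → ∀ v : Multiplicative (Fin 2 → ZMod 11), act (Ψ s) v = v → v = 1 := by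
    intro s hs v hv
    by_contra hne
    apply hs
    apply hinj
    rw [map_one]
    ext1
    rw [Units.val_one]
    apply eq_one_of_fixed ((Ψ s : Eˣ) : E) (hdet s) _ v.toAdd
    · intro h; exact hne (by rw [← ofAdd_toAdd v, h]; rfl)
    · exact congrArg Multiplicative.toAdd hv
    · have h1 : s ^ 120 = 1 := by rw [← hcard]; exact pow_card_eq_one'
      rw [← Units.val_pow_eq_pow_val, ← map_pow, h1, map_one, Units.val_one]
  let φ : Matrix.SpecialLinearGroup (Fin 2) (ZMod 5) →*
    MulAut (Multiplicative (Fin 2 → ZMod 11)) := act.comp Ψ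
  let L : Type := Multiplicative (Fin 2 → ZMod 11) ⋊[φ] Matrix.SpecialLinearGroup (Fin 2) (ZMod 5)
  have hfin : Finite L := Finite.of_equiv _ (SemidirectProduct.equivProd (φ := φ)).symm
  let ι : Matrix.SpecialLinearGroup (Fin 2) (ZMod 5) →* L := SemidirectProduct.inr
  have hι : Function.Injective ι := SemidirectProduct.inr_injective
  refine ⟨L, inferInstance, hfin, ι.range, ⟨?_, ?_, ?_⟩,
    ⟨(MonoidHom.ofInjective hι).symm⟩⟩
  · intro h
    have h1 : ι (-1) ∈ ι.range := ⟨_, rfl⟩
    rw [h, Subgroup.mem_bot] at h1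
    have h2 : (-1 : Matrix.SpecialLinearGroup (Fin 2) (ZMod 5)) = 1 := hι (by rw [h1, map_one])
    exact absurd h2 (by decide)
  · intro h
    have h1 : (SemidirectProduct.inl (Multiplicative.ofAdd (fun _ => (1 : ZMod 11))) : L) ∈ ι.range := by
      rw [h]; trivial
    obtain ⟨s, hs⟩ := h1
    have h2 := congrArg SemidirectProduct.left hs
    have h3 : (1 : Multiplicative (Fin 2 → ZMod 11)) = Multiplicative.ofAdd (fun _ => (1 : ZMod 11)) := h2
    have h4 : (0 : Fin 2 → ZMod 11) = fun _ => 1 := congrArg Multiplicative.toAdd h3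
    exact absurd (congrFun h4 0) (by decide)
  · intro g hg
    rw [eq_bot_iff]
    intro h hh
    obtain ⟨⟨a, rfl⟩, h2⟩ := Subgroup.mem_inf.1 hh
    rw [Subgroup.mem_bot]
    rw [Subgroup.mem_smul_pointwise_iff_exists] at h2
    obtain ⟨_, ⟨b, rfl⟩, hb⟩ := h2
    have hb' : g * ι b * g⁻¹ = ι a := hb
    have hb2 : g * ι b = ι a * g := by rw [← hb', inv_mul_cancel_right]
    have hl := congrArg SemidirectProduct.left hb2
    have hl' : g.left * φ g.right 1 = 1 * φ a g.left := hl
    rw [map_one, mul_one, one_mul] at hl'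
    by_cases ha : a = 1
    · rw [ha, map_one]
    · exfalso
      have h1 : g.left = 1 := hfpf a ha g.left hl'.symm
      apply hg
      refine ⟨g.right, ?_⟩
      apply SemidirectProduct.ext
      · exact h1.symm
      · rfl

end Cfsg.Agent.S3374
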