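import Cfsg.Statements.S3381

set_option autoImplicit false
open Cfsg

namespace Cfsg.Agent.S3381

section

variable {q : ℕ} [Fact q.Prime] {V : Type*} [AddCommGroup V] [Module (ZMod q) V] [Finite V] [Nontrivial V]
    {G : Type*} [Group G] [Finite G] (ρ : G →* (V ≃ₗ[ZMod q] V))

/-- the fixed space of an element -/
def fixS (t : G) : Submodule (ZMod q) V := LinearMap.ker ((ρ t : V →ₗ[ZMod q] V) - LinearMap.id)

theorem mem_fixS {t : G} {v : V} : v ∈ fixS ρ t ↔ ρ t v = v := by
  rw [fixS, LinearMap.mem_ker, LinearMap.sub_apply, LinearMap.id_apply, sub_eq_zero]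
  rfl

variable {ρ}

/-- two distinct nontrivial elements cannot fix a common nonzero vector -/
theorem eq_of_fix (hstab : ∀ v : V, v ≠ 0 → Nat.card {g : G // ρ g v = v} = 2) {v : V} (hv : v ≠ 0)
    {s t : G} (hs : s ≠ 1) (ht : t ≠ 1) (hsv : ρ s v = v) (htv : ρ t v = v) : s = t := by
  classical
  by_contra hst
  have h1 : Nat.card {g : G // ρ g v = v} = 2 := hstab v hv
  have h2 : ({(1 : G), s, t} : Finset G).card = 3 := by
    rw [Finset.card_insert_of_notMem, Finset.card_insert_of_notMem, Finset.card_singleton]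
    · simpa using hst
    · simp only [Finset.mem_insert, Finset.mem_singleton, not_or]
      exact ⟨fun h => hs h.symm, fun h => ht h.symm⟩
  have h3 : ∀ g ∈ ({(1 : G), s, t} : Finset G), ρ g v = v := by
    intro g hg
    simp only [Finset.mem_insert, Finset.mem_singleton] at hg
    rcases hg with rfl | rfl | rfl
    · rw [map_one]; rfl
    · exact hsv
    · exact htv
  have h4 : Nat.card ({(1 : G), s, t} : Finset G) ≤ Nat.card {g : G // ρ g v = v} := by
    apply Nat.card_le_card_of_injective (fun x => (⟨x.1, h3 x.1 x.2⟩ : {g : G // ρ g v = v}))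
    intro a b hab
    apply Subtype.ext
    exact congrArg (fun x : {g : G // ρ g v = v} => (x : G)) hab
  rw [h1, Nat.card_eq_fintype_card, Fintype.card_coe, h2] at h4
  omega

/-- a nonzero vector is fixed by an involution -/
theorem exists_fix (hstab : ∀ v : V, v ≠ 0 → Nat.card {g : G // ρ g v = v} = 2) {v : V} (hv : v ≠ 0) :
    ∃ t : G, t ≠ 1 ∧ ρ t v = v ∧ orderOf t = 2 := by
  have h1 : Nat.card {g : G // ρ g v = v} = 2 := hstab v hv
  have hnt : Nontrivial {g : G // ρ g v = v} := by
    rw [← Finite.one_lt_card_iff_nontrivial, h1]; norm_num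
  have hone : ρ (1 : G) v = v := by rw [map_one]; rfl
  obtain ⟨⟨t, ht⟩, hne⟩ := exists_ne (⟨1, hone⟩ : {g : G // ρ g v = v})
  have ht1 : t ≠ 1 := fun h => hne (Subtype.ext h)
  refine ⟨t, ht1, ht, ?_⟩
  apply orderOf_eq_prime _ ht1
  by_contra h2
  have h3 : ρ (t ^ 2) v = v := by
    rw [pow_two, map_mul]
    change ρ t (ρ t v) = v
    rw [ht, ht]
  have h4 := eq_of_fix hstab hv h2 ht1 h3 ht
  rw [pow_two] at h4
  exact ht1 (mul_eq_left.1 h4)

/-- a central involution acts as `-1` -/
theorem central_neg (hρ : Function.Injective ρ)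
    (hstab : ∀ v : V, v ≠ 0 → Nat.card {g : G // ρ g v = v} = 2)
    {z : G} (hz : orderOf z = 2) (hzc : z ∈ Subgroup.center G) (v : V) : ρ z v = -v := by
  have hz1 : z ≠ 1 := by
    intro h
    rw [h, orderOf_one] at hz
    norm_num at hz
  have hzz : z * z = 1 := by rw [← pow_two, ← hz, pow_orderOf_eq_one]
  have hzz' : ∀ v : V, ρ z (ρ z v) = v := by
    intro v
    have : ρ (z * z) v = v := by rw [hzz, map_one]; rfl
    rwa [map_mul] at this
  have hcomm : ∀ (t : G) (v : V), ρ t (ρ z v) = ρ z (ρ t v) := by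
    intro t v
    have h1 : t * z = z * t := (Subgroup.mem_center_iff.1 hzc t)
    have : ρ (t * z) v = ρ (z * t) v := by rw [h1]
    rwa [map_mul, map_mul] at this
  have key : ∀ v : V, ρ z v ≠ v → ρ z v = -v := by
    intro v hv
    by_contra hcon
    have hw : v + ρ z v ≠ 0 := by
      intro h
      apply hcon
      rw [← add_eq_zero_iff_eq_neg, add_comm]
      exact h
    have hv0 : v ≠ 0 := by
      rintro rfl
      apply hv
      rw [map_zero]
    obtain ⟨t, ht1, htv, -⟩ := exists_fix hstab hv0
    have h1 : ρ t (v + ρ z v) = v + ρ z v := by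
      rw [map_add, hcomm, htv]
    have h2 : ρ z (v + ρ z v) = v + ρ z v := by
      rw [map_add, hzz', add_comm]
    have h3 := eq_of_fix hstab hw ht1 hz1 h1 h2
    rw [h3] at htv
    exact hv htv
  by_cases hv : ρ z v = v
  · by_cases hv0 : v = 0
    · rw [hv0, map_zero, neg_zero]
    -- a vector not fixed
    obtain ⟨u, hu⟩ : ∃ u : V, ρ z u ≠ u := by
      by_contra hcon
      push Not at hcon
      apply hz1
      apply hρ
      rw [map_one]
      exact LinearEquiv.ext hcon
    have h1 : ρ z (u + v) ≠ u + v := by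
      intro h
      rw [map_add, hv] at h
      exact hu (add_right_cancel h)
    have h2 := key _ h1
    rw [map_add, hv, key u hu, neg_add] at h2
    rw [hv]
    exact add_left_cancel h2
  · exact key v hv

end

/-- Let G be a finite group acting faithfully and linearly on a non-trivial finite vector space V over the field with q elements (q prime) so that every non-zero vector has a stabilizer of order 2, and suppose G has a central involution. Then V has q^(2r) elements for some r and G contains exactly q^r + 1 non-central involutions. -/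
theorem result
    (q : ℕ) [Fact q.Prime] {V : Type*} [AddCommGroup V] [Module (ZMod q) V] [Finite V] [Nontrivial V]
    {G : Type*} [Group G] [Finite G] (ρ : G →* (V ≃ₗ[ZMod q] V)) (hρ : Function.Injective ρ)
    (hstab : ∀ v : V, v ≠ 0 → Nat.card {g : G // ρ g v = v} = 2)
    (z : G) (hz : orderOf z = 2) (hzc : z ∈ Subgroup.center G) :
    ∃ r : ℕ, Nat.card V = q ^ (2 * r) ∧
      Nat.card {g : G // orderOf g = 2 ∧ g ∉ Subgroup.center G} = q ^ r + 1 := by
  classical
  have hq : q.Prime := Fact.out
  have hneg := central_neg hρ hstab hz hzc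
  have hz1 : z ≠ 1 := by
    intro h
    rw [h, orderOf_one] at hz
    norm_num at hz
  have hzz : z * z = 1 := by rw [← pow_two, ← hz, pow_orderOf_eq_one]
  -- no nonzero vector is equal to its negative
  have h2 : ∀ v : V, v = -v → v = 0 := by
    intro v hv
    by_contra hv0
    have h3 : (2 : ZMod q) • v = 0 := by
      rw [two_smul]
      nth_rewrite 1 [hv]
      rw [neg_add_cancel]
    have h4 : (2 : ZMod q) = 0 := by
      rcases smul_eq_zero.1 h3 with h | h
      · exact h
      · exact absurd h hv0
    apply hz1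
    apply hρ
    rw [map_one]
    apply LinearEquiv.ext
    intro w
    rw [hneg w]
    change -w = w
    rw [neg_eq_iff_add_eq_zero, ← two_smul (ZMod q) w, h4, zero_smul]
  let I := {g : G // orderOf g = 2 ∧ g ∉ Subgroup.center G}
  have hI1 : ∀ t : I, (t : G) ≠ 1 := by
    intro t h
    have := t.2.1
    rw [h, orderOf_one] at this
    norm_num at this
  have hItt : ∀ t : I, (t : G) * t = 1 := by
    intro t
    have h3 : (t : G) ^ orderOf (t : G) = 1 := pow_orderOf_eq_one _
    rw [t.2.1, pow_two] at h3
    exact h3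
  -- every nonzero vector is fixed by a unique non-central involution
  have hex : ∀ v : V, v ≠ 0 → ∃ t : I, ρ (t : G) v = v := by
    intro v hv
    obtain ⟨t, ht1, htv, hto⟩ := exists_fix hstab hv
    refine ⟨⟨t, hto, ?_⟩, htv⟩
    intro htc
    have := central_neg hρ hstab hto htc v
    rw [htv] at this
    exact hv (h2 v this)
  -- the partner
  have hcomm : ∀ t : G, t * z = z * t := fun t => Subgroup.mem_center_iff.1 hzc t
  have hzt : ∀ t : I, orderOf (z * (t : G)) = 2 ∧ z * (t : G) ∉ Subgroup.center G := by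
    intro t
    have hnc : z * (t : G) ∉ Subgroup.center G := by
      intro h
      apply t.2.2
      have := Subgroup.mul_mem _ (Subgroup.inv_mem _ hzc) h
      rwa [inv_mul_cancel_left] at this
    refine ⟨?_, hnc⟩
    apply orderOf_eq_prime
    · rw [pow_two]
      calc z * (t : G) * (z * t) = z * ((t : G) * z) * t := by simp only [mul_assoc]
        _ = (z * z) * ((t : G) * t) := by rw [hcomm]; simp only [mul_assoc]
        _ = 1 := by rw [hzz, hItt, one_mul]
    · intro h
      apply hnc
      rw [h]
      exact Subgroup.one_mem _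
  let pt : I → I := fun t => ⟨z * t, hzt t⟩
  have hpt : ∀ (t : I) (v : V), ρ (pt t : G) v = - ρ (t : G) v := by
    intro t v
    change ρ (z * t) v = _
    rw [map_mul]
    exact hneg _
  have hptne : ∀ t : I, pt t ≠ t := by
    intro t h
    have : z * (t : G) = t := congrArg Subtype.val h
    exact hz1 (mul_eq_right.1 this)
  have hptpt : ∀ t : I, pt (pt t) = t := by
    intro t
    apply Subtype.ext
    change z * (z * (t : G)) = t
    rw [← mul_assoc, hzz, one_mul]
  have hptinj : ∀ s t : I, pt s = t → s = pt t := by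
    intro s t h
    rw [← h, hptpt]
  let a : I → ℕ := fun t => Nat.card (fixS ρ (t : G))
  have hapos : ∀ t, 0 < a t := fun t => Nat.card_pos
  -- intersections
  have hint : ∀ s t : I, s ≠ t → ∀ v : V, ρ (s : G) v = v → ρ (t : G) v = v → v = 0 := by
    intro s t hst v hs ht
    by_contra hv
    exact hst (Subtype.ext (eq_of_fix hstab hv (hI1 s) (hI1 t) hs ht))
  have hmulle : ∀ s t : I, s ≠ t → a s * a t ≤ Nat.card V := by
    intro s t hst
    change Nat.card _ * Nat.card _ ≤ _
    rw [← Nat.card_prod]
    apply Nat.card_le_card_of_injective (fun x : fixS ρ (s : G) × fixS ρ (t : G) => (x.1 : V) - (x.2 : V))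
    rintro ⟨x1, x2⟩ ⟨y1, y2⟩ h
    have h : (x1 : V) - x2 = y1 - y2 := h
    have h3 : (x1 : V) - y1 = x2 - y2 := by
      rw [sub_eq_sub_iff_add_eq_add] at h ⊢
      rw [h, add_comm]
    have h4 : (x1 : V) - y1 ∈ fixS ρ (s : G) := Submodule.sub_mem _ x1.2 y1.2
    have h5 : (x1 : V) - y1 ∈ fixS ρ (t : G) := by rw [h3]; exact Submodule.sub_mem _ x2.2 y2.2
    have h6 := hint s t hst _ ((mem_fixS ρ).1 h4) ((mem_fixS ρ).1 h5)
    have h7 : (x2 : V) - y2 = 0 := by rw [← h3, h6]
    rw [Prod.mk.injEq]
    exact ⟨Subtype.ext (sub_eq_zero.1 h6), Subtype.ext (sub_eq_zero.1 h7)⟩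
  have hmuleq : ∀ t : I, a t * a (pt t) = Nat.card V := by
    intro t
    apply le_antisymm (hmulle _ _ (hptne t).symm)
    change _ ≤ Nat.card _ * Nat.card _
    rw [← Nat.card_prod]
    have hm1 : ∀ v : V, v + ρ (t : G) v ∈ fixS ρ (t : G) := by
      intro v
      rw [mem_fixS, map_add]
      have : ρ (t : G) (ρ (t : G) v) = v := by
        have h3 : ρ ((t : G) * t) v = v := by rw [hItt, map_one]; rfl
        rwa [map_mul] at h3
      rw [this, add_comm]
    have hm2 : ∀ v : V, v - ρ (t : G) v ∈ fixS ρ (pt t : G) := by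
      intro v
      rw [mem_fixS, hpt, map_sub]
      have : ρ (t : G) (ρ (t : G) v) = v := by
        have h3 : ρ ((t : G) * t) v = v := by rw [hItt, map_one]; rfl
        rwa [map_mul] at h3
      rw [this, neg_sub]
    apply Nat.card_le_card_of_injective (fun v : V => ((⟨_, hm1 v⟩, ⟨_, hm2 v⟩) : fixS ρ (t : G) × fixS ρ (pt t : G)))
    intro v w h
    have h3 : v + ρ (t : G) v = w + ρ (t : G) w := congrArg (fun x => ((x.1 : fixS ρ (t : G)) : V)) h
    have h4 : v - ρ (t : G) v = w - ρ (t : G) w := congrArg (fun x => ((x.2 : fixS ρ (pt t : G)) : V)) h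
    have h5 : v + v = w + w := by
      have := congrArg₂ (· + ·) h3 h4
      simpa [add_add_sub_cancel] using this
    have h6 : v - w = -(v - w) := by
      rw [neg_sub, sub_eq_sub_iff_add_eq_add]
      exact h5
    exact sub_eq_zero.1 (h2 _ h6)
  have ha2 : ∀ t : I, 2 ≤ a t := by
    intro t
    -- otherwise the partner fixes everything
    by_contra hlt
    push Not at hlt
    have h1 : a t = 1 := by have := hapos t; omega
    have h3 := hmuleq t
    rw [h1, one_mul] at h3
    have h4 : fixS ρ (pt t : G) = ⊤ := by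
      apply Submodule.toAddSubgroup_injective
      apply (AddSubgroup.card_eq_iff_eq_top _).1
      exact h3
    apply hI1 (pt t)
    apply hρ
    rw [map_one]
    apply LinearEquiv.ext
    intro v
    have : v ∈ fixS ρ (pt t : G) := by rw [h4]; trivial
    exact (mem_fixS ρ).1 this
  -- all equal
  have haeq : ∀ t : I, a t ≤ a (pt t) := by
    intro t
    by_contra hlt
    push Not at hlt
    have hIall : ∀ s : I, s = t ∨ s = pt t := by
      intro s
      by_contra hcon
      push Not at hcon
      have h3 := hmulle s t hcon.1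
      rw [← hmuleq t] at h3
      have h4 : pt s ≠ t := fun h => hcon.2 (hptinj _ _ h)
      have h5 := hmulle (pt s) t h4
      rw [← hmuleq t] at h5
      have h6 := hmuleq s
      rw [← hmuleq t] at h6
      have h7 : a s ≤ a (pt t) := by
        have : a s * a t ≤ a (pt t) * a t := by rw [mul_comm (a (pt t))]; exact h3
        exact Nat.le_of_mul_le_mul_right this (hapos t)
      have h8 : a (pt s) ≤ a (pt t) := by
        have : a (pt s) * a t ≤ a (pt t) * a t := by rw [mul_comm (a (pt t))]; exact h5
        exact Nat.le_of_mul_le_mul_right this (hapos t)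
      have h9 : a s * a (pt s) ≤ a (pt t) * a (pt t) := Nat.mul_le_mul h7 h8
      have h10 : a (pt t) * a (pt t) < a t * a (pt t) := Nat.mul_lt_mul_of_pos_right hlt (hapos _)
      omega
    -- everything is in the union
    have h3 : Nat.card V + 1 ≤ a t + a (pt t) := by
      have hsurj : Function.Surjective (fun x : {v : fixS ρ (t : G) // v ≠ 0} ⊕ fixS ρ (pt t : G) =>
          (Sum.elim (fun v : {v : fixS ρ (t : G) // v ≠ 0} => ((v : fixS ρ (t : G)) : V))
            (fun v : fixS ρ (pt t : G) => (v : V)) x : V)) := by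
        intro v
        by_cases hv : v = 0
        · exact ⟨Sum.inr 0, by rw [hv]; rfl⟩
        obtain ⟨s, hs⟩ := hex v hv
        rcases hIall s with h | h
        · rw [h] at hs
          exact ⟨Sum.inl ⟨⟨v, (mem_fixS ρ).2 hs⟩, fun h0 => hv (congrArg Subtype.val h0)⟩, rfl⟩
        · rw [h] at hs
          exact ⟨Sum.inr ⟨v, (mem_fixS ρ).2 hs⟩, rfl⟩
      have h4 := Nat.card_le_card_of_surjective _ hsurj
      rw [Nat.card_sum] at h4
      have h5 : Nat.card {v : fixS ρ (t : G) // v ≠ 0} + 1 = a t := by
        have := Fintype.ofFinite (fixS ρ (t : G))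
        change _ = Nat.card _
        rw [Nat.card_eq_fintype_card, Nat.card_eq_fintype_card, Fintype.card_subtype_compl,
          Fintype.card_subtype_eq]
        have : 0 < Fintype.card (fixS ρ (t : G)) := Fintype.card_pos
        omega
      change _ ≤ _ + a (pt t) at h4
      omega
    rw [← hmuleq t] at h3
    have h4 := ha2 t
    have h5 := ha2 (pt t)
    nlinarith
  have haeq' : ∀ t : I, a t * a t = Nat.card V := by
    intro t
    have h3 := haeq t
    have h4 := haeq (pt t)
    rw [hptpt] at h4
    have h5 : a (pt t) = a t := le_antisymm h4 h3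
    have := hmuleq t
    rwa [h5] at this
  obtain ⟨v0, hv0⟩ := exists_ne (0 : V)
  obtain ⟨t0, ht0⟩ := hex v0 hv0
  have hconst : ∀ t : I, a t = a t0 := by
    intro t
    have := (haeq' t).trans (haeq' t0).symm
    exact Nat.mul_self_inj.1 this
  have hpow : ∃ r : ℕ, a t0 = q ^ r := by
    have := Fintype.ofFinite (fixS ρ (t0 : G))
    refine ⟨Module.finrank (ZMod q) (fixS ρ (t0 : G)), ?_⟩
    change Nat.card _ = _
    rw [Module.natCard_eq_pow_finrank (K := ZMod q), Nat.card_zmod]
  obtain ⟨r, hr⟩ := hpow
  refine ⟨r, ?_, ?_⟩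
  · rw [← haeq' t0, hr, ← pow_add, two_mul]
  -- the count
  have hbij : Function.Bijective (fun x : (Σ t : I, {v : fixS ρ (t : G) // v ≠ 0}) =>
      (⟨((x.2 : fixS ρ (x.1 : G)) : V), fun h => x.2.2 (Subtype.ext h)⟩ : {v : V // v ≠ 0})) := by
    constructor
    · rintro ⟨s, v, hv⟩ ⟨t, w, hw⟩ h
      have h3 : (v : V) = (w : V) := congrArg Subtype.val h
      have h4 : s = t := by
        by_contra hst
        apply hv
        apply Subtype.ext
        apply hint s t hst
        · exact (mem_fixS ρ).1 v.2
        · rw [h3]; exact (mem_fixS ρ).1 w.2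
      subst h4
      have h5 : v = w := Subtype.ext h3
      subst h5
      rfl
    · rintro ⟨v, hv⟩
      obtain ⟨t, ht⟩ := hex v hv
      exact ⟨⟨t, ⟨⟨v, (mem_fixS ρ).2 ht⟩, fun h0 => hv (congrArg Subtype.val h0)⟩⟩, rfl⟩
  have hcard := Nat.card_congr (Equiv.ofBijective _ hbij)
  have := Fintype.ofFinite I
  have := Fintype.ofFinite V
  rw [Nat.card_sigma] at hcard
  have h5 : ∀ t : I, Nat.card {v : fixS ρ (t : G) // v ≠ 0} = q ^ r - 1 := by
    intro t
    have := Fintype.ofFinite (fixS ρ (t : G))
    rw [← hr, ← hconst t]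
    change _ = Nat.card _ - 1
    rw [Nat.card_eq_fintype_card, Nat.card_eq_fintype_card, Fintype.card_subtype_compl,
      Fintype.card_subtype_eq]
  have h6 : Nat.card {v : V // v ≠ 0} = q ^ r * q ^ r - 1 := by
    rw [← hr, haeq', Nat.card_eq_fintype_card, Nat.card_eq_fintype_card, Fintype.card_subtype_compl,
      Fintype.card_subtype_eq]
  rw [Finset.sum_congr rfl (fun t _ => h5 t), Finset.sum_const, h6, smul_eq_mul, Finset.card_univ,
    ← Nat.card_eq_fintype_card] at hcard
  have h7 : 2 ≤ q ^ r := by rw [← hr]; exact ha2 t0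
  obtain ⟨b, hb⟩ : ∃ b, q ^ r = b + 1 := ⟨q ^ r - 1, by omega⟩
  rw [hb] at hcard h7 ⊢
  have h8 : (b + 1) * (b + 1) - 1 = (b + 2) * b := by
    have : (b + 1) * (b + 1) = (b + 2) * b + 1 := by ring
    omega
  rw [h8] at hcard
  have h9 : b + 1 - 1 = b := by omega
  rw [h9] at hcard
  have h10 : Nat.card I = b + 2 := Nat.eq_of_mul_eq_mul_right (by omega) hcard
  exact h10

end Cfsg.Agent.S3381
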