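import Cfsg.Statements.S3421
import Cfsg.Agent.H363.PSL2Main

set_option autoImplicit false
open Cfsg

namespace Cfsg.Agent.S3421

/-- Let F be a finite field with more than 3 elements. A finite group G is isomorphic to PSL(2, F) if and only if G has the same set of element orders and the same order as PSL(2, F). -/
theorem result {G : Type*} [Group G] [Finite G] {F : Type*} [Field F] [Fintype F] (hF : 3 < Fintype.card F) :
    Nonempty (G ≃* Matrix.ProjectiveSpecialLinearGroup (Fin 2) F) ↔
      (Set.range (orderOf : G → ℕ) = Set.range (orderOf : Matrix.ProjectiveSpecialLinearGroup (Fin 2) F → ℕ) ∧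
        Nat.card G = Nat.card (Matrix.ProjectiveSpecialLinearGroup (Fin 2) F)) := by
  constructor
  · rintro ⟨e⟩
    exact Cfsg.Agent.H363.PslCard.spec_of_equiv e
  · rintro ⟨h1, h2⟩
    rcases Nat.even_or_odd (Fintype.card F) with h | h
    · exact Cfsg.Agent.H363.PSL2Main.even_case rfl hF h h1 h2
    · exact Cfsg.Agent.H363.PSL2Main.odd_case rfl hF h h1 h2

end Cfsg.Agent.S3421
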