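import Cfsg.Statements.S3422
import Cfsg.Agent.H363.PslIdent
import Cfsg.Agent.H363.PslThree

set_option autoImplicit false
open Cfsg

namespace Cfsg.Agent.S3422

/-- Let F be any finite field. A finite group G is isomorphic to PSL(3, F) if and only if G has the same set of element orders and the same order as PSL(3, F). -/
theorem result {G : Type*} [Group G] [Finite G] {F : Type*} [Field F] [Fintype F] :
    Nonempty (G ≃* Matrix.ProjectiveSpecialLinearGroup (Fin 3) F) ↔
      (Set.range (orderOf : G → ℕ) = Set.range (orderOf : Matrix.ProjectiveSpecialLinearGroup (Fin 3) F → ℕ) ∧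
        Nat.card G = Nat.card (Matrix.ProjectiveSpecialLinearGroup (Fin 3) F)) := by
  constructor
  · rintro ⟨e⟩
    exact Cfsg.Agent.H363.PslCard.spec_of_equiv e
  · rintro ⟨h1, h2⟩
    have := Cfsg.Agent.H363.PslThree.isSimple h1 h2
    exact Cfsg.Agent.H363.PslIdent.of_simple le_rfl h1 h2

end Cfsg.Agent.S3422
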