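import Cfsg.Statements.S3423
import Cfsg.Agent.H363.PslAll
import Cfsg.Agent.OrdDiv.Table
import Cfsg.Agent.S0000

set_option autoImplicit false
open Cfsg

namespace Cfsg.Agent.S3423

/-- Let F be a finite field and n ≥ 2. A finite group G is isomorphic to PSL(n, F) if and only if G has the same set of element orders and the same order as PSL(n, F). -/
theorem result {G : Type*} [Group G] [Finite G] {F : Type*} [Field F] [Fintype F] (n : ℕ) (hn : 2 ≤ n) :
    Nonempty (G ≃* Matrix.ProjectiveSpecialLinearGroup (Fin n) F) ↔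
      (Set.range (orderOf : G → ℕ) = Set.range (orderOf : Matrix.ProjectiveSpecialLinearGroup (Fin n) F → ℕ) ∧
        Nat.card G = Nat.card (Matrix.ProjectiveSpecialLinearGroup (Fin n) F)) := by
  constructor
  · rintro ⟨e⟩
    exact Cfsg.Agent.H363.PslCard.spec_of_equiv e
  · rintro ⟨h1, h2⟩
    exact Cfsg.Agent.H363.PslAll.main Cfsg.Agent.OrdDiv.table
      (fun S _ _ _ => Cfsg.Agent.S0000.result (G := S)) hn h1 h2

end Cfsg.Agent.S3423
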