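import Cfsg.Statements.S3424
import Cfsg.Agent.H364.PSUThreeB
import Cfsg.Agent.H364.PSUThreeTwo
import Cfsg.Agent.H364.PSUUnique

set_option autoImplicit false
open Cfsg

namespace Cfsg.Agent.S3424

/-- Let q be a prime power and F the field with q² elements. A finite group G is isomorphic to the projective special unitary group PSU(3, q) if and only if G has the same set of element orders and the same order as PSU(3, q). -/
theorem result {G : Type*} [Group G] [Finite G] {F : Type*} [Field F] [Fintype F] (q : ℕ) (hF : Fintype.card F = q ^ 2) :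
    Nonempty (G ≃* Cfsg.PSU 3 F q) ↔
      (Set.range (orderOf : G → ℕ) = Set.range (orderOf : Cfsg.PSU 3 F q → ℕ) ∧ Nat.card G = Nat.card (Cfsg.PSU 3 F q)) := by
  constructor
  · rintro ⟨e⟩
    refine ⟨?_, Nat.card_congr e.toEquiv⟩
    ext k
    constructor
    · rintro ⟨x, rfl⟩
      exact ⟨e x, MulEquiv.orderOf_eq e x⟩
    · rintro ⟨x, rfl⟩
      exact ⟨e.symm x, MulEquiv.orderOf_eq e.symm x⟩
  · rintro ⟨hspec, hcard⟩
    have hq2 : 2 ≤ q := Cfsg.Agent.LieClassical.HermBasic.two_le hF
    rcases Nat.lt_or_ge 2 q with h | h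
    · obtain ⟨s, rfl⟩ : ∃ s, q = s + 1 := ⟨q - 1, by omega⟩
      obtain ⟨hs, -⟩ := Cfsg.Agent.H364.PSUThree.simple_of hF (by omega) hspec hcard
      exact Cfsg.Agent.H364.PSUUnique.psu_unique hF le_rfl (by omega) hcard
    · have : q = 2 := by omega
      subst this
      exact Cfsg.Agent.H364.SeventyTwo.psu_two_recog hF hspec hcard

end Cfsg.Agent.S3424
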