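import Cfsg.Statements.S3425
import Cfsg.Agent.H364.FourTwo

set_option autoImplicit false
open Cfsg

namespace Cfsg.Agent.S3425

/-- Let m ≥ 4, let q be a prime power and F the field with q² elements. A finite group G is isomorphic to the projective special unitary group PSU(m, q) if and only if G has the same set of element orders and the same order as PSU(m, q). -/
theorem result {G : Type*} [Group G] [Finite G] {F : Type*} [Field F] [Fintype F] (m q : ℕ) (hm : 4 ≤ m) (hF : Fintype.card F = q ^ 2) :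
    Nonempty (G ≃* Cfsg.PSU m F q) ↔
      (Set.range (orderOf : G → ℕ) = Set.range (orderOf : Cfsg.PSU m F q → ℕ) ∧ Nat.card G = Nat.card (Cfsg.PSU m F q)) := by
  constructor
  · rintro ⟨e⟩
    refine ⟨?_, Nat.card_congr e.toEquiv⟩
    ext n
    constructor
    · rintro ⟨x, rfl⟩
      exact ⟨e x, e.orderOf_eq x⟩
    · rintro ⟨y, rfl⟩
      exact ⟨e.symm y, e.symm.orderOf_eq y⟩
  · rintro ⟨hspec, hcard⟩
    obtain ⟨p, f, hp, hchar, hq, hf⟩ := Cfsg.Agent.LieClassical.HermBasic.exists_prime_pow hF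
    subst hq
    have h1 : ∀ x : G, ∃ y : Cfsg.PSU m F (p ^ f), orderOf y = orderOf x := fun x => by
      have : orderOf x ∈ Set.range (orderOf : Cfsg.PSU m F (p ^ f) → ℕ) := hspec ▸ ⟨x, rfl⟩
      exact this
    have h2 : ∀ y : Cfsg.PSU m F (p ^ f), ∃ x : G, orderOf x = orderOf y := fun y => by
      have : orderOf y ∈ Set.range (orderOf : G → ℕ) := hspec ▸ ⟨y, rfl⟩
      exact this
    by_cases h42 : m = 4 ∧ p = 2 ∧ f = 1
    · obtain ⟨rfl, rfl, rfl⟩ := h42
      rw [pow_one] at hF h1 h2 hcard ⊢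
      exact Cfsg.Agent.H364.FourTwo.recog hF h1 h2 hcard
    · exact Cfsg.Agent.H364.PSUFour.recog hp hf hF hm h42 h1 hcard

end Cfsg.Agent.S3425
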