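import Cfsg.Statements.S3427
import Cfsg.Agent.H364.GTwoB
-- import your own Cfsg.Agent.* helpers here

set_option autoImplicit false
open Cfsg

namespace Cfsg.Agent.S3427

/-- Let F be the field with 2 elements and let M be the Chevalley group of type G₂ over F (a non-simple group of order 12096 whose derived subgroup, of index 2, is isomorphic to PSU(3, 3)). A finite group G is isomorphic to M if and only if G has the same set of element orders and the same order as M. -/
theorem result {G : Type*} [Group G] [Finite G] {F : Type*} [Field F] [Fintype F] (hF : Fintype.card F = 2) :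
    Nonempty (G ≃* ↥(Cfsg.Lie.chevG2.group F)) ↔
      (Set.range (orderOf : G → ℕ) = Set.range (orderOf : ↥(Cfsg.Lie.chevG2.group F) → ℕ) ∧ Nat.card G = Nat.card ↥(Cfsg.Lie.chevG2.group F)) := by
  constructor
  · rintro ⟨e⟩
    refine ⟨?_, Nat.card_congr e.toEquiv⟩
    ext k
    constructor
    · rintro ⟨x, rfl⟩
      exact ⟨e x, MulEquiv.orderOf_eq e x⟩
    · rintro ⟨x, rfl⟩
      exact ⟨e.symm x, MulEquiv.orderOf_eq e.symm x⟩
  · rintro ⟨hspec, hcard⟩
    have φ : F ≃+* ZMod 2 := (ZMod.ringEquivOfPrime F Nat.prime_two hF).symm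
    have e₀ : ↥(Cfsg.Lie.chevG2.group F) ≃* Cfsg.Agent.H364.GTwo.MM :=
      Cfsg.Agent.ChevalleyStructure.FieldIso.groupEquiv Cfsg.Lie.chevG2 φ
    have hord : ∀ x : G, ∃ y : Cfsg.Agent.H364.GTwo.MM, orderOf y = orderOf x := by
      intro x
      have h1 : orderOf x ∈ Set.range (orderOf : ↥(Cfsg.Lie.chevG2.group F) → ℕ) := by
        rw [← hspec]; exact ⟨x, rfl⟩
      obtain ⟨y, hy⟩ := h1
      exact ⟨e₀ y, (MulEquiv.orderOf_eq e₀ y).trans hy⟩
    have hG : Nat.card G = 12096 := by
      rw [hcard, Nat.card_congr e₀.toEquiv, Cfsg.Agent.H364.GTwo.card_MM]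
    obtain ⟨e₁⟩ := Cfsg.Agent.H364.GTwo.main hG
      (fun x hx => by
        obtain ⟨y, hy⟩ := hord x
        exact Cfsg.Agent.H364.GTwo.no_fourteen y (hy.trans hx))
      (fun x hx => by
        obtain ⟨y, hy⟩ := hord x
        exact Cfsg.Agent.H364.GTwo.no_twentyone y (hy.trans hx))
      (fun x hx => by
        obtain ⟨y, hy⟩ := hord x
        exact Cfsg.Agent.H364.GTwo.no_nine y (hy.trans hx))
    obtain ⟨e₂⟩ := Cfsg.Agent.H364.GTwo.exists_equiv
    exact ⟨(e₁.trans e₂.symm).trans e₀.symm⟩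

end Cfsg.Agent.S3427
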