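import Cfsg.Statements.S3431
import Cfsg.Agent.H426.NseMain
import Cfsg.Agent.H426.NseTab
import Cfsg.Agent.H426.NseId

set_option autoImplicit false
open Cfsg

namespace Cfsg.Agent.S3431

open Cfsg.Agent.H426.Nse

theorem transfer {G A : Type*} [Group G] [Finite G] [Group A] [Finite A]
    (h : ((fun m : ℕ => Nat.card {g : G // orderOf g = m}) '' Set.range (orderOf : G → ℕ)) =
      ((fun m : ℕ => Nat.card {g : A // orderOf g = m}) '' Set.range (orderOf : A → ℕ)))
    {vals : List ℕ} (hA : ∀ g : A, so A (orderOf g) ∈ vals) :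
    ∀ m, so G m ∈ 0 :: vals := by
  intro m
  rcases Nat.eq_zero_or_pos (so G m) with h0 | h0
  · rw [h0]; simp
  · obtain ⟨g, hg⟩ := (so_pos_iff G m).1 h0
    have h1 : so G m ∈ ((fun m : ℕ => Nat.card {g : G // orderOf g = m}) ''
        Set.range (orderOf : G → ℕ)) := ⟨m, ⟨g, hg⟩, rfl⟩
    rw [h] at h1
    obtain ⟨k, ⟨a, ha⟩, hk⟩ := h1
    have h2 : so A k = so G m := hk
    rw [← h2, ← ha]
    exact List.mem_cons_of_mem _ (hA a)

theorem transfer' {G A : Type*} [Group G] [Finite G] [Group A] [Finite A]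
    (h : ((fun m : ℕ => Nat.card {g : G // orderOf g = m}) '' Set.range (orderOf : G → ℕ)) =
      ((fun m : ℕ => Nat.card {g : A // orderOf g = m}) '' Set.range (orderOf : A → ℕ)))
    (k : ℕ) (hk : 0 < so A k) : ∃ m, so G m = so A k := by
  obtain ⟨a, ha⟩ := (so_pos_iff A k).1 hk
  have h1 : so A k ∈ ((fun m : ℕ => Nat.card {g : A // orderOf g = m}) ''
      Set.range (orderOf : A → ℕ)) := ⟨k, ⟨a, ha⟩, rfl⟩
  rw [← h] at h1
  obtain ⟨m, -, hm⟩ := h1
  exact ⟨m, hm⟩

/-- Let n be 4, 5 or 6 and let G be a finite group whose set of sizes of same-order classes (the set of numbers #{g : o(g) = m} over the element orders m of G) equals that of the alternating group of degree n. Then G is isomorphic to that alternating group. -/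
theorem result {G : Type*} [Group G] [Finite G] (n : ℕ) (hn : n = 4 ∨ n = 5 ∨ n = 6)
    (h : ((fun m : ℕ => Nat.card {g : G // orderOf g = m}) '' Set.range (orderOf : G → ℕ)) = ((fun m : ℕ => Nat.card {g : ↥(alternatingGroup (Fin n)) // orderOf g = m}) '' Set.range (orderOf : ↥(alternatingGroup (Fin n)) → ℕ))) :
    Nonempty (G ≃* ↥(alternatingGroup (Fin n))) := by
  rcases hn with rfl | rfl | rfl
  · have hv : ∀ m, so G m ∈ V4 := transfer (A := A4) (vals := [1, 3, 8]) h (fun g => by
      rcases ord4 g with h | h | h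
      · rw [h, so_one]; decide
      · rw [h, s42]; decide
      · rw [h, s43]; decide)
    have ha : ∀ v ∈ [1, 3, 8], ∃ m, so G m = v := by
      intro v hv
      simp only [List.mem_cons, List.not_mem_nil, or_false] at hv
      rcases hv with rfl | rfl | rfl
      · exact ⟨1, so_one G⟩
      · obtain ⟨m, hm⟩ := transfer' (A := A4) h 2 (by rw [s42]; norm_num)
        exact ⟨m, hm.trans s42⟩
      · obtain ⟨m, hm⟩ := transfer' (A := A4) h 3 (by rw [s43]; norm_num)
        exact ⟨m, hm.trans s43⟩
    obtain ⟨hc, ht⟩ := order_four G hv ha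
    exact four hc (ht (2, 3) (by simp)) (ht (3, 8) (by simp))
  · have hv : ∀ m, so G m ∈ V5 := transfer (A := A5) (vals := [1, 15, 20, 24]) h (fun g => by
      rcases ord5 g with h | h | h | h
      · rw [h, so_one]; decide
      · rw [h, s52]; decide
      · rw [h, s53]; decide
      · rw [h, s55]; decide)
    have ha : ∀ v ∈ [1, 15, 20, 24], ∃ m, so G m = v := by
      intro v hv
      simp only [List.mem_cons, List.not_mem_nil, or_false] at hv
      rcases hv with rfl | rfl | rfl | rfl
      · exact ⟨1, so_one G⟩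
      · obtain ⟨m, hm⟩ := transfer' (A := A5) h 2 (by rw [s52]; norm_num)
        exact ⟨m, hm.trans s52⟩
      · obtain ⟨m, hm⟩ := transfer' (A := A5) h 3 (by rw [s53]; norm_num)
        exact ⟨m, hm.trans s53⟩
      · obtain ⟨m, hm⟩ := transfer' (A := A5) h 5 (by rw [s55]; norm_num)
        exact ⟨m, hm.trans s55⟩
    obtain ⟨hc, ht⟩ := order_five G hv ha
    exact five hc (ht (2, 15) (by simp)) (ht (3, 20) (by simp)) (ht (5, 24) (by simp))
  · have hv : ∀ m, so G m ∈ V6 := transfer (A := A6) (vals := [1, 45, 80, 90, 144]) h (fun g => by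
      rcases ord6 g with h | h | h | h | h
      · rw [h, so_one]; decide
      · rw [h, s62]; decide
      · rw [h, s63]; decide
      · rw [h, s64]; decide
      · rw [h, s65]; decide)
    have ha : ∀ v ∈ [1, 45, 80, 90, 144], ∃ m, so G m = v := by
      intro v hv
      simp only [List.mem_cons, List.not_mem_nil, or_false] at hv
      rcases hv with rfl | rfl | rfl | rfl | rfl
      · exact ⟨1, so_one G⟩
      · obtain ⟨m, hm⟩ := transfer' (A := A6) h 2 (by rw [s62]; norm_num)
        exact ⟨m, hm.trans s62⟩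
      · obtain ⟨m, hm⟩ := transfer' (A := A6) h 3 (by rw [s63]; norm_num)
        exact ⟨m, hm.trans s63⟩
      · obtain ⟨m, hm⟩ := transfer' (A := A6) h 4 (by rw [s64]; norm_num)
        exact ⟨m, hm.trans s64⟩
      · obtain ⟨m, hm⟩ := transfer' (A := A6) h 5 (by rw [s65]; norm_num)
        exact ⟨m, hm.trans s65⟩
    obtain ⟨hc, ht⟩ := order_six G hv ha
    exact six hc (ht (2, 45) (by simp)) (ht (3, 80) (by simp)) (ht (4, 90) (by simp))
      (ht (5, 144) (by simp))

end Cfsg.Agent.S3431
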