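import Cfsg.Statements.S3699
import Cfsg.Agent.H431.CITData
import Cfsg.Agent.H431.Arith
import Cfsg.Agent.S0333
import Cfsg.Agent.S1163
import Cfsg.Agent.OddCyclic.ClaimC.SzIso
import Cfsg.Agent.OddHalf.Table.OutSz8
import Cfsg.Agent.SignalizersComponents.BalEndSz
import Cfsg.Agent.Mrg.Omega.TwoFFour.SzNatC

set_option autoImplicit false
open Cfsg

namespace Cfsg.Agent.S3699

open Cfsg.Agent.H431 Cfsg.Agent.H431.CIT Cfsg.Agent.LieExceptional.CITDefs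

/-- A cyclic subgroup `U` that is the centraliser of each of its non-trivial elements: the order of
an element divisible by a prime `s` dividing `|U|` divides `|U|`. -/
theorem order_dvd_of_torus {G : Type*} [Group G] [Finite G] (U : Subgroup G)
    (hU : ∀ u ∈ U, u ≠ 1 → Subgroup.centralizer {u} = U) {s : ℕ} (hs : s.Prime)
    (hsU : s ∣ Nat.card U) (y : G) (hsy : s ∣ orderOf y) : orderOf y ∣ Nat.card U := by
  have : Fact s.Prime := ⟨hs⟩
  obtain ⟨u, hu⟩ := exists_prime_orderOf_dvd_card' s hsU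
  have hu1 : (u : G) ≠ 1 := by
    intro h
    have : u = 1 := Subtype.ext h
    rw [this, orderOf_one] at hu
    exact hs.one_lt.ne hu
  have huo : orderOf (u : G) = s := by rw [Subgroup.orderOf_coe]; exact hu
  have hz : IsPGroup s (Subgroup.zpowers (u : G)) := by
    rw [IsPGroup.iff_card]
    exact ⟨1, by rw [Nat.card_zpowers, huo, pow_one]⟩
  obtain ⟨R, hR⟩ := hz.exists_le_sylow
  have huR : (u : G) ∈ (R : Subgroup G) := hR (Subgroup.mem_zpowers _)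
  have hRU : (R : Subgroup G) ≤ U := by
    have hnt : Nontrivial (R : Subgroup G) := ⟨⟨⟨u, huR⟩, 1, fun h => hu1 (congrArg Subtype.val h)⟩⟩
    have hc : Nontrivial (Subgroup.center (R : Subgroup G)) := R.isPGroup'.center_nontrivial
    obtain ⟨z, hz⟩ := exists_ne (1 : Subgroup.center (R : Subgroup G))
    have hz1 : ((z : (R : Subgroup G)) : G) ≠ 1 := by
      intro h
      exact hz (Subtype.ext (Subtype.ext h))
    have hzc : ∀ x ∈ (R : Subgroup G), x * ((z : (R : Subgroup G)) : G) = ((z : (R : Subgroup G)) : G) * x := by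
      intro x hx
      have := Subgroup.mem_center_iff.1 z.2 ⟨x, hx⟩
      exact congrArg Subtype.val this
    have hzU : ((z : (R : Subgroup G)) : G) ∈ U := by
      rw [← hU u u.2 hu1, Subgroup.mem_centralizer_singleton_iff]
      exact (hzc u huR).symm
    intro x hx
    rw [← hU _ hzU hz1, Subgroup.mem_centralizer_singleton_iff]
    exact hzc x hx
  -- an element of order `s` in `⟨y⟩`
  obtain ⟨j, hj⟩ := hsy
  have hj0 : j ≠ 0 := by
    rintro rfl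
    rw [mul_zero] at hj
    exact (orderOf_pos y).ne' hj
  have hzo : orderOf (y ^ j) = s := by
    rw [orderOf_pow_of_dvd hj0 (hj ▸ dvd_mul_left _ _), hj, Nat.mul_div_cancel _ (Nat.pos_of_ne_zero hj0)]
  have hz' : IsPGroup s (Subgroup.zpowers (y ^ j)) := by
    rw [IsPGroup.iff_card]
    exact ⟨1, by rw [Nat.card_zpowers, hzo, pow_one]⟩
  obtain ⟨R', hR'⟩ := hz'.exists_le_sylow
  obtain ⟨g, hg⟩ := MulAction.exists_smul_eq G R' R
  have h1 : g * y ^ j * g⁻¹ ∈ U := by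
    apply hRU
    rw [← hg]
    exact Subgroup.smul_mem_pointwise_smul (y ^ j) (MulAut.conj g) (R' : Subgroup G)
      (hR' (Subgroup.mem_zpowers _))
  have h2 : g * y ^ j * g⁻¹ ≠ 1 := by
    intro h
    have h3 : y ^ j = 1 := by
      have := congrArg (fun x => g⁻¹ * x * g) h
      simpa [mul_assoc] using this
    rw [h3, orderOf_one] at hzo
    exact hs.one_lt.ne hzo
  have h3 : g * y * g⁻¹ ∈ U := by
    rw [← hU _ h1 h2, Subgroup.mem_centralizer_singleton_iff]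
    have : y * y ^ j = y ^ j * y := (Commute.self_pow y j).eq
    calc g * y * g⁻¹ * (g * y ^ j * g⁻¹) = g * (y * y ^ j) * g⁻¹ := by group
      _ = g * (y ^ j * y) * g⁻¹ := by rw [this]
      _ = g * y ^ j * g⁻¹ * (g * y * g⁻¹) := by group
  have h4 : orderOf (g * y * g⁻¹) = orderOf y := by
    have : MulAut.conj g y = g * y * g⁻¹ := rfl
    rw [← this, MulEquiv.orderOf_eq]
  rw [← h4, ← Subgroup.orderOf_mk _ h3]
  exact orderOf_dvd_natCard _

/-- arithmetic of `q ^ 2 + 1` for `q = 2 ^ (2 m + 1)` -/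
theorem factor (m : ℕ) : (2 ^ (2 * m + 1)) ^ 2 + 1 =
    (2 ^ (2 * m + 1) + 2 ^ (m + 1) + 1) * (2 ^ (2 * m + 1) - 2 ^ (m + 1) + 1) := by
  obtain ⟨u, hu⟩ : ∃ u, 2 ^ m = u + 1 := ⟨2 ^ m - 1, by have := Nat.one_le_two_pow (n := m); omega⟩
  have h1 : 2 ^ (2 * m + 1) = 2 * (u + 1) ^ 2 := by rw [pow_succ, mul_comm 2 m, pow_mul, hu]; ring
  have h2 : 2 ^ (m + 1) = 2 * (u + 1) := by rw [pow_succ, hu]; ring
  have h3 : 2 * (u + 1) ^ 2 - 2 * (u + 1) = 2 * u * (u + 1) := by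
    have : 2 * (u + 1) ^ 2 = 2 * u * (u + 1) + 2 * (u + 1) := by ring
    omega
  rw [h1, h2, h3]
  ring

/-- the model over a field in `Type` -/
theorem isoSuzuki_self {F : Type*} [Field F] [Fintype F] {m : ℕ} (hm : 1 ≤ m)
    (hF : Fintype.card F = 2 ^ (2 * m + 1)) : Cfsg.Lie.IsoSuzuki ↥(Cfsg.Lie.Sz F (2 ^ (m + 1))) := by
  have : Fact (Nat.Prime 2) := ⟨Nat.prime_two⟩
  let _ : Fintype (GaloisField 2 (2 * m + 1)) := Fintype.ofFinite _
  have hK : Fintype.card (GaloisField 2 (2 * m + 1)) = 2 ^ (2 * m + 1) := by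
    rw [← Nat.card_eq_fintype_card]
    exact GaloisField.card 2 (2 * m + 1) (by omega)
  let σ : F ≃+* GaloisField 2 (2 * m + 1) := FiniteField.ringEquivOfCardEq (hF.trans hK.symm)
  exact ⟨GaloisField 2 (2 * m + 1), inferInstance, inferInstance, m, hm, hK,
    Cfsg.Agent.Omega.NO3S.OneQ.TIq.szCongr σ _⟩

theorem coprime_torus {q r : ℕ} (hr : r.Prime) (h2 : 2 ∣ q) (hq : 2 ≤ q) (h1 : r ∣ q - 1) : ¬ r ∣ q ^ 2 + 1 := by
  intro h3
  obtain ⟨u, rfl⟩ : ∃ u, q = u + 1 := ⟨q - 1, by omega⟩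
  rw [Nat.add_sub_cancel] at h1
  have h4 : (u + 1) ^ 2 + 1 = u * (u + 2) + 2 := by ring
  rw [h4] at h3
  have h5 : r ∣ 2 := (Nat.dvd_add_right (Dvd.dvd.mul_right h1 _)).1 h3
  have h6 := (Nat.prime_dvd_prime_iff_eq hr Nat.prime_two).1 h5
  subst h6
  omega

/-- non-adjacency in `Sz(q)` -/
theorem no_orders {F : Type*} [Field F] [Fintype F] {m : ℕ} (hm : 1 ≤ m)
    (hF : Fintype.card F = 2 ^ (2 * m + 1)) :
    (∀ s : ℕ, s.Prime → s ≠ 2 → ¬ ∃ y : ↥(Cfsg.Lie.Sz F (2 ^ (m + 1))), orderOf y = 2 * s) ∧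
    (∀ r s : ℕ, r.Prime → s.Prime → r ∣ 2 ^ (2 * m + 1) - 1 → s ∣ (2 ^ (2 * m + 1)) ^ 2 + 1 →
      ¬ ∃ y : ↥(Cfsg.Lie.Sz F (2 ^ (m + 1))), orderOf y = r * s) := by
  obtain ⟨e⟩ := OddCyclic.ClaimC.SzIso.iso hm hF
  have hfin : Finite ↥(Cfsg.Lie.Sz F (2 ^ (m + 1))) := inferInstance
  have hfin' : Finite ↥(Cfsg.Sz F m) := Finite.of_equiv _ e.symm.toEquiv
  constructor
  · rintro s hs hs2 ⟨y, hy⟩
    have hs0 := hs.two_le
    have h1 : orderOf (y ^ s) = 2 := by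
      rw [orderOf_pow_of_dvd (by omega) (by rw [hy]; exact dvd_mul_left _ _), hy,
        Nat.mul_div_cancel _ (by omega)]
    have h2 := SignalizersComponents.BalEndSz.isPGroup_centralizer_suzuki (isoSuzuki_self hm hF) h1
    have hyc : y ∈ Subgroup.centralizer ({y ^ s} : Set ↥(Cfsg.Lie.Sz F (2 ^ (m + 1)))) := by
      rw [Subgroup.mem_centralizer_singleton_iff]
      exact (Commute.self_pow y s).eq
    obtain ⟨k, hk⟩ := h2 ⟨y, hyc⟩
    have hk' : y ^ 2 ^ k = 1 := congrArg Subtype.val hk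
    have h3 : 2 * s ∣ 2 ^ k := by rw [← hy]; exact orderOf_dvd_of_pow_eq_one hk'
    exact hs2 ((Nat.prime_dvd_prime_iff_eq hs Nat.prime_two).1
      (hs.dvd_of_dvd_pow ((dvd_mul_left s 2).trans h3)))
  · rintro r s hr hs hr1 hs1 ⟨y, hy⟩
    have h1 : orderOf (e.symm y) = r * s := by rw [MulEquiv.orderOf_eq, hy]
    have h2q : 2 ∣ 2 ^ (2 * m + 1) := dvd_pow_self 2 (by omega)
    have hq2 : 2 ≤ 2 ^ (2 * m + 1) := Nat.le_of_dvd (by positivity) h2q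
    have hr2 := coprime_torus hr h2q hq2 hr1
    rw [factor] at hs1 hr2
    have key : ∀ k ∈ ({2 ^ (2 * m + 1) + 2 ^ (m + 1) + 1, 2 ^ (2 * m + 1) - 2 ^ (m + 1) + 1} : Set ℕ),
        s ∣ k → r ∣ k := by
      intro k hk hsk
      obtain ⟨U, -, hU, hUc, -⟩ := Cfsg.Agent.S0333.result hm hF k hk
      have h3 := order_dvd_of_torus U hUc hs (by rw [hU]; exact hsk) (e.symm y)
        (by rw [h1]; exact dvd_mul_left _ _)
      rw [h1, hU] at h3
      exact (dvd_mul_right r s).trans h3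
    rcases (Nat.Prime.dvd_mul hs).1 hs1 with h | h
    · exact hr2 (Dvd.dvd.mul_right (key _ (by simp) h) _)
    · exact hr2 (Dvd.dvd.mul_left (key _ (by simp) h) _)

theorem card_sz {F : Type*} [Field F] [Fintype F] {m : ℕ} (hm : 1 ≤ m)
    (hF : Fintype.card F = 2 ^ (2 * m + 1)) : Nat.card ↥(Cfsg.Lie.Sz F (2 ^ (m + 1))) =
      (2 ^ (2 * m + 1)) ^ 2 * ((2 ^ (2 * m + 1) - 1) * ((2 ^ (2 * m + 1)) ^ 2 + 1)) := by
  rw [(Cfsg.Agent.S1163.result hm hF).1, mul_assoc]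

/-- the odd primes of `|Sz(q)|` -/
theorem prime_dvd_card_sz {F : Type*} [Field F] [Fintype F] {m : ℕ} (hm : 1 ≤ m)
    (hF : Fintype.card F = 2 ^ (2 * m + 1)) {r : ℕ} (hr : r.Prime) (hr2 : r ≠ 2) :
    r ∣ Nat.card ↥(Cfsg.Lie.Sz F (2 ^ (m + 1))) ↔
      (r ∣ 2 ^ (2 * m + 1) - 1 ∨ r ∣ (2 ^ (2 * m + 1)) ^ 2 + 1) := by
  rw [card_sz hm hF]
  constructor
  · intro h
    rcases (Nat.Prime.dvd_mul hr).1 h with h | h
    · have h1 := hr.dvd_of_dvd_pow h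
      exact absurd ((Nat.prime_dvd_prime_iff_eq hr Nat.prime_two).1 (hr.dvd_of_dvd_pow h1)) hr2
    · exact (Nat.Prime.dvd_mul hr).1 h
  · intro h
    exact Dvd.dvd.mul_left ((Nat.Prime.dvd_mul hr).2 h) _

theorem not_three_dvd {F : Type*} [Field F] [Fintype F] {m : ℕ} (hm : 1 ≤ m)
    (hF : Fintype.card F = 2 ^ (2 * m + 1)) : ¬ 3 ∣ Nat.card ↥(Cfsg.Lie.Sz F (2 ^ (m + 1))) := by
  rw [prime_dvd_card_sz hm hF Nat.prime_three (by norm_num)]
  have e1 : 2 ^ (2 * m + 1) % 3 = 2 := by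
    rw [pow_succ, pow_mul, Nat.mul_mod, Nat.pow_mod]
    norm_num
  generalize 2 ^ (2 * m + 1) = q at e1
  rintro (h | h)
  · omega
  · have h5 : (q ^ 2 + 1) % 3 = 2 := by
      rw [Nat.add_mod, Nat.pow_mod, e1]
    omega

/-- the order determines the field -/
theorem param {m n : ℕ} (h : ∀ r : ℕ, r.Prime → r ≠ 2 →
      (r ∣ 2 ^ (2 * m + 1) - 1 ∨ r ∣ (2 ^ (2 * m + 1)) ^ 2 + 1) →
      (r ∣ 2 ^ (2 * n + 1) - 1 ∨ r ∣ (2 ^ (2 * n + 1)) ^ 2 + 1)) : 2 * m + 1 ∣ 2 * n + 1 := by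
  obtain ⟨w, hw, h1, h2, h3⟩ := Lib.Zsigmondy.exists_primitive (a := 2) (n := 4 * (2 * m + 1)) le_rfl
    (by omega) (by omega) (by omega)
  have hw2 : w ≠ 2 := by rintro rfl; exact h3 dvd_rfl
  have e1 : ∀ k : ℕ, 2 ^ (4 * k) - 1 = (2 ^ k - 1) * (2 ^ k + 1) * ((2 ^ k) ^ 2 + 1) := by
    intro k
    obtain ⟨u, hu⟩ : ∃ u, 2 ^ k = u + 1 := ⟨2 ^ k - 1, by have := Nat.one_le_two_pow (n := k); omega⟩
    rw [mul_comm 4 k, pow_mul, hu, Nat.sub_eq_iff_eq_add (Nat.one_le_pow _ _ (by positivity)),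
      Nat.add_sub_cancel]
    ring
  have e2 : ∀ k : ℕ, (2 ^ k - 1) * (2 ^ k + 1) = 2 ^ (2 * k) - 1 := by
    intro k
    obtain ⟨u, hu⟩ : ∃ u, 2 ^ k = u + 1 := ⟨2 ^ k - 1, by have := Nat.one_le_two_pow (n := k); omega⟩
    rw [mul_comm 2 k, pow_mul, hu, Nat.add_sub_cancel]
    symm
    rw [Nat.sub_eq_iff_eq_add (Nat.one_le_pow _ _ (by positivity))]
    ring
  have h4 : w ∣ 2 ^ (4 * (2 * m + 1)) - 1 := (h1 _).2 dvd_rfl
  have h5 : w ∣ (2 ^ (2 * m + 1)) ^ 2 + 1 := by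
    rw [e1, e2] at h4
    rcases (Nat.Prime.dvd_mul hw).1 h4 with h | h
    · have := Nat.le_of_dvd (by omega) ((h1 _).1 h)
      omega
    · exact h
  have h6 : w ∣ 2 ^ (4 * (2 * n + 1)) - 1 := by
    rw [e1]
    rcases h w hw hw2 (Or.inr h5) with h | h
    · exact Dvd.dvd.mul_right (Dvd.dvd.mul_right h _) _
    · exact Dvd.dvd.mul_left h _
  exact Nat.dvd_of_mul_dvd_mul_left (by norm_num) ((h1 _).1 h6)

/-- A CIT-group with a normal Suzuki subgroup with trivial centraliser is that subgroup. -/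
theorem eq_top {Q : Type*} [Group Q] [Finite Q] (hQ : IsCIT Q) (S : Subgroup Q) [hSn : S.Normal]
    (hSz : Cfsg.Lie.IsoSuzuki S) (h2S : 2 ∣ Nat.card S)
    (hC : Subgroup.centralizer (S : Set Q) = ⊥) : S = ⊤ := by
  obtain ⟨t, htS, ht2, hcl⟩ := one_class_suzuki S hSz h2S
  obtain ⟨K, i1, i2, n, hn, hK, ⟨e⟩⟩ := hSz
  rw [eq_top_iff]
  intro g _
  have h1 : g * t * g⁻¹ ∈ S := hSn.conj_mem t htS g
  have h2 : orderOf (g * t * g⁻¹) = 2 := by
    have : MulAut.conj g t = g * t * g⁻¹ := rfl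
    rw [← this, MulEquiv.orderOf_eq, ht2]
  obtain ⟨x, hx, hxt⟩ := hcl _ h1 h2
  -- `c = x⁻¹ g` centralises `t`
  have hc : x⁻¹ * g ∈ Subgroup.centralizer ({t} : Set Q) := by
    rw [Subgroup.mem_centralizer_singleton_iff]
    have h3 : x * t * x⁻¹ * g = g * t := by rw [hxt]; group
    calc x⁻¹ * g * t = x⁻¹ * (g * t) := by group
      _ = x⁻¹ * (x * t * x⁻¹ * g) := by rw [h3]
      _ = t * (x⁻¹ * g) := by group
  obtain ⟨k, hk⟩ := (hQ t ht2) ⟨_, hc⟩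
  have hk' : (x⁻¹ * g) ^ 2 ^ k = 1 := congrArg Subtype.val hk
  obtain ⟨y, hy⟩ := OddHalf.Table.OutSz8.inner hn hK e (MulAut.conjNormal (x⁻¹ * g) : MulAut S)
    ⟨k, by rw [← map_pow, hk', map_one]⟩
  have h4 : (y : Q)⁻¹ * (x⁻¹ * g) ∈ Subgroup.centralizer (S : Set Q) := by
    rw [Subgroup.mem_centralizer_iff]
    intro s hs
    have h5 := congrArg (fun α : MulAut S => ((α ⟨s, hs⟩ : S) : Q)) hy
    have h6 : (x⁻¹ * g) * s * (x⁻¹ * g)⁻¹ = y * s * (y : Q)⁻¹ := h5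
    have h7 : (x⁻¹ * g) * s = y * s * (y : Q)⁻¹ * (x⁻¹ * g) := by rw [← h6]; group
    calc s * ((y : Q)⁻¹ * (x⁻¹ * g)) = (y : Q)⁻¹ * (y * s * (y : Q)⁻¹ * (x⁻¹ * g)) := by group
      _ = (y : Q)⁻¹ * (x⁻¹ * g) * s := by rw [← h7]; group
  rw [hC, Subgroup.mem_bot] at h4
  have h5 : g = x * y := by
    calc g = x * (y * ((y : Q)⁻¹ * (x⁻¹ * g))) := by group
      _ = x * y := by rw [h4, mul_one]
  rw [h5]
  exact S.mul_mem hx y.2

/-- Let `q = 2^(2m+1) ≥ 8` and `S = Sz(q)` the Suzuki group. If a finite group `G` has the same prime graph as `S` (same prime divisors of the order; for distinct primes `r, s` an element of order `rs` in one iff in the other), then `G/O₂(G)` is isomorphic to `S`. The known proof uses the classification of finite simple groups. -/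
theorem result {F : Type*} [Field F] [Fintype F] (m : ℕ) (hm : 1 ≤ m)
    (hF : Fintype.card F = 2 ^ (2 * m + 1)) {G : Type*} [Group G] [Finite G]
    (h : ((∀ r : ℕ, r.Prime → (r ∣ Nat.card ↥(Cfsg.Lie.Sz F (2 ^ (m + 1))) ↔ r ∣ Nat.card G)) ∧
      (∀ r s : ℕ, r.Prime → s.Prime → r ≠ s → ((∃ x : ↥(Cfsg.Lie.Sz F (2 ^ (m + 1))), orderOf x = r * s) ↔ (∃ y : G, orderOf y = r * s))))) :
    Nonempty (G ⧸ Cfsg.pCore 2 G ≃* ↥(Cfsg.Lie.Sz F (2 ^ (m + 1)))) := by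
  have h2q : 2 ∣ 2 ^ (2 * m + 1) := dvd_pow_self 2 (by omega)
  have hq8 : 8 ≤ 2 ^ (2 * m + 1) := by
    calc 8 = 2 ^ 3 := by norm_num
      _ ≤ _ := Nat.pow_le_pow_right (by norm_num) (by omega)
  obtain ⟨no2, nors⟩ := no_orders hm hF
  obtain ⟨r, hr, hr1⟩ := Nat.exists_prime_and_dvd (n := 2 ^ (2 * m + 1) - 1) (by omega)
  obtain ⟨s, hs, hs1⟩ := Nat.exists_prime_and_dvd (n := (2 ^ (2 * m + 1)) ^ 2 + 1)
    (by
      have : 0 < (2 ^ (2 * m + 1)) ^ 2 := by positivity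
      omega)
  have hr2 : r ≠ 2 := by rintro rfl; omega
  have hs2 : s ≠ 2 := by
    rintro rfl
    have h3 : 2 ∣ (2 ^ (2 * m + 1)) ^ 2 := Dvd.dvd.pow h2q (by norm_num)
    omega
  have hrs : r ≠ s := by
    rintro rfl
    exact coprime_torus hr h2q (by omega) hr1 hs1
  have hrG : r ∣ Nat.card G := by
    rw [← h.1 r hr, prime_dvd_card_sz hm hF hr hr2]; exact Or.inl hr1
  have hsG : s ∣ Nat.card G := by
    rw [← h.1 s hs, prime_dvd_card_sz hm hF hs hs2]; exact Or.inr hs1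
  have h2G : 2 ∣ Nat.card G := by
    rw [← h.1 2 Nat.prime_two, card_sz hm hF]; exact Dvd.dvd.mul_right (Dvd.dvd.pow h2q (by norm_num)) _
  have hn := Lib.Cores.pCore_normal (G := G) 2
  obtain ⟨hQ, S, hSn, hS, hab, hC, h2S⟩ := data (G := G)
    (fun s hs hs2 hy => no2 s hs hs2 ((h.2 2 s Nat.prime_two hs (Ne.symm hs2)).2 hy))
    hr hs hr2 hs2 hrs h2G hrG hsG (fun hy => nors r s hr hs hr1 hs1 ((h.2 r s hr hs hrs).2 hy))
  have h3S : ¬ 3 ∣ Nat.card S := by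
    intro h3
    have h4 : 3 ∣ Nat.card (G ⧸ Cfsg.pCore 2 G) := h3.trans (Subgroup.card_subgroup_dvd_card S)
    rw [dvd_quotient_pCore Nat.prime_three (by norm_num), ← h.1 3 Nat.prime_three] at h4
    exact not_three_dvd hm hF h4
  have hSz := ThreePrime.Main.isoSuzuki hab h3S
  have htop := eq_top hQ S hSz h2S hC
  obtain ⟨K, i1, i2, n, hn, hK, ⟨e⟩⟩ := hSz
  -- the same field
  have hcard : ∀ r : ℕ, r.Prime → r ≠ 2 → ((r ∣ 2 ^ (2 * m + 1) - 1 ∨ r ∣ (2 ^ (2 * m + 1)) ^ 2 + 1) ↔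
      (r ∣ 2 ^ (2 * n + 1) - 1 ∨ r ∣ (2 ^ (2 * n + 1)) ^ 2 + 1)) := by
    intro r hr hr2
    rw [← prime_dvd_card_sz hm hF hr hr2, ← prime_dvd_card_sz hn hK hr hr2, h.1 r hr,
      ← Nat.card_congr e.toEquiv, htop, Subgroup.card_top, dvd_quotient_pCore hr hr2]
  have h5 := param (m := m) (n := n) (fun r hr hr2 => (hcard r hr hr2).1)
  have h6 := param (m := n) (n := m) (fun r hr hr2 => (hcard r hr hr2).2)
  have h7 := Nat.dvd_antisymm h5 h6
  have h8 : n = m := by omega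
  subst h8
  let σ : K ≃+* F := FiniteField.ringEquivOfCardEq (hK.trans hF.symm)
  obtain ⟨f⟩ := Cfsg.Agent.Omega.NO3S.OneQ.TIq.szCongr σ (2 ^ (n + 1))
  exact ⟨(Subgroup.topEquiv.symm.trans (MulEquiv.subgroupCongr htop.symm)).trans (e.trans f)⟩

end Cfsg.Agent.S3699
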