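import Cfsg.Statements.S3700
import Cfsg.Agent.H431.CITData
import Cfsg.Agent.H431.Arith
import Cfsg.Agent.H431.PSLTwoSpec
import Cfsg.Agent.S0348
import Cfsg.Agent.S0820
import Cfsg.Agent.S0243
import Cfsg.Agent.SmallSimple.PSLTwoPart
import Cfsg.Agent.ClassicalGeometry.SLTwoFour
import Cfsg.Agent.LieClassical.FieldTransfer
import Cfsg.Agent.WeakTI.PslTwo

set_option autoImplicit false
open Cfsg

namespace Cfsg.Agent.S3700

open Cfsg.Agent.H431 Cfsg.Agent.H431.CIT Cfsg.Agent.LieExceptional.CITDefs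

theorem charP_two {K : Type*} [Field K] [Fintype K] {n : ℕ} (h : Fintype.card K = 2 ^ n) : CharP K 2 := by
  obtain ⟨p, hp⟩ := CharP.exists K
  have hpp : p.Prime := CharP.char_is_prime K p
  obtain ⟨k, hk, hk'⟩ := FiniteField.card K p
  rw [hk'] at h
  have h1 : p ∣ 2 ^ n := by
    rw [← h]; exact dvd_pow_self p k.ne_zero
  have h2 : p = 2 := (Nat.prime_dvd_prime_iff_eq hpp Nat.prime_two).1 (hpp.dvd_of_dvd_pow h1)
  subst h2
  exact hp

/-- non-adjacency in `PSL(2, 2^m)` -/
theorem no_orders {F : Type*} [Field F] [Fintype F] {m : ℕ} (hm : 1 ≤ m)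
    (hF : Fintype.card F = 2 ^ m) :
    (∀ s : ℕ, s.Prime → s ≠ 2 →
      ¬ ∃ y : Matrix.ProjectiveSpecialLinearGroup (Fin 2) F, orderOf y = 2 * s) ∧
    (∀ r s : ℕ, r.Prime → s.Prime → r ∣ 2 ^ m - 1 → s ∣ 2 ^ m + 1 →
      ¬ ∃ y : Matrix.ProjectiveSpecialLinearGroup (Fin 2) F, orderOf y = r * s) := by
  have : CharP F 2 := charP_two hF
  have : Fact (Nat.Prime 2) := ⟨Nat.prime_two⟩
  have h1 : 1 ≤ 2 ^ m := Nat.one_le_two_pow
  have h2m : 2 ∣ 2 ^ m := dvd_pow_self 2 (by omega)
  have key := fun y : Matrix.ProjectiveSpecialLinearGroup (Fin 2) F =>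
    PSLTwoSpec.orderOf_cases (p := 2) (d := 1) (k₁ := 2 ^ m - 1) (k₂ := 2 ^ m + 1) (Or.inl rfl)
    (by rw [hF, one_mul]) (by rw [hF, one_mul]) y
  constructor
  · rintro s hs hs2 ⟨y, hy⟩
    rcases key y with h | h | h <;> rw [hy] at h
    · have h3 := Nat.le_of_dvd (by norm_num) h
      have := hs.two_le
      omega
    · have h3 : 2 ∣ 2 ^ m - 1 := (dvd_mul_right 2 s).trans h
      omega
    · have h3 : 2 ∣ 2 ^ m + 1 := (dvd_mul_right 2 s).trans h
      omega
  · rintro r s hr hs hr1 hs1 ⟨y, hy⟩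
    have hrs : ∀ t : ℕ, t.Prime → t ∣ 2 ^ m - 1 → t ∣ 2 ^ m + 1 → False := by
      intro t ht h3 h4
      have h5 := Nat.dvd_sub h4 h3
      have h6 : 2 ^ m + 1 - (2 ^ m - 1) = 2 := by omega
      rw [h6] at h5
      have h7 := (Nat.prime_dvd_prime_iff_eq ht Nat.prime_two).1 h5
      rw [h7] at h4
      omega
    rcases key y with h | h | h <;> rw [hy] at h
    · have h3 := Nat.le_of_dvd (by norm_num) h
      have h4 := hr.two_le
      have h5 := hs.two_le
      nlinarith
    · exact hrs s hs ((dvd_mul_left s r).trans h) hs1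
    · exact hrs r hr hr1 ((dvd_mul_right r s).trans h)

theorem card_psl34 {F : Type*} [Field F] [Fintype F] (hF : Fintype.card F = 4) :
    Nat.card (Matrix.ProjectiveSpecialLinearGroup (Fin 3) F) = 20160 := by
  have h := Cfsg.Agent.S0243.result hF 3 (by norm_num)
  rw [Fin.prod_univ_three] at h
  norm_num at h
  omega

/-- the involutions of a subgroup isomorphic to a group with one class of involutions -/
theorem one_class {H : Type*} [Group H] [Finite H] (S : Subgroup H) {X : Type*} [Group X]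
    (e : S ≃* X) (hX : ∀ x y : X, orderOf x = 2 → orderOf y = 2 → IsConj x y)
    (h2 : 2 ∣ Nat.card S) :
    ∃ t ∈ S, orderOf t = 2 ∧ ∀ s ∈ S, orderOf s = 2 → ∃ x ∈ S, x * t * x⁻¹ = s := by
  have : Fact (Nat.Prime 2) := ⟨Nat.prime_two⟩
  obtain ⟨t, ht⟩ := exists_prime_orderOf_dvd_card' 2 h2
  refine ⟨t, t.2, by rw [Subgroup.orderOf_coe]; exact ht, fun s hs hs2 => ?_⟩
  have h3 : orderOf (e ⟨s, hs⟩) = 2 := by
    rw [MulEquiv.orderOf_eq, ← Subgroup.orderOf_coe]; exact hs2
  have h4 : orderOf (e t) = 2 := by rw [MulEquiv.orderOf_eq]; exact ht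
  obtain ⟨c, hc⟩ := isConj_iff.1 (hX _ _ h4 h3)
  refine ⟨e.symm c, (e.symm c).2, ?_⟩
  have h5 : e.symm c * t * (e.symm c)⁻¹ = ⟨s, hs⟩ := by
    apply e.injective
    rw [map_mul, map_mul, map_inv, MulEquiv.apply_symm_apply]
    exact hc
  exact congrArg Subtype.val h5

/-- Main step. -/
theorem main {F : Type*} [Field F] [Fintype F] {m : ℕ} (hm : 4 ≤ m)
    (hF : Fintype.card F = 2 ^ m) {Q : Type*} [Group Q] [Finite Q] (hQ : IsCIT Q)
    (hcard : ∀ r : ℕ, r.Prime → r ≠ 2 → (r ∣ Nat.card Q ↔ r ∣ 2 ^ (2 * m) - 1))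
    (S : Subgroup Q) (hSn : S.Normal) (hS : IsSimpleGroup S) (hab : ∃ a b : S, a * b ≠ b * a)
    (h2S : 2 ∣ Nat.card S) :
    Nonempty (Q ≃* Matrix.ProjectiveSpecialLinearGroup (Fin 2) F) := by
  classical
  obtain ⟨w, hw, hwj, hw9⟩ := Arith.exists_w hm
  have hw2 : w ≠ 2 := by omega
  -- `|S|` divides `|Q|`
  have hSQ : ∀ r : ℕ, r ∣ Nat.card S → r ∣ Nat.card Q := fun r hr =>
    hr.trans (Subgroup.card_subgroup_dvd_card S)
  -- one class: the odd primes of `|Q|` divide `|S|`
  have hone : (∃ t ∈ S, orderOf t = 2 ∧ ∀ s ∈ S, orderOf s = 2 → ∃ x ∈ S, x * t * x⁻¹ = s) →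
      ∀ r : ℕ, r.Prime → r ≠ 2 → r ∣ 2 ^ (2 * m) - 1 → r ∣ Nat.card S := by
    rintro ⟨t, ht, ht2, hcl⟩ r hr hr2 hrQ
    exact dvd_card_of_one_class hQ S ht ht2 hcl hr hr2 ((hcard r hr hr2).2 hrQ)
  -- `3` divides `|S|`
  have h3 : 3 ∣ Nat.card S := by
    by_contra h3
    have hSz := ThreePrime.Main.isoSuzuki hab h3
    apply h3
    apply hone (one_class_suzuki S hSz h2S) 3 Nat.prime_three (by norm_num)
    have := Nat.sub_one_dvd_pow_sub_one 4 m
    rw [pow_mul]
    exact this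
  rcases Cfsg.Agent.S0348.result hab (fun t ht => isCIT_subgroup hQ S t ht) with
    ⟨F₁, i1, i2, hF₁, ⟨e⟩⟩ | ⟨F₁, i1, i2, hF₁, ⟨e⟩⟩ | hsz
  · by_cases hev : ∃ n : ℕ, Fintype.card F₁ = 2 ^ n
    · obtain ⟨n, hn⟩ := hev
      have hch : CharP F₁ 2 := charP_two hn
      have htop : S = ⊤ := eq_top_of_psl_two_even hQ S e
      have hcQ : Nat.card Q = 2 ^ n * ((2 ^ n) ^ 2 - 1) := by
        rw [← Subgroup.card_top (G := Q), ← htop, Nat.card_congr e.toEquiv]
        rw [SmallSimple.PSLTwoPart.card_psl_two_even, hn]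
        have hn0 : n ≠ 0 := by
          rintro rfl
          have := Fintype.one_lt_card (α := F₁)
          rw [hn] at this
          norm_num at this
        rw [hn]
        exact (even_two.pow_of_ne_zero hn0)
      have hcQ' : ∀ r : ℕ, r.Prime → r ≠ 2 → (r ∣ 2 ^ (2 * n) - 1 ↔ r ∣ 2 ^ (2 * m) - 1) := by
        intro r hr hr2
        rw [← hcard r hr hr2, hcQ, ← pow_mul, mul_comm n 2]
        constructor
        · intro h; exact Dvd.dvd.mul_left h _
        · intro h
          rcases (Nat.Prime.dvd_mul hr).1 h with h | h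
          · exact absurd ((Nat.prime_dvd_prime_iff_eq hr Nat.prime_two).1 (hr.dvd_of_dvd_pow h)) hr2
          · exact h
      have hwn : 2 * m ∣ 2 * n := (hwj _).1 ((hcQ' w hw hw2).2 ((hwj _).2 dvd_rfl))
      have hmn : m ∣ n := Nat.dvd_of_mul_dvd_mul_left (by norm_num) hwn
      have hn0 : 0 < n := by
        rcases Nat.eq_zero_or_pos n with h | h
        · subst h
          have := Fintype.one_lt_card (α := F₁)
          rw [hn] at this
          norm_num at this
        · exact h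
      have hmn' := Nat.le_of_dvd hn0 hmn
      obtain ⟨w', hw', hwj', hw9'⟩ := Arith.exists_w (m := n) (by omega)
      have hwn' : 2 * n ∣ 2 * m := (hwj' _).1 ((hcQ' w' hw' (by omega)).1 ((hwj' _).2 dvd_rfl))
      have hnm : n ∣ m := Nat.dvd_of_mul_dvd_mul_left (by norm_num) hwn'
      have hEq : n = m := Nat.dvd_antisymm hnm hmn
      subst hEq
      let σ : F₁ ≃+* F := FiniteField.ringEquivOfCardEq (hn.trans hF.symm)
      exact ⟨(Subgroup.topEquiv.symm.trans (MulEquiv.subgroupCongr htop.symm)).trans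
        (e.trans (LieClassical.FieldTransfer.pslCongr σ))⟩
    · exfalso
      have hodd : Odd (Fintype.card F₁) := by
        rcases hF₁ with h | h | ⟨h, -⟩
        · rw [h]; decide
        · exact absurd h hev
        · exact h.odd_of_ne_two (fun h2 => hev ⟨1, by rw [h2, pow_one]⟩)
      have h1 := hone (one_class S e (fun x y hx hy => ClassicalGeometry.SLTwoFour.psl_isConj hodd x y hx hy) h2S)
      have hcS : 2 * Nat.card S = Fintype.card F₁ * (Fintype.card F₁ ^ 2 - 1) := by
        rw [Nat.card_congr e.toEquiv]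
        exact SmallSimple.PSLTwoPart.card_psl_two_odd hodd
      have hwS : w ∣ Nat.card S := h1 w hw hw2 ((hwj _).2 dvd_rfl)
      rcases hF₁ with h | h | ⟨hpr, k, h | h⟩
      · rw [h] at hcS
        have h4 : Nat.card S = 2 ^ 3 * 3 ^ 2 * 5 ^ 1 * 7 ^ 0 := by norm_num at hcS ⊢; omega
        rw [h4] at hwS
        have := Arith.le_seven hw hwS
        omega
      · exact hev h
      · by_cases hk : 2 ≤ k
        · obtain ⟨j, rfl⟩ : ∃ j, k = j + 1 := ⟨k - 1, by omega⟩
          have hcS' : Nat.card S = 2 ^ (j + 1) * ((2 ^ (j + 1) + 1) * (2 ^ j + 1)) := by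
            rw [h] at hcS
            have h5 : (2 ^ (j + 1) + 1) ^ 2 - 1 = 2 * (2 ^ (j + 1) * (2 ^ j + 1)) := by
              rw [Nat.sub_eq_iff_eq_add (Nat.one_le_pow _ _ (by positivity))]
              ring
            rw [h5] at hcS
            nlinarith
          rw [h] at hpr
          refine Arith.no_fermat hm hk hpr ?_ ?_
          · have h6 : 2 ^ (j + 1) + 1 ≠ 2 := by
              have : 1 < 2 ^ (j + 1) := Nat.one_lt_two_pow (by omega)
              omega
            rw [← hcard _ hpr h6]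
            refine hSQ _ ?_
            rw [hcS']
            exact Dvd.dvd.mul_left (dvd_mul_right _ _) _
          · intro s hs hs2 hs'
            have h7 := h1 s hs hs2 hs'
            rw [hcS'] at h7
            rcases (Nat.Prime.dvd_mul hs).1 h7 with h8 | h8
            · exact absurd ((Nat.prime_dvd_prime_iff_eq hs Nat.prime_two).1 (hs.dvd_of_dvd_pow h8)) hs2
            · simpa using h8
        · have hk' : k = 0 ∨ k = 1 := by omega
          rcases hk' with rfl | rfl
          · norm_num at h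
            exact hev ⟨1, by rw [h]; norm_num⟩
          · rw [h] at hcS
            have h4 : Nat.card S = 2 ^ 2 * 3 ^ 1 * 5 ^ 0 * 7 ^ 0 := by norm_num at hcS ⊢; omega
            rw [h4] at hwS
            have := Arith.le_seven hw hwS
            omega
      · have hk : 2 ≤ k := by
          by_contra hk
          have hk' : k = 0 ∨ k = 1 := by omega
          have := hpr.two_le
          rcases hk' with rfl | rfl <;> norm_num at h <;> omega
        obtain ⟨j, rfl⟩ : ∃ j, k = j + 1 := ⟨k - 1, by omega⟩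
        have h0 : Fintype.card F₁ = 2 ^ (j + 1) - 1 := by omega
        have hj1 : 1 ≤ 2 ^ j := Nat.one_le_two_pow
        have hcS' : Nat.card S = 2 ^ (j + 1) * ((2 ^ (j + 1) - 1) * (2 ^ j - 1)) := by
          rw [h0] at hcS
          obtain ⟨u, hu⟩ : ∃ u, 2 ^ j = u + 1 := ⟨2 ^ j - 1, by omega⟩
          have h5 : 2 ^ (j + 1) = 2 * u + 2 := by rw [pow_succ, hu]; ring
          rw [h5] at hcS ⊢
          rw [hu]
          have h6 : 2 * u + 2 - 1 = 2 * u + 1 := by omega
          rw [h6] at hcS ⊢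
          have h7 : (2 * u + 1) ^ 2 - 1 = 2 * (u * (2 * u + 2)) := by
            rw [Nat.sub_eq_iff_eq_add (Nat.one_le_pow _ _ (by positivity))]
            ring
          rw [h7] at hcS
          have h8 : u + 1 - 1 = u := by omega
          rw [h8]
          nlinarith
        have hpr' : (2 ^ (j + 1) - 1).Prime := by rw [← h0]; exact hpr
        refine Arith.no_mersenne hm hk hpr' ?_ ?_
        · have h6 : 2 ^ (j + 1) - 1 ≠ 2 := by
            intro h6
            rw [← h0] at h6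
            exact hev ⟨1, by rw [h6, pow_one]⟩
          rw [← hcard _ hpr' h6]
          refine hSQ _ ?_
          rw [hcS']
          exact Dvd.dvd.mul_left (dvd_mul_right _ _) _
        · intro s hs hs2 hs'
          have h7 := h1 s hs hs2 hs'
          rw [hcS'] at h7
          rcases (Nat.Prime.dvd_mul hs).1 h7 with h8 | h8
          · exact absurd ((Nat.prime_dvd_prime_iff_eq hs Nat.prime_two).1 (hs.dvd_of_dvd_pow h8)) hs2
          · simpa using h8
  · exfalso
    have h1 := hone (one_class S e (fun x y hx hy => Cfsg.Agent.S0820.result hF₁ x y hx hy) h2S)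
    have hwS : w ∣ Nat.card S := h1 w hw hw2 ((hwj _).2 dvd_rfl)
    rw [Nat.card_congr e.toEquiv, card_psl34 hF₁] at hwS
    have h4 : 20160 = 2 ^ 6 * 3 ^ 2 * 5 ^ 1 * 7 ^ 1 := by norm_num
    rw [h4] at hwS
    have := Arith.le_seven hw hwS
    omega
  · exfalso
    obtain ⟨-, k, hk, hk'⟩ := hsz
    rw [hk'] at h3
    have e1 : 2 ^ (2 * k + 1) % 3 = 2 := by
      rw [pow_succ, pow_mul, Nat.mul_mod, Nat.pow_mod]
      norm_num
    generalize 2 ^ (2 * k + 1) = q at h3 e1
    rcases (Nat.Prime.dvd_mul Nat.prime_three).1 h3 with h3 | h3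
    · rcases (Nat.Prime.dvd_mul Nat.prime_three).1 h3 with h3 | h3
      · have := Nat.prime_three.dvd_of_dvd_pow h3
        omega
      · have h5 : (q ^ 2 + 1) % 3 = 2 := by
          rw [Nat.add_mod, Nat.pow_mod, e1]
        omega
    · omega

/-- Let `F` be a finite field with `2^m` elements, `m ≥ 4`. If a finite group `G` has the same prime graph as `PSL(2, F)` (same prime divisors of the order; for distinct primes `r, s` an element of order `rs` in one iff in the other), then `G/O₂(G)` is isomorphic to `PSL(2, F)`. The known proof uses the classification of finite simple groups. -/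
theorem result {F : Type*} [Field F] [Fintype F] (m : ℕ) (hm : 4 ≤ m)
    (hF : Fintype.card F = 2 ^ m) {G : Type*} [Group G] [Finite G]
    (h : ((∀ r : ℕ, r.Prime → (r ∣ Nat.card (Matrix.ProjectiveSpecialLinearGroup (Fin 2) F) ↔ r ∣ Nat.card G)) ∧
      (∀ r s : ℕ, r.Prime → s.Prime → r ≠ s → ((∃ x : (Matrix.ProjectiveSpecialLinearGroup (Fin 2) F), orderOf x = r * s) ↔ (∃ y : G, orderOf y = r * s))))) :
    Nonempty (G ⧸ Cfsg.pCore 2 G ≃* Matrix.ProjectiveSpecialLinearGroup (Fin 2) F) := by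
  have hcP : Nat.card (Matrix.ProjectiveSpecialLinearGroup (Fin 2) F) = 2 ^ m * (2 ^ (2 * m) - 1) := by
    rw [SmallSimple.PSLTwoPart.card_psl_two_even, hF, ← pow_mul, mul_comm m 2]
    rw [hF]
    exact even_two.pow_of_ne_zero (by omega)
  have h2m : 16 ≤ 2 ^ m := by
    calc 16 = 2 ^ 4 := by norm_num
      _ ≤ 2 ^ m := Nat.pow_le_pow_right (by norm_num) hm
  have hfac : 2 ^ (2 * m) - 1 = (2 ^ m - 1) * (2 ^ m + 1) := by
    obtain ⟨u, hu⟩ : ∃ u, 2 ^ m = u + 1 := ⟨2 ^ m - 1, by omega⟩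
    rw [mul_comm 2 m, pow_mul, hu]
    have : (u + 1) ^ 2 - 1 = u * (u + 2) := by
      rw [Nat.sub_eq_iff_eq_add (Nat.one_le_pow _ _ (by positivity))]
      ring
    rw [this]
    congr 1
  obtain ⟨r, hr, hr1⟩ := Nat.exists_prime_and_dvd (n := 2 ^ m - 1) (by omega)
  obtain ⟨s, hs, hs1⟩ := Nat.exists_prime_and_dvd (n := 2 ^ m + 1) (by omega)
  have h2dvd : 2 ∣ 2 ^ m := dvd_pow_self 2 (by omega)
  have hr2 : r ≠ 2 := by rintro rfl; omega
  have hs2 : s ≠ 2 := by rintro rfl; omega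
  have hrs : r ≠ s := by
    rintro rfl
    have h5 := Nat.dvd_sub hs1 hr1
    have h6 : 2 ^ m + 1 - (2 ^ m - 1) = 2 := by omega
    rw [h6] at h5
    exact hr2 ((Nat.prime_dvd_prime_iff_eq hr Nat.prime_two).1 h5)
  obtain ⟨no2, nors⟩ := no_orders (by omega) hF
  have hdG : ∀ r : ℕ, r.Prime → r ≠ 2 → (r ∣ Nat.card G ↔ r ∣ 2 ^ (2 * m) - 1) := by
    intro r hr hr2
    rw [← h.1 r hr, hcP]
    constructor
    · intro h
      rcases (Nat.Prime.dvd_mul hr).1 h with h | h
      · exact absurd ((Nat.prime_dvd_prime_iff_eq hr Nat.prime_two).1 (hr.dvd_of_dvd_pow h)) hr2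
      · exact h
    · intro h; exact Dvd.dvd.mul_left h _
  have hrG : r ∣ Nat.card G := by
    rw [hdG r hr hr2, hfac]; exact Dvd.dvd.mul_right hr1 _
  have hsG : s ∣ Nat.card G := by
    rw [hdG s hs hs2, hfac]; exact Dvd.dvd.mul_left hs1 _
  have h2G : 2 ∣ Nat.card G := by
    rw [← h.1 2 Nat.prime_two, hcP]; exact Dvd.dvd.mul_right h2dvd _
  have hn := Lib.Cores.pCore_normal (G := G) 2
  obtain ⟨hQ, S, hSn, hS, hab, -, h2S⟩ := data (G := G)
    (fun s hs hs2 hy => no2 s hs hs2 ((h.2 2 s Nat.prime_two hs (Ne.symm hs2)).2 hy))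
    hr hs hr2 hs2 hrs h2G hrG hsG (fun hy => nors r s hr hs hr1 hs1 ((h.2 r s hr hs hrs).2 hy))
  refine main hm hF hQ ?_ S hSn hS hab h2S
  intro r hr hr2
  rw [dvd_quotient_pCore hr hr2, hdG r hr hr2]

end Cfsg.Agent.S3700
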