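import Cfsg.Statements.S3704
import Cfsg.Agent.S0157

set_option autoImplicit false
open Cfsg

namespace Cfsg.Agent.S3704

open scoped ComplexConjugate
open Cfsg.Agent.Characters.Core Cfsg.Agent.S0157

/-- The orbits of `G` on `X × G ⧸ H` correspond to the orbits of `H` on `X`. -/
theorem card_orbits_prod_quotient {G : Type*} [Group G] (X : Type*) [MulAction G X]
    (H : Subgroup G) :
    Nat.card (MulAction.orbitRel.Quotient H X) =
      Nat.card (Quotient (MulAction.orbitRel G (X × (G ⧸ H)))) := by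
  refine Nat.card_congr (Equiv.ofBijective
    (Quotient.map' (fun x : X => ((x, ((1 : G) : G ⧸ H)) : X × (G ⧸ H))) ?_) ⟨?_, ?_⟩)
  · intro x y h
    obtain ⟨g, hg⟩ := h
    refine ⟨(g : G), ?_⟩
    refine Prod.ext hg ?_
    change (((g : G) * 1 : G) : G ⧸ H) = ((1 : G) : G ⧸ H)
    rw [mul_one]
    rw [QuotientGroup.eq]
    simp
  · intro p q
    induction p using Quotient.inductionOn' with | _ x =>
    induction q using Quotient.inductionOn' with | _ y =>
    intro h
    apply Quotient.sound'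
    have h' := Quotient.exact' h
    obtain ⟨g, hg⟩ := h'
    have h1 : g • y = x := congrArg Prod.fst hg
    have h2 : ((g * 1 : G) : G ⧸ H) = ((1 : G) : G ⧸ H) := congrArg Prod.snd hg
    rw [mul_one] at h2
    have h3 : g ∈ H := by
      have := QuotientGroup.eq.1 h2
      simpa using this
    exact ⟨⟨g, h3⟩, h1⟩
  · intro q
    induction q using Quotient.inductionOn' with | _ p =>
    obtain ⟨x, c⟩ := p
    induction c using QuotientGroup.induction_on with | _ g =>
    refine ⟨Quotient.mk'' (g⁻¹ • x), ?_⟩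
    apply Quotient.sound'
    refine ⟨g⁻¹, ?_⟩
    refine Prod.ext rfl ?_
    change ((g⁻¹ * g : G) : G ⧸ H) = _
    rw [inv_mul_cancel]

/-- Let G be a finite group acting faithfully and 2-transitively on a finite set Ω of size n, and let H be a subgroup of index n in G which is not transitive on Ω and fixes no point of Ω. Then H has exactly two orbits on Ω. -/
theorem result {G Ω : Type*} [Group G] [Finite G] [MulAction G Ω] [FaithfulSMul G Ω] [Finite Ω] (h2 : MulAction.IsMultiplyPretransitive G Ω 2) (H : Subgroup G) (hidx : H.index = Nat.card Ω) (hnt : ¬ MulAction.IsPretransitive H Ω) (hfix : ∀ a : Ω, ∃ h : H, h • a ≠ a) : Nat.card (MulAction.orbitRel.Quotient H Ω) = 2 := by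
  classical
  have hG := Fintype.ofFinite G
  -- nonempty with at least two points
  have hne : Nonempty Ω := by
    by_contra hc
    rw [not_nonempty_iff] at hc
    exact hnt ⟨fun x => (hc.false x).elim⟩
  obtain ⟨a⟩ := id hne
  obtain ⟨h, hh⟩ := hfix a
  have hX : 2 ≤ Nat.card Ω := by
    have : Nontrivial Ω := ⟨h • a, a, hh⟩
    have := Finite.one_lt_card_iff_nontrivial.2 this
    omega
  have htr : MulAction.IsPretransitive G Ω := by
    have := MulAction.isPretransitive_of_is_two_pretransitive (G := G) (α := Ω)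
    exact this
  have hirr := (S0157.result (G := G) Ω hX).2 h2
  obtain ⟨π, hπ⟩ : ∃ π : G → ℂ, π = fun g : G => (Nat.card (MulAction.fixedBy Ω g) : ℂ) := ⟨_, rfl⟩
  obtain ⟨ρ, hρ⟩ : ∃ ρ : G → ℂ, ρ = fun g : G => (Nat.card (MulAction.fixedBy (G ⧸ H) g) : ℂ) :=
    ⟨_, rfl⟩
  have hπc : IsCharacter G π := hπ ▸ isCharacter_fixedBy Ω
  have hρc : IsCharacter G ρ := hρ ▸ isCharacter_fixedBy (G ⧸ H)
  have hsub : (fun g : G => (Nat.card (MulAction.fixedBy Ω g) : ℂ) - 1) = π - 1 := by
    rw [hπ]; rfl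
  rw [hsub] at hirr
  have hne' : Nonempty (G ⧸ H) := ⟨((1 : G) : G ⧸ H)⟩
  have hρ1 : classInner ρ 1 = 1 := by
    have := avg_fixedBy (G := G) (G ⧸ H)
    rw [card_orbits_of_pretransitive G (G ⧸ H)] at this
    rw [hρ]
    simpa [classInner] using this
  have hρπ : classInner ρ π = (Nat.card (MulAction.orbitRel.Quotient H Ω) : ℂ) := by
    rw [card_orbits_prod_quotient, ← avg_fixedBy (G := G) (Ω × (G ⧸ H)), hπ, hρ]
    simp only [classInner, card_fixedBy_prod, Nat.cast_mul, Complex.conj_natCast]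
    congr 1
    exact Finset.sum_congr rfl fun g _ => mul_comm _ _
  have hπ1 : classInner π 1 = 1 := by
    have := avg_fixedBy (G := G) Ω
    rw [card_orbits_of_pretransitive G Ω] at this
    rw [hπ]
    simpa [classInner] using this
  have h11 : classInner (1 : G → ℂ) 1 = 1 := classInner_irr_self isIrr_one
  have hψne : (π - 1) ≠ (1 : G → ℂ) := by
    intro he
    have : classInner (π - 1) 1 = 0 := by rw [classInner_sub_left, hπ1, h11, sub_self]
    rw [he, h11] at this
    exact one_ne_zero this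
  have hρψ : classInner ρ (π - 1) = (Nat.card (MulAction.orbitRel.Quotient H Ω) : ℂ) - 1 := by
    rw [classInner_sub_right, hρπ, hρ1]
  -- decompose `ρ`
  have hfin := finite_irr (G := G)
  have hfi := Fintype.ofFinite (IrrCharacter G)
  obtain ⟨m, hm⟩ := exists_nat_comb hρc
  have c1 : classInner ρ ((⟨1, isIrr_one⟩ : IrrCharacter G) : G → ℂ) = m ⟨1, isIrr_one⟩ := by
    rw [hm, classInner_sum_nsmul_irr]
  have c2 : classInner ρ ((⟨π - 1, hirr⟩ : IrrCharacter G) : G → ℂ) = m ⟨π - 1, hirr⟩ := by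
    rw [hm, classInner_sum_nsmul_irr]
  have m1 : m ⟨1, isIrr_one⟩ = 1 := by
    have : (m ⟨1, isIrr_one⟩ : ℂ) = 1 := c1.symm.trans hρ1
    exact_mod_cast this
  -- degrees
  choose d hd0 hd using fun χ : IrrCharacter G => isIrr_apply_one χ.2
  have hdeg : ∑ χ : IrrCharacter G, m χ * d χ = Nat.card Ω := by
    have e1 : ρ 1 = (Nat.card Ω : ℂ) := by
      rw [hρ]
      change (Nat.card (MulAction.fixedBy (G ⧸ H) (1 : G)) : ℂ) = _
      rw [MulAction.fixedBy_one_eq_univ, Nat.card_univ, ← hidx]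
      rfl
    rw [hm, Finset.sum_apply] at e1
    have e2 : ∑ χ : IrrCharacter G, (m χ • (χ : G → ℂ)) 1 =
        ((∑ χ : IrrCharacter G, m χ * d χ : ℕ) : ℂ) := by
      push_cast
      refine Finset.sum_congr rfl fun χ _ => ?_
      rw [Pi.smul_apply, hd χ, nsmul_eq_mul]
    rw [e2] at e1
    exact_mod_cast e1
  have hd1 : d ⟨1, isIrr_one⟩ = 1 := by
    have : (d ⟨1, isIrr_one⟩ : ℂ) = 1 := (hd ⟨1, isIrr_one⟩).symm
    exact_mod_cast this
  have hdψ : d ⟨π - 1, hirr⟩ + 1 = Nat.card Ω := by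
    have e := hd ⟨π - 1, hirr⟩
    have e2 : (π - 1) 1 = (Nat.card Ω : ℂ) - 1 := by
      rw [Pi.sub_apply, hπ]
      change (Nat.card (MulAction.fixedBy Ω (1 : G)) : ℂ) - 1 = _
      rw [MulAction.fixedBy_one_eq_univ, Nat.card_univ]
    have e3 : (Nat.card Ω : ℂ) - 1 = (d ⟨π - 1, hirr⟩ : ℂ) := e2.symm.trans e
    have e4 : (Nat.card Ω : ℂ) = ((d ⟨π - 1, hirr⟩ + 1 : ℕ) : ℂ) := by
      push_cast
      rw [← e3]
      ring
    exact_mod_cast e4.symm
  have hne12 : (⟨1, isIrr_one⟩ : IrrCharacter G) ≠ ⟨π - 1, hirr⟩ := by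
    intro he
    exact hψne (congrArg Subtype.val he).symm
  have hle : m ⟨1, isIrr_one⟩ * d ⟨1, isIrr_one⟩ + m ⟨π - 1, hirr⟩ * d ⟨π - 1, hirr⟩ ≤
      ∑ χ : IrrCharacter G, m χ * d χ := by
    rw [← Finset.sum_pair (f := fun χ => m χ * d χ) hne12]
    exact Finset.sum_le_sum_of_subset (Finset.subset_univ _)
  rw [hdeg, m1, hd1, one_mul] at hle
  have hmle : m ⟨π - 1, hirr⟩ ≤ 1 := by
    by_contra hc
    push Not at hc
    have : 2 * d ⟨π - 1, hirr⟩ ≤ m ⟨π - 1, hirr⟩ * d ⟨π - 1, hirr⟩ := Nat.mul_le_mul_right _ hc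
    have := hd0 ⟨π - 1, hirr⟩
    omega
  have hcard : Nat.card (MulAction.orbitRel.Quotient H Ω) = m ⟨π - 1, hirr⟩ + 1 := by
    have : (Nat.card (MulAction.orbitRel.Quotient H Ω) : ℂ) = ((m ⟨π - 1, hirr⟩ + 1 : ℕ) : ℂ) := by
      push_cast
      rw [← c2]
      change _ = classInner ρ (π - 1) + 1
      rw [hρψ]
      ring
    exact_mod_cast this
  have hge : Nat.card (MulAction.orbitRel.Quotient H Ω) ≠ 1 := by
    intro hc
    apply hnt
    rw [Nat.card_eq_one_iff_unique] at hc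
    obtain ⟨hs, -⟩ := hc
    refine ⟨fun x y => ?_⟩
    have := hs.elim (Quotient.mk'' y : MulAction.orbitRel.Quotient H Ω) (Quotient.mk'' x)
    obtain ⟨g, hg⟩ := Quotient.exact' this
    exact ⟨g, hg⟩
  omega

end Cfsg.Agent.S3704
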