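import Cfsg.Statements.S3707
import Cfsg.Agent.H433.JordanSet

set_option autoImplicit false
open Cfsg

namespace Cfsg.Agent.S3707

/-- Let G be a finite primitive permutation group on Ω of degree n and Γ ⊂ Ω a subset with 1 < #Γ ≤ n/2 such that the pointwise stabilizer of Ω ∖ Γ is transitive on Γ. Then G is 3-transitive on Ω. -/
theorem result {G Ω : Type*} [Group G] [Finite G] [MulAction G Ω] [FaithfulSMul G Ω] [Finite Ω] (hprim : MulAction.IsPreprimitive G Ω) (Γ : Set Ω) (h1 : 1 < Γ.ncard) (h2 : 2 * Γ.ncard ≤ Nat.card Ω) (htr : ∀ x ∈ Γ, ∀ y ∈ Γ, ∃ g : G, (∀ z ∉ Γ, g • z = z) ∧ g • x = y) : MulAction.IsMultiplyPretransitive G Ω 3 := by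
  have h3 := Set.ncard_add_ncard_compl Γ
  have h2t := Cfsg.Agent.H433.two_of_jor hprim (A := Γ) htr h1 (by omega)
  obtain ⟨a, b, hab, hA⟩ := Cfsg.Agent.H433.exists_pair_of_jor hprim (C := Γ) htr h1 h2
  exact Cfsg.Agent.H433.three_of_jor h2t hab hA

end Cfsg.Agent.S3707
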