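import Cfsg.Statements.S3721
import Cfsg.Agent.H436.Simple
import Cfsg.Agent.H436.Core3721

set_option autoImplicit false
open Cfsg

namespace Cfsg.Agent.S3721

/-- Let G be a finite non-abelian simple group whose order has exactly four distinct prime divisors. Then some prime divides the order of G exactly to the first power, unless G is isomorphic to PSp₄(7) (whose order is 2⁸·3²·5²·7⁴). -/
theorem result {G : Type*} [Group G] [Finite G] [IsSimpleGroup G] (hG : ¬ IsMulCommutative G)
    (h4 : (Nat.card G).primeFactors.card = 4) :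
    (∃ p : ℕ, p.Prime ∧ p ∣ Nat.card G ∧ ¬ p ^ 2 ∣ Nat.card G) ∨
    (∃ (F : Type) (_ : Field F) (_ : Fintype F), Fintype.card F = 7 ∧ Nonempty (G ≃* Cfsg.PSp 2 F)) := by
  obtain ⟨g, hg⟩ := Cfsg.Agent.H436.name hG
  exact Cfsg.Agent.H436.Core3721.core hg h4

end Cfsg.Agent.S3721
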