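import Cfsg.Statements.S3728
import Cfsg.Agent.H438.SzMax
import Cfsg.Agent.H438.MaxOrders
import Cfsg.Agent.ThreePrime.Main

set_option autoImplicit false
open Cfsg

namespace Cfsg.Agent.S3728

open Subgroup
open Cfsg.Agent.H438.MaxOrders Cfsg.Agent.H438.SzMax

/-- `q² + 1` is not a prime for `q = 2 ^ (2m+1)`, `m ≥ 1`: it is divisible by `5`. -/
theorem not_prime (m : ℕ) (hm : 1 ≤ m) : ¬ ((2 ^ (2 * m + 1)) ^ 2 + 1).Prime := by
  have h5 : 5 ∣ (2 ^ (2 * m + 1)) ^ 2 + 1 := by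
    have h1 : (2 ^ (2 * m + 1)) ^ 2 = 4 * 16 ^ m := by
      rw [← pow_mul, show (2 * m + 1) * 2 = 2 + 4 * m by ring, pow_add, pow_mul]
      norm_num
    rw [h1]
    have h2 : 16 ^ m % 5 = 1 := by
      rw [Nat.pow_mod]; norm_num
    omega
  have h6 : 5 < (2 ^ (2 * m + 1)) ^ 2 + 1 := by
    have h1 : 2 ^ 3 ≤ 2 ^ (2 * m + 1) := Nat.pow_le_pow_right (by norm_num) (by omega)
    nlinarith
  intro hp
  rcases (Nat.dvd_prime hp).1 h5 with h | h
  · omega
  · omega

theorem three_not_dvd (m : ℕ) :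
    ¬ 3 ∣ (2 ^ (2 * m + 1)) ^ 2 * (2 ^ (2 * m + 1) - 1) * ((2 ^ (2 * m + 1)) ^ 2 + 1) := by
  have h1 : 2 ^ (2 * m + 1) = 2 * 4 ^ m := by
    rw [pow_succ, pow_mul]; norm_num; ring
  have h2 : 4 ^ m % 3 = 1 := by
    rw [Nat.pow_mod]; norm_num
  rw [h1]
  obtain ⟨k, hk⟩ : ∃ k, 4 ^ m = 3 * k + 1 := ⟨4 ^ m / 3, by omega⟩
  rw [hk]
  have h3 : 2 * (3 * k + 1) - 1 = 6 * k + 1 := by omega
  rw [h3]
  intro h
  rcases (Nat.Prime.dvd_mul Nat.prime_three).1 h with h | h
  · rcases (Nat.Prime.dvd_mul Nat.prime_three).1 h with h | h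
    · have := Nat.prime_three.dvd_of_dvd_pow h
      omega
    · omega
  · have h5 : (2 * (3 * k + 1)) ^ 2 + 1 = 3 * (12 * k ^ 2 + 8 * k + 1) + 2 := by ring
    omega

/-- Let q = 2^(2m+1) with m ≥ 1 and let G be a finite group whose set of orders of maximal subgroups equals that of the Suzuki group Sz(q). Then G is isomorphic to Sz(q). -/
theorem result {G : Type*} [Group G] [Finite G] {F : Type*} [Field F] [Fintype F] (m : ℕ) (hm : 1 ≤ m)
    (hF : Fintype.card F = 2 ^ (2 * m + 1))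
    (h : {k : ℕ | ∃ M : Subgroup G, IsCoatom M ∧ k = Nat.card ↥M} = {k : ℕ | ∃ M : Subgroup ↥(Cfsg.Lie.Sz F (2 ^ (m + 1))), IsCoatom M ∧ k = Nat.card ↥M}) :
    Nonempty (G ≃* ↥(Cfsg.Lie.Sz F (2 ^ (m + 1)))) := by
  have h1 : (1 : ℕ) < 2 ^ (2 * m + 1) := Nat.one_lt_two_pow (by omega)
  have hfS : Finite ↥(Cfsg.Lie.Sz F (2 ^ (m + 1))) := inferInstance
  have hsimp := Cfsg.Agent.S1162.result hm hF
  have hcS := card_sz hF
  -- a prime divisor of `q² + 1`
  obtain ⟨r, hr, hrd⟩ := Nat.exists_prime_and_dvd (n := (2 ^ (2 * m + 1)) ^ 2 + 1) (by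
    have : 0 < (2 ^ (2 * m + 1)) ^ 2 := by positivity
    omega)
  have h2r : 2 ≠ r := by
    rintro rfl
    have h2 : 2 ∣ (2 ^ (2 * m + 1)) ^ 2 := dvd_pow (dvd_pow_self 2 (by omega)) (by omega)
    omega
  have hcard : Nat.card G = Nat.card ↥(Cfsg.Lie.Sz F (2 ^ (m + 1))) := by
    refine card_eq_of_coatoms h Nat.prime_two hr h2r ?_ ?_
    · rw [hcS, mul_assoc]
      exact Dvd.dvd.mul_right (dvd_pow (dvd_pow_self 2 (by omega)) (by omega)) _
    · rw [hcS]
      exact Dvd.dvd.mul_left hrd _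
  have h3 : ¬ 3 ∣ Nat.card G := by
    rw [hcard, hcS]
    exact three_not_dvd m
  have hq : 0 < (2 ^ (2 * m + 1)) ^ 2 * (2 ^ (2 * m + 1) - 1) :=
    Nat.mul_pos (by positivity) (by omega)
  -- maximal subgroups of odd index
  have hodd : ∀ M : Subgroup G, IsCoatom M → ¬ 2 ∣ M.index → M.index = (2 ^ (2 * m + 1)) ^ 2 + 1 := by
    intro M hM hM2
    have hm : Nat.card M ∈ MO G := ⟨M, hM, rfl⟩
    have hm2 : Nat.card M ∈ MO ↥(Cfsg.Lie.Sz F (2 ^ (m + 1))) := by
      have hset := Set.ext_iff.1 h (Nat.card M)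
      exact hset.1 hm
    obtain ⟨M', hM', hc⟩ := hm2
    have hi : M.index = M'.index := by
      have e1 := Subgroup.card_mul_index M
      have e2 := Subgroup.card_mul_index M'
      rw [hcard, ← e2, hc] at e1
      exact Nat.eq_of_mul_eq_mul_left Nat.card_pos e1
    have hc' := coatom_card_of_odd_index ‹1 ≤ m› hF hM' (hi ▸ hM2)
    have e2 := Subgroup.card_mul_index M'
    rw [hi]
    rw [hc', hcS] at e2
    exact Nat.eq_of_mul_eq_mul_left hq e2
  have hnt : Nontrivial G := by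
    rw [← Finite.one_lt_card_iff_nontrivial, hcard]
    exact Finite.one_lt_card_iff_nontrivial.2 hsimp.toNontrivial
  obtain ⟨N, hN, hsN⟩ := exists_simple_quotient G
  have hdvd : Nat.card (G ⧸ N) ∣ Nat.card G := Subgroup.card_quotient_dvd_card N
  by_cases hab : ∃ a b : G ⧸ N, a * b ≠ b * a
  · have h3' : ¬ 3 ∣ Nat.card (G ⧸ N) := fun h' => h3 (h'.trans hdvd)
    obtain ⟨F₁, i1, i2, m₁, hm₁, hF₁, ⟨e₁⟩⟩ := Cfsg.Agent.ThreePrime.Main.isoSuzuki hab h3'
    obtain ⟨M₁, hM₁, hcM₁, hiM₁⟩ := Cfsg.Agent.H438.SzMax.exists_coatom hF₁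
    set f : G →* ↥(Cfsg.Lie.Sz F₁ (2 ^ (m₁ + 1))) := e₁.toMonoidHom.comp (QuotientGroup.mk' N) with hf
    have hfs : Function.Surjective f := e₁.surjective.comp (QuotientGroup.mk'_surjective N)
    have hM := isCoatom_comap f hfs hM₁
    have hi : (M₁.comap f).index = M₁.index := Subgroup.index_comap_of_surjective M₁ hfs
    have hodd1 : ¬ 2 ∣ (M₁.comap f).index := by
      rw [hi, hiM₁]
      have h2 : 2 ∣ (2 ^ (2 * m₁ + 1)) ^ 2 := dvd_pow (dvd_pow_self 2 (by omega)) (by omega)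
      omega
    have hi2 := hodd _ hM hodd1
    rw [hi, hiM₁] at hi2
    have hmm : m₁ = m := by
      have e1 : (2 ^ (2 * m₁ + 1)) ^ 2 = (2 ^ (2 * m + 1)) ^ 2 := by omega
      have e2 := Nat.pow_left_injective (n := 2) (by norm_num) e1
      have e3 := Nat.pow_right_injective (le_refl 2) e2
      omega
    subst hmm
    obtain ⟨e₂⟩ := szCongr_of_card (hF₁.trans hF.symm) (2 ^ (m₁ + 1))
    have hc : Nat.card (G ⧸ N) = Nat.card G := by
      rw [hcard]
      exact Nat.card_congr (e₁.trans e₂).toEquiv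
    have hNb : N = ⊥ := by
      have e1 := Subgroup.card_eq_card_quotient_mul_card_subgroup N
      rw [hc] at e1
      have e2 : Nat.card N = 1 := by
        have h0 : 0 < Nat.card G := Nat.card_pos
        exact Nat.eq_of_mul_eq_mul_left h0 (by rw [mul_one]; exact e1.symm)
      exact Subgroup.card_eq_one.1 e2
    subst hNb
    exact ⟨(QuotientGroup.quotientBot).symm.trans (e₁.trans e₂)⟩
  · exfalso
    push Not at hab
    have hcomm : IsMulCommutative (G ⧸ N) := ⟨⟨hab⟩⟩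
    have hp : (Nat.card (G ⧸ N)).Prime := by
      let _ : CommGroup (G ⧸ N) := { (inferInstance : Group (G ⧸ N)) with mul_comm := hab }
      exact IsSimpleGroup.prime_card
    have hNi : N.index = Nat.card (G ⧸ N) := rfl
    have hNc : IsCoatom N := isCoatom_of_index_prime hp hNi
    by_cases h2 : 2 ∣ N.index
    · have hN2 : N.index = 2 := by
        rw [hNi] at h2 ⊢
        exact ((Nat.prime_dvd_prime_iff_eq Nat.prime_two hp).1 h2).symm
      have hm' : Nat.card N ∈ MO G := ⟨N, hNc, rfl⟩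
      have hm2 : Nat.card N ∈ MO ↥(Cfsg.Lie.Sz F (2 ^ (m + 1))) := by
        have hset := Set.ext_iff.1 h (Nat.card N)
        exact hset.1 hm'
      obtain ⟨M', hM', hc⟩ := hm2
      have hi : M'.index = 2 := by
        have e1 := Subgroup.card_mul_index N
        have e2 := Subgroup.card_mul_index M'
        rw [hcard, ← e2, hc] at e1
        rw [← Nat.eq_of_mul_eq_mul_left Nat.card_pos e1, hN2]
      have hMn : M'.Normal := Subgroup.normal_of_index_eq_two hi
      rcases hMn.eq_bot_or_eq_top with h' | h'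
      · rw [h', Subgroup.index_bot, hcS] at hi
        have e1 : 2 * 2 ≤ (2 ^ (2 * m + 1)) ^ 2 := by nlinarith
        have e2 : 1 ≤ (2 ^ (2 * m + 1) - 1) := by omega
        have e3 : 1 ≤ (2 ^ (2 * m + 1)) ^ 2 + 1 := by omega
        have e4 : 4 * 1 * 1 ≤ (2 ^ (2 * m + 1)) ^ 2 * (2 ^ (2 * m + 1) - 1) * ((2 ^ (2 * m + 1)) ^ 2 + 1) :=
          Nat.mul_le_mul (Nat.mul_le_mul e1 e2) e3
        omega
      · exact hM'.1 h'
    · have h4 := hodd N hNc h2
      apply not_prime m ‹1 ≤ m›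
      rw [← h4, hNi]
      exact hp

end Cfsg.Agent.S3728
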