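import Cfsg.Statements.S3729
import Cfsg.Agent.H439.LTwoMaxMain
import Cfsg.Agent.OrdDiv.Table
import Cfsg.Agent.S0000

set_option autoImplicit false
open Cfsg

namespace Cfsg.Agent.S3729

/-- Let F be a finite field with at least 4 elements and let G be a finite group whose set of orders of maximal subgroups equals that of PSL₂(F). Then G is isomorphic to PSL₂(F). -/
theorem result {G : Type*} [Group G] [Finite G] {F : Type*} [Field F] [Fintype F] (hF : 4 ≤ Fintype.card F)
    (h : {k : ℕ | ∃ M : Subgroup G, IsCoatom M ∧ k = Nat.card ↥M} = {k : ℕ | ∃ M : Subgroup (Matrix.ProjectiveSpecialLinearGroup (Fin 2) F), IsCoatom M ∧ k = Nat.card ↥M}) :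
    Nonempty (G ≃* Matrix.ProjectiveSpecialLinearGroup (Fin 2) F) :=
  Cfsg.Agent.H439.LTwoMax.main Cfsg.Agent.OrdDiv.table (fun _ _ _ _ => Cfsg.Agent.S0000.result) hF h

end Cfsg.Agent.S3729
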