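import Cfsg.Statements.S3732
import Cfsg.Agent.H985.Final
import Cfsg.Agent.H985.Coord

set_option autoImplicit false
open Cfsg

namespace Cfsg.Agent.S3732

/-- The Ostrom–Wagner Theorem. Let Π be a finite projective plane (points P, lines L) whose collineation group is 2-transitive on points: for any two ordered pairs of distinct points there is a permutation of the points, together with a compatible permutation of the lines preserving incidence, carrying the first pair to the second. Then Π is Desarguesian: there is a finite field F and a bijection from P onto the points of the projective plane over F (the 1-dimensional subspaces of F³) under which the lines of Π correspond exactly to the 2-dimensional subspaces of F³. -/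
theorem result
    {P L : Type*} [Membership P L] [Fintype P] [Fintype L] [Configuration.ProjectivePlane P L]
    (h2t : ∀ p₁ p₂ q₁ q₂ : P, p₁ ≠ p₂ → q₁ ≠ q₂ →
      ∃ (σ : Equiv.Perm P) (τ : Equiv.Perm L), (∀ (p : P) (l : L), σ p ∈ τ l ↔ p ∈ l) ∧ σ p₁ = q₁ ∧ σ p₂ = q₂) :
    ∃ (F : Type) (_ : Field F) (_ : Fintype F) (φ : P ≃ Projectivization F (Fin 3 → F)),
      (∀ l : L, ∃ W : Submodule F (Fin 3 → F), Module.finrank F W = 2 ∧
          ∀ p : P, p ∈ l ↔ (φ p).submodule ≤ W) ∧
      (∀ W : Submodule F (Fin 3 → F), Module.finrank F W = 2 →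
          ∃ l : L, ∀ p : P, p ∈ l ↔ (φ p).submodule ≤ W) := by
  classical
  have hT : H985.T2 (H985.Pl.Coll P L) P := by
    intro p₁ p₂ q₁ q₂ h1 h2
    obtain ⟨σ, τ, h3, h4, h5⟩ := h2t p₁ p₂ q₁ q₂ h1 h2
    exact ⟨⟨(σ, τ), h3⟩, h4, h5⟩
  obtain ⟨F, i1, i2, e, he⟩ := H985.Pl.desargues_coords (G := H985.Pl.Coll P L) (P := P) (L := L) hT
  obtain ⟨φ, h1, h2⟩ := H985.coord_final e he
  exact ⟨F, i1, i2, φ, h1, h2⟩

end Cfsg.Agent.S3732
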