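import Cfsg.Statements.S3733
import Mathlib.GroupTheory.Subgroup.Centralizer
import Mathlib.GroupTheory.OrderOfElement
import Mathlib.Tactic

set_option autoImplicit false
open Cfsg

namespace Cfsg.Agent.S3733

/-- Let A and V be subgroups of a finite group with V abelian and nontrivial and A normalizing V. Suppose a nonempty finite family of proper subgroups of A partitions A: every non-identity element of A lies in exactly one member. If the number of members minus one is coprime to the order of V, then some member B of the family has a non-identity fixed point on V, that is V ∩ C(B) ≠ 1. -/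
theorem result {G : Type*} [Group G] [Finite G] (A V : Subgroup G) (hVab : IsMulCommutative V) (hV : V ≠ ⊥) (hAV : A ≤ Subgroup.normalizer (V : Set G)) (𝒜 : Finset (Subgroup G)) (hne : 𝒜.Nonempty) (hprop : ∀ B ∈ 𝒜, B < A) (hpart : ∀ a ∈ A, a ≠ 1 → ∃! B, B ∈ 𝒜 ∧ a ∈ B) (hk : (𝒜.card - 1).Coprime (Nat.card V)) : ∃ B ∈ 𝒜, V ⊓ Subgroup.centralizer (B : Set G) ≠ ⊥ := by
  classical
  by_contra hcon
  push Not at hcon
  haveI : Fintype G := Fintype.ofFinite G
  letI : CommGroup V := { (inferInstance : Group V) with mul_comm := hVab.is_comm.comm }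
  let f : G → V → V := fun g v =>
    if h : g ∈ Subgroup.normalizer (V : Set G) then
      ⟨g * v * g⁻¹, (Subgroup.mem_normalizer_iff.mp h v).mp v.2⟩ else 1
  have hf : ∀ g, g ∈ Subgroup.normalizer (V : Set G) → ∀ v : V, (f g v : G) = g * v * g⁻¹ := by
    intro g hg v
    simp only [f, dif_pos hg]
  have hfmul : ∀ g, g ∈ Subgroup.normalizer (V : Set G) → ∀ v w : V, f g (v * w) = f g v * f g w := by
    intro g hg v w
    apply Subtype.ext
    rw [Subgroup.coe_mul, hf g hg, hf g hg, hf g hg, Subgroup.coe_mul]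
    group
  -- the norm over a subgroup
  let N : Subgroup G → V → V := fun B v => ∏ g ∈ Finset.univ.filter (fun g => g ∈ B), f g v
  have hN : ∀ B : Subgroup G, B ≤ A → ∀ v : V, (N B v : G) ∈ Subgroup.centralizer (B : Set G) := by
    intro B hB v
    rw [Subgroup.mem_centralizer_iff]
    intro b hb
    have hbn : b ∈ Subgroup.normalizer (V : Set G) := hAV (hB hb)
    have h1 : f b (N B v) = N B v := by
      let F : V →* V :=
        { toFun := f b
          map_one' := by
            apply Subtype.ext
            rw [hf b hbn]; simp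
          map_mul' := hfmul b hbn }
      have h2 : f b (N B v) = ∏ g ∈ Finset.univ.filter (fun g => g ∈ B), f b (f g v) :=
        map_prod F (fun g => f g v) _
      rw [h2]
      refine Finset.prod_nbij' (fun g => b * g) (fun g => b⁻¹ * g) ?_ ?_ ?_ ?_ ?_
      · intro g hg
        simp only [Finset.mem_filter, Finset.mem_univ, true_and] at hg ⊢
        exact B.mul_mem hb hg
      · intro g hg
        simp only [Finset.mem_filter, Finset.mem_univ, true_and] at hg ⊢
        exact B.mul_mem (B.inv_mem hb) hg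
      · intro g _
        group
      · intro g _
        group
      · intro g hg
        simp only [Finset.mem_filter, Finset.mem_univ, true_and] at hg
        have hgn : g ∈ Subgroup.normalizer (V : Set G) := hAV (hB hg)
        apply Subtype.ext
        rw [hf b hbn, hf g hgn, hf (b * g) (mul_mem hbn hgn)]
        group
    have h3 := congrArg (Subtype.val) h1
    rw [hf b hbn] at h3
    have h4 : b * (N B v : G) = (N B v : G) * b := by
      calc b * (N B v : G) = (b * (N B v : G) * b⁻¹) * b := by group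
        _ = (N B v : G) * b := by rw [h3]
    exact h4
  have hN1 : ∀ B ∈ 𝒜, ∀ v : V, N B v = 1 := by
    intro B hB v
    have h1 : (N B v : G) ∈ V ⊓ Subgroup.centralizer (B : Set G) :=
      ⟨(N B v).2, hN B (hprop B hB).le v⟩
    rw [hcon B hB, Subgroup.mem_bot] at h1
    exact Subtype.ext h1
  obtain ⟨B₀, hB₀⟩ := hne
  have hNA : ∀ v : V, N A v = 1 := by
    intro v
    have h1 : (N A v : G) ∈ V ⊓ Subgroup.centralizer (B₀ : Set G) :=
      ⟨(N A v).2, Subgroup.centralizer_le (hprop B₀ hB₀).le (hN A le_rfl v)⟩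
    rw [hcon B₀ hB₀, Subgroup.mem_bot] at h1
    exact Subtype.ext h1
  have hf1 : ∀ v : V, f 1 v = v := by
    intro v
    apply Subtype.ext
    rw [hf 1 (one_mem _)]
    simp
  have hsplit : ∀ B : Subgroup G, ∀ v : V,
      N B v = v * ∏ g ∈ Finset.univ.filter (fun g => g ∈ B ∧ g ≠ 1), f g v := by
    intro B v
    have h1 : Finset.univ.filter (fun g => g ∈ B) =
        insert 1 (Finset.univ.filter (fun g => g ∈ B ∧ g ≠ 1)) := by
      ext g
      simp only [Finset.mem_filter, Finset.mem_univ, true_and, Finset.mem_insert]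
      constructor
      · intro h
        by_cases h1 : g = 1
        · exact Or.inl h1
        · exact Or.inr ⟨h, h1⟩
      · rintro (h | h)
        · rw [h]; exact B.one_mem
        · exact h.1
    show ∏ g ∈ Finset.univ.filter (fun g => g ∈ B), f g v = _
    rw [h1, Finset.prod_insert (by simp), hf1]
  have hunion : ∀ v : V, ∏ g ∈ Finset.univ.filter (fun g => g ∈ A ∧ g ≠ 1), f g v =
      ∏ B ∈ 𝒜, ∏ g ∈ Finset.univ.filter (fun g => g ∈ B ∧ g ≠ 1), f g v := by
    intro v
    rw [← Finset.prod_biUnion]
    · refine Finset.prod_congr ?_ (fun _ _ => rfl)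
      ext g
      simp only [Finset.mem_filter, Finset.mem_univ, true_and, Finset.mem_biUnion]
      constructor
      · rintro ⟨hgA, hg1⟩
        obtain ⟨B, ⟨hB, hgB⟩, -⟩ := hpart g hgA hg1
        exact ⟨B, hB, hgB, hg1⟩
      · rintro ⟨B, hB, hgB, hg1⟩
        exact ⟨(hprop B hB).le hgB, hg1⟩
    · intro B hB C hC hBC
      rw [Function.onFun, Finset.disjoint_left]
      intro g hg hg'
      simp only [Finset.mem_filter, Finset.mem_univ, true_and] at hg hg'
      obtain ⟨D, -, hD⟩ := hpart g ((hprop B hB).le hg.1) hg.2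
      exact hBC ((hD B ⟨hB, hg.1⟩).trans (hD C ⟨hC, hg'.1⟩).symm)
  apply hV
  rw [eq_bot_iff]
  intro v hv
  rw [Subgroup.mem_bot]
  let w : V := ⟨v, hv⟩
  have h1 : ∏ B ∈ 𝒜, N B w = 1 := Finset.prod_eq_one (fun B hB => hN1 B hB w)
  have h2 : ∏ B ∈ 𝒜, N B w = w ^ 𝒜.card *
      ∏ g ∈ Finset.univ.filter (fun g => g ∈ A ∧ g ≠ 1), f g w := by
    rw [hunion, Finset.prod_congr rfl (fun B _ => hsplit B w), Finset.prod_mul_distrib,
      Finset.prod_const]
  have h3 := hsplit A w
  rw [hNA] at h3
  have hcard : 𝒜.card = (𝒜.card - 1) + 1 :=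
    (Nat.sub_add_cancel (Finset.card_pos.mpr ⟨B₀, hB₀⟩)).symm
  rw [h1, hcard, pow_succ, mul_assoc, ← h3, mul_one] at h2
  have h4 : orderOf w ∣ 𝒜.card - 1 := orderOf_dvd_of_pow_eq_one h2.symm
  have h5 : orderOf w ∣ Nat.card V := orderOf_dvd_natCard w
  have h6 : orderOf w ∣ 1 := by
    rw [← Nat.Coprime.gcd_eq_one hk]
    exact Nat.dvd_gcd h4 h5
  rw [Nat.dvd_one, orderOf_eq_one_iff] at h6
  exact congrArg Subtype.val h6

end Cfsg.Agent.S3733
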