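import Cfsg.Statements.S3738
import Cfsg.Agent.S0119
import Cfsg.Agent.Lib.FrattiniBasic
import Cfsg.Agent.OddUThree.Count
import Cfsg.Agent.H441.SpecialInvol

set_option autoImplicit false
open Cfsg

namespace Cfsg.Agent.S3738

open Subgroup

universe u

/-- a finite group of order at most `4` has an automorphism group of order dividing `24`. -/
theorem card_mulAut_dvd {Q : Type*} [Group Q] [Finite Q] (h : Nat.card Q ≤ 4) :
    Nat.card (MulAut Q) ∣ 24 := by
  have hinj : Function.Injective (MulAut.toPerm Q) := by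
    intro φ ψ h
    ext x
    exact congrArg (fun σ : Equiv.Perm Q => σ x) h
  have h1 := Subgroup.card_dvd_of_injective (MulAut.toPerm Q) hinj
  rw [Nat.card_perm] at h1
  have h2 : (Nat.card Q).factorial ∣ Nat.factorial 4 := Nat.factorial_dvd_factorial h
  exact h1.trans h2

/-- A free action of a finite group has degree divisible by the order of the group. -/
theorem card_dvd_of_free {Z : Type*} [Group Z] [Finite Z] {X : Type*} [Finite X] [MulAction Z X]
    (hfree : ∀ a : X, MulAction.stabilizer Z a = ⊥) : Nat.card Z ∣ Nat.card X := by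
  rw [Nat.card_congr (MulAction.selfEquivOrbitsQuotientProd hfree), Nat.card_prod]
  exact dvd_mul_left _ _

/-- In a `2`-group, `x³ = 1` implies `x = 1`. -/
theorem eq_one_of_cube {P : Type*} [Group P] (hP : IsPGroup 2 P) {x : P} (h : x ^ 3 = 1) :
    x = 1 := by
  obtain ⟨k, hk⟩ := hP x
  have h1 : orderOf x ∣ 3 := orderOf_dvd_of_pow_eq_one h
  have h2 : orderOf x ∣ 2 ^ k := orderOf_dvd_of_pow_eq_one hk
  have h3 : orderOf x = 1 := Nat.eq_one_of_dvd_coprimes
    (Nat.Coprime.pow_right k (by norm_num : Nat.Coprime 3 2)) h1 h2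
  exact orderOf_eq_one_iff.1 h3

/-- An automorphism `φ` with `φ³ = 1` acting trivially "modulo fixed elements of odd order free". -/
theorem fix_of_inv_mul {P : Type*} [Group P] (hP : IsPGroup 2 P) {φ : MulAut P} (hφ : φ ^ 3 = 1)
    {x : P} (h : φ (x⁻¹ * φ x) = x⁻¹ * φ x) : φ x = x := by
  set k := x⁻¹ * φ x with hk
  have h1 : φ x = x * k := by rw [hk]; group
  have h2 : φ (φ x) = x * k * k := by rw [h1, map_mul, h, h1]
  have h3 : φ (φ (φ x)) = x * k * k * k := by rw [h2, map_mul, map_mul, h, h1]
  have h4 : φ (φ (φ x)) = x := by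
    have := congrArg (fun ψ : MulAut P => ψ x) hφ
    simpa [pow_succ] using this
  have h5 : k ^ 3 = 1 := by
    rw [h3] at h4
    have h7 : x * (k * k * k) = x := by
      calc x * (k * k * k) = x * k * k * k := by group
        _ = x := h4
    have h6 := mul_eq_left.1 h7
    calc k ^ 3 = k * k * k := by rw [pow_succ, pow_two]
      _ = 1 := h6
  have h6 := eq_one_of_cube hP h5
  rw [h1, h6, mul_one]

/-- Numbers: a power of two congruent to `4` modulo `9` and bigger than `4` is at least `256`. -/
theorem pow_two_ge {k : ℕ} (h4 : 4 < 2 ^ k) (h9 : 9 ∣ 2 ^ k - 4) : 256 ≤ 2 ^ k := by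
  by_contra hlt
  push Not at hlt
  have hk : k < 8 := by
    by_contra h
    push Not at h
    have := Nat.pow_le_pow_right (n := 2) (by norm_num) h
    omega
  interval_cases k <;> revert h4 h9 <;> decide

theorem key {X : Type u} [Group X] [Finite X] (d : X) (n : ℕ) (hn : 1 ≤ n)
    (hd : d ^ 3 ^ (n + 1) = 1) :
    ∀ (m : ℕ) (P : Subgroup X), Nat.card P = m → IsPGroup 2 P →
      d ∈ normalizer (P : Set X) → P ⊓ centralizer {d} = ⊥ →
      (∀ V : Subgroup X, V ≤ P → IsMulCommutative V → (∀ a ∈ V, a ^ 2 = 1) → Nat.card V ≤ 4) →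
      d ^ 3 ^ n ∈ centralizer (P : Set X) := by
  intro m
  induction m using Nat.strong_induction_on with
  | _ m ih =>
  intro P hPm hP hdP hfpf hrank
  by_contra hz
  have hzP : d ^ 3 ^ n ∈ normalizer (P : Set X) := pow_mem hdP _
  let ψ : MulAut P := P.normalizerMonoidHom ⟨d, hdP⟩
  let φ : MulAut P := P.normalizerMonoidHom ⟨d ^ 3 ^ n, hzP⟩
  have hψ : ∀ x : P, ((ψ x : P) : X) = d * x * d⁻¹ := fun x => rfl
  have hφψ : φ = ψ ^ 3 ^ n := by
    rw [← map_pow]; rfl
  have hφ : ∀ x : P, ((φ x : P) : X) = d ^ 3 ^ n * x * (d ^ 3 ^ n)⁻¹ := fun x => rfl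
  have hφ3 : φ ^ 3 = 1 := by
    rw [hφψ, ← pow_mul, ← pow_succ, ← map_pow]
    have : (⟨d, hdP⟩ : ↥(normalizer (P : Set X))) ^ 3 ^ (n + 1) = 1 := Subtype.ext hd
    rw [this, map_one]
  have hcent : ∀ (K : Subgroup P), (∀ x ∈ K, φ x = x) ↔
      d ^ 3 ^ n ∈ centralizer ((K.map P.subtype : Subgroup X) : Set X) := by
    intro K
    rw [mem_centralizer_iff]
    constructor
    · rintro h _ ⟨x, hx, rfl⟩
      have h1 := congrArg (Subtype.val) (h x hx)
      rw [hφ, mul_inv_eq_iff_eq_mul] at h1
      exact h1.symm
    · intro h x hx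
      apply Subtype.ext
      rw [hφ, mul_inv_eq_iff_eq_mul]
      exact (h _ ⟨x, hx, rfl⟩).symm
  have hφ1 : φ ≠ 1 := by
    intro h
    apply hz
    have := (hcent ⊤).1 (fun x _ => by rw [h]; rfl)
    rwa [← MonoidHom.range_eq_map, Subgroup.range_subtype] at this
  -- proper invariant subgroups are fixed
  have hinv : ∀ K : Subgroup P, K ≠ ⊤ → (∀ x ∈ K, ψ x ∈ K) → ∀ x ∈ K, φ x = x := by
    intro K hK hKψ
    rw [hcent]
    have hKlt : Nat.card (K.map P.subtype) < m := by
      rw [Subgroup.card_map_of_injective (Subgroup.subtype_injective P), ← hPm]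
      have h1 := Subgroup.card_le_card_group K
      rcases lt_or_eq_of_le h1 with h | h
      · exact h
      · exact absurd (Subgroup.eq_top_of_card_eq K h) hK
    have hKP : K.map P.subtype ≤ P := Subgroup.map_subtype_le K
    refine ih _ hKlt _ rfl ?_ ?_ ?_ ?_
    · exact (hP.to_subgroup K).of_equiv (Subgroup.equivMapOfInjective _ _ (Subgroup.subtype_injective P))
    · -- `d` normalizes `K`
      have hmaple : K.map ψ.toMonoidHom ≤ K := by
        rintro _ ⟨x, hx, rfl⟩
        exact hKψ x hx
      have hmap : K.map ψ.toMonoidHom = K := by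
        refine Subgroup.eq_of_le_of_card_ge hmaple ?_
        exact (Subgroup.card_map_of_injective (f := ψ.toMonoidHom) ψ.injective).ge
      rw [Subgroup.mem_normalizer_iff]
      intro h
      constructor
      · rintro ⟨x, hx, rfl⟩
        exact ⟨ψ x, hKψ x hx, rfl⟩
      · rintro ⟨x, hx, hxe⟩
        rw [← hmap] at hx
        obtain ⟨y, hy, rfl⟩ := hx
        refine ⟨y, hy, ?_⟩
        have h1 : d * (y : X) * d⁻¹ = d * h * d⁻¹ := hxe
        exact mul_left_cancel (mul_right_cancel h1)
    · rw [eq_bot_iff, ← hfpf]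
      exact inf_le_inf_right _ hKP
    · intro V hV
      exact hrank V (hV.trans hKP)
  have hcommd : ψ * φ = φ * ψ := by
    rw [hφψ, ← pow_succ, ← pow_succ']
  have hcommd' : ∀ x, ψ (φ x) = φ (ψ x) := fun x =>
    congrArg (fun χ : MulAut P => χ x) hcommd
  let A : Subgroup (MulAut P) := zpowers φ
  have hA3 : Nat.card A = 3 := by
    change Nat.card (zpowers φ) = 3
    rw [Nat.card_zpowers]
    exact orderOf_eq_prime hφ3 hφ1
  -- `P = [P, z]`
  have hGA : Subgroup.closure {x : P | ∃ g : P, ∃ a ∈ A, x = g⁻¹ * a g} = ⊤ := by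
    by_contra hne
    have hfix := hinv _ hne (by
      intro x hx
      induction hx using Subgroup.closure_induction with
      | mem x hx =>
        obtain ⟨g, a, ha, rfl⟩ := hx
        refine Subgroup.subset_closure ⟨ψ g, a, ha, ?_⟩
        obtain ⟨j, rfl⟩ := ha
        rw [map_mul, map_inv]
        have hcj : ψ * φ ^ j = φ ^ j * ψ := (Commute.zpow_right hcommd j)
        have : ψ ((φ ^ j) g) = (φ ^ j) (ψ g) := congrArg (fun χ : MulAut P => χ g) hcj
        rw [← this]
      | one => rw [map_one]; exact one_mem _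
      | mul x y _ _ hx hy => rw [map_mul]; exact mul_mem hx hy
      | inv x _ hx => rw [map_inv]; exact inv_mem hx)
    apply hφ1
    ext g
    rw [MulAut.one_apply]
    congr 1
    apply fix_of_inv_mul hP hφ3
    apply hfix
    exact Subgroup.subset_closure ⟨g, φ, mem_zpowers φ, rfl⟩
  -- characteristic abelian subgroups
  have hab : ¬ IsMulCommutative (⊤ : Subgroup P) := by
    intro hab
    have hcomm : ∀ x y : P, x * y = y * x := by
      intro x y
      have := hab.is_comm.comm ⟨x, mem_top x⟩ ⟨y, mem_top y⟩
      exact congrArg Subtype.val this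
    let Ω : Subgroup P :=
      { carrier := {x | x * x = 1}
        mul_mem' := by
          intro x y hx hy
          change x * y * (x * y) = 1
          have hx' : x * x = 1 := hx
          have hy' : y * y = 1 := hy
          calc x * y * (x * y) = x * (y * x) * y := by group
            _ = x * (x * y) * y := by rw [hcomm y x]
            _ = (x * x) * (y * y) := by group
            _ = 1 := by rw [hx', hy', one_mul]
        one_mem' := by change (1 : P) * 1 = 1; rw [one_mul]
        inv_mem' := by
          intro x hx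
          change x⁻¹ * x⁻¹ = 1
          have hx' : x * x = 1 := hx
          rw [← mul_inv_rev, hx', inv_one] }
    by_cases hΩ : Ω = ⊤
    · -- elementary abelian of order at most four
      have h4 : Nat.card P ≤ 4 := by
        refine hrank P le_rfl ⟨⟨hcomm⟩⟩ ?_
        intro a ha
        have : (⟨a, ha⟩ : P) ∈ Ω := by rw [hΩ]; exact mem_top _
        have h1 : (⟨a, ha⟩ : P) * ⟨a, ha⟩ = 1 := this
        rw [pow_two]
        exact congrArg Subtype.val h1
      have h24 := card_mulAut_dvd h4
      have hψ24 : ψ ^ 24 = 1 := orderOf_dvd_iff_pow_eq_one.1 ((orderOf_dvd_natCard ψ).trans h24)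
      have hψ3 : orderOf ψ ∣ 3 := by
        have h1 : orderOf ψ ∣ 24 := orderOf_dvd_of_pow_eq_one hψ24
        have h2 : orderOf ψ ∣ 3 ^ (n + 1) := by
          apply orderOf_dvd_of_pow_eq_one
          rw [pow_succ, pow_mul, ← hφψ, hφ3]
        have h3 : (orderOf ψ).Coprime 8 :=
          (Nat.Coprime.pow_left (n + 1) (by norm_num : Nat.Coprime 3 8)).coprime_dvd_left h2
        have h4 : (24 : ℕ) = 8 * 3 := by norm_num
        rw [h4] at h1
        exact h3.dvd_of_dvd_mul_left h1
      apply hφ1
      rw [hφψ]
      apply orderOf_dvd_iff_pow_eq_one.1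
      exact hψ3.trans (dvd_pow_self 3 (by omega))
    · have hfixΩ := hinv Ω hΩ (by
        intro x hx
        change ψ x * ψ x = 1
        have hx' : x * x = 1 := hx
        rw [← map_mul, hx', map_one])
      -- all elements are fixed, by induction on the order
      have hall : ∀ (k : ℕ) (x : P), x ^ 2 ^ k = 1 → φ x = x := by
        intro k
        induction k with
        | zero =>
          intro x hx
          rw [pow_zero, pow_one] at hx
          rw [hx, map_one]
        | succ k ihk =>
          intro x hx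
          have h1 : φ (x ^ 2) = x ^ 2 := by
            apply ihk
            rw [← pow_mul, ← pow_succ']
            exact hx
          apply fix_of_inv_mul hP hφ3
          apply hfixΩ
          change (x⁻¹ * φ x) * (x⁻¹ * φ x) = 1
          calc (x⁻¹ * φ x) * (x⁻¹ * φ x) = x⁻¹ * (φ x * x⁻¹) * φ x := by group
            _ = x⁻¹ * (x⁻¹ * φ x) * φ x := by rw [hcomm (φ x) x⁻¹]
            _ = (x ^ 2)⁻¹ * (φ x * φ x) := by group
            _ = (x ^ 2)⁻¹ * φ (x ^ 2) := by rw [pow_two x, map_mul]
            _ = 1 := by rw [h1, inv_mul_cancel]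
      apply hφ1
      ext x
      rw [MulAut.one_apply]
      obtain ⟨k, hk⟩ := hP x
      rw [hall k x hk]
  have hchar : ∀ H : Subgroup P, H.Characteristic → IsMulCommutative H → ∀ a ∈ A, ∀ h ∈ H, a h = h := by
    intro H hH hHab a ha h hh
    have hHne : H ≠ ⊤ := by
      rintro rfl
      exact hab hHab
    have hfix := hinv H hHne (by
      intro x hx
      have := (Subgroup.characteristic_iff_map_le.1 hH) ψ
      exact this ⟨x, hx, rfl⟩)
    have hstab : A ≤ MulAction.stabilizer (MulAut P) h := by
      change zpowers φ ≤ _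
      rw [Subgroup.zpowers_le]
      exact hfix h hh
    exact hstab ha
  obtain ⟨hspec, hcen⟩ := Cfsg.Agent.S0119.result hP A (by rw [hA3]; norm_num) hGA hchar
  obtain ⟨_, hfr, hder⟩ := hspec
  set Z := center P with hZdef
  have hsq : ∀ x : P, x * x ∈ Z := by
    intro x
    rw [← hfr, ← pow_two]
    exact Cfsg.Agent.Lib.FrattiniBasic.pow_mem_frattini hP x
  have hcom : ∀ x y : P, x * y * x⁻¹ * y⁻¹ ∈ Z := by
    intro x y
    rw [← hder]
    exact Subgroup.commutator_mem_commutator (mem_top x) (mem_top y)
  have hZcomm : ∀ z ∈ Z, ∀ y : P, z * y = y * z := fun z hz y => (mem_center_iff.1 hz y).symm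
  have hZ2 : ∀ z ∈ Z, z * z = 1 := by
    intro z hz
    rw [← hder, commutator_eq_closure] at hz
    have hle : Subgroup.closure (commutatorSet P) ≤ Z := by
      rw [← commutator_eq_closure, hder]
    induction hz using Subgroup.closure_induction with
    | mem z hz =>
      obtain ⟨x, y, rfl⟩ := hz
      -- `[x, y]² = [x², y] = 1`
      have hc : x * y * x⁻¹ * y⁻¹ ∈ Z := hcom x y
      rw [commutatorElement_def]
      set c := x * y * x⁻¹ * y⁻¹ with hcd
      have h1 : x * y = c * (y * x) := by rw [hcd]; group
      have h2 := hZcomm _ (hsq x) y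
      have h3 : (x * x) * y = c * c * (y * (x * x)) := by
        calc (x * x) * y = x * (x * y) := by group
          _ = x * (c * (y * x)) := by rw [h1]
          _ = (x * c) * (y * x) := by group
          _ = (c * x) * (y * x) := by rw [hZcomm c hc x]
          _ = c * (x * y) * x := by group
          _ = c * (c * (y * x)) * x := by rw [h1]
          _ = c * c * (y * (x * x)) := by group
      rw [h2] at h3
      exact (mul_eq_right.1 h3.symm)
    | one => rw [one_mul]
    | mul x y hx hy hx2 hy2 =>
      have hxZ := hle hx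
      calc x * y * (x * y) = x * (y * x) * y := by group
        _ = x * (x * y) * y := by rw [hZcomm x hxZ y]
        _ = (x * x) * (y * y) := by group
        _ = 1 := by rw [hx2, hy2, one_mul]
    | inv x hx hx2 => rw [← mul_inv_rev, hx2, inv_one]
  -- order of the centre
  have hZmap : Nat.card (Z.map P.subtype) = Nat.card Z :=
    Subgroup.card_map_of_injective (Subgroup.subtype_injective P)
  have hZle : Nat.card Z ≤ 4 := by
    rw [← hZmap]
    refine hrank _ (Subgroup.map_subtype_le Z) ⟨⟨?_⟩⟩ ?_
    · rintro ⟨_, x, hx, rfl⟩ ⟨_, y, hy, rfl⟩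
      exact Subtype.ext (congrArg (Subtype.val : P → X) (hZcomm x hx y))
    · rintro _ ⟨x, hx, rfl⟩
      rw [pow_two]
      exact congrArg Subtype.val (hZ2 x hx)
  have hPnt : Nontrivial P := by
    by_contra h
    rw [not_nontrivial_iff_subsingleton] at h
    apply hφ1
    ext x
    rw [Subsingleton.elim (φ x) ((1 : MulAut P) x)]
  have hZnt : Nontrivial Z := hP.center_nontrivial
  have hfixd : ∀ x : P, ψ x = x → x = 1 := by
    intro x hx
    have h1 : (x : X) ∈ P ⊓ centralizer {d} := by
      refine Subgroup.mem_inf.2 ⟨x.2, ?_⟩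
      rw [mem_centralizer_singleton_iff]
      have h2 := congrArg Subtype.val hx
      rw [hψ, mul_inv_eq_iff_eq_mul] at h2
      exact h2.symm
    rw [hfpf, mem_bot] at h1
    exact Subtype.ext h1
  have hZψ : ∀ x ∈ Z, ψ x ∈ Z := by
    intro x hx
    have := (Subgroup.characteristic_iff_map_le.1 (inferInstance : (center P).Characteristic)) ψ
    exact this ⟨x, hx, rfl⟩
  have hZ4 : Nat.card Z = 4 := by
    obtain ⟨k, hk⟩ := IsPGroup.iff_card.1 (hP.to_subgroup Z)
    have h1 : 1 < Nat.card Z := Finite.one_lt_card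
    rw [hk] at hZle h1 ⊢
    have hk2 : k ≤ 2 := by
      by_contra h
      push Not at h
      have := Nat.pow_le_pow_right (n := 2) (by norm_num) h
      omega
    interval_cases k
    · omega
    · -- order two is impossible
      exfalso
      rw [pow_one] at hk
      obtain ⟨c, hc1⟩ := exists_ne (1 : Z)
      have huniq : ∀ y : Z, y ≠ 1 → y = c := by
        intro y hy
        have h2 := Nat.card_eq_two_iff' (1 : Z) |>.1 hk
        obtain ⟨t, ht, htu⟩ := h2
        rw [htu y hy, htu c hc1]
      have h3 := huniq ⟨ψ c, hZψ c c.2⟩ (by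
        intro h
        apply hc1
        have h4 : ψ (c : P) = 1 := congrArg Subtype.val h
        exact Subtype.ext ((map_eq_one_iff ψ ψ.injective).1 h4))
      exact hc1 (Subtype.ext (hfixd c (congrArg Subtype.val h3)))
    · norm_num
  -- the order of `P`
  have hfix_iff : ∀ g : P, φ g = g → g ∈ Z := by
    intro g hg
    rw [hcen]
    intro a ha
    have hstab : A ≤ MulAction.stabilizer (MulAut P) g := by
      change zpowers φ ≤ _
      rw [Subgroup.zpowers_le]
      exact hg
    exact hstab ha
  obtain ⟨k, hk⟩ := IsPGroup.iff_card.1 hP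
  have hoψ : orderOf ψ = 3 ^ (n + 1) := by
    apply orderOf_eq_prime_pow
    · rw [← hφψ]; exact hφ1
    · rw [pow_succ, pow_mul, ← hφψ, hφ3]
  have hdiv : 9 ∣ Nat.card P - 4 := by
    let Y := {x : P // x ∉ Z}
    let act : MulAction (zpowers ψ) Y :=
      { smul := fun g x => ⟨(g : MulAut P) (x : P), fun hx => by
          apply x.2
          have h1 := (Subgroup.characteristic_iff_map_le.1
            (inferInstance : (center P).Characteristic)) ((g : MulAut P)⁻¹)
          have h2 := h1 ⟨_, hx, rfl⟩
          have h3 : ((g : MulAut P)⁻¹).toMonoidHom ((g : MulAut P) (x : P)) = x :=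
            MulAut.inv_apply_self P (g : MulAut P) (x : P)
          rw [h3] at h2
          exact h2⟩
        one_smul := fun x => rfl
        mul_smul := fun g h x => rfl }
    have hsmul : ∀ (g : zpowers ψ) (x : Y), ((g • x : Y) : P) = (g : MulAut P) (x : P) :=
      fun g x => rfl
    have hfree : ∀ x : Y, MulAction.stabilizer (zpowers ψ) x = ⊥ := by
      intro x
      by_contra hne
      -- a nontrivial subgroup of the cyclic 3-group contains `φ`
      have hpg : IsPGroup 3 (zpowers ψ) := by
        apply IsPGroup.of_card (n := n + 1)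
        rw [Nat.card_zpowers, hoψ]
      obtain ⟨j, hj⟩ := IsPGroup.iff_card.1 (hpg.to_subgroup (MulAction.stabilizer (zpowers ψ) x))
      have hj0 : j ≠ 0 := by
        rintro rfl
        rw [pow_zero] at hj
        exact hne (Subgroup.eq_bot_of_card_eq _ hj)
      have h3 : 3 ∣ Nat.card (MulAction.stabilizer (zpowers ψ) x) := by
        rw [hj]; exact dvd_pow_self 3 hj0
      obtain ⟨s, hs⟩ := exists_prime_orderOf_dvd_card' 3 h3
      -- `⟨s⟩ = ⟨φ⟩`
      have hφmem : φ ∈ zpowers ψ := by rw [hφψ]; exact pow_mem (mem_zpowers ψ) _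
      have hs' : orderOf ((s : zpowers ψ)) = 3 := by rw [Subgroup.orderOf_coe, hs]
      have hφ' : orderOf (⟨φ, hφmem⟩ : zpowers ψ) = 3 := by
        rw [Subgroup.orderOf_mk]; exact orderOf_eq_prime hφ3 hφ1
      have heq : zpowers (⟨φ, hφmem⟩ : zpowers ψ) = zpowers (s : zpowers ψ) := by
        apply Cfsg.Agent.OddUThree.Count.eq_of_card
        rw [Nat.card_zpowers, Nat.card_zpowers, hs', hφ']
      have hφs : (⟨φ, hφmem⟩ : zpowers ψ) ∈ MulAction.stabilizer (zpowers ψ) x := by
        have h4 : (⟨φ, hφmem⟩ : zpowers ψ) ∈ zpowers (s : zpowers ψ) := by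
          rw [← heq]; exact mem_zpowers _
        have h5 : zpowers (s : zpowers ψ) ≤ MulAction.stabilizer (zpowers ψ) x := by
          rw [Subgroup.zpowers_le]; exact s.2
        exact h5 h4
      have h6 : φ (x : P) = x := by
        have := congrArg Subtype.val (MulAction.mem_stabilizer_iff.1 hφs)
        rwa [hsmul] at this
      exact x.2 (hfix_iff _ h6)
    have h1 := card_dvd_of_free hfree
    rw [Nat.card_zpowers, hoψ] at h1
    have h2 : Nat.card Y = Nat.card P - 4 := by
      have h3 : Nat.card Y + Nat.card Z = Nat.card P := by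
        classical
        have e : Y ⊕ Z ≃ P := (Equiv.sumComm _ _).trans (Equiv.sumCompl (fun x : P => x ∈ Z))
        rw [← Nat.card_congr e, Nat.card_sum]
      omega
    rw [h2] at h1
    refine Dvd.dvd.trans ?_ h1
    have h9 : (9 : ℕ) = 3 ^ 2 := by norm_num
    rw [h9]
    exact pow_dvd_pow 3 (by omega)
  have h4lt : 4 < Nat.card P := by
    rw [← hZ4]
    have h1 := Subgroup.card_le_card_group Z
    rcases lt_or_eq_of_le h1 with h | h
    · exact h
    · exfalso
      have h2 := Subgroup.eq_top_of_card_eq Z h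
      apply hab
      rw [← h2]
      exact ⟨⟨fun x y => Subtype.ext (hZcomm x x.2 y)⟩⟩
  have h256 : 256 ≤ Nat.card P := by
    rw [hk] at hdiv h4lt ⊢
    exact pow_two_ge h4lt hdiv
  obtain ⟨x, hxZ, hx2⟩ := Cfsg.Agent.H441.SpecialInvol.exists_invol Z le_rfl hZ4 hZ2 hsq hcom h256
  -- an elementary abelian subgroup of order at least 8
  let V : Subgroup P :=
    { carrier := {y | y ∈ Z ∨ x * y ∈ Z}
      mul_mem' := by
        rintro a b (ha | ha) (hb | hb)
        · exact Or.inl (mul_mem ha hb)
        · right
          have : x * (a * b) = a * (x * b) := by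
            rw [← mul_assoc, ← hZcomm a ha x, mul_assoc]
          rw [this]; exact mul_mem ha hb
        · right
          have : x * (a * b) = (x * a) * b := by group
          rw [this]; exact mul_mem ha hb
        · left
          have h1 : a * b = (x * a) * (x * b) := by
            have h2 : (x * a) * x = x * (x * a) := hZcomm _ ha x
            calc a * b = (x * x) * a * b := by rw [hx2, one_mul]
              _ = x * (x * a) * b := by group
              _ = (x * a) * x * b := by rw [h2]
              _ = (x * a) * (x * b) := by group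
          rw [h1]; exact mul_mem ha hb
      one_mem' := Or.inl (one_mem _)
      inv_mem' := by
        rintro a (ha | ha)
        · exact Or.inl (inv_mem ha)
        · right
          have h2 : (x * a) * x = x * (x * a) := hZcomm _ ha x
          have h3 : x * a = a * x := by
            have : x * (a * x) = x * (x * a) := by rw [← mul_assoc]; exact h2
            exact (mul_left_cancel this).symm
          have h4 : x * a⁻¹ = x * x * (x * a)⁻¹ := by
            rw [h3]; group
          rw [h4, hx2, one_mul]; exact inv_mem ha }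
  have hVmem : ∀ y : P, y ∈ V ↔ (y ∈ Z ∨ x * y ∈ Z) := fun y => Iff.rfl
  have hxV : x ∈ V := by rw [hVmem]; right; rw [hx2]; exact one_mem _
  have hZV : Z ≤ V := fun z hz => Or.inl hz
  have hxcomm : ∀ y ∈ V, x * y = y * x := by
    rintro y (hy | hy)
    · exact (hZcomm y hy x).symm
    · have h2 : (x * y) * x = x * (x * y) := hZcomm _ hy x
      have : x * (y * x) = x * (x * y) := by rw [← mul_assoc]; exact h2
      exact (mul_left_cancel this).symm
  have hVcomm : ∀ y ∈ V, ∀ y' ∈ V, y * y' = y' * y := by
    rintro y (hy | hy) y' hy'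
    · exact hZcomm y hy y'
    · have h1 : y = x * (x * y) := by rw [← mul_assoc, hx2, one_mul]
      calc y * y' = x * ((x * y) * y') := by rw [← mul_assoc, ← h1]
        _ = x * (y' * (x * y)) := by rw [hZcomm _ hy y']
        _ = (x * y') * (x * y) := by group
        _ = (y' * x) * (x * y) := by rw [hxcomm y' hy']
        _ = y' * (x * (x * y)) := by group
        _ = y' * y := by rw [← h1]
  have hV2 : ∀ y ∈ V, y * y = 1 := by
    rintro y (hy | hy)
    · exact hZ2 y hy
    · have h1 : y = x * (x * y) := by rw [← mul_assoc, hx2, one_mul]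
      have h2 : (x * y) * (x * y) = 1 := hZ2 _ hy
      have h3 : x * y = y * x := hxcomm y (Or.inr hy)
      calc y * y = (x * x) * (y * y) := by rw [hx2, one_mul]
        _ = x * (x * y) * y := by group
        _ = x * (y * x) * y := by rw [h3]
        _ = (x * y) * (x * y) := by group
        _ = 1 := h2
  have hVcard : 4 < Nat.card V := by
    rw [← hZ4]
    rcases lt_or_eq_of_le (Nat.le_of_dvd Nat.card_pos (Subgroup.card_dvd_of_le hZV)) with h | h
    · exact h
    · exfalso
      have := Subgroup.eq_of_le_of_card_ge hZV h.ge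
      rw [← this] at hxV
      exact hxZ hxV
  have hVle := hrank (V.map P.subtype) (Subgroup.map_subtype_le V) ⟨⟨by
      rintro ⟨_, a, ha, rfl⟩ ⟨_, b, hb, rfl⟩
      exact Subtype.ext (congrArg (Subtype.val : P → X) (hVcomm a ha b hb))⟩⟩ (by
      rintro _ ⟨a, ha, rfl⟩
      rw [pow_two]
      exact congrArg Subtype.val (hV2 a ha))
  rw [Subgroup.card_map_of_injective (Subgroup.subtype_injective P)] at hVle
  omega

/-- Let d be a non-identity 3-element of a finite group and P a 2-subgroup normalized by d on which ⟨d⟩ acts faithfully (no non-identity power of d centralizes P) and without non-identity fixed points (C_P(d) = 1). If every abelian subgroup of P has 2-rank at most 2, then d has order 3. -/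
theorem result {X : Type*} [Group X] [Finite X] (d : X) (n : ℕ) (hn : 1 ≤ n) (hd : orderOf d = 3 ^ n) (P : Subgroup X) (hP : IsPGroup 2 P) (hdP : d ∈ Subgroup.normalizer (P : Set X)) (hfaith : Subgroup.zpowers d ⊓ Subgroup.centralizer (P : Set X) = ⊥) (hfpf : P ⊓ Subgroup.centralizer {d} = ⊥) (hrank : ∀ V : Subgroup X, V ≤ P → IsMulCommutative V → Cfsg.PRankLE 2 2 V) : orderOf d = 3 := by
  obtain ⟨k, rfl⟩ : ∃ k, n = k + 1 := ⟨n - 1, by omega⟩
  rcases Nat.eq_zero_or_pos k with rfl | hk
  · rw [hd]; norm_num
  · exfalso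
    have h1 := key d k hk (by rw [← hd]; exact pow_orderOf_eq_one d) _ P rfl hP hdP hfpf (by
      intro V hV hVc hV2
      have h2 := hrank V hV hVc (⊤ : Subgroup V) ?_ ?_
      · rw [Subgroup.card_top] at h2
        simpa using h2
      · exact ⟨⟨fun a b => Subtype.ext (hVc.is_comm.comm _ _)⟩⟩
      · rintro a -
        exact Subtype.ext (hV2 a a.2))
    have h2 : d ^ 3 ^ k ∈ zpowers d ⊓ centralizer (P : Set X) :=
      ⟨pow_mem (mem_zpowers d) _, h1⟩
    rw [hfaith, mem_bot] at h2
    have h3 := orderOf_dvd_of_pow_eq_one h2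
    rw [hd] at h3
    have h4 := Nat.le_of_dvd (by positivity) h3
    have h5 : 3 ^ k < 3 ^ (k + 1) := Nat.pow_lt_pow_right (by norm_num) (by omega)
    omega

end Cfsg.Agent.S3738
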