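import Cfsg.Statements.S3739
import Cfsg.Agent.S3738
import Cfsg.Agent.Lib.Cores
import Cfsg.Agent.Lib.CoprimeHyperplane
import Cfsg.Agent.Transfer.TausskyTwoGroup

set_option autoImplicit false
open Cfsg

namespace Cfsg.Agent.S3739

open Subgroup

/-- Elementary abelian subgroups of order 8 do not exist: bound on all of them. -/
theorem card_le_four {G : Type*} [Group G] [Finite G]
    (hno : ¬ ∃ E : Subgroup G, Cfsg.IsElementaryAbelian 2 E ∧ Nat.card E = 8) (V : Subgroup G)
    (hV : Cfsg.IsElementaryAbelian 2 V) : Nat.card V ≤ 4 := by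
  by_contra hlt
  push Not at hlt
  apply hno
  have hVp : IsPGroup 2 V := fun a => ⟨1, Subtype.ext (by
    rw [pow_one]; exact hV.2 a a.2)⟩
  obtain ⟨k, hk⟩ := IsPGroup.iff_card.1 hVp
  have hk3 : 3 ≤ k := by
    by_contra h
    push Not at h
    rw [hk] at hlt
    interval_cases k <;> omega
  obtain ⟨E, hE⟩ := Sylow.exists_subgroup_card_pow_prime 2 (G := V) (n := 3) (by
    rw [hk]; exact pow_dvd_pow 2 hk3)
  refine ⟨E.map V.subtype, ⟨⟨⟨?_⟩⟩, ?_⟩, ?_⟩
  · rintro ⟨_, a, _, rfl⟩ ⟨_, b, _, rfl⟩
    exact Subtype.ext (congrArg (Subtype.val : V → G) (hV.1.is_comm.comm a b))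
  · rintro _ ⟨a, _, rfl⟩
    exact hV.2 a a.2
  · rw [Subgroup.card_map_of_injective (Subgroup.subtype_injective V), hE]
    norm_num

/-- `⟨V, t⟩` is elementary abelian when `t` is an involution centralizing `V`. -/
theorem exists_sup {G : Type*} [Group G] {V : Subgroup G}
    (hVc : ∀ a ∈ V, ∀ b ∈ V, a * b = b * a) (hV2 : ∀ a ∈ V, a * a = 1) {x : G} (hx2 : x * x = 1)
    (hx : ∀ a ∈ V, a * x = x * a) : ∃ E : Subgroup G, Cfsg.IsElementaryAbelian 2 E ∧ V ≤ E ∧ x ∈ E := by
  let E : Subgroup G :=
    { carrier := {y | y ∈ V ∨ x * y ∈ V}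
      mul_mem' := by
        rintro a b (ha | ha) (hb | hb)
        · exact Or.inl (mul_mem ha hb)
        · right
          have : x * (a * b) = a * (x * b) := by
            rw [← mul_assoc, ← hx a ha, mul_assoc]
          rw [this]; exact mul_mem ha hb
        · right
          have : x * (a * b) = (x * a) * b := by group
          rw [this]; exact mul_mem ha hb
        · left
          have h1 : a * b = (x * a) * (x * b) := by
            have h2 : (x * a) * x = x * (x * a) := hx _ ha
            calc a * b = (x * x) * a * b := by rw [hx2, one_mul]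
              _ = x * (x * a) * b := by group
              _ = (x * a) * x * b := by rw [h2]
              _ = (x * a) * (x * b) := by group
          rw [h1]; exact mul_mem ha hb
      one_mem' := Or.inl (one_mem _)
      inv_mem' := by
        rintro a (ha | ha)
        · exact Or.inl (inv_mem ha)
        · right
          have h2 : (x * a) * x = x * (x * a) := hx _ ha
          have h3 : x * a = a * x := by
            have : x * (a * x) = x * (x * a) := by rw [← mul_assoc]; exact h2
            exact (mul_left_cancel this).symm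
          have h4 : x * a⁻¹ = x * x * (x * a)⁻¹ := by
            rw [h3]; group
          rw [h4, hx2, one_mul]; exact inv_mem ha }
  have hxcomm : ∀ y ∈ E, x * y = y * x := by
    rintro y (hy | hy)
    · exact (hx y hy).symm
    · have h2 : (x * y) * x = x * (x * y) := hx _ hy
      have : x * (y * x) = x * (x * y) := by rw [← mul_assoc]; exact h2
      exact (mul_left_cancel this).symm
  have hVE : ∀ y ∈ V, ∀ y' ∈ E, y * y' = y' * y := by
    rintro y hy y' (hy' | hy')
    · exact hVc y hy y' hy'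
    · have h1 : y' = x * (x * y') := by rw [← mul_assoc, hx2, one_mul]
      calc y * y' = (y * x) * (x * y') := by rw [mul_assoc, ← mul_assoc x x y', hx2, one_mul]
        _ = (x * y) * (x * y') := by rw [hx y hy]
        _ = x * (y * (x * y')) := by group
        _ = x * ((x * y') * y) := by rw [hVc y hy _ hy']
        _ = (x * (x * y')) * y := by group
        _ = y' * y := by rw [← h1]
  refine ⟨E, ⟨⟨⟨?_⟩⟩, ?_⟩, fun a ha => Or.inl ha, Or.inr (by rw [hx2]; exact one_mem _)⟩
  · rintro ⟨y, hy⟩ ⟨y', hy'⟩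
    apply Subtype.ext
    change y * y' = y' * y
    rcases hy with hy | hy
    · exact hVE y hy y' hy'
    · have h1 : y = x * (x * y) := by rw [← mul_assoc, hx2, one_mul]
      calc y * y' = x * ((x * y) * y') := by rw [← mul_assoc, ← h1]
        _ = x * (y' * (x * y)) := by rw [hVE _ hy y' hy']
        _ = (x * y') * (x * y) := by group
        _ = (y' * x) * (x * y) := by rw [hxcomm y' hy']
        _ = y' * (x * (x * y)) := by group
        _ = y' * y := by rw [← h1]
  · rintro y (hy | hy)
    · rw [pow_two]; exact hV2 y hy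
    · have h2 : (x * y) * (x * y) = 1 := hV2 _ hy
      have h3 : x * y = y * x := hxcomm y (Or.inr hy)
      rw [pow_two]
      calc y * y = (x * x) * (y * y) := by rw [hx2, one_mul]
        _ = x * (x * y) * y := by group
        _ = x * (y * x) * y := by rw [h3]
        _ = (x * y) * (x * y) := by group
        _ = 1 := h2

/-- a finite group of order at most `4` has an automorphism group of order dividing `6`. -/
theorem card_mulAut_dvd_six {Q : Type*} [Group Q] [Finite Q] (h : Nat.card Q ≤ 4) :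
    Nat.card (MulAut Q) ∣ 6 := by
  classical
  let f : MulAut Q →* Equiv.Perm {x : Q // x ≠ 1} :=
    { toFun := fun φ => (φ.toEquiv).subtypeEquiv (fun x => by
        change x ≠ 1 ↔ φ x ≠ 1
        rw [not_iff_not]
        exact (MulEquiv.map_eq_one_iff φ).symm)
      map_one' := by ext x; rfl
      map_mul' := fun φ ψ => by ext x; rfl }
  have hinj : Function.Injective f := by
    intro φ ψ h
    ext x
    by_cases hx : x = 1
    · rw [hx, map_one, map_one]
    · exact congrArg (fun σ : Equiv.Perm {x : Q // x ≠ 1} => ((σ ⟨x, hx⟩ : {x : Q // x ≠ 1}) : Q)) h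
  have h1 := Subgroup.card_dvd_of_injective f hinj
  rw [Nat.card_perm] at h1
  have h2 : Nat.card {x : Q // x ≠ 1} ≤ 3 := by
    have h3 : Nat.card {x : Q // x ≠ 1} + 1 = Nat.card Q := by
      have e : {x : Q // x ≠ 1} ⊕ {x : Q // x = 1} ≃ Q :=
        (Equiv.sumComm _ _).trans (Equiv.sumCompl (fun x : Q => x = 1))
      rw [← Nat.card_congr e, Nat.card_sum]
      congr 1
      symm
      rw [Nat.card_eq_one_iff_unique]
      exact ⟨⟨fun a b => Subtype.ext (a.2.trans b.2.symm)⟩, ⟨⟨1, rfl⟩⟩⟩
    omega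
  have h3 : (Nat.card {x : Q // x ≠ 1}).factorial ∣ Nat.factorial 3 :=
    Nat.factorial_dvd_factorial h2
  exact h1.trans h3

/-- A `3`-element with a nontrivial fixed point on an elementary abelian group of order at most 4
acts trivially. -/
theorem commute_of_fix {G : Type*} [Group G] [Finite G] {Z : Subgroup G} (hZ : Nat.card Z ≤ 4)
    {x : G} {k : ℕ} (hx : x ^ 3 ^ k = 1) (hxZ : x ∈ normalizer (Z : Set G)) {z : G} (hz : z ∈ Z)
    (hz1 : z ≠ 1) (hxz : x * z = z * x) : ∀ y ∈ Z, x * y = y * x := by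
  classical
  -- `x` acts on `Z ∖ {1, z}`, which has at most two elements
  let φ : MulAut Z := Z.normalizerMonoidHom ⟨x, hxZ⟩
  have hφ : ∀ y : Z, ((φ y : Z) : G) = x * y * x⁻¹ := fun y => rfl
  have hφk : φ ^ 3 ^ k = 1 := by
    have : (⟨x, hxZ⟩ : ↥(normalizer (Z : Set G))) ^ 3 ^ k = 1 := Subtype.ext hx
    rw [← map_pow, this, map_one]
  have hord : orderOf φ ∣ 3 := by
    have h1 : orderOf φ ∣ 6 := (orderOf_dvd_natCard φ).trans (card_mulAut_dvd_six hZ)
    have h2 : orderOf φ ∣ 3 ^ k := orderOf_dvd_of_pow_eq_one hφk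
    have h3 : (orderOf φ).Coprime 2 :=
      (Nat.Coprime.pow_left k (by norm_num : Nat.Coprime 3 2)).coprime_dvd_left h2
    exact h3.dvd_of_dvd_mul_left h1
  have hφz : φ ⟨z, hz⟩ = ⟨z, hz⟩ := Subtype.ext (by rw [hφ, mul_inv_eq_iff_eq_mul]; exact hxz)
  -- orbits of `φ` on `Z`
  have hfix : ∀ y : Z, φ y = y := by
    by_contra hne
    push Not at hne
    obtain ⟨y, hy⟩ := hne
    have h3' : φ ^ 3 = 1 := orderOf_dvd_iff_pow_eq_one.1 hord
    have h4 : φ (φ (φ y)) = y := by
      have := congrArg (fun ψ : MulAut Z => ψ y) h3'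
      simpa [pow_succ] using this
    -- the five elements `1, z, y, φ y, φ (φ y)` are distinct
    have hy2 : φ (φ y) ≠ φ y := fun h => hy (φ.injective h)
    have hy3 : φ (φ y) ≠ y := by
      intro h
      rw [h] at h4
      exact hy h4
    have h1y : ∀ w : Z, φ w = w → y ≠ w ∧ φ y ≠ w ∧ φ (φ y) ≠ w := by
      intro w hw
      refine ⟨?_, ?_, ?_⟩
      · rintro rfl; exact hy hw
      · intro h
        apply hy
        have : φ y = φ w := by rw [h, hw]
        rw [φ.injective this, hw]
      · intro h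
        apply hy
        have h5 : φ (φ y) = φ w := by rw [h, hw]
        have h6 := φ.injective h5
        have : φ y = φ w := by rw [h6, hw]
        rw [φ.injective this, hw]
    have h5 : 5 ≤ Nat.card Z := by
      have hz' : (⟨z, hz⟩ : Z) ≠ 1 := fun h => hz1 (congrArg Subtype.val h)
      obtain ⟨a1, a2, a3⟩ := h1y 1 (map_one φ)
      obtain ⟨b1, b2, b3⟩ := h1y ⟨z, hz⟩ hφz
      have hcard : ({1, ⟨z, hz⟩, y, φ y, φ (φ y)} : Finset Z).card = 5 := by
        rw [Finset.card_insert_of_notMem, Finset.card_insert_of_notMem,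
          Finset.card_insert_of_notMem, Finset.card_insert_of_notMem, Finset.card_singleton]
        · simp only [Finset.mem_singleton]; exact fun h => hy2 h.symm
        · simp only [Finset.mem_insert, Finset.mem_singleton, not_or]
          exact ⟨fun h => hy h.symm, fun h => hy3 h.symm⟩
        · simp only [Finset.mem_insert, Finset.mem_singleton, not_or]
          exact ⟨fun h => b1 h.symm, fun h => b2 h.symm, fun h => b3 h.symm⟩
        · simp only [Finset.mem_insert, Finset.mem_singleton, not_or]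
          exact ⟨fun h => hz' h.symm, fun h => a1 h.symm, fun h => a2 h.symm, fun h => a3 h.symm⟩
      have := Fintype.ofFinite Z
      rw [Nat.card_eq_fintype_card, ← hcard]
      exact Finset.card_le_univ _
    omega
  intro y hy
  have := congrArg Subtype.val (hfix ⟨y, hy⟩)
  rw [hφ, mul_inv_eq_iff_eq_mul] at this
  exact this

theorem card_eq_four {G : Type*} [Group G] [Finite G] {V : Subgroup G} (hV : Nat.card V ≤ 4)
    (hVp : IsPGroup 2 V) (hV1 : V ≠ ⊥) {x : G} (hx : x ∈ normalizer (V : Set G))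
    (hf : V ⊓ centralizer {x} = ⊥) : Nat.card V = 4 := by
  obtain ⟨k, hk⟩ := IsPGroup.iff_card.1 hVp
  have hk2 : k ≤ 2 := by
    by_contra h
    push Not at h
    have := Nat.pow_le_pow_right (n := 2) (by norm_num) h
    omega
  interval_cases k
  · rw [pow_zero] at hk
    exact absurd (Subgroup.eq_bot_of_card_eq _ hk) hV1
  · exfalso
    rw [pow_one] at hk
    haveI : Nontrivial V := (Subgroup.nontrivial_iff_ne_bot V).2 hV1
    obtain ⟨c, hc1⟩ := exists_ne (1 : V)
    have h2 := (Nat.card_eq_two_iff' (1 : V)).1 hk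
    obtain ⟨t, ht, htu⟩ := h2
    have hxc : x * c * x⁻¹ ∈ V := (Subgroup.mem_normalizer_iff.1 hx c).1 c.2
    have h3 : (⟨x * c * x⁻¹, hxc⟩ : V) = c := by
      have e1 := htu ⟨x * c * x⁻¹, hxc⟩ (by
        intro h
        have h4 : x * c * x⁻¹ = 1 := congrArg Subtype.val h
        apply hc1
        apply Subtype.ext
        rw [mul_inv_eq_one] at h4
        exact mul_eq_left.1 h4)
      exact e1.trans (htu c hc1).symm
    have h4 : x * c * x⁻¹ = c := congrArg Subtype.val h3
    have h5 : (c : G) ∈ V ⊓ centralizer {x} := by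
      refine Subgroup.mem_inf.2 ⟨c.2, ?_⟩
      rw [mem_centralizer_singleton_iff]
      exact (mul_inv_eq_iff_eq_mul.1 h4).symm
    rw [hf, mem_bot] at h5
    exact hc1 (Subtype.ext h5)
  · rw [hk]; norm_num

theorem isPGroup_two_of_sq {G : Type*} [Group G] {V : Subgroup G} (h : ∀ a ∈ V, a * a = 1) :
    IsPGroup 2 V := fun a => ⟨1, Subtype.ext (by rw [pow_one, pow_two]; exact h a a.2)⟩

theorem main {G : Type*} [Group G] [Finite G] (hchar : Subgroup.centralizer (Cfsg.pCore 2 G : Set G) ≤ Cfsg.pCore 2 G) (hsix : ∃ g : G, orderOf g = 6) (d : G) (hd : IsPGroup 3 ↥(Subgroup.zpowers d)) (W : Subgroup G) (hW : Cfsg.IsElementaryAbelian 2 W) (hW1 : W ≠ ⊥) (hdW : d ∈ Subgroup.normalizer (W : Set G)) (hfpf : W ⊓ Subgroup.centralizer {d} = ⊥) : ∃ E : Subgroup G, Cfsg.IsElementaryAbelian 2 E ∧ Nat.card E = 8 := by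
  classical
  by_contra hno
  have hcard4 : ∀ V : Subgroup G, Cfsg.IsElementaryAbelian 2 V → Nat.card V ≤ 4 := card_le_four hno
  obtain ⟨g, hg⟩ := hsix
  obtain ⟨P, hPdef⟩ : ∃ P : Subgroup G, P = Cfsg.pCore 2 G := ⟨_, rfl⟩
  have hPn : P.Normal := by rw [hPdef]; exact Cfsg.Agent.Lib.Cores.pCore_normal 2
  have hPp : IsPGroup 2 P := by rw [hPdef]; exact Cfsg.Agent.Lib.Cores.pCore_isPGroup 2
  rw [← hPdef] at hchar
  have hPne : P ≠ ⊥ := by
    intro h
    rw [h] at hchar
    have h1 : g ∈ centralizer ((⊥ : Subgroup G) : Set G) := by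
      rw [mem_centralizer_iff]
      intro x hx
      rw [Subgroup.coe_bot, Set.mem_singleton_iff] at hx
      rw [hx, one_mul, mul_one]
    have h2 := hchar h1
    rw [mem_bot] at h2
    rw [h2, orderOf_one] at hg
    omega
  -- an element of `P` of 3-power order is trivial
  have hP3 : ∀ x ∈ P, ∀ k : ℕ, x ^ 3 ^ k = 1 → x = 1 := by
    intro x hx k hk
    obtain ⟨j, hj⟩ := hPp ⟨x, hx⟩
    have hj' : x ^ 2 ^ j = 1 := congrArg Subtype.val hj
    have h1 : orderOf x ∣ 3 ^ k := orderOf_dvd_of_pow_eq_one hk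
    have h2 : orderOf x ∣ 2 ^ j := orderOf_dvd_of_pow_eq_one hj'
    exact orderOf_eq_one_iff.1 (Nat.eq_one_of_dvd_coprimes
      (Nat.Coprime.pow k j (by norm_num : Nat.Coprime 3 2)) h1 h2)
  have hCPn : (centralizer (P : Set G)).Normal := Subgroup.normal_centralizer
  let Z : Subgroup G :=
    { carrier := {x | x ∈ P ∧ x ∈ centralizer (P : Set G) ∧ x * x = 1}
      mul_mem' := by
        rintro x y ⟨hx1, hx2, hx3⟩ ⟨hy1, hy2, hy3⟩
        refine ⟨mul_mem hx1 hy1, mul_mem hx2 hy2, ?_⟩
        have h1 : x * y = y * x := mem_centralizer_iff.1 hy2 x hx1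
        calc x * y * (x * y) = x * (y * x) * y := by group
          _ = x * (x * y) * y := by rw [h1]
          _ = (x * x) * (y * y) := by group
          _ = 1 := by rw [hx3, hy3, one_mul]
      one_mem' := ⟨one_mem _, one_mem _, one_mul 1⟩
      inv_mem' := by
        rintro x ⟨hx1, hx2, hx3⟩
        exact ⟨inv_mem hx1, inv_mem hx2, by rw [← mul_inv_rev, hx3, inv_one]⟩ }
  have hZmem : ∀ x : G, x ∈ Z ↔ (x ∈ P ∧ x ∈ centralizer (P : Set G) ∧ x * x = 1) :=
    fun x => Iff.rfl
  have hZn : Z.Normal := by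
    refine ⟨fun x hx y => ?_⟩
    obtain ⟨hx1, hx2, hx3⟩ := (hZmem x).1 hx
    refine (hZmem _).2 ⟨hPn.conj_mem x hx1 y, hCPn.conj_mem x hx2 y, ?_⟩
    calc y * x * y⁻¹ * (y * x * y⁻¹) = y * (x * x) * y⁻¹ := by group
      _ = 1 := by rw [hx3]; group
  have hCZn : (centralizer (Z : Set G)).Normal := Subgroup.normal_centralizer
  have hZc : ∀ a ∈ Z, ∀ b ∈ Z, a * b = b * a := fun a ha b hb =>
    mem_centralizer_iff.1 ((hZmem b).1 hb).2.1 a ((hZmem a).1 ha).1
  have hZ2 : ∀ a ∈ Z, a * a = 1 := fun a ha => ((hZmem a).1 ha).2.2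
  have hZE : Cfsg.IsElementaryAbelian 2 Z :=
    ⟨⟨⟨fun a b => Subtype.ext (hZc a a.2 b b.2)⟩⟩, fun a ha => by rw [pow_two]; exact hZ2 a ha⟩
  have hZ4 := hcard4 Z hZE
  have hZp : IsPGroup 2 Z := isPGroup_two_of_sq hZ2
  have hZ1 : Z ≠ ⊥ := by
    haveI : Nontrivial P := (Subgroup.nontrivial_iff_ne_bot P).2 hPne
    obtain ⟨C, -, hCc, hC2⟩ := Cfsg.Agent.Transfer.TausskyTwoGroup.exists_central_card_prime_le hPp
      (⊤ : Subgroup P) (by
        intro h
        have := Subgroup.nontrivial_iff_ne_bot (⊤ : Subgroup P)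
        exact (this.1 (by exact (Subgroup.topEquiv (G := P)).toEquiv.nontrivial)) h)
    haveI : Nontrivial C := by
      rw [← Finite.one_lt_card_iff_nontrivial, hC2]; norm_num
    obtain ⟨c, hc⟩ := exists_ne (1 : C)
    have hcc : c * c = 1 := by
      rw [← pow_two]
      have := pow_card_eq_one' (x := c)
      rwa [hC2] at this
    intro hbot
    have hcZ : ((c : P) : G) ∈ Z := by
      refine (hZmem _).2 ⟨(c : P).2, ?_, ?_⟩
      · rw [mem_centralizer_iff]
        intro x hx
        have := mem_center_iff.1 (hCc c.2) ⟨x, hx⟩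
        exact congrArg Subtype.val this
      · exact congrArg (fun y : C => ((y : P) : G)) hcc
    rw [hbot, mem_bot] at hcZ
    exact hc (Subtype.ext (Subtype.ext hcZ))
  have hZnorm : ∀ x : G, x ∈ normalizer (Z : Set G) := fun x => by
    rw [Subgroup.mem_normalizer_iff]
    intro h
    constructor
    · exact fun hh => hZn.conj_mem h hh x
    · intro hh
      have := hZn.conj_mem _ hh x⁻¹
      have h2 : x⁻¹ * (x * h * x⁻¹) * x⁻¹⁻¹ = h := by group
      rwa [h2] at this
  obtain ⟨kd, hkd⟩ := hd ⟨d, mem_zpowers d⟩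
  have hdk : d ^ 3 ^ kd = 1 := congrArg Subtype.val hkd
  have hWp : IsPGroup 2 W := isPGroup_two_of_sq (fun a ha => by rw [← pow_two]; exact hW.2 a ha)
  have hW4 := card_eq_four (hcard4 W hW) hWp hW1 hdW hfpf
  -- `W` centralizes `Z`
  have hWZ : W ≤ centralizer (Z : Set G) := by
    have hd0 : d ∈ normalizer ((W ⊓ centralizer (Z : Set G) : Subgroup G) : Set G) := by
      rw [Subgroup.mem_normalizer_iff]
      intro h
      rw [Subgroup.mem_inf, Subgroup.mem_inf, ← Subgroup.mem_normalizer_iff.1 hdW h]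
      refine and_congr_right fun _ => ⟨fun hh => hCZn.conj_mem h hh d, fun hh => ?_⟩
      have := hCZn.conj_mem _ hh d⁻¹
      have h2 : d⁻¹ * (d * h * d⁻¹) * d⁻¹⁻¹ = h := by group
      rwa [h2] at this
    have hne : W ⊓ centralizer (Z : Set G) ≠ ⊥ := by
      intro hbot
      let f : W →* MulAut Z := (Z.normalizerMonoidHom).comp
        (Subgroup.inclusion (fun x _ => hZnorm x : W ≤ normalizer (Z : Set G)))
      have hf : Function.Injective f := by
        rw [injective_iff_map_eq_one]
        intro w hw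
        have h1 : (⟨w, hZnorm w⟩ : ↥(normalizer (Z : Set G))) ∈ Z.normalizerMonoidHom.ker := hw
        rw [Subgroup.normalizerMonoidHom_ker, mem_subgroupOf] at h1
        have h2 : (w : G) ∈ W ⊓ centralizer (Z : Set G) := Subgroup.mem_inf.2 ⟨w.2, h1⟩
        rw [hbot, mem_bot] at h2
        exact Subtype.ext h2
      have h1 := (Subgroup.card_dvd_of_injective f hf).trans (card_mulAut_dvd_six hZ4)
      rw [hW4] at h1
      revert h1; decide
    have h4 : Nat.card ↥(W ⊓ centralizer (Z : Set G)) = 4 := by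
      refine card_eq_four ?_ ?_ hne hd0 ?_
      · exact (Nat.le_of_dvd Nat.card_pos (Subgroup.card_dvd_of_le inf_le_left)).trans hW4.le
      · exact hWp.to_le inf_le_left
      · rw [eq_bot_iff, ← hfpf]
        exact inf_le_inf_right _ inf_le_left
    have h5 : W ⊓ centralizer (Z : Set G) = W :=
      Subgroup.eq_of_le_of_card_ge inf_le_left (by rw [h4, hW4])
    exact inf_eq_left.1 h5
  have hZW : Z ≤ W := by
    intro z hz
    obtain ⟨E, hE, hWE, hzE⟩ := exists_sup (V := W) (x := z)
      (fun a ha b hb => congrArg Subtype.val (hW.1.is_comm.comm ⟨a, ha⟩ ⟨b, hb⟩))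
      (fun a ha => by rw [← pow_two]; exact hW.2 a ha) (hZ2 z hz)
      (fun a ha => (mem_centralizer_iff.1 (hWZ ha) z hz).symm)
    have : W = E := Subgroup.eq_of_le_of_card_ge hWE (by rw [hW4]; exact hcard4 E hE)
    rw [this]; exact hzE
  have hZfpf : Z ⊓ centralizer {d} = ⊥ := by
    rw [eq_bot_iff, ← hfpf]
    exact inf_le_inf_right _ hZW
  have hZ4' := card_eq_four hZ4 hZp hZ1 (hZnorm d) hZfpf
  have hinvZ : ∀ t : G, t * t = 1 → t ∈ centralizer (Z : Set G) → t ∈ Z := by
    intro t ht htc
    obtain ⟨E, hE, hZE', htE⟩ := exists_sup (V := Z) (x := t) hZc hZ2 ht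
      (fun a ha => mem_centralizer_iff.1 htc a ha)
    have : Z = E := Subgroup.eq_of_le_of_card_ge hZE' (by rw [hZ4']; exact hcard4 E hE)
    rw [this]; exact htE
  -- 3-elements not centralizing `Z`
  have h5 : ∀ (x : G) (k : ℕ), x ^ 3 ^ k = 1 → x ∉ centralizer (Z : Set G) →
      Z ⊓ centralizer {x} = ⊥ := by
    intro x k hx hxZ
    by_contra hne
    obtain ⟨z, hz, hz1⟩ := (Subgroup.ne_bot_iff_exists_ne_one (H := Z ⊓ centralizer {x})).1 hne |>.elim
      (fun z hz => (⟨(z : G), z.2, fun h => hz (Subtype.ext h)⟩ : ∃ z : G, z ∈ Z ⊓ centralizer {x} ∧ z ≠ 1))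
    obtain ⟨hzZ, hzx⟩ := Subgroup.mem_inf.1 hz
    apply hxZ
    rw [mem_centralizer_iff]
    intro y hy
    exact (commute_of_fix hZ4 hx (hZnorm x) hzZ hz1
      (mem_centralizer_singleton_iff.1 hzx).symm y hy).symm
  have h5P : ∀ (x : G) (k : ℕ), x ^ 3 ^ k = 1 → x ∉ centralizer (Z : Set G) →
      P ⊓ centralizer {x} = ⊥ := by
    intro x k hx hxZ
    by_contra hne
    haveI : Nontrivial ↥(P ⊓ centralizer {x}) := (Subgroup.nontrivial_iff_ne_bot _).2 hne
    have hp2 : IsPGroup 2 ↥(P ⊓ centralizer {x}) := hPp.to_le inf_le_left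
    obtain ⟨n, hn0, hn⟩ := hp2.nontrivial_iff_card.1 inferInstance
    have h2 : 2 ∣ Nat.card ↥(P ⊓ centralizer {x}) := by
      rw [hn]; exact dvd_pow_self 2 hn0.ne'
    obtain ⟨t, ht⟩ := exists_prime_orderOf_dvd_card' 2 h2
    have htt : (t : G) * t = 1 := by
      have := pow_orderOf_eq_one t
      rw [ht, pow_two] at this
      exact congrArg Subtype.val this
    obtain ⟨htP, htx⟩ := Subgroup.mem_inf.1 t.2
    have htZ : (t : G) ∈ Z := by
      apply hinvZ _ htt
      rw [mem_centralizer_iff]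
      intro z hz
      exact (mem_centralizer_iff.1 ((hZmem z).1 hz).2.1 t htP).symm
    have h3 : (t : G) ∈ Z ⊓ centralizer {x} := Subgroup.mem_inf.2 ⟨htZ, htx⟩
    rw [h5 x k hx hxZ, mem_bot] at h3
    have h4 : t = 1 := Subtype.ext h3
    rw [h4, orderOf_one] at ht
    omega
  have h6 : ∀ (x : G) (k : ℕ), x ^ 3 ^ k = 1 → x ∉ centralizer (Z : Set G) → orderOf x = 3 := by
    intro x k hx hxZ
    obtain ⟨n, -, hn⟩ := (Nat.dvd_prime_pow Nat.prime_three).1 (orderOf_dvd_of_pow_eq_one hx)
    have hn1 : 1 ≤ n := by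
      rcases Nat.eq_zero_or_pos n with rfl | h
      · exfalso
        rw [pow_zero, orderOf_eq_one_iff] at hn
        rw [hn] at hxZ
        exact hxZ (one_mem _)
      · exact h
    refine Cfsg.Agent.S3738.result x n hn1 hn P hPp ?_ ?_ (h5P x k hx hxZ) ?_
    · rw [Subgroup.mem_normalizer_iff]
      intro h
      constructor
      · exact fun hh => hPn.conj_mem h hh x
      · intro hh
        have := hPn.conj_mem _ hh x⁻¹
        have h2 : x⁻¹ * (x * h * x⁻¹) * x⁻¹⁻¹ = h := by group
        rwa [h2] at this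
    · rw [eq_bot_iff]
      rintro y hy
      obtain ⟨hy1, hy2⟩ := Subgroup.mem_inf.1 hy
      obtain ⟨j, rfl⟩ := hy1
      rw [mem_bot]
      apply hP3 _ (hchar hy2) k
      change (x ^ j) ^ 3 ^ k = 1
      rw [← zpow_natCast, ← zpow_mul, mul_comm, zpow_mul, zpow_natCast, hx, one_zpow]
    · intro V hV hVc A hAc hA2
      have h1 := hcard4 (A.map V.subtype) ⟨⟨⟨?_⟩⟩, ?_⟩
      · rw [Subgroup.card_map_of_injective (Subgroup.subtype_injective V)] at h1
        exact h1
      · rintro ⟨_, a, _, rfl⟩ ⟨_, b, _, rfl⟩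
        exact Subtype.ext (congrArg (Subtype.val : V → G) (hVc.is_comm.comm a b))
      · rintro _ ⟨a, ha, rfl⟩
        exact congrArg (Subtype.val : V → G) (hA2 a ha)
  -- the element of order 3 commuting with an involution
  have hg6 : g ^ 6 = 1 := by rw [← hg]; exact pow_orderOf_eq_one g
  set u := g ^ 2 with hu
  set t := g ^ 3 with ht
  have hu3 : u ^ 3 = 1 := by rw [hu, ← pow_mul]; exact hg6
  have hu1 : u ≠ 1 := by
    intro h
    have := orderOf_dvd_of_pow_eq_one h
    rw [hg] at this
    revert this; decide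
  have ht2 : t * t = 1 := by rw [ht, ← pow_add]; exact hg6
  have ht1 : t ≠ 1 := by
    intro h
    have := orderOf_dvd_of_pow_eq_one h
    rw [hg] at this
    revert this; decide
  have hut : u * t = t * u := by rw [hu, ht, ← pow_add, ← pow_add]
  have huZ : u ∈ centralizer (Z : Set G) := by
    by_contra huZ
    have hfu := h5 u 1 (by rw [pow_one]; exact hu3) huZ
    by_cases htZ : t ∈ centralizer (Z : Set G)
    · have h1 : t ∈ Z ⊓ centralizer {u} :=
        Subgroup.mem_inf.2 ⟨hinvZ t ht2 htZ, mem_centralizer_singleton_iff.2 hut.symm⟩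
      rw [hfu, mem_bot] at h1
      exact ht1 h1
    · -- the fixed points of `t` on `Z`
      have huN : u ∈ normalizer ((Z ⊓ centralizer {t} : Subgroup G) : Set G) := by
        rw [Subgroup.mem_normalizer_iff]
        intro h
        rw [Subgroup.mem_inf, Subgroup.mem_inf, ← Subgroup.mem_normalizer_iff.1 (hZnorm u) h]
        refine and_congr_right fun _ => ?_
        rw [mem_centralizer_singleton_iff, mem_centralizer_singleton_iff]
        constructor
        · intro hh
          calc u * h * u⁻¹ * t = u * h * (u⁻¹ * t * u) * u⁻¹ := by group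
            _ = u * h * (u⁻¹ * (u * t)) * u⁻¹ := by rw [hut]; group
            _ = u * (h * t) * u⁻¹ := by group
            _ = u * (t * h) * u⁻¹ := by rw [hh]
            _ = (u * t) * h * u⁻¹ := by group
            _ = (t * u) * h * u⁻¹ := by rw [hut]
            _ = t * (u * h * u⁻¹) := by group
        · intro hh
          have h1 : u * (h * t) * u⁻¹ = u * (t * h) * u⁻¹ := by
            calc u * (h * t) * u⁻¹ = u * h * u⁻¹ * (u * t) * u⁻¹ := by group
              _ = u * h * u⁻¹ * (t * u) * u⁻¹ := by rw [hut]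
              _ = (u * h * u⁻¹ * t) * u * u⁻¹ := by group
              _ = (t * (u * h * u⁻¹)) * u * u⁻¹ := by rw [hh]
              _ = (t * u) * h * u⁻¹ := by group
              _ = (u * t) * h * u⁻¹ := by rw [hut]
              _ = u * (t * h) * u⁻¹ := by group
          exact mul_left_cancel (mul_right_cancel h1)
      have hne : Z ⊓ centralizer {t} ≠ ⊥ := by
        -- the involution `t` acts on the group `Z` of even order
        obtain ⟨z, hz, hz1⟩ := (Subgroup.ne_bot_iff_exists_ne_one (H := Z)).1 hZ1 |>.elim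
          (fun z hz => (⟨(z : G), z.2, fun h => hz (Subtype.ext h)⟩ : ∃ z : G, z ∈ Z ∧ z ≠ 1))
        have hzt : t * z * t⁻¹ ∈ Z := hZn.conj_mem z hz t
        have htinv : t⁻¹ = t := inv_eq_of_mul_eq_one_right ht2
        intro hbot
        have h1 : z * (t * z * t⁻¹) ∈ Z ⊓ centralizer {t} := by
          refine Subgroup.mem_inf.2 ⟨mul_mem hz hzt, ?_⟩
          rw [mem_centralizer_singleton_iff]
          have h2 := hZc z hz _ hzt
          calc z * (t * z * t⁻¹) * t = z * (t * z) := by group
            _ = (t * t) * z * (t * z) := by rw [ht2, one_mul]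
            _ = t * ((t * z * t⁻¹) * z) := by rw [htinv]; 
                                              calc t * t * z * (t * z) = t * ((t * z * t) * z) := by group
                                                _ = _ := rfl
            _ = t * (z * (t * z * t⁻¹)) := by rw [h2]
        rw [hbot, mem_bot] at h1
        -- so `t z t⁻¹ = z⁻¹ = z`
        have hzz : z * z = 1 := hZ2 z hz
        have h3 : t * z * t⁻¹ = z := by
          have h4 : z * (t * z * t⁻¹) = z * z := by rw [h1, hzz]
          exact mul_left_cancel h4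
        have h4 : z ∈ Z ⊓ centralizer {t} :=
          Subgroup.mem_inf.2 ⟨hz, mem_centralizer_singleton_iff.2 (mul_inv_eq_iff_eq_mul.1 h3).symm⟩
        rw [hbot, mem_bot] at h4
        exact hz1 h4
      have h4 : Nat.card ↥(Z ⊓ centralizer {t}) = 4 := by
        refine card_eq_four ?_ (hZp.to_le inf_le_left) hne huN ?_
        · exact (Nat.le_of_dvd Nat.card_pos (Subgroup.card_dvd_of_le inf_le_left)).trans hZ4
        · rw [eq_bot_iff, ← hfu]
          exact inf_le_inf_right _ inf_le_left
      have h7 : Z ⊓ centralizer {t} = Z :=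
        Subgroup.eq_of_le_of_card_ge inf_le_left (by rw [h4, hZ4'])
      apply htZ
      rw [mem_centralizer_iff]
      intro z hz
      exact mem_centralizer_singleton_iff.1 (inf_eq_left.1 h7 hz)
  have hdZ : d ∉ centralizer (Z : Set G) := by
    intro h
    apply hZ1
    rw [eq_bot_iff, ← hZfpf]
    intro z hz
    exact Subgroup.mem_inf.2 ⟨hz, mem_centralizer_singleton_iff.2 (mem_centralizer_iff.1 h z hz)⟩
  have hd3 : orderOf d = 3 := h6 d kd hdk hdZ
  -- a Sylow 3-subgroup containing `d`
  obtain ⟨T, hT⟩ := hd.exists_le_sylow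
  have hdT : d ∈ (T : Subgroup G) := hT (mem_zpowers d)
  have hup : IsPGroup 3 (zpowers u) := by
    apply IsPGroup.of_card (n := 1)
    rw [Nat.card_zpowers, pow_one]
    exact orderOf_eq_prime hu3 hu1
  obtain ⟨T', hT'⟩ := hup.exists_le_sylow
  obtain ⟨h, hh⟩ := MulAction.exists_smul_eq G T' T
  have huT : h * u * h⁻¹ ∈ (T : Subgroup G) := by
    rw [← hh]
    exact Subgroup.smul_mem_pointwise_smul u (MulAut.conj h) (T' : Subgroup G) (hT' (mem_zpowers u))
  have huCZ : h * u * h⁻¹ ∈ centralizer (Z : Set G) := hCZn.conj_mem u huZ h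
  have hT0n : ((centralizer (Z : Set G)).subgroupOf (T : Subgroup G)).Normal := inferInstance
  obtain ⟨C, hCT0, hCc, hC3⟩ := Cfsg.Agent.Transfer.TausskyTwoGroup.exists_central_card_prime_le T.2
    ((centralizer (Z : Set G)).subgroupOf (T : Subgroup G)) (by
      intro hbot
      have h1 : (⟨h * u * h⁻¹, huT⟩ : (T : Subgroup G)) ∈
        (centralizer (Z : Set G)).subgroupOf (T : Subgroup G) := huCZ
      rw [hbot, mem_bot] at h1
      have h2 : h * u * h⁻¹ = 1 := congrArg Subtype.val h1
      apply hu1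
      rw [mul_inv_eq_one] at h2
      exact mul_eq_left.1 h2)
  haveI : Nontrivial C := by
    rw [← Finite.one_lt_card_iff_nontrivial, hC3]; norm_num
  obtain ⟨c, hc⟩ := exists_ne (1 : C)
  obtain ⟨v, hv⟩ : ∃ v : G, v = ((c : (T : Subgroup G)) : G) := ⟨_, rfl⟩
  have hv1 : v ≠ 1 := by
    intro h
    rw [hv] at h
    exact hc (Subtype.ext (Subtype.ext h))
  have hv3 : v ^ 3 = 1 := by
    have := pow_card_eq_one' (x := c)
    rw [hC3] at this
    rw [hv]
    exact congrArg (fun y : C => ((y : (T : Subgroup G)) : G)) this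
  have hvZ : v ∈ centralizer (Z : Set G) := by
    rw [hv]
    exact hCT0 c.2
  have hdv : Commute d v := by
    have := mem_center_iff.1 (hCc c.2) ⟨d, hdT⟩
    rw [hv]
    exact congrArg Subtype.val this
  have hd3' : d ^ 3 = 1 := by rw [← hd3]; exact pow_orderOf_eq_one d
  let A : Subgroup G :=
    { carrier := {x | ∃ i j : ℤ, x = d ^ i * v ^ j}
      mul_mem' := by
        rintro _ _ ⟨i, j, rfl⟩ ⟨i', j', rfl⟩
        refine ⟨i + i', j + j', ?_⟩
        have h1 : v ^ j * d ^ i' = d ^ i' * v ^ j := ((hdv.symm.zpow_zpow j i')).eq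
        calc d ^ i * v ^ j * (d ^ i' * v ^ j') = d ^ i * (v ^ j * d ^ i') * v ^ j' := by group
          _ = d ^ i * (d ^ i' * v ^ j) * v ^ j' := by rw [h1]
          _ = d ^ (i + i') * v ^ (j + j') := by rw [zpow_add, zpow_add]; group
      one_mem' := ⟨0, 0, by simp⟩
      inv_mem' := by
        rintro _ ⟨i, j, rfl⟩
        refine ⟨-i, -j, ?_⟩
        have h1 : v ^ (-j) * d ^ (-i) = d ^ (-i) * v ^ (-j) := ((hdv.symm.zpow_zpow (-j) (-i))).eq
        rw [← h1, mul_inv_rev, zpow_neg, zpow_neg] }
  have hAmem : ∀ x : G, x ∈ A ↔ ∃ i j : ℤ, x = d ^ i * v ^ j := fun x => Iff.rfl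
  have hdA : d ∈ A := ⟨1, 0, by simp⟩
  have hvA : v ∈ A := ⟨0, 1, by simp⟩
  have hcm : ∀ i j i' j' : ℤ, (d ^ i * v ^ j) * (d ^ i' * v ^ j') = (d ^ i' * v ^ j') * (d ^ i * v ^ j) := by
    intro i j i' j'
    have c1 : Commute (d ^ i) (d ^ i' * v ^ j') :=
      ((Commute.refl d).zpow_zpow i i').mul_right (hdv.zpow_zpow i j')
    have c2 : Commute (v ^ j) (d ^ i' * v ^ j') :=
      (hdv.symm.zpow_zpow j i').mul_right ((Commute.refl v).zpow_zpow j j')
    exact (c1.mul_left c2).eq
  have hAE : Cfsg.IsElementaryAbelian 3 A := by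
    refine ⟨⟨⟨?_⟩⟩, ?_⟩
    · rintro ⟨_, i, j, rfl⟩ ⟨_, i', j', rfl⟩
      exact Subtype.ext (hcm i j i' j')
    · rintro _ ⟨i, j, rfl⟩
      rw [(hdv.zpow_zpow i j).mul_pow, ← zpow_natCast, ← zpow_natCast, ← zpow_mul, ← zpow_mul,
        mul_comm i, mul_comm j, zpow_mul, zpow_mul, zpow_natCast, zpow_natCast, hd3', hv3]
      simp
  have hAne : A ≠ ⊥ := by
    intro hbot
    rw [hbot, mem_bot] at hvA
    exact hv1 hvA
  have hP3' : (Nat.card P).Coprime 3 := by
    obtain ⟨n, hn⟩ := IsPGroup.iff_card.1 hPp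
    rw [hn]
    exact Nat.Coprime.pow_left n (by norm_num)
  have hAP : A ≤ normalizer (P : Set G) := by
    intro x _
    rw [Subgroup.mem_normalizer_iff]
    intro h
    constructor
    · exact fun hh => hPn.conj_mem h hh x
    · intro hh
      have := hPn.conj_mem _ hh x⁻¹
      have h2 : x⁻¹ * (x * h * x⁻¹) * x⁻¹⁻¹ = h := by group
      rwa [h2] at this
  have hgen := Cfsg.Agent.Lib.CoprimeHyperplane.le_iSup_hyperplane A P hAE hAne hP3' hAP
  -- nontrivial power of a cube-trivial element generates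
  have hpow : ∀ (x : G) (i : ℤ), x ^ 3 = 1 → x ^ i ≠ 1 → x ∈ zpowers (x ^ i) := by
    intro x i hx hi
    have hi3 : ¬ (3 : ℤ) ∣ i := by
      rintro ⟨m, rfl⟩
      apply hi
      rw [zpow_mul]
      have : x ^ (3 : ℤ) = 1 := by exact_mod_cast hx
      rw [this, one_zpow]
    have h3 : ∃ m : ℤ, (3 : ℤ) ∣ i * m - 1 := by
      have : i % 3 = 1 ∨ i % 3 = 2 := by omega
      rcases this with h | h
      · exact ⟨1, by omega⟩
      · exact ⟨2, by omega⟩
    obtain ⟨m, r, hr⟩ := h3
    refine ⟨m, ?_⟩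
    change (x ^ i) ^ m = x
    rw [← zpow_mul]
    have h4 : i * m = 3 * r + 1 := by omega
    rw [h4, zpow_add, zpow_mul, zpow_one]
    have : x ^ (3 : ℤ) = 1 := by exact_mod_cast hx
    rw [this, one_zpow, one_mul]
  have hPv : P ≤ centralizer {v} := by
    rw [hgen]
    refine iSup_le ?_
    rintro ⟨B, hBA, hB⟩
    by_cases hvB : v ∈ B
    · refine inf_le_right.trans ?_
      apply Subgroup.centralizer_le
      intro y hy
      rw [Set.mem_singleton_iff] at hy
      rw [hy]; exact hvB
    · -- `B` contains an element outside `C(Z)`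
      obtain ⟨b, hbB, hbZ⟩ : ∃ b ∈ B, b ∉ centralizer (Z : Set G) := by
        by_contra hcon
        push Not at hcon
        have hBbot : B = ⊥ := by
          rw [eq_bot_iff]
          intro b hb
          rw [mem_bot]
          by_contra hb1
          obtain ⟨i, j, rfl⟩ := hBA hb
          have h1 := hcon _ hb
          have h2 : d ^ i ∈ centralizer (Z : Set G) := by
            have h3 := mul_mem h1 (inv_mem (zpow_mem hvZ j))
            have h4 : d ^ i * v ^ j * (v ^ j)⁻¹ = d ^ i := by group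
            rwa [h4] at h3
          have h3 : d ^ i = 1 := by
            by_contra h3
            apply hdZ
            have h4 := hpow d i hd3' h3
            have h5 : zpowers (d ^ i) ≤ centralizer (Z : Set G) := by
              rw [zpowers_le]; exact h2
            exact h5 h4
          rw [h3, one_mul] at hb hb1
          apply hvB
          have h4 := hpow v j hv3 hb1
          have h5 : zpowers (v ^ j) ≤ B := by rw [zpowers_le]; exact hb
          exact h5 h4
        rw [hBbot, Subgroup.relIndex_bot_left] at hB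
        -- `A` has order 3, so `d ∈ ⟨v⟩`
        have h1 : zpowers v = A := by
          refine Subgroup.eq_of_le_of_card_ge (by rw [zpowers_le]; exact hvA) ?_
          rw [hB, Nat.card_zpowers, orderOf_eq_prime hv3 hv1]
        apply hdZ
        have h2 : zpowers v ≤ centralizer (Z : Set G) := by rw [zpowers_le]; exact hvZ
        apply h2
        rw [h1]; exact hdA
      have hb3 : b ^ 3 = 1 := hAE.2 b (hBA hbB)
      have h1 := h5P b 1 (by rw [pow_one]; exact hb3) hbZ
      have h2 : P ⊓ centralizer (B : Set G) ≤ P ⊓ centralizer {b} := by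
        apply inf_le_inf_left
        apply Subgroup.centralizer_le
        intro y hy
        rw [Set.mem_singleton_iff] at hy
        rw [hy]; exact hbB
      rw [h1] at h2
      exact h2.trans bot_le
  have hvP : v ∈ P := by
    apply hchar
    rw [mem_centralizer_iff]
    intro x hx
    exact mem_centralizer_singleton_iff.1 (hPv hx)
  exact hv1 (hP3 v hvP 1 (by rw [pow_one]; exact hv3))

/-- Let G be a finite group with C_G(O₂(G)) ≤ O₂(G) containing an element of order 6, and let d be a non-identity 3-element of G normalizing a nontrivial elementary abelian 2-subgroup W with C_W(d) = 1. Then G has an elementary abelian subgroup of order 8. -/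
theorem result {G : Type*} [Group G] [Finite G] (hchar : Subgroup.centralizer (Cfsg.pCore 2 G : Set G) ≤ Cfsg.pCore 2 G) (hsix : ∃ g : G, orderOf g = 6) (d : G) (hd1 : d ≠ 1) (hd : IsPGroup 3 ↥(Subgroup.zpowers d)) (W : Subgroup G) (hW : Cfsg.IsElementaryAbelian 2 W) (hW1 : W ≠ ⊥) (hdW : d ∈ Subgroup.normalizer (W : Set G)) (hfpf : W ⊓ Subgroup.centralizer {d} = ⊥) : ∃ E : Subgroup G, Cfsg.IsElementaryAbelian 2 E ∧ Nat.card E = 8 :=
  main hchar hsix d hd W hW hW1 hdW hfpf

end Cfsg.Agent.S3739
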