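import Cfsg.Statements.S3740
import Cfsg.Agent.LieClassical.SLTwoSylowTwo
import Cfsg.Agent.LieClassical.SLTwoQuaternion
import Cfsg.Agent.SylowG2.SLTwoThreeRecog
import Cfsg.Agent.Lib.CoprimeHyperplane
import Cfsg.Agent.LFourB.ProdAut
import Cfsg.Agent.PermutationGroups.AutQuaternion
import Cfsg.Agent.OddOrderLocal.PiCoreOf
import Cfsg.Agent.S0071

set_option autoImplicit false
open Cfsg

namespace Cfsg.Agent.S3740

open Matrix

section field

variable {F : Type*} [Field F] (p : ℕ) [hpf : Fact p.Prime] [CharP F p]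

include hpf in
theorem two_ne (hp : p ≠ 2) : (2 : F) ≠ 0 := by
  intro h
  have h3 : ((2 : ℕ) : F) = 0 := by exact_mod_cast h
  rw [CharP.cast_eq_zero_iff F p] at h3
  exact hp ((Nat.prime_dvd_prime_iff_eq Fact.out Nat.prime_two).1 h3)

/-- an element of `p`-power order of `SL₂(F)` has order dividing `p` -/
theorem pow_p_eq_one {a : SpecialLinearGroup (Fin 2) F} {k : ℕ} (h : a ^ p ^ k = 1) :
    a ^ p = 1 := by
  obtain ⟨hdet, htr⟩ := Cfsg.Agent.LieClassical.DicksonWeak.unip_of_pow_eq_one p h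
  have hdet' : (a : Matrix (Fin 2) (Fin 2) F).det = 1 := hdet
  have htr' : (a : Matrix (Fin 2) (Fin 2) F).trace = 2 := htr
  have hsq : ((a : Matrix (Fin 2) (Fin 2) F) - 1) ^ 2 = 0 := by
    rw [Matrix.det_fin_two] at hdet'
    rw [Matrix.trace_fin_two] at htr'
    have h11 : (a : Matrix (Fin 2) (Fin 2) F) 1 1 = 2 - (a : Matrix (Fin 2) (Fin 2) F) 0 0 := by
      linear_combination htr'
    rw [h11] at hdet'
    ext i j
    fin_cases i <;> fin_cases j <;>
      simp [pow_two, Matrix.mul_apply, Fin.sum_univ_two, h11] <;>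
      first | ring1 | linear_combination (-1 : F) * hdet'
  have hp2 : 2 ≤ p := hpf.out.two_le
  have h0 : ((a : Matrix (Fin 2) (Fin 2) F) - 1) ^ p = 0 := by
    rw [← Nat.add_sub_cancel' hp2, pow_add, hsq, zero_mul]
  rw [sub_pow_char_of_commute p (Commute.one_right _), one_pow, sub_eq_zero] at h0
  apply Subtype.ext
  exact h0

/-- a `p'`-element commuting with a nontrivial `p`-element is `±1` -/
theorem eq_pm_one_of_commute (hp : p ≠ 2) {a r : SpecialLinearGroup (Fin 2) F} {k : ℕ}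
    (h : a ^ p ^ k = 1) (ha1 : a ≠ 1) (hr : (orderOf r).Coprime p) (hc : r * a = a * r) :
    r = 1 ∨ r = -1 := by
  have h2 : (2 : F) ≠ 0 := two_ne p hp
  have hns : ∀ c : F, (a : Matrix (Fin 2) (Fin 2) F) ≠ c • (1 : Matrix (Fin 2) (Fin 2) F) := by
    intro c hc
    rcases Cfsg.Agent.LieClassical.SLTwoQuaternion.eq_one_or_of_scalar a c hc with h' | h'
    · exact ha1 h'
    · have hodd : Odd (p ^ k) := (hpf.out.odd_of_ne_two hp).pow
      rw [h', hodd.neg_one_pow] at h
      have h3 := congrArg (fun B : SpecialLinearGroup (Fin 2) F =>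
        (B : Matrix (Fin 2) (Fin 2) F) 0 0) h
      have h4 : (-1 : F) = 1 := by simpa using h3
      apply h2
      linear_combination (-1 : F) * h4
  have hc' : (r : Matrix (Fin 2) (Fin 2) F) * (a : Matrix (Fin 2) (Fin 2) F) =
      (a : Matrix (Fin 2) (Fin 2) F) * (r : Matrix (Fin 2) (Fin 2) F) :=
    congrArg (fun B : SpecialLinearGroup (Fin 2) F => (B : Matrix (Fin 2) (Fin 2) F)) hc
  obtain ⟨x, y, hxy⟩ := Cfsg.Agent.LieClassical.SLTwoQuaternion.exists_eq_of_commute _ _ hns hc'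
  have hap : (a : Matrix (Fin 2) (Fin 2) F) ^ p = 1 :=
    congrArg (fun B : SpecialLinearGroup (Fin 2) F => (B : Matrix (Fin 2) (Fin 2) F))
      (pow_p_eq_one p h)
  have hrp : ((r ^ p : SpecialLinearGroup (Fin 2) F) : Matrix (Fin 2) (Fin 2) F) =
      (x ^ p + y ^ p) • (1 : Matrix (Fin 2) (Fin 2) F) := by
    change (r : Matrix (Fin 2) (Fin 2) F) ^ p = _
    rw [hxy, add_pow_char_of_commute p ((Commute.one_left _).smul_left x), smul_pow, smul_pow, hap,
      one_pow, add_smul]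
  have hrp2 : r ^ (p * 2) = 1 := by
    rcases Cfsg.Agent.LieClassical.SLTwoQuaternion.eq_one_or_of_scalar _ _ hrp with h' | h'
    · rw [pow_mul, h', one_pow]
    · rw [pow_mul, h']; simp
  have hord : orderOf r ∣ 2 := by
    have := orderOf_dvd_of_pow_eq_one hrp2
    exact hr.dvd_of_dvd_mul_left this
  have hr2 : r * r = 1 := by
    rw [← pow_two]; exact orderOf_dvd_iff_pow_eq_one.1 hord
  exact Cfsg.Agent.LieClassical.SLTwoQuaternion.eq_one_or_of_sq h2 r hr2

/-- If `K ⊔ ⟨a⟩` has a single Sylow `p`-subgroup then `a` centralizes `K`. -/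
theorem commute_of_card_sylow {G : Type*} [Group G] [Finite G] {a : G} (K : Subgroup G)
    (hK : (Nat.card K).Coprime p) (ha : IsPGroup p (Subgroup.zpowers a))
    (haK : a ∈ Subgroup.normalizer (K : Set G))
    (h1 : ¬ 1 < Nat.card (Sylow p ↥(K ⊔ Subgroup.zpowers a))) : ∀ k ∈ K, k * a = a * k := by
  intro k hk
  have haH : a ∈ K ⊔ Subgroup.zpowers a := Subgroup.mem_sup_right (Subgroup.mem_zpowers a)
  have hkH : k ∈ K ⊔ Subgroup.zpowers a := Subgroup.mem_sup_left hk
  have hpg : IsPGroup p ↥(Subgroup.zpowers (⟨a, haH⟩ : ↥(K ⊔ Subgroup.zpowers a))) := by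
    have : (Subgroup.zpowers (⟨a, haH⟩ : ↥(K ⊔ Subgroup.zpowers a))).map (Subgroup.subtype _) =
        Subgroup.zpowers a := by
      rw [MonoidHom.map_zpowers]; rfl
    rw [← this] at ha
    exact ha.of_equiv (Subgroup.equivMapOfInjective _ _ (Subgroup.subtype_injective _)).symm
  obtain ⟨P, hP⟩ := hpg.exists_le_sylow
  have huniq : Subsingleton (Sylow p ↥(K ⊔ Subgroup.zpowers a)) := by
    rw [← Finite.card_le_one_iff_subsingleton]
    exact not_lt.1 h1
  haveI hPn : (P : Subgroup ↥(K ⊔ Subgroup.zpowers a)).Normal := Sylow.normal_of_subsingleton P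
  have haP : (⟨a, haH⟩ : ↥(K ⊔ Subgroup.zpowers a)) ∈ (P : Subgroup ↥(K ⊔ Subgroup.zpowers a)) :=
    hP (Subgroup.mem_zpowers _)
  have hcP : (⟨k, hkH⟩ * ⟨a, haH⟩ * ⟨k, hkH⟩⁻¹ * ⟨a, haH⟩⁻¹ : ↥(K ⊔ Subgroup.zpowers a)) ∈
      (P : Subgroup ↥(K ⊔ Subgroup.zpowers a)) :=
    mul_mem (hPn.conj_mem _ haP _) (inv_mem haP)
  have hcK : k * a * k⁻¹ * a⁻¹ ∈ K := by
    have : a * k⁻¹ * a⁻¹ ∈ K := (Subgroup.mem_normalizer_iff.1 haK k⁻¹).1 (inv_mem hk)
    have h2 := mul_mem hk this
    convert h2 using 1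
    group
  have hord1 : orderOf (k * a * k⁻¹ * a⁻¹) ∣ Nat.card K := Subgroup.orderOf_dvd_natCard K hcK
  obtain ⟨n, hn⟩ := (IsPGroup.iff_orderOf.1 P.2) ⟨_, hcP⟩
  have hord2 : orderOf (k * a * k⁻¹ * a⁻¹) = p ^ n := by
    rw [← hn, Subgroup.orderOf_mk]
    exact (Subgroup.orderOf_mk _ (_ : k * a * k⁻¹ * a⁻¹ ∈ K ⊔ Subgroup.zpowers a)).symm
  have hco : (orderOf (k * a * k⁻¹ * a⁻¹)).Coprime (p ^ n) :=
    (Nat.Coprime.pow_right n hK).coprime_dvd_left hord1
  rw [hord2] at hco
  have h1' : p ^ n = 1 := (Nat.coprime_self _).1 hco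
  rw [h1', orderOf_eq_one_iff] at hord2
  rw [mul_inv_eq_one, mul_inv_eq_iff_eq_mul] at hord2
  exact hord2

theorem neg_one_ne_one (hp : p ≠ 2) : (-1 : SpecialLinearGroup (Fin 2) F) ≠ 1 := by
  intro h
  have h3 := congrArg (fun B : SpecialLinearGroup (Fin 2) F =>
    (B : Matrix (Fin 2) (Fin 2) F) 0 0) h
  have h4 : (-1 : F) = 1 := by simpa using h3
  apply two_ne (F := F) p hp
  linear_combination (-1 : F) * h4

/-- Odd `p'`-subgroups normalized by a nontrivial `p`-element are trivial. -/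
theorem eq_bot_of_odd [Finite F] (hp : p ≠ 2) {a : SpecialLinearGroup (Fin 2) F}
    (ha : IsPGroup p (Subgroup.zpowers a)) (ha1 : a ≠ 1)
    (K : Subgroup (SpecialLinearGroup (Fin 2) F)) (hK : (Nat.card K).Coprime p)
    (hodd : ¬ 2 ∣ Nat.card K)
    (haK : a ∈ Subgroup.normalizer (K : Set (SpecialLinearGroup (Fin 2) F))) : K = ⊥ := by
  obtain ⟨k, hk⟩ := ha ⟨a, Subgroup.mem_zpowers a⟩
  have hak : a ^ p ^ k = 1 := congrArg Subtype.val hk
  have h1 : ¬ 1 < Nat.card (Sylow p ↥(K ⊔ Subgroup.zpowers a)) := by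
    intro h1
    obtain ⟨S⟩ : Nonempty (Sylow 2 ↥(K ⊔ Subgroup.zpowers a)) := inferInstance
    obtain ⟨k, hk, ⟨e⟩⟩ := Cfsg.Agent.LieClassical.SLTwoSylowTwo.sylow_two_quaternion p hp _ h1 S
    have h2 : 2 ∣ Nat.card (S : Subgroup ↥(K ⊔ Subgroup.zpowers a)) := by
      rw [Nat.card_congr e.toEquiv, Nat.card_eq_fintype_card, QuaternionGroup.card]
      exact Dvd.dvd.mul_right (by norm_num) _
    have h3 : 2 ∣ Nat.card (Subgroup.zpowers a) * Nat.card K := by
      have := Cfsg.Agent.OddOrderLocal.PiCoreOf.card_sup_dvd_of_le_normalizer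
        (H := Subgroup.zpowers a) (N := K) (by rwa [Subgroup.zpowers_le])
      rw [sup_comm] at this
      exact (h2.trans (Subgroup.card_subgroup_dvd_card _)).trans this
    rcases (Nat.prime_two.dvd_mul).1 h3 with h4 | h4
    · obtain ⟨n, hn⟩ := IsPGroup.iff_card.1 ha
      rw [hn] at h4
      exact hp ((Nat.prime_dvd_prime_iff_eq Nat.prime_two hpf.out).1
        (Nat.prime_two.dvd_of_dvd_pow h4)).symm
    · exact hodd h4
  have hc := commute_of_card_sylow p K hK ha haK h1
  rw [eq_bot_iff]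
  intro r hr
  have hrc : (orderOf r).Coprime p :=
    Nat.Coprime.coprime_dvd_left (Subgroup.orderOf_dvd_natCard K hr) hK
  rcases eq_pm_one_of_commute p hp hak ha1 hrc (hc r hr) with h | h
  · exact Subgroup.mem_bot.2 h
  · exfalso
    apply hodd
    have h2 : orderOf r = 2 := by
      apply orderOf_eq_prime
      · rw [h]; simp
      · rw [h]; exact neg_one_ne_one p hp
    have h3 := Subgroup.orderOf_dvd_natCard K hr
    rwa [h2] at h3

end field

/-- a finite group of order at most `4` has an automorphism group of order dividing `24`. -/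
theorem card_mulAut_dvd {Q : Type*} [Group Q] [Finite Q] (h : Nat.card Q ≤ 4) :
    Nat.card (MulAut Q) ∣ 24 := by
  have hinj : Function.Injective (MulAut.toPerm Q) := by
    intro φ ψ h
    ext x
    exact congrArg (fun σ : Equiv.Perm Q => σ x) h
  have h1 := Subgroup.card_dvd_of_injective (MulAut.toPerm Q) hinj
  rw [Nat.card_perm] at h1
  have h2 : (Nat.card Q).factorial ∣ Nat.factorial 4 := Nat.factorial_dvd_factorial h
  exact h1.trans h2

/-- normal `2`-complement in a `{2,3}'`-by-`Q₈` situation -/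
theorem local_condition {R : Type*} [Group R] [Finite R] (h3 : (Nat.card R).Coprime 3)
    (S : Sylow 2 R) (e : (S : Subgroup R) ≃* QuaternionGroup 2) :
    ∀ Q : Subgroup R, Q ≤ (S : Subgroup R) → ∀ g ∈ Subgroup.normalizer (Q : Set R),
      Nat.Coprime (orderOf g) 2 → g ∈ Subgroup.centralizer (Q : Set R) := by
  intro Q hQ g hg hg2
  have hS8 : Nat.card (S : Subgroup R) = 8 := by
    rw [Nat.card_congr e.toEquiv, Nat.card_eq_fintype_card, QuaternionGroup.card]
  have h24 : Nat.card (MulAut Q) ∣ 24 := by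
    by_cases hQ8 : Nat.card Q = 8
    · have hQS : Q = (S : Subgroup R) := Subgroup.eq_of_le_of_card_ge hQ (by rw [hQ8, hS8])
      subst hQS
      rw [Nat.card_congr (MulAut.congr e).toEquiv,
        Cfsg.Agent.PermutationGroups.AutQuaternion.card_mulAut]
    · apply card_mulAut_dvd
      have h1 : Nat.card Q ∣ 8 := by
        rw [← hS8]; exact Subgroup.card_dvd_of_le hQ
      have h2 : Nat.card Q ≤ 8 := Nat.le_of_dvd (by norm_num) h1
      generalize Nat.card Q = n at *
      interval_cases n <;> omega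
  have h1 : orderOf (Q.normalizerMonoidHom ⟨g, hg⟩) ∣ orderOf g := by
    have := orderOf_map_dvd Q.normalizerMonoidHom (⟨g, hg⟩ : ↥(Subgroup.normalizer (Q : Set R)))
    rwa [Subgroup.orderOf_mk] at this
  have h2 : orderOf (Q.normalizerMonoidHom ⟨g, hg⟩) ∣ 24 :=
    (orderOf_dvd_natCard _).trans h24
  have hg3 : Nat.Coprime (orderOf g) 3 := h3.coprime_dvd_left (orderOf_dvd_natCard g)
  have hg24 : Nat.Coprime (orderOf g) 24 := by
    have : (24 : ℕ) = 2 ^ 3 * 3 := by norm_num
    rw [this]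
    exact Nat.Coprime.mul_right (hg2.pow_right 3) hg3
  have h4 : orderOf (Q.normalizerMonoidHom ⟨g, hg⟩) = 1 :=
    Nat.eq_one_of_dvd_coprimes hg24 h1 h2
  have h5 : (⟨g, hg⟩ : ↥(Subgroup.normalizer (Q : Set R))) ∈ Q.normalizerMonoidHom.ker :=
    orderOf_eq_one_iff.1 h4
  rw [Subgroup.normalizerMonoidHom_ker, Subgroup.mem_subgroupOf] at h5
  exact h5

/-- membership in a normal subgroup of `2`-power index of odd order -/
theorem mem_of_odd {R : Type*} [Group R] [Finite R] (N : Subgroup R) [N.Normal] {k : ℕ}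
    (h : N.index = 2 ^ k) (y : R) (hy : ¬ 2 ∣ orderOf y) : y ∈ N := by
  rw [← QuotientGroup.eq_one_iff, ← orderOf_eq_one_iff]
  have h1 : orderOf (y : R ⧸ N) ∣ orderOf y := orderOf_map_dvd (QuotientGroup.mk' N) y
  have h2 : orderOf (y : R ⧸ N) ∣ 2 ^ k := by
    rw [← h, Subgroup.index_eq_card]; exact orderOf_dvd_natCard _
  have h3 : Nat.Coprime (orderOf y) (2 ^ k) :=
    Nat.Coprime.pow_right k ((Nat.Prime.coprime_iff_not_dvd Nat.prime_two).2 hy).symm
  exact Nat.eq_one_of_dvd_coprimes h3 h1 h2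

theorem main (F : Type) [Field F] [Fintype F] {p : ℕ} [hpf : Fact p.Prime] [CharP F p] (hp : p ≠ 2)
    (a : Matrix.SpecialLinearGroup (Fin 2) F) (ha : IsPGroup p ↥(Subgroup.zpowers a))
    (R : Subgroup (Matrix.SpecialLinearGroup (Fin 2) F)) (hR : (Nat.card R).Coprime p)
    (haR : a ∈ Subgroup.normalizer (R : Set (Matrix.SpecialLinearGroup (Fin 2) F)))
    (hnt : ⁅R, Subgroup.zpowers a⁆ ≠ ⊥) :
    p = 3 ∧ Nonempty (↥R ≃* QuaternionGroup 2) ∧
      Nonempty (↥(R ⊔ Subgroup.zpowers a) ≃* Matrix.SpecialLinearGroup (Fin 2) (ZMod 3)) := by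
  classical
  have hnc : ¬ ∀ r ∈ R, r * a = a * r := by
    intro h
    apply hnt
    rw [Subgroup.commutator_comm, Subgroup.commutator_eq_bot_iff_le_centralizer, Subgroup.zpowers_le,
      Subgroup.mem_centralizer_iff]
    exact h
  have ha1 : a ≠ 1 := by
    rintro rfl
    exact hnc (fun r _ => by rw [mul_one, one_mul])
  obtain ⟨k0, hk0⟩ := ha ⟨a, Subgroup.mem_zpowers a⟩
  have hak : a ^ p ^ k0 = 1 := congrArg Subtype.val hk0
  have hap : a ^ p = 1 := pow_p_eq_one p hak
  have hoa : orderOf a = p := orderOf_eq_prime hap ha1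
  have hcardH : Nat.card ↥(R ⊔ Subgroup.zpowers a) ∣ Nat.card R * p := by
    have := Cfsg.Agent.OddOrderLocal.PiCoreOf.card_sup_dvd_of_le_normalizer
        (H := Subgroup.zpowers a) (N := R) (by rwa [Subgroup.zpowers_le])
    rw [sup_comm, Nat.card_zpowers, hoa, mul_comm] at this
    exact this
  have h1 : 1 < Nat.card (Sylow p ↥(R ⊔ Subgroup.zpowers a)) := by
    by_contra h
    exact hnc (commute_of_card_sylow p R hR ha haR h)
  have hRp : ¬ p ∣ Nat.card R := by
    intro h
    have := Nat.Coprime.eq_one_of_dvd hR.symm h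
    exact hpf.out.one_lt.ne' this
  obtain ⟨S, hS⟩ := Cfsg.Agent.Lib.CoprimeHyperplane.exists_invariant_sylow ha
    (by rwa [Subgroup.zpowers_le] : Subgroup.zpowers a ≤ Subgroup.normalizer (R : Set _)) hRp 2
  rw [Subgroup.zpowers_le] at hS
  set S' : Subgroup (Matrix.SpecialLinearGroup (Fin 2) F) := (S : Subgroup R).map R.subtype with hS'
  have hS'R : S' ≤ R := Subgroup.map_subtype_le _
  have hS'H : S' ≤ R ⊔ Subgroup.zpowers a := hS'R.trans le_sup_left
  let eS : (S : Subgroup R) ≃* S' := Subgroup.equivMapOfInjective _ _ (Subgroup.subtype_injective _)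
  have hS'2 : IsPGroup 2 S' := S.2.of_equiv eS
  have hS'card : Nat.card S' = 2 ^ (Nat.card R).factorization 2 := by
    rw [← Nat.card_congr eS.toEquiv]
    exact Sylow.card_eq_multiplicity S
  have hS'H2 : IsPGroup 2 (S'.subgroupOf (R ⊔ Subgroup.zpowers a)) :=
    hS'2.of_equiv (Subgroup.subgroupOfEquivOfLe hS'H).symm
  obtain ⟨T, hT⟩ := hS'H2.exists_le_sylow
  obtain ⟨k, hk, ⟨eT⟩⟩ := Cfsg.Agent.LieClassical.SLTwoSylowTwo.sylow_two_quaternion p hp _ h1 T
  have hTcard : Nat.card (T : Subgroup ↥(R ⊔ Subgroup.zpowers a)) ≤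
      Nat.card (S'.subgroupOf (R ⊔ Subgroup.zpowers a)) := by
    rw [Nat.card_congr (Subgroup.subgroupOfEquivOfLe hS'H).toEquiv, hS'card,
      Sylow.card_eq_multiplicity T]
    apply Nat.pow_le_pow_right (by norm_num)
    have hR0 : Nat.card R ≠ 0 := Nat.card_pos.ne'
    have := (Nat.factorization_le_iff_dvd Nat.card_pos.ne'
      (mul_ne_zero hR0 hpf.out.ne_zero)).2 hcardH 2
    rw [Nat.factorization_mul hR0 hpf.out.ne_zero, Finsupp.add_apply,
      hpf.out.factorization, Finsupp.single_apply, if_neg hp, add_zero] at this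
    exact this
  have hTS : S'.subgroupOf (R ⊔ Subgroup.zpowers a) = T := Subgroup.eq_of_le_of_card_ge hT hTcard
  let eTS : S' ≃* QuaternionGroup (2 ^ k) :=
    ((Subgroup.subgroupOfEquivOfLe hS'H).symm.trans (MulEquiv.subgroupCongr hTS)).trans eT
  -- the automorphism of `S'` induced by `a`
  let c : MulAut S' := S'.normalizerMonoidHom ⟨a, hS⟩
  have hcp : c ^ p = 1 := by
    have : (⟨a, hS⟩ : ↥(Subgroup.normalizer (S' : Set _))) ^ p = 1 := Subtype.ext hap
    rw [← map_pow, this, map_one]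
  have hS'card' : Nat.card S' = 4 * 2 ^ k := by
    rw [Nat.card_congr eTS.toEquiv, Nat.card_eq_fintype_card, QuaternionGroup.card]
  have hc1 : c ≠ 1 := by
    intro hc
    have h5 : (⟨a, hS⟩ : ↥(Subgroup.normalizer (S' : Set _))) ∈ S'.normalizerMonoidHom.ker := hc
    rw [Subgroup.normalizerMonoidHom_ker, Subgroup.mem_subgroupOf, Subgroup.mem_centralizer_iff] at h5
    have h6 : ∀ s : S', (s : Matrix.SpecialLinearGroup (Fin 2) F) = 1 ∨
        (s : Matrix.SpecialLinearGroup (Fin 2) F) = -1 := by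
      intro s
      refine eq_pm_one_of_commute p hp hak ha1 ?_ (h5 s s.2)
      exact hR.coprime_dvd_left (Subgroup.orderOf_dvd_natCard R (hS'R s.2))
    have h7 : Nat.card S' ≤ Nat.card Bool := by
      refine Nat.card_le_card_of_injective
        (fun s : S' => decide ((s : Matrix.SpecialLinearGroup (Fin 2) F) = 1)) ?_
      intro s t hst
      have hst' : ((s : Matrix.SpecialLinearGroup (Fin 2) F) = 1) ↔
        ((t : Matrix.SpecialLinearGroup (Fin 2) F) = 1) := decide_eq_decide.1 hst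
      apply Subtype.ext
      rcases h6 s with h | h
      · rw [h, hst'.1 h]
      · rcases h6 t with h' | h'
        · rw [h', hst'.2 h']
        · rw [h, h']
    rw [hS'card', Nat.card_eq_fintype_card, Fintype.card_bool] at h7
    have : 1 ≤ 2 ^ k := Nat.one_le_two_pow
    omega
  have hpodd : Odd p := hpf.out.odd_of_ne_two hp
  have hk1 : k = 1 := by
    by_contra hk1
    have hk2 : 2 ≤ k := by omega
    exact hc1 (Cfsg.Agent.LFourB.ProdAut.eq_one_of_odd' hk2 eTS c hpodd hcp)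
  subst hk1
  have e8 : S' ≃* QuaternionGroup 2 := eTS
  have hoc : orderOf c = p := orderOf_eq_prime hcp hc1
  have hp24 : p ∣ 24 := by
    rw [← hoc, ← Cfsg.Agent.PermutationGroups.AutQuaternion.card_mulAut,
      ← Nat.card_congr (MulAut.congr e8).toEquiv]
    exact orderOf_dvd_natCard c
  have hp3 : p = 3 := by
    have h24 : (24 : ℕ) = 2 ^ 3 * 3 := by norm_num
    rw [h24] at hp24
    rcases (hpf.out.dvd_mul).1 hp24 with h | h
    · exact absurd ((Nat.prime_dvd_prime_iff_eq hpf.out Nat.prime_two).1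
        (hpf.out.dvd_of_dvd_pow h)) hp
    · exact (Nat.prime_dvd_prime_iff_eq hpf.out Nat.prime_three).1 h
  subst hp3
  have eS8 : (S : Subgroup R) ≃* QuaternionGroup 2 := eS.trans e8
  obtain ⟨N, hN, hNc⟩ := (Cfsg.Agent.S0071.result S).2 (local_condition hR S eS8)
  have hScard : Nat.card (S : Subgroup R) = 8 := by
    rw [Nat.card_congr eS8.toEquiv, Nat.card_eq_fintype_card, QuaternionGroup.card]
  have hNindex : N.index = 2 ^ 3 := by
    rw [hNc.symm.index_eq_card, hScard]; norm_num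
  have hNodd : ¬ 2 ∣ Nat.card N := by
    rw [← hNc.index_eq_card]
    exact S.not_dvd_index
  have hmem : ∀ h : Matrix.SpecialLinearGroup (Fin 2) F, h ∈ N.map R.subtype ↔
      h ∈ R ∧ ¬ 2 ∣ orderOf h := by
    intro h
    constructor
    · rintro ⟨x, hx, rfl⟩
      refine ⟨x.2, ?_⟩
      intro h2
      apply hNodd
      have h3 : orderOf (R.subtype x) = orderOf x := Subgroup.orderOf_coe x
      rw [h3] at h2
      exact h2.trans (Subgroup.orderOf_dvd_natCard N hx)
    · rintro ⟨hh, h2⟩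
      refine ⟨⟨h, hh⟩, ?_, rfl⟩
      apply mem_of_odd N hNindex
      rwa [Subgroup.orderOf_mk]
  have hKa : a ∈ Subgroup.normalizer ((N.map R.subtype : Subgroup _) : Set (Matrix.SpecialLinearGroup (Fin 2) F)) := by
    rw [Subgroup.mem_normalizer_iff]
    intro h
    rw [hmem, hmem, Subgroup.mem_normalizer_iff.1 haR h]
    have : orderOf (a * h * a⁻¹) = orderOf h := by
      have := MulEquiv.orderOf_eq (MulAut.conj a) h
      rwa [MulAut.conj_apply] at this
    rw [this]
  have hKcard : Nat.card (N.map R.subtype) = Nat.card N :=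
    Subgroup.card_map_of_injective (Subgroup.subtype_injective R)
  have hK : N.map R.subtype = ⊥ := by
    refine eq_bot_of_odd 3 hp ha ha1 _ ?_ ?_ hKa
    · rw [hKcard]; exact hR.coprime_dvd_left (Subgroup.card_subgroup_dvd_card N)
    · rw [hKcard]; exact hNodd
  have hNbot : N = ⊥ := by
    rwa [Subgroup.map_eq_bot_iff_of_injective _ (Subgroup.subtype_injective R)] at hK
  have hRcard : Nat.card R = 8 := by
    rw [hNbot, Subgroup.index_bot] at hNindex
    rw [hNindex]; norm_num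
  have hStop : (S : Subgroup R) = ⊤ := by
    apply Subgroup.eq_top_of_card_eq
    rw [hScard, hRcard]
  have eR : R ≃* QuaternionGroup 2 :=
    (Subgroup.topEquiv.symm.trans (MulEquiv.subgroupCongr hStop).symm).trans eS8
  refine ⟨rfl, ⟨eR⟩, ?_⟩
  have haH : a ∈ R ⊔ Subgroup.zpowers a := Subgroup.mem_sup_right (Subgroup.mem_zpowers a)
  have hH24 : Nat.card ↥(R ⊔ Subgroup.zpowers a) = 24 := by
    apply Nat.dvd_antisymm
    · rw [hRcard] at hcardH; exact hcardH
    · have h8 : 8 ∣ Nat.card ↥(R ⊔ Subgroup.zpowers a) := by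
        rw [← hRcard]; exact Subgroup.card_dvd_of_le le_sup_left
      have h3 : 3 ∣ Nat.card ↥(R ⊔ Subgroup.zpowers a) := by
        have : Nat.card (Subgroup.zpowers a) = 3 := by rw [Nat.card_zpowers, hoa]
        rw [← this]; exact Subgroup.card_dvd_of_le le_sup_right
      have : (24 : ℕ) = 8 * 3 := by norm_num
      rw [this]
      exact Nat.Coprime.mul_dvd_of_dvd_of_dvd (by norm_num) h8 h3
  refine Cfsg.Agent.SylowG2.SLTwoThreeRecog.mulEquiv_of_odd hH24
    (R.subgroupOf (R ⊔ Subgroup.zpowers a))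
    ⟨(Subgroup.subgroupOfEquivOfLe le_sup_left).trans eR⟩ ⟨a, haH⟩ ?_ ?_ ?_
  · rw [Subgroup.mem_normalizer_iff]
    intro h
    exact Subgroup.mem_normalizer_iff.1 haR h
  · rw [Subgroup.orderOf_mk, hoa]; decide
  · intro h
    rw [Subgroup.mem_centralizer_iff] at h
    apply hnc
    intro r hr
    have := h ⟨r, Subgroup.mem_sup_left hr⟩ hr
    exact congrArg Subtype.val this

/-- Let F be a finite field of odd characteristic p and let a be a p-element of SL₂(F) normalizing a subgroup R of order prime to p with [R, a] ≠ 1. Then p = 3, R is a quaternion group of order 8, and R⟨a⟩ is isomorphic to SL₂(3). -/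
theorem result (F : Type) [Field F] [Fintype F] {p : ℕ} [Fact p.Prime] [CharP F p] (hp : p ≠ 2) (a : Matrix.SpecialLinearGroup (Fin 2) F) (ha : IsPGroup p ↥(Subgroup.zpowers a)) (R : Subgroup (Matrix.SpecialLinearGroup (Fin 2) F)) (hR : (Nat.card R).Coprime p) (haR : a ∈ Subgroup.normalizer (R : Set (Matrix.SpecialLinearGroup (Fin 2) F))) (hnt : ⁅R, Subgroup.zpowers a⁆ ≠ ⊥) : p = 3 ∧ Nonempty (↥R ≃* QuaternionGroup 2) ∧ Nonempty (↥(R ⊔ Subgroup.zpowers a) ≃* Matrix.SpecialLinearGroup (Fin 2) (ZMod 3)) :=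
  main F hp a ha R hR haR hnt

end Cfsg.Agent.S3740
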