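import Cfsg.Statements.S3741
import Cfsg.Agent.Transfer.TausskyTwoGroup

set_option autoImplicit false
open Cfsg

namespace Cfsg.Agent.S3741

/-- One half of the index symmetry of a bilinear pairing into `ℂˣ`. -/
theorem card_range_le {A B : Type*} [Group A] [Group B] [Finite A] [Finite B]
    (β : A →* (B →* ℂˣ)) : Nat.card β.range ≤ Nat.card β.flip.range := by
  haveI : Finite β.flip.range := Finite.of_surjective _ β.flip.rangeRestrict_surjective
  let ev : A →* (β.flip.range →* ℂˣ) :=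
    { toFun := fun a =>
        { toFun := fun g => (g : A →* ℂˣ) a
          map_one' := rfl
          map_mul' := fun _ _ => rfl }
      map_one' := by
        ext g
        change (((g : A →* ℂˣ) 1 : ℂˣ) : ℂ) = 1
        rw [map_one]; rfl
      map_mul' := by
        intro a a'
        ext g
        change (((g : A →* ℂˣ) (a * a') : ℂˣ) : ℂ) = (((g : A →* ℂˣ) a * (g : A →* ℂˣ) a' : ℂˣ) : ℂ)
        rw [map_mul] }
  have hker : ev.ker = β.ker := by
    ext a
    rw [MonoidHom.mem_ker, MonoidHom.mem_ker]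
    constructor
    · intro h
      ext b
      have := congrArg (fun f : β.flip.range →* ℂˣ => f ⟨β.flip b, ⟨b, rfl⟩⟩) h
      exact congrArg Units.val this
    · intro h
      ext g
      obtain ⟨g, b, rfl⟩ := g
      change (((β a) b : ℂˣ) : ℂ) = 1
      rw [h]; rfl
  have hcard : Nat.card β.range = Nat.card ev.range := by
    rw [← Nat.card_congr (QuotientGroup.quotientKerEquivRange β).toEquiv,
      ← Nat.card_congr (QuotientGroup.quotientKerEquivRange ev).toEquiv, hker]
  rw [hcard, ← CommGroup.card_monoidHom_of_hasEnoughRootsOfUnity β.flip.range ℂ]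
  haveI : Finite (β.flip.range →* ℂˣ) := by
    obtain ⟨e⟩ := CommGroup.monoidHom_mulEquiv_of_hasEnoughRootsOfUnity β.flip.range ℂ
    exact Finite.of_equiv _ e.symm.toEquiv
  exact Nat.card_le_card_of_injective _ (Subtype.val_injective : Function.Injective
    (Subtype.val : ev.range → (β.flip.range →* ℂˣ)))

theorem index_ker_eq {A B : Type*} [Group A] [Group B] [Finite A] [Finite B]
    (β : A →* (B →* ℂˣ)) : β.ker.index = β.flip.ker.index := by
  rw [Subgroup.index_ker, Subgroup.index_ker]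
  exact le_antisymm (card_range_le β) (card_range_le β.flip)

/-- In a finite group of `p`-power order `⁅A, B⁆` of order at most `p` is centralized by `A` and `B`. -/
theorem central_of_card_le {G : Type*} [Group G] [Finite G] {p : ℕ} [Fact p.Prime]
    (hG : IsPGroup p G) (A B : Subgroup G) (Z : Subgroup G) (hZ : Z ≤ A ⊔ B)
    (hn : A ⊔ B ≤ Subgroup.normalizer (Z : Set G)) (hcard : Nat.card Z ≤ p) :
    ∀ x ∈ A ⊔ B, ∀ z ∈ Z, x * z = z * x := by
  classical
  by_cases hZ1 : Z = ⊥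
  · intro x _ z hz
    rw [hZ1, Subgroup.mem_bot] at hz
    rw [hz, mul_one, one_mul]
  · haveI : (Z.subgroupOf (A ⊔ B)).Normal := (Subgroup.normal_subgroupOf_iff_le_normalizer hZ).mpr hn
    have hne : Z.subgroupOf (A ⊔ B) ≠ ⊥ := by
      intro h
      rw [Subgroup.subgroupOf_eq_bot, disjoint_iff] at h
      apply hZ1
      rwa [inf_eq_left.mpr hZ] at h
    obtain ⟨C, hCle, hCc, hCcard⟩ :=
      Cfsg.Agent.Transfer.TausskyTwoGroup.exists_central_card_prime_le (hG.to_subgroup (A ⊔ B))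
        (Z.subgroupOf (A ⊔ B)) hne
    have hcard' : Nat.card (Z.subgroupOf (A ⊔ B)) ≤ Nat.card C := by
      rw [hCcard, Nat.card_congr (Subgroup.subgroupOfEquivOfLe hZ).toEquiv]
      exact hcard
    have hCeq : C = Z.subgroupOf (A ⊔ B) := Subgroup.eq_of_le_of_card_ge hCle hcard'
    intro x hx z hz
    have hzc : (⟨z, hZ hz⟩ : ↥(A ⊔ B)) ∈ Subgroup.center ↥(A ⊔ B) := by
      apply hCc
      rw [hCeq, Subgroup.mem_subgroupOf]
      exact hz
    have := Subgroup.mem_center_iff.1 hzc ⟨x, hx⟩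
    exact congrArg Subtype.val this

/-- Let A and B be subgroups of a finite p-group with [A, B] ≤ A ∩ B and [A, B] of order at most p. Then |A : C_A(B)| = |B : C_B(A)|. -/
theorem result {G : Type*} [Group G] [Finite G] {p : ℕ} [Fact p.Prime] (hG : IsPGroup p G) (A B : Subgroup G) (hAB : ⁅A, B⁆ ≤ A ⊓ B) (hcard : Nat.card ↥⁅A, B⁆ ≤ p) : (A ⊓ Subgroup.centralizer (B : Set G)).relIndex A = (B ⊓ Subgroup.centralizer (A : Set G)).relIndex B := by
  classical
  have hZ : ⁅A, B⁆ ≤ A ⊔ B := hAB.trans (inf_le_left.trans le_sup_left)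
  have hcent := central_of_card_le hG A B ⁅A, B⁆ hZ
    (sup_le (Subgroup.normalizer_commutator_ge_left A B) (Subgroup.normalizer_commutator_ge_right A B)) hcard
  -- an injective homomorphism `⁅A, B⁆ → ℂˣ`
  have hchi : ∃ χ : ↥⁅A, B⁆ →* ℂˣ, Function.Injective χ := by
    obtain ⟨k, hk⟩ := IsPGroup.iff_card.1 (hG.to_subgroup ⁅A, B⁆)
    have hp : p.Prime := Fact.out
    have hk1 : k ≤ 1 := by
      rw [hk] at hcard
      by_contra hlt
      push_neg at hlt
      have : p ^ 1 < p ^ k := Nat.pow_lt_pow_right hp.one_lt hlt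
      rw [pow_one] at this
      omega
    rcases Nat.le_one_iff_eq_zero_or_eq_one.1 hk1 with rfl | rfl
    · rw [pow_zero] at hk
      haveI := (Nat.card_eq_one_iff_unique.1 hk).1
      exact ⟨1, Function.injective_of_subsingleton _⟩
    · rw [pow_one] at hk
      haveI : NeZero p := ⟨hp.ne_zero⟩
      have h2 : Nat.card (rootsOfUnity p ℂ) = p := Complex.card_rootsOfUnity p
      refine ⟨(rootsOfUnity p ℂ).subtype.comp (mulEquivOfPrimeCardEq hk h2).toMonoidHom, ?_⟩
      exact (Subgroup.subtype_injective _).comp (mulEquivOfPrimeCardEq hk h2).injective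
  obtain ⟨χ, hχ⟩ := hchi
  have hmem : ∀ (a : A) (b : B), (a : G) * b * (a : G)⁻¹ * (b : G)⁻¹ ∈ ⁅A, B⁆ := fun a b =>
    Subgroup.commutator_mem_commutator a.2 b.2
  let c : A → B → ↥⁅A, B⁆ := fun a b => ⟨(a : G) * b * (a : G)⁻¹ * (b : G)⁻¹, hmem a b⟩
  have hc1 : ∀ (a : A) (b b' : B), c a (b * b') = c a b * c a b' := by
    intro a b b'
    apply Subtype.ext
    change (a : G) * (b * b') * (a : G)⁻¹ * ((b : G) * b')⁻¹ =
      ((a : G) * b * (a : G)⁻¹ * (b : G)⁻¹) * ((a : G) * b' * (a : G)⁻¹ * (b' : G)⁻¹)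
    have h := hcent b (le_sup_right (a := A) b.2) _ (hmem a b')
    have : (a : G) * (b * b') * (a : G)⁻¹ * ((b : G) * b')⁻¹ =
      ((a : G) * b * (a : G)⁻¹ * (b : G)⁻¹) * ((b : G) * ((a : G) * b' * (a : G)⁻¹ * (b' : G)⁻¹)) * (b : G)⁻¹ := by
      group
    rw [this, h]
    group
  have hc2 : ∀ (a a' : A) (b : B), c (a * a') b = c a b * c a' b := by
    intro a a' b
    apply Subtype.ext
    change ((a : G) * a') * b * ((a : G) * a')⁻¹ * (b : G)⁻¹ =
      ((a : G) * b * (a : G)⁻¹ * (b : G)⁻¹) * ((a' : G) * b * (a' : G)⁻¹ * (b : G)⁻¹)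
    have h := hcent a (le_sup_left (b := B) a.2) _ (hmem a' b)
    have h' := hcent b (le_sup_right (a := A) b.2) _ (hmem a' b)
    have : ((a : G) * a') * b * ((a : G) * a')⁻¹ * (b : G)⁻¹ =
      ((a : G) * ((a' : G) * b * (a' : G)⁻¹ * (b : G)⁻¹)) * b * (a : G)⁻¹ * (b : G)⁻¹ := by
      group
    rw [this, h]
    generalize hz : (a' : G) * b * (a' : G)⁻¹ * (b : G)⁻¹ = z
    have hzm : z ∈ ⁅A, B⁆ := hz ▸ hmem a' b
    have h2 : ((a : G) * b * (a : G)⁻¹ * (b : G)⁻¹) * z = z * ((a : G) * b * (a : G)⁻¹ * (b : G)⁻¹) :=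
      hcent _ (hZ (hmem a b)) z hzm
    rw [h2]
    group
  let β : A →* (B →* ℂˣ) :=
    { toFun := fun a =>
        MonoidHom.mk' (fun b => χ (c a b)) (fun b b' => by
          change χ (c a (b * b')) = χ (c a b) * χ (c a b')
          rw [hc1, map_mul])
      map_one' := by
        ext b
        change ((χ (c 1 b) : ℂˣ) : ℂ) = 1
        have : c 1 b = 1 := by
          apply Subtype.ext
          change ((1 : A) : G) * b * ((1 : A) : G)⁻¹ * (b : G)⁻¹ = 1
          simp
        rw [this, map_one]; rfl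
      map_mul' := fun a a' => by
        ext b
        change ((χ (c (a * a') b) : ℂˣ) : ℂ) = ((χ (c a b) * χ (c a' b) : ℂˣ) : ℂ)
        rw [hc2, map_mul] }
  have hcone : ∀ (a : A) (b : B), c a b = 1 ↔ (a : G) * b = b * a := by
    intro a b
    rw [Subtype.ext_iff]
    change (a : G) * b * (a : G)⁻¹ * (b : G)⁻¹ = 1 ↔ _
    rw [mul_inv_eq_one, mul_inv_eq_iff_eq_mul]
  have hk1 : β.ker = (A ⊓ Subgroup.centralizer (B : Set G)).subgroupOf A := by
    ext a
    rw [MonoidHom.mem_ker, Subgroup.mem_subgroupOf, Subgroup.mem_inf, Subgroup.mem_centralizer_iff]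
    constructor
    · intro h
      refine ⟨a.2, fun b hb => ?_⟩
      have h1 : χ (c a ⟨b, hb⟩) = 1 := congrArg (fun f : B →* ℂˣ => f ⟨b, hb⟩) h
      rw [← map_one χ] at h1
      exact ((hcone a ⟨b, hb⟩).1 (hχ h1)).symm
    · rintro ⟨_, h⟩
      ext b
      change ((χ (c a b) : ℂˣ) : ℂ) = 1
      rw [(hcone a b).2 (h b b.2).symm, map_one]; rfl
  have hk2 : β.flip.ker = (B ⊓ Subgroup.centralizer (A : Set G)).subgroupOf B := by
    ext b
    rw [MonoidHom.mem_ker, Subgroup.mem_subgroupOf, Subgroup.mem_inf, Subgroup.mem_centralizer_iff]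
    constructor
    · intro h
      refine ⟨b.2, fun a ha => ?_⟩
      have h1 : χ (c ⟨a, ha⟩ b) = 1 := congrArg (fun f : A →* ℂˣ => f ⟨a, ha⟩) h
      rw [← map_one χ] at h1
      exact (hcone ⟨a, ha⟩ b).1 (hχ h1)
    · rintro ⟨_, h⟩
      ext a
      change ((χ (c a b) : ℂˣ) : ℂ) = 1
      rw [(hcone a b).2 (h a a.2), map_one]; rfl
  have := index_ker_eq β
  rw [hk1, hk2] at this
  exact this

end Cfsg.Agent.S3741
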