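import Cfsg.Statements.S3745
import Cfsg.Agent.H442.HallSolv
import Cfsg.Agent.SignalizersComponents.InvariantHall

set_option autoImplicit false
open Cfsg

namespace Cfsg.Agent.S3745

open Cfsg.Agent.H442.HallGen
open Cfsg.Agent.OddOrderLocal
open Cfsg.Agent.SignalizersComponents
open scoped Pointwise

/-- Dominance inside a subgroup `Y` of `X`. -/
theorem exists_isPiHallOf_ge {X : Type*} [Group X] [Finite X] {σ : Set ℕ} {Y : Subgroup X}
    (hY : DClass σ Y) {V : Subgroup X} (hV : V ≤ Y) (hVσ : PN σ (Nat.card V)) :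
    ∃ T : Subgroup X, Cfsg.IsPiHallOf σ T Y ∧ V ≤ T := by
  obtain ⟨K, hK, hdom⟩ := exists_hall hY
  obtain ⟨g, hg⟩ := hdom (V.subgroupOf Y) (by
    rwa [Nat.card_congr (Subgroup.subgroupOfEquivOfLe hV).toEquiv])
  set K' : Subgroup Y := K.map (MulAut.conj g⁻¹).toMonoidHom with hK'
  have hle : V.subgroupOf Y ≤ K' := by
    intro x hx
    refine ⟨g * x * g⁻¹, hg ⟨x, hx, rfl⟩, ?_⟩
    simp [mul_assoc]
  refine ⟨K'.map Y.subtype, HallPi.isPiHallOf_map_subtype.mpr ⟨?_, ?_⟩, ?_⟩
  · rw [hK', Subgroup.card_map_of_injective (MulAut.conj g⁻¹).injective]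
    exact hK.card
  · intro p hp hpσ hd
    have h1 : K'.index = K.index := by
      rw [hK', Subgroup.index_map_of_bijective (MulAut.conj g⁻¹).bijective]
    rw [h1] at hd
    exact hK.index p hp hd hpσ
  · intro x hx
    exact ⟨⟨x, hV hx⟩, hle (Subgroup.mem_subgroupOf.mpr hx), rfl⟩

/-- Coprime action on a solvable group and Hall subgroups. Let A and G be subgroups of a finite group with A normalizing G, the orders of A and G coprime, and G solvable, and let π be a set of primes. Then (a) G has an A-invariant Hall π-subgroup; (b) any two A-invariant Hall π-subgroups of G are conjugate by an element of C_G(A); (c) every A-invariant π-subgroup of G lies in an A-invariant Hall π-subgroup of G. -/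
theorem result {X : Type*} [Group X] [Finite X] (A G : Subgroup X) (hAG : A ≤ Subgroup.normalizer (G : Set X)) (hcop : (Nat.card A).Coprime (Nat.card G)) (hsolv : Group.IsSolvable G) (π : Set ℕ) : (∃ H : Subgroup X, Cfsg.IsPiHallOf π H G ∧ A ≤ Subgroup.normalizer (H : Set X)) ∧ (∀ H₁ H₂ : Subgroup X, Cfsg.IsPiHallOf π H₁ G → A ≤ Subgroup.normalizer (H₁ : Set X) → Cfsg.IsPiHallOf π H₂ G → A ≤ Subgroup.normalizer (H₂ : Set X) → ∃ c ∈ G ⊓ Subgroup.centralizer (A : Set X), H₂ = H₁.map (MulAut.conj c).toMonoidHom) ∧ (∀ U : Subgroup X, U ≤ G → A ≤ Subgroup.normalizer (U : Set X) → (∀ p : ℕ, p.Prime → p ∣ Nat.card U → p ∈ π) → ∃ H : Subgroup X, Cfsg.IsPiHallOf π H G ∧ A ≤ Subgroup.normalizer (H : Set X) ∧ U ≤ H) := by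
  have hc : ∀ U : Subgroup X, U ≤ G → A ≤ Subgroup.normalizer (U : Set X) →
      (∀ p : ℕ, p.Prime → p ∣ Nat.card U → p ∈ π) → ∃ H : Subgroup X, Cfsg.IsPiHallOf π H G ∧
        A ≤ Subgroup.normalizer (H : Set X) ∧ U ≤ H := by
    intro U hUG hAU hUπ
    set σ : Set ℕ := π ∪ {q | q ∣ Nat.card A} with hσ
    have hdisj : G ⊓ A = ⊥ := by
      rw [← Subgroup.card_eq_one]
      exact Nat.eq_one_of_dvd_coprimes hcop (Subgroup.card_dvd_of_le inf_le_right)
        (Subgroup.card_dvd_of_le inf_le_left)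
    set Y : Subgroup X := G ⊔ A with hY
    have hGn : (G.subgroupOf Y).Normal :=
      Subgroup.normal_subgroupOf_of_le_normalizer (sup_le Subgroup.le_normalizer hAG)
    have hGs : Group.IsSolvable (G.subgroupOf Y) :=
      Group.isSolvable_of_isSolvable_injective
        (f := (Subgroup.subgroupOfEquivOfLe (le_sup_left : G ≤ Y)).toMonoidHom)
        (Subgroup.subgroupOfEquivOfLe (le_sup_left : G ≤ Y)).injective
    have hYcard : Nat.card Y = Nat.card G * Nat.card A :=
      InvariantHall.card_sup_of_inf_eq_bot hAG hdisj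
    have hGi : (G.subgroupOf Y).index = Nat.card A := by
      have h1 := HallPi.card_mul_relIndex (le_sup_left : G ≤ Y)
      rw [hYcard] at h1
      exact Nat.eq_of_mul_eq_mul_left Nat.card_pos h1
    have hD : DClass σ Y := dclass_of_solvable σ _ Y rfl (G.subgroupOf Y) hGs (by
      rw [hGi]
      intro q hq hd
      exact Or.inr hd)
    obtain ⟨T, hT, hUT⟩ := exists_isPiHallOf_ge hD (V := U ⊔ A) (sup_le_sup_right hUG A) (by
      have h2 : Nat.card ↥(U ⊔ A) = Nat.card U * Nat.card A := by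
        apply InvariantHall.card_sup_of_inf_eq_bot hAU
        rw [eq_bot_iff, ← hdisj]
        exact inf_le_inf_right A hUG
      rw [h2]
      refine PN.mul ?_ ?_
      · exact fun q hq hd => Or.inl (hUπ q hq hd)
      · exact fun q hq hd => Or.inr hd)
    have hU : U ≤ T := le_sup_left.trans hUT
    have hA : A ≤ T := le_sup_right.trans hUT
    refine ⟨G ⊓ T, ⟨inf_le_left, ?_, ?_⟩, InvariantHall.le_normalizer_inf hAG hA,
      le_inf hUG hU⟩
    · intro q hq hd
      have h1 : q ∣ Nat.card T := hd.trans (Subgroup.card_dvd_of_le inf_le_right)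
      have h2 : q ∣ Nat.card G := hd.trans (Subgroup.card_dvd_of_le inf_le_left)
      rcases hT.2.1 q hq h1 with h | h
      · exact h
      · exact absurd (Nat.eq_one_of_dvd_coprimes hcop h h2) hq.one_lt.ne'
    · intro q hq hqπ hd
      have h1 : T = (G ⊓ T) ⊔ A := (InvariantHall.inf_sup_eq hAG hA hT.1).symm
      have h2 : Nat.card T = Nat.card ↥(G ⊓ T) * Nat.card A := by
        conv_lhs => rw [h1]
        apply InvariantHall.card_sup_of_inf_eq_bot (InvariantHall.le_normalizer_inf hAG hA)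
        rw [eq_bot_iff, ← hdisj]
        exact inf_le_inf_right A inf_le_left
      have h3 := HallPi.card_mul_relIndex hT.1
      have h4 := HallPi.card_mul_relIndex (inf_le_left : G ⊓ T ≤ G)
      rw [h2, hYcard, ← h4] at h3
      have h5 : T.relIndex Y = (G ⊓ T).relIndex G := by
        have h6 : 0 < Nat.card ↥(G ⊓ T) * Nat.card A := Nat.mul_pos Nat.card_pos Nat.card_pos
        apply Nat.eq_of_mul_eq_mul_left h6
        rw [h3]; ring
      rw [← h5] at hd
      exact hT.2.2 q hq (Or.inl hqπ) hd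
  refine ⟨?_, ?_, hc⟩
  · obtain ⟨H, h1, h2, -⟩ := hc ⊥ bot_le (by
      rw [Subgroup.normalizer_eq_top]; exact le_top) (fun p hp hd => by
        rw [Subgroup.card_bot] at hd
        exact absurd (Nat.dvd_one.mp hd) hp.one_lt.ne')
    exact ⟨H, h1, h2⟩
  · intro H₁ H₂ h₁ hA₁ h₂ hA₂
    obtain ⟨m, hm, hmH⟩ := HallPi.conj_of_isPiHallOf hsolv h₁ h₂
    letI : MulAction X (Subgroup X) := MulAction.compHom (Subgroup X) (MulAut.conj : X →* MulAut X)
    have hfix : ∀ H : Subgroup X, A ≤ Subgroup.normalizer (H : Set X) → ∀ a ∈ A, a • H = H := by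
      intro H hH a ha
      exact Subgroup.mem_normalizer_iff_map_conj_eq.mp (hH ha)
    obtain ⟨c, hc, hcA, hcH⟩ := Cfsg.Agent.Solvable.Glauberman.exists_centralizer_smul A G hAG hcop
      (Or.inr hsolv) H₁ H₂ (hfix H₁ hA₁) (hfix H₂ hA₂) hm hmH
    exact ⟨c, ⟨hc, hcA⟩, hcH.symm⟩

end Cfsg.Agent.S3745
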