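import Cfsg.Statements.S3746
import Cfsg.Agent.SignalizersComponents.PCompQuot

set_option autoImplicit false
open Cfsg

namespace Cfsg.Agent.S3746

open Subgroup
open scoped commutatorElement

/-- Let Z ≤ Z(G) be a central subgroup of a finite group G and E a subgroup of G containing Z whose image E/Z is a component of G/Z (subnormal and quasisimple). Then the derived subgroup [E, E] is a component of G. -/
theorem result {G : Type*} [Group G] [Finite G] (Z : Subgroup G) (hZ : Z ≤ Subgroup.center G) [Z.Normal] (E : Subgroup G) (hZE : Z ≤ E) (hE : Cfsg.IsComponent (E.map (QuotientGroup.mk' Z))) : Cfsg.IsComponent ⁅E, E⁆ := by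
  obtain ⟨hsub, hq⟩ := hE
  have hmap : (⁅E, E⁆ : Subgroup G).map (QuotientGroup.mk' Z) = E.map (QuotientGroup.mk' Z) := by
    rw [map_commutator]
    exact Subgroup.isPerfect_iff.mp hq.1
  have hEK : E = ⁅E, E⁆ ⊔ Z := by
    have h1 := congrArg (Subgroup.comap (QuotientGroup.mk' Z)) hmap
    rw [comap_map_eq, comap_map_eq, QuotientGroup.ker_mk'] at h1
    rw [h1]
    exact (sup_eq_left.mpr hZE).symm
  -- `E` is subnormal
  have hEsub : E.IsSubnormal := by
    have h1 := hsub.comap (QuotientGroup.mk' Z)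
    rwa [comap_map_eq, QuotientGroup.ker_mk', sup_eq_left.mpr hZE] at h1
  have hKE : (⁅E, E⁆ : Subgroup G) ≤ E := commutator_le_self E
  have hKsub : (⁅E, E⁆ : Subgroup G).IsSubnormal := by
    refine IsSubnormal.trans hKE ?_ hEsub
    apply Normal.isSubnormal
    rw [normal_subgroupOf_iff_le_normalizer hKE, le_normalizer_iff_commutator_le_left]
    exact commutator_mono hKE le_rfl
  -- perfectness
  have hperf : (⁅(⁅E, E⁆ : Subgroup G), (⁅E, E⁆ : Subgroup G)⁆ : Subgroup G) = ⁅E, E⁆ := by
    apply le_antisymm (commutator_le_self _)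
    rw [commutator_le]
    intro x hx y hy
    have key : ∀ x ∈ E, ∃ k ∈ (⁅E, E⁆ : Subgroup G), ∃ z ∈ Z, x = k * z := by
      intro x hx
      rw [hEK] at hx
      obtain ⟨k, hk, z, hz, hkz⟩ := mem_sup_of_normal_right.mp hx
      exact ⟨k, hk, z, hz, hkz.symm⟩
    obtain ⟨k, hk, z, hz, rfl⟩ := key x hx
    obtain ⟨l, hl, w, hw, rfl⟩ := key y hy
    have hz' := mem_center_iff.mp (hZ hz)
    have hw' := mem_center_iff.mp (hZ hw)
    have : ⁅k * z, l * w⁆ = ⁅k, l⁆ := by
      rw [commutatorElement_def, commutatorElement_def]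
      calc k * z * (l * w) * (k * z)⁻¹ * (l * w)⁻¹
          = k * (z * (l * w)) * z⁻¹ * k⁻¹ * (l * w)⁻¹ := by group
        _ = k * ((l * w) * z) * z⁻¹ * k⁻¹ * (l * w)⁻¹ := by rw [hz' (l * w)]
        _ = k * l * (w * k⁻¹) * w⁻¹ * l⁻¹ := by group
        _ = k * l * (k⁻¹ * w) * w⁻¹ * l⁻¹ := by rw [hw' k⁻¹]
        _ = k * l * k⁻¹ * l⁻¹ := by group
    rw [this]
    exact commutator_mem_commutator hk hl
  have hKperf : Group.IsPerfect ↥(⁅E, E⁆ : Subgroup G) := Subgroup.isPerfect_iff.mpr hperf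
  refine ⟨hKsub, ?_⟩
  -- the central quotient
  set K : Subgroup G := ⁅E, E⁆ with hK
  set f := (QuotientGroup.mk' Z).subgroupMap K with hf
  have hker : f.ker ≤ center K := by
    intro x hx
    rw [MonoidHom.mem_ker, Subtype.ext_iff] at hx
    have hxZ : (x : G) ∈ Z := (QuotientGroup.eq_one_iff (x : G)).mp hx
    rw [mem_center_iff]
    intro y
    exact Subtype.ext (mem_center_iff.mp (hZ hxZ) y)
  apply Cfsg.Agent.SignalizersComponents.PCompQuot.quasisimple_of_central_quotient hKperf hker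
  have e1 : (K ⧸ f.ker) ≃* K.map (QuotientGroup.mk' Z) :=
    QuotientGroup.quotientKerEquivOfSurjective f ((QuotientGroup.mk' Z).subgroupMap_surjective K)
  exact Cfsg.Agent.SignalizersComponents.PCompQuot.quasisimple_congr
    (e1.trans (MulEquiv.subgroupCongr hmap)).symm hq

end Cfsg.Agent.S3746
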