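import Cfsg.Statements.S3748
import Cfsg.Agent.Lib.SubnormalJoin
import Cfsg.Agent.S0064
import Cfsg.Agent.Lib.Cores

set_option autoImplicit false
open Cfsg

namespace Cfsg.Agent.S3748

open scoped Pointwise

/-- In a finite nontrivial group, a minimal normal subgroup exists. -/
theorem exists_minimal_normal {G : Type*} [Group G] [Finite G] [Nontrivial G] :
    ∃ N : Subgroup G, N ≠ ⊥ ∧ N.Normal ∧ ∀ K : Subgroup G, K.Normal → K ≤ N → K = ⊥ ∨ K = N := by
  have hfin : {N : Subgroup G | N ≠ ⊥ ∧ N.Normal}.Finite := Set.toFinite _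
  obtain ⟨N, hN⟩ := hfin.exists_minimal ⟨⊤, top_ne_bot, inferInstance⟩
  refine ⟨N, hN.prop.1, hN.prop.2, fun K hK hKN => ?_⟩
  by_cases h : K = ⊥
  · exact Or.inl h
  · exact Or.inr (le_antisymm hKN (hN.le_of_le ⟨h, hK⟩ hKN))

/-- Call a proper subgroup M of G primitive when M = N_G(N) for every non-trivial normal subgroup N of M. If M is a primitive subgroup of the finite group G, then no non-trivial subnormal subgroup of G is contained in M; in particular M ∩ F(G) = 1. -/
theorem result {G : Type*} [Group G] [Finite G] (M : Subgroup G) (hM : M ≠ ⊤) (hprim : ∀ N : Subgroup G, N ≤ M → M ≤ Subgroup.normalizer (N : Set G) → N ≠ ⊥ → Subgroup.normalizer (N : Set G) = M) : (∀ L : Subgroup G, L.IsSubnormal → L ≤ M → L = ⊥) ∧ M ⊓ Cfsg.fittingSubgroup G = ⊥ := by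
  have key : ∀ L : Subgroup G, L.IsSubnormal → L ≤ M → L = ⊥ := by
    intro L hL hLM
    by_contra hne
    have : Nontrivial G := by
      by_contra h
      rw [not_nontrivial_iff_subsingleton] at h
      exact hne (Subsingleton.elim _ _)
    -- the normal closure of `L` in `M`
    set N : Subgroup G := ⨆ m : M, L.map (MulAut.conj (m : G)).toMonoidHom with hN
    have hNs : N.IsSubnormal := by
      apply Lib.SubnormalJoin.isSubnormal_iSup
      intro m
      exact hL.map (MulAut.conj (m : G)).surjective
    have hLN : L ≤ N := by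
      refine le_trans ?_ (le_iSup _ (1 : M))
      intro x hx
      exact ⟨x, hx, by simp⟩
    have hNM : N ≤ M := by
      apply iSup_le
      rintro m _ ⟨x, hx, rfl⟩
      exact M.mul_mem (M.mul_mem m.2 (hLM hx)) (M.inv_mem m.2)
    have hMN : M ≤ Subgroup.normalizer (N : Set G) := by
      intro m hm
      rw [Subgroup.mem_normalizer_iff_map_conj_eq]
      have key : ∀ m ∈ M, N.map (MulAut.conj m).toMonoidHom ≤ N := by
        intro m hm
        rw [hN, Subgroup.map_iSup]
        apply iSup_le
        intro m'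
        refine le_trans ?_ (le_iSup _ (⟨m, hm⟩ * m' : M))
        rw [Subgroup.map_map]
        rintro _ ⟨x, hx, rfl⟩
        exact ⟨x, hx, by simp [mul_assoc]⟩
      apply le_antisymm (key m hm)
      intro x hx
      refine ⟨m⁻¹ * x * m, ?_, by simp [mul_assoc]⟩
      have := key m⁻¹ (M.inv_mem hm) ⟨x, hx, rfl⟩
      simpa using this
    have hNe : N ≠ ⊥ := fun h => hne (le_bot_iff.mp (h ▸ hLN))
    have hNorm := hprim N hNM hMN hNe
    obtain ⟨R, hRe, hRn, hRmin⟩ := exists_minimal_normal (G := G)
    have hRM : R ≤ M := by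
      rw [← hNorm]
      exact Lib.SubnormalJoin.le_normalizer_of_minimal_normal N R hNs hRn hRmin
    have htop : Subgroup.normalizer (R : Set G) = ⊤ := Subgroup.normalizer_eq_top_iff.mpr hRn
    have := hprim R hRM (by rw [htop]; exact le_top) hRe
    rw [htop] at this
    exact hM this.symm
  refine ⟨key, key _ ?_ inf_le_left⟩
  set F := Cfsg.fittingSubgroup G with hF
  have hFn : F.Normal := inferInstance
  have hFnil : Group.IsNilpotent F := Lib.Cores.fittingSubgroup_isNilpotent
  exact Subgroup.IsSubnormal.trans inf_le_right (Cfsg.Agent.S0064.result.mp hFnil _) hFn.isSubnormal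

end Cfsg.Agent.S3748
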