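import Cfsg.Statements.S3749
import Cfsg.Agent.Lib.Cores
import Cfsg.Agent.Lib.PGroupCoprimeAction
import Cfsg.Agent.Solvable.Glauberman

set_option autoImplicit false
open Cfsg

namespace Cfsg.Agent.S3749

open scoped Pointwise

/-- Call a proper subgroup M of G primitive when M = N_G(N) for every non-trivial normal subgroup N of M. Let M be a primitive subgroup of the finite group G, p a prime with O_p(M) ≠ 1, and N a normal subgroup of G with M ∩ N = 1. Then p does not divide the order of N; for every prime q there is exactly one Sylow q-subgroup of N normalized by M; and if the order of N has at least two prime divisors then M is not a maximal subgroup of G. -/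
theorem result {G : Type*} [Group G] [Finite G] (M : Subgroup G) (hM : M ≠ ⊤) (hprim : ∀ N : Subgroup G, N ≤ M → M ≤ Subgroup.normalizer (N : Set G) → N ≠ ⊥ → Subgroup.normalizer (N : Set G) = M) {p : ℕ} [Fact p.Prime] (hOp : Cfsg.pCore p ↥M ≠ ⊥) (N : Subgroup G) [N.Normal] (hMN : M ⊓ N = ⊥) : ¬ p ∣ Nat.card N ∧ (∀ q : ℕ, [Fact q.Prime] → ∃! Q : Sylow q ↥N, M ≤ Subgroup.normalizer ((Q : Subgroup ↥N).map N.subtype : Set G)) ∧ ((∃ q r : ℕ, q.Prime ∧ r.Prime ∧ q ≠ r ∧ q ∣ Nat.card N ∧ r ∣ Nat.card N) → ¬ IsCoatom M) := by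
  have hp : p.Prime := Fact.out
  set P : Subgroup G := (pCore p M).map M.subtype with hPdef
  have hPM : P ≤ M := Subgroup.map_subtype_le _
  have hPe : P ≠ ⊥ := by
    rw [hPdef, Ne, Subgroup.map_eq_bot_iff_of_injective _ M.subtype_injective]
    exact hOp
  have hPp : IsPGroup p P := (Lib.Cores.pCore_isPGroup p).map _
  have hMP : M ≤ Subgroup.normalizer (P : Set G) := by
    have hn : (pCore p M).Normal := Lib.Cores.pCore_normal p
    intro m hm
    rw [Subgroup.mem_normalizer_iff]
    have key : ∀ m ∈ M, ∀ x ∈ P, m * x * m⁻¹ ∈ P := by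
      rintro m hm _ ⟨x, hx, rfl⟩
      exact ⟨_, hn.conj_mem x hx ⟨m, hm⟩, rfl⟩
    intro x
    refine ⟨key m hm x, fun h => ?_⟩
    have := key m⁻¹ (M.inv_mem hm) _ h
    simpa [mul_assoc] using this
  have hNP := hprim P hPM hMP hPe
  have hCN : N ⊓ Subgroup.centralizer (P : Set G) = ⊥ := by
    rw [eq_bot_iff, ← hMN]
    refine le_inf ?_ inf_le_left
    rw [← hNP]
    exact inf_le_right.trans (Subgroup.centralizer_le_normalizer _)
  have hconj : ∀ b : G, ∀ u ∈ N, b * u * b⁻¹ ∈ N := fun b u hu =>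
    (inferInstance : N.Normal).conj_mem u hu b
  have h1 : ¬ p ∣ Nat.card N := by
    let _ : MulAction P N :=
      { smul := fun b u => ⟨b * u * (b : G)⁻¹, hconj b u u.2⟩
        one_smul := fun u => Subtype.ext (by change (1 : G) * u * (1 : G)⁻¹ = u; simp)
        mul_smul := fun b c u => Subtype.ext (by
          change ((b : G) * c) * u * ((b : G) * c)⁻¹ = b * (c * u * (c : G)⁻¹) * (b : G)⁻¹
          group) }
    have hfix : MulAction.fixedPoints P N = {1} := by
      ext u
      simp only [MulAction.mem_fixedPoints, Set.mem_singleton_iff]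
      constructor
      · intro h
        have : (u : G) ∈ N ⊓ Subgroup.centralizer (P : Set G) := by
          refine ⟨u.2, ?_⟩
          change (u : G) ∈ Subgroup.centralizer (P : Set G)
          rw [Subgroup.mem_centralizer_iff]
          intro b hb
          have h2 : b * (u : G) * b⁻¹ = u := congrArg Subtype.val (h ⟨b, hb⟩)
          exact mul_inv_eq_iff_eq_mul.mp h2
        rw [hCN, Subgroup.mem_bot] at this
        exact Subtype.ext this
      · rintro rfl b
        exact Subtype.ext (by change (b : G) * 1 * (b : G)⁻¹ = 1; simp)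
    have hmod := hPp.card_modEq_card_fixedPoints N
    rw [hfix] at hmod
    simp only [Nat.card_unique] at hmod
    intro hd
    have h3 : p ∣ 1 := (hmod.dvd_iff dvd_rfl).mp hd
    exact hp.one_lt.ne' (Nat.dvd_one.mp h3)
  have h2 : ∀ q : ℕ, [Fact q.Prime] → ∃! Q : Sylow q ↥N,
      M ≤ Subgroup.normalizer ((Q : Subgroup ↥N).map N.subtype : Set G) := by
    intro q hq
    have huniq : ∀ Q₁ Q₂ : Sylow q ↥N,
        (∀ b ∈ P, ∀ u ∈ (Q₁ : Subgroup ↥N).map N.subtype,
          b * u * b⁻¹ ∈ (Q₁ : Subgroup ↥N).map N.subtype) →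
        (∀ b ∈ P, ∀ u ∈ (Q₂ : Subgroup ↥N).map N.subtype,
          b * u * b⁻¹ ∈ (Q₂ : Subgroup ↥N).map N.subtype) → Q₁ = Q₂ := by
      intro Q₁ Q₂ h₁ h₂
      obtain ⟨c, hc, hcS⟩ := Lib.PGroupCoprimeAction.exists_centralizer_conj hPp h1
        (fun b _ u hu => hconj b u hu) ⟨Q₁, rfl⟩ ⟨Q₂, rfl⟩ h₁ h₂
      rw [hCN, Subgroup.mem_bot] at hc
      subst hc
      have h3 : ((Q₁ : Subgroup ↥N).map N.subtype).map (MulAut.conj (1 : G)).toMonoidHom =
          (Q₁ : Subgroup ↥N).map N.subtype := by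
        ext x
        simp
      rw [h3] at hcS
      exact Sylow.ext (Subgroup.map_injective N.subtype_injective hcS)
    obtain ⟨S, ⟨Q, rfl⟩, hQ⟩ := Lib.PGroupCoprimeAction.exists_invariant_sylow hPp h1
      (fun b _ u hu => hconj b u hu) q
    have hMQ : M ≤ Subgroup.normalizer ((Q : Subgroup ↥N).map N.subtype : Set G) := by
      intro m hm
      rw [Subgroup.mem_normalizer_iff_map_conj_eq]
      -- the conjugate is again a Sylow subgroup of `N`
      set e : N ≃* N := MulAut.conjNormal (m : G) with he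
      have hval : ∀ x : N, ((e x : N) : G) = m * x * m⁻¹ := fun x => by
        rw [he]; exact MulAut.conjNormal_apply m x
      set Q' : Sylow q ↥N := e • Q with hQ'
      have hQ'map : (Q' : Subgroup ↥N).map N.subtype =
          ((Q : Subgroup ↥N).map N.subtype).map (MulAut.conj m).toMonoidHom := by
        ext x
        constructor
        · rintro ⟨y, ⟨z, hz, rfl⟩, rfl⟩
          refine ⟨z, ⟨z, hz, rfl⟩, ?_⟩
          exact (hval z).symm
        · rintro ⟨y, ⟨z, hz, rfl⟩, rfl⟩
          exact ⟨e z, ⟨z, hz, rfl⟩, hval z⟩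
      have : Q' = Q := by
        apply huniq Q' Q _ hQ
        intro b hb u hu
        rw [hQ'map] at hu ⊢
        obtain ⟨v, hv, rfl⟩ := hu
        have hb' : m⁻¹ * b * m ∈ P := by
          have := (Subgroup.mem_normalizer_iff.mp (hMP (M.inv_mem hm)) b).mp hb
          simpa using this
        refine ⟨(m⁻¹ * b * m) * v * (m⁻¹ * b * m)⁻¹, hQ _ hb' v hv, ?_⟩
        simp [mul_assoc]
      exact hQ'map.symm.trans (by rw [this])
    refine ⟨Q, hMQ, fun Q' hQ' => ?_⟩
    apply huniq Q' Q _ hQ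
    intro b hb u hu
    exact (Subgroup.mem_normalizer_iff.mp (hQ' (hPM hb)) u).mp hu
  refine ⟨h1, h2, ?_⟩
  rintro ⟨q, r, hq, hr, hqr, hqN, hrN⟩ hco
  have : Fact q.Prime := ⟨hq⟩
  obtain ⟨Q, hQ, -⟩ := h2 q
  set S : Subgroup G := (Q : Subgroup ↥N).map N.subtype with hS
  have hSN : S ≤ N := Subgroup.map_subtype_le _
  have hSne : S ≠ ⊥ := by
    rw [hS, Ne, Subgroup.map_eq_bot_iff_of_injective _ N.subtype_injective]
    exact Q.ne_bot_of_dvd_card hqN
  have hlt : M < M ⊔ S := by
    refine lt_of_le_of_ne le_sup_left (fun h => hSne ?_)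
    rw [eq_bot_iff, ← hMN]
    exact le_inf (by rw [h]; exact le_sup_right) hSN
  have htop : M ⊔ S = ⊤ := hco.2 _ hlt
  have hNS : N ≤ S := by
    intro x hx
    have hx' : x ∈ M ⊔ S := by rw [htop]; trivial
    obtain ⟨k, hk, a, ha, hka⟩ := Cfsg.Agent.Solvable.Glauberman.exists_mul_of_mem_sup M S hQ hx'
    have haN : a ∈ M ⊓ N := by
      refine ⟨ha, ?_⟩
      have : a = k⁻¹ * x := by rw [hka]; group
      rw [this]
      exact N.mul_mem (N.inv_mem (hSN hk)) hx
    rw [hMN, Subgroup.mem_bot] at haN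
    rw [hka, haN, mul_one]
    exact hk
  have hcard : Nat.card N ∣ Nat.card S := Subgroup.card_dvd_of_le hNS
  have hSq : IsPGroup q S := Q.isPGroup'.map _
  obtain ⟨k, hk⟩ := IsPGroup.iff_card.mp hSq
  rw [hk] at hcard
  exact hqr ((Nat.prime_dvd_prime_iff_eq hr hq).mp (hr.dvd_of_dvd_pow (hrN.trans hcard))).symm

end Cfsg.Agent.S3749
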