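import Cfsg.Statements.S3750
import Cfsg.Agent.Lib.GenFitting
import Cfsg.Agent.SignalizersComponents.FStarNormal

set_option autoImplicit false
open Cfsg

namespace Cfsg.Agent.S3750

open Cfsg.Agent.SignalizersComponents.Components Cfsg.Agent.Lib.Cores

/-- Call a proper subgroup M of G primitive when M = N_G(N) for every non-trivial normal subgroup N of M. Let M be a primitive subgroup of the finite group G and N a normal subgroup of G with M ∩ F*(N) ≠ 1. Then F(G) = 1 and F*(N) = F*(G) = E(G); in particular every minimal normal subgroup of G is contained in N. -/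
theorem result {G : Type*} [Group G] [Finite G] (M : Subgroup G) (hM : M ≠ ⊤) (hprim : ∀ N : Subgroup G, N ≤ M → M ≤ Subgroup.normalizer (N : Set G) → N ≠ ⊥ → Subgroup.normalizer (N : Set G) = M) (N : Subgroup G) [N.Normal] (hMF : M ⊓ (Cfsg.generalizedFittingSubgroup ↥N).map N.subtype ≠ ⊥) : Cfsg.fittingSubgroup G = ⊥ ∧ (Cfsg.generalizedFittingSubgroup ↥N).map N.subtype = Cfsg.generalizedFittingSubgroup G ∧ Cfsg.generalizedFittingSubgroup G = Cfsg.layer G ∧ ∀ K : Subgroup G, K.Normal → K ≠ ⊥ → (∀ K' : Subgroup G, K'.Normal → K' ≤ K → K' = ⊥ ∨ K' = K) → K ≤ N := by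
  set FN : Subgroup G := (Cfsg.generalizedFittingSubgroup ↥N).map N.subtype with hFN
  have hFNn : FN.Normal := by
    have h := Cfsg.Agent.Lib.GenFitting.genFitting_characteristic (G := N)
    rw [hFN]
    infer_instance
  have hFNN : FN ≤ N := Subgroup.map_subtype_le _
  -- a normal subgroup of `G` inside `M` is trivial
  have hcore : ∀ K : Subgroup G, K.Normal → K ≤ M → K = ⊥ := by
    intro K hK hKM
    by_contra hne
    have h1 : Subgroup.normalizer (K : Set G) = ⊤ := Subgroup.normalizer_eq_top_iff.2 hK
    have h2 := hprim K hKM (by rw [h1]; exact le_top) hne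
    exact hM (h2.symm.trans h1)
  -- the normalizer of `M ∩ F*(N)` is `M`
  have hX : Subgroup.normalizer ((M ⊓ FN : Subgroup G) : Set G) = M := by
    refine hprim _ inf_le_left ?_ hMF
    intro m hm
    rw [Subgroup.mem_normalizer_iff]
    intro x
    constructor
    · rintro ⟨h1, h2⟩
      exact ⟨M.mul_mem (M.mul_mem hm h1) (M.inv_mem hm), hFNn.conj_mem _ h2 m⟩
    · rintro ⟨h1, h2⟩
      have h3 := M.mul_mem (M.mul_mem (M.inv_mem hm) h1) hm
      have h4 := hFNn.conj_mem _ h2 m⁻¹
      have e : m⁻¹ * (m * x * m⁻¹) * m = x := by group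
      have e' : m⁻¹ * (m * x * m⁻¹) * m⁻¹⁻¹ = x := by group
      rw [e] at h3
      rw [e'] at h4
      exact ⟨h3, h4⟩
  have hcent : Subgroup.centralizer (FN : Set G) = ⊥ := by
    refine hcore _ inferInstance ?_
    calc Subgroup.centralizer (FN : Set G) ≤ Subgroup.centralizer ((M ⊓ FN : Subgroup G) : Set G) :=
          Subgroup.centralizer_le (fun x hx => hx.2)
      _ ≤ Subgroup.normalizer ((M ⊓ FN : Subgroup G) : Set G) := Subgroup.centralizer_le_normalizer _
      _ = M := hX
  -- `F*(N) = E(N) F(N)`
  have hsplit : FN = (layer N).map N.subtype ⊔ (fittingSubgroup N).map N.subtype := by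
    rw [hFN, Cfsg.Agent.Lib.GenFitting.genFitting_def, Subgroup.map_sup]
  have hE : (layer N).map N.subtype ≤ layer G :=
    Cfsg.Agent.SignalizersComponents.FStarNormal.layer_map_le_of_subnormal
      (Subgroup.Normal.isSubnormal inferInstance)
  have hEF : layer G ≤ Subgroup.centralizer (fittingSubgroup G : Set G) :=
    layer_le_centralizer_fitting
  have hFF : (fittingSubgroup N).map N.subtype ≤ fittingSubgroup G :=
    Cfsg.Agent.SignalizersComponents.FStarNormal.fitting_map_le_of_normal inferInstance
  -- `F(N) = 1`
  have hFN1 : (fittingSubgroup N).map N.subtype = ⊥ := by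
    set F : Subgroup G := (fittingSubgroup N).map N.subtype with hF
    have hFnil : Group.IsNilpotent F := by
      rw [hF]
      exact Cfsg.Agent.SignalizersComponents.FStarNormal.isNilpotent_map _ _
        fittingSubgroup_isNilpotent
    have hZ : (Subgroup.center F).map F.subtype ≤ Subgroup.centralizer (FN : Set G) := by
      rintro _ ⟨z, hz, rfl⟩
      have hzF : (z : G) ∈ fittingSubgroup G := hFF z.2
      have h1 : (z : G) ∈ Subgroup.centralizer ((layer N).map N.subtype : Set G) := by
        rw [Subgroup.mem_centralizer_iff]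
        intro y hy
        exact (Subgroup.mem_centralizer_iff.1 (hEF (hE hy)) z hzF).symm
      have h2 : (z : G) ∈ Subgroup.centralizer (F : Set G) := by
        rw [Subgroup.mem_centralizer_iff]
        intro y hy
        have := Subgroup.mem_center_iff.1 hz ⟨y, hy⟩
        exact congrArg Subtype.val this
      have h3 : FN ≤ Subgroup.centralizer ({(z : G)} : Set G) := by
        rw [hsplit]
        refine sup_le ?_ ?_
        · intro y hy
          rw [Subgroup.mem_centralizer_singleton_iff]
          exact Subgroup.mem_centralizer_iff.1 h1 y hy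
        · intro y hy
          rw [Subgroup.mem_centralizer_singleton_iff]
          exact Subgroup.mem_centralizer_iff.1 h2 y hy
      show (z : G) ∈ _
      rw [Subgroup.mem_centralizer_iff]
      intro y hy
      exact Subgroup.mem_centralizer_singleton_iff.1 (h3 hy)
    rw [hcent, le_bot_iff] at hZ
    have hZ1 : Subgroup.center F = ⊥ := (Subgroup.map_eq_bot_iff_of_injective _ F.subtype_injective).1 hZ
    by_contra hne
    have : Nontrivial F := (Subgroup.nontrivial_iff_ne_bot F).2 hne
    have := hFnil
    exact Group.IsNilpotent.center_ne_bot (G := F) hZ1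
  have hFNE : FN = (layer N).map N.subtype := by rw [hsplit, hFN1, sup_bot_eq]
  -- components of `G`
  have hEG : layer G ≤ (layer N).map N.subtype := by
    rw [layer_le_iff]
    intro K hK
    rcases component_le_or_commutator_eq_bot hK (Subgroup.Normal.isSubnormal (H := N) inferInstance) with h | h
    · exact Cfsg.Agent.SignalizersComponents.FStarNormal.component_le_layer_map hK h
    · exfalso
      have h1 : K ≤ Subgroup.centralizer (FN : Set G) :=
        (Subgroup.commutator_eq_bot_iff_le_centralizer.1 h).trans (Subgroup.centralizer_le hFNN)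
      rw [hcent, le_bot_iff] at h1
      exact component_ne_bot hK h1
  have hEeq : FN = layer G := le_antisymm (hFNE ▸ hE) (hFNE ▸ hEG)
  have hF1 : fittingSubgroup G = ⊥ := by
    have h1 : fittingSubgroup G ≤ Subgroup.centralizer (FN : Set G) := by
      rw [hEeq, Subgroup.le_centralizer_iff]
      exact hEF
    rwa [hcent, le_bot_iff] at h1
  have hFE : generalizedFittingSubgroup G = layer G := by
    rw [Cfsg.Agent.Lib.GenFitting.genFitting_def, hF1, sup_bot_eq]
  refine ⟨hF1, hEeq.trans hFE.symm, hFE, ?_⟩
  intro K hK hK1 hmin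
  rcases hmin (K ⊓ N) inferInstance inf_le_left with h | h
  · exfalso
    have h1 : K ≤ Subgroup.centralizer (N : Set G) := by
      rw [← Subgroup.commutator_eq_bot_iff_le_centralizer, eq_bot_iff, ← h]
      exact Subgroup.commutator_le_inf _ _
    have h2 : K ≤ Subgroup.centralizer (FN : Set G) := h1.trans (Subgroup.centralizer_le hFNN)
    rw [hcent, le_bot_iff] at h2
    exact hK1 h2
  · rw [← h]; exact inf_le_right

end Cfsg.Agent.S3750
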