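import Cfsg.Statements.S3753
import Cfsg.Agent.H443.PrimPair
import Cfsg.Agent.S0626

set_option autoImplicit false
open Cfsg

namespace Cfsg.Agent.S3753

open Subgroup Cfsg.Agent.Lib.Cores Cfsg.Agent.H443.PrimPair

/-- Two distinct subgroups M₁, M₂ of G form a primitive pair when, for {i, j} = {1, 2}, every non-trivial normal subgroup A of M_i contained in M₁ ∩ M₂ satisfies N_{M_j}(A) = M₁ ∩ M₂; the pair has characteristic p when moreover C_{M_i}(O_p(M_i)) ≤ O_p(M_i) for both i and O_p(M₁)O_p(M₂) ≤ M₁ ∩ M₂. If the finite group G has a primitive pair (M₁, M₂) of characteristic p for some prime p, then M₁ or M₂ has non-abelian Sylow 2-subgroups. In particular no group of odd order has a primitive pair of characteristic p. -/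
theorem result {G : Type*} [Group G] [Finite G] {p : ℕ} [Fact p.Prime] (M₁ M₂ : Subgroup G) (hne : M₁ ≠ M₂) (hP : ∀ A : Subgroup G, A ≠ ⊥ → A ≤ M₁ ⊓ M₂ → (M₁ ≤ Subgroup.normalizer (A : Set G) → M₂ ⊓ Subgroup.normalizer (A : Set G) = M₁ ⊓ M₂) ∧ (M₂ ≤ Subgroup.normalizer (A : Set G) → M₁ ⊓ Subgroup.normalizer (A : Set G) = M₁ ⊓ M₂)) (hc₁ : Subgroup.centralizer (Cfsg.pCore p ↥M₁ : Set ↥M₁) ≤ Cfsg.pCore p ↥M₁) (hc₂ : Subgroup.centralizer (Cfsg.pCore p ↥M₂ : Set ↥M₂) ≤ Cfsg.pCore p ↥M₂) (hO : (Cfsg.pCore p ↥M₁).map M₁.subtype ⊔ (Cfsg.pCore p ↥M₂).map M₂.subtype ≤ M₁ ⊓ M₂) : (∃ S : Sylow 2 ↥M₁, ¬ IsMulCommutative (S : Subgroup ↥M₁)) ∨ (∃ S : Sylow 2 ↥M₂, ¬ IsMulCommutative (S : Subgroup ↥M₂)) := by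
  by_contra hcon
  rw [not_or] at hcon
  obtain ⟨h1, h2⟩ := hcon
  push Not at h1 h2
  by_cases hp : p = 2
  · subst hp
    -- every `2`-subgroup of `M` lies in `O_2(M)`
    have key : ∀ M X : Subgroup G, (∀ S : Sylow 2 ↥M, IsMulCommutative (S : Subgroup ↥M)) →
        centralizer (pCore 2 ↥M : Set ↥M) ≤ pCore 2 ↥M → X ≤ M → IsPGroup 2 X → X ≤ core 2 M := by
      intro M X hab hc hXM hX
      have h3 : IsPGroup 2 (X.subgroupOf M) := hX.of_equiv (subgroupOfEquivOfLe hXM).symm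
      obtain ⟨S, hS⟩ := h3.exists_le_sylow
      have h4 : (S : Subgroup M) ≤ centralizer (pCore 2 ↥M : Set ↥M) := by
        intro s hs
        rw [mem_centralizer_iff]
        intro y hy
        have h5 := (hab S).is_comm.comm ⟨y, pCore_le_sylow S hy⟩ ⟨s, hs⟩
        exact congrArg Subtype.val h5
      have h5 : X.subgroupOf M ≤ pCore 2 M := hS.trans (h4.trans hc)
      rw [← Subgroup.map_subgroupOf_eq_of_le hXM]
      exact Subgroup.map_mono h5
    have hQ₁D : core 2 M₁ ≤ M₁ ⊓ M₂ := le_sup_left.trans hO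
    have hQ₂D : core 2 M₂ ≤ M₁ ⊓ M₂ := le_sup_right.trans hO
    have e1 : core 2 M₂ ≤ core 2 M₁ := key M₁ _ h1 hc₁ (hQ₂D.trans inf_le_left) (core_isPGroup 2 M₂)
    have e2 : core 2 M₁ ≤ core 2 M₂ := key M₂ _ h2 hc₂ (hQ₁D.trans inf_le_right) (core_isPGroup 2 M₁)
    have e : core 2 M₁ = core 2 M₂ := le_antisymm e2 e1
    have hcore : ∀ M : Subgroup G, centralizer (pCore 2 ↥M : Set ↥M) ≤ pCore 2 ↥M →
        core 2 M = ⊥ → M = ⊥ := by
      intro M hc h
      have h1 : pCore 2 M = ⊥ := (Subgroup.map_eq_bot_iff_of_injective _ M.subtype_injective).1 h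
      rw [h1] at hc
      rw [eq_bot_iff]
      intro x hx
      have h2 : (⟨x, hx⟩ : M) ∈ (⊥ : Subgroup M) := by
        apply hc
        rw [mem_centralizer_iff]
        intro y hy
        rw [SetLike.mem_coe, mem_bot] at hy
        rw [hy, one_mul, mul_one]
      rw [mem_bot] at h2
      exact congrArg Subtype.val h2
    have hne1 : core 2 M₁ ≠ ⊥ := by
      intro h
      exact hne ((hcore M₁ hc₁ h).trans (hcore M₂ hc₂ (e ▸ h)).symm)
    have f1 := (hP _ hne1 hQ₁D).1 (le_normalizer_core 2 M₁)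
    have f2 := (hP _ hne1 hQ₁D).2 (by rw [e]; exact le_normalizer_core 2 M₂)
    rw [inf_eq_left.2 (by rw [e]; exact le_normalizer_core 2 M₂)] at f1
    rw [inf_eq_left.2 (le_normalizer_core 2 M₁)] at f2
    exact hne (f2.trans f1.symm)
  · exact false_of_stable hp M₁ M₂ hne hP hc₁ hc₂ hO
      (Cfsg.Agent.S0626.result hp h1) (Cfsg.Agent.S0626.result hp h2)

end Cfsg.Agent.S3753
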