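import Cfsg.Statements.S3755
import Cfsg.Agent.Lib.Involves
import Cfsg.Agent.Lib.CoprimeHyperplane
import Cfsg.Agent.Lib.CoprimeAbelian
import Cfsg.Agent.Lib.ThompsonPQ
import Cfsg.Agent.Lib.DihedralRecog
import Cfsg.Agent.SporadicB.DihedralLift
import Cfsg.Agent.Lib.Cores

set_option autoImplicit false
open Cfsg

namespace Cfsg.Agent.S3755

open Subgroup

section elementary

variable {X : Type*} [Group X]

/-- Two elements `a`, `x` normalizing `W`, with `a` an involution on `W` inverting `x` and `x` of order three on `W`,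
give a section isomorphic to `Sym(3)`. -/
theorem involves_perm_three {M W : Subgroup X} (hM : M ≤ normalizer (W : Set X)) {a x : X} (haM : a ∈ M) (hxM : x ∈ M)
    (ha2 : a * a = 1) (hax : a * x * a⁻¹ = x⁻¹) (hx : x ∉ centralizer (W : Set X))
    (hx3 : x ^ 3 ∈ centralizer (W : Set X)) : Involves (Equiv.Perm (Fin 3)) ↥M := by
  have hp3 : Fact (Nat.Prime 3) := ⟨Nat.prime_three⟩
  set ρ : M →* MulAut W := (normalizerMonoidHom W).comp (inclusion hM) with hρ
  have hρv : ∀ (m : M) (w : W), ((ρ m w : W) : X) = m * w * (m : X)⁻¹ := fun m w => rfl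
  have hker : ∀ m : M, (m : X) ∈ centralizer (W : Set X) → ρ m = 1 := by
    intro m hm
    ext w
    rw [hρv]
    have := (mem_centralizer_iff.1 hm) w w.2
    rw [← this]
    simp
  have hker' : ∀ m : M, ρ m = 1 → (m : X) ∈ centralizer (W : Set X) := by
    intro m hm
    rw [mem_centralizer_iff]
    intro w hw
    have h1 := hρv m ⟨w, hw⟩
    rw [hm] at h1
    have h2 : w = (m : X) * w * (m : X)⁻¹ := h1
    exact eq_mul_inv_iff_mul_eq.1 h2
  set r := ρ ⟨x, hxM⟩ with hr
  set s := ρ ⟨a, haM⟩ with hs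
  have hr1 : r ≠ 1 := fun h => hx (hker' ⟨x, hxM⟩ h)
  have hr3 : r ^ 3 = 1 := by
    rw [hr, ← map_pow]
    exact hker _ hx3
  have hro : orderOf r = 3 := orderOf_eq_prime hr3 hr1
  have hss : s * s = 1 := by
    rw [hs, ← map_mul]
    have : (⟨a, haM⟩ : M) * ⟨a, haM⟩ = 1 := Subtype.ext ha2
    rw [this, map_one]
  have hsr : s * r * s⁻¹ = r⁻¹ := by
    rw [hs, hr, ← map_mul, ← map_inv, ← map_mul, ← map_inv]
    congr 1
    exact Subtype.ext hax
  have hns : s ∉ zpowers r := by
    intro h
    obtain ⟨k, hk⟩ := mem_zpowers_iff.1 h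
    have hc : s * r = r * s := by
      rw [← hk]
      exact ((Commute.refl r).zpow_left k).eq
    have h1 : r = r⁻¹ := by
      rw [← hsr, hc, mul_inv_cancel_right]
    have h2 : r * r = 1 := by
      nth_rw 2 [h1]
      exact mul_inv_cancel r
    apply hr1
    have h3 : r ^ 3 = r * r * r := by rw [pow_succ, pow_two]
    rw [h3, h2, one_mul] at hr3
    exact hr3
  obtain ⟨e1⟩ := Cfsg.Agent.Lib.DihedralRecog.closure_dihedral r s hro hss hsr hns
  obtain ⟨e2⟩ := Cfsg.Agent.SporadicB.DihedralLift.dihedral_three_equiv_perm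
  have hle : closure {r, s} ≤ ρ.range := by
    rw [closure_le]
    rintro y (rfl | rfl)
    · exact ⟨_, rfl⟩
    · exact ⟨_, rfl⟩
  apply Cfsg.Agent.Lib.Involves.involves_iff.1
  refine ⟨(closure {r, s}).comap ρ, (e2.toMonoidHom.comp e1.toMonoidHom).comp
    ((ρ.comp ((closure {r, s}).comap ρ).subtype).codRestrict (closure {r, s}) fun m => m.2), ?_⟩
  have hsurj : Function.Surjective ((ρ.comp ((closure {r, s}).comap ρ).subtype).codRestrict (closure {r, s})
      fun m => m.2) := by
    rintro ⟨y, hy⟩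
    obtain ⟨m, rfl⟩ := hle hy
    exact ⟨⟨m, hy⟩, rfl⟩
  exact (e2.surjective.comp e1.surjective).comp hsurj

theorem pow_mem_iff_of_coprime [Finite X] {H : Subgroup X} {x : X} {n : ℕ} (hn : n.Coprime (orderOf x))
    (h : x ^ n ∈ H) : x ∈ H := by
  obtain ⟨m, hm⟩ := exists_pow_eq_self_of_coprime hn
  rw [← hm]
  exact H.pow_mem h m

/-- If an involution `a` inverts `x` of odd order and `|W : C_W(a)| < 4` then `x ^ 3` centralizes the elementary
abelian 2-group `W`. -/
theorem pow_three_mem [Finite X] {W : Subgroup X} (hW : IsElementaryAbelian 2 W) {a x : X}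
    (hx : x ∈ normalizer (W : Set X)) (ha2 : a * a = 1) (hax : a * x * a⁻¹ = x⁻¹) (hodd : Odd (orderOf x))
    (hlt : (centralizer ({a} : Set X)).relIndex W < 4) : x ^ 3 ∈ centralizer (W : Set X) := by
  have h2 : Fact (Nat.Prime 2) := ⟨Nat.prime_two⟩
  have hWc : ∀ u ∈ W, ∀ v ∈ W, u * v = v * u := fun u hu v hv =>
    congrArg Subtype.val (hW.1.is_comm.comm (⟨u, hu⟩ : W) ⟨v, hv⟩)
  have hWp : IsPGroup 2 W := by
    intro w
    refine ⟨1, Subtype.ext ?_⟩
    simpa using hW.2 w w.2
  obtain ⟨n, hn⟩ := IsPGroup.iff_card.1 hWp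
  have hi : (centralizer ({a} : Set X)).relIndex W ≤ 2 := by
    have h1 : (centralizer ({a} : Set X)).relIndex W ∣ 2 ^ n := hn ▸ relIndex_dvd_card _ _
    obtain ⟨k, -, hk⟩ := (Nat.dvd_prime_pow Nat.prime_two).1 h1
    rw [hk] at hlt ⊢
    have : k < 2 := by
      by_contra hcon
      have := Nat.pow_le_pow_right (n := 2) (by norm_num) (not_lt.1 hcon)
      omega
    interval_cases k <;> norm_num
  have hA : zpowers x ≤ normalizer (W : Set X) := zpowers_le.2 hx
  have hcop : (Nat.card (zpowers x)).Coprime (Nat.card W) := by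
    rw [Nat.card_zpowers, hn]
    exact Nat.Coprime.pow_right _ (Nat.coprime_two_right.2 hodd)
  have hinf := Cfsg.Agent.Lib.CoprimeAbelian.inf_commutator_eq_bot (zpowers x) W hWc hA hcop
  have hsup := Cfsg.Agent.Lib.CoprimeAbelian.sup_commutator_eq (zpowers x) W hWc hA hcop
  set W1 : Subgroup X := ⁅W, zpowers x⁆ with hW1
  have hW1le : W1 ≤ W := by
    rw [← hsup]
    exact le_sup_right
  -- `x` normalizes `W1`
  have hxW1 : x ∈ normalizer (W1 : Set X) := by
    have h3 : zpowers x ≤ normalizer (W1 : Set X) := normalizer_commutator_ge_right _ _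
    exact h3 (mem_zpowers x)
  set b := x * a * x⁻¹ with hb
  -- elements commuting with `a` and `b` commute with `x`
  have hab : ∀ w : X, w ∈ centralizer ({a} : Set X) → w ∈ centralizer ({b} : Set X) →
      w ∈ centralizer (zpowers x : Set X) := by
    intro w hwa hwb
    rw [mem_centralizer_singleton_iff] at hwa hwb
    have hba : b * a = x ^ 2 := by
      have ha' : a⁻¹ = a := inv_eq_of_mul_eq_one_right ha2
      have h3 : a * x⁻¹ * a = x := by
        have := congrArg (·⁻¹) hax
        simp only [mul_inv_rev, inv_inv, ha'] at this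
        rw [← mul_assoc] at this
        exact this
      calc b * a = x * (a * x⁻¹ * a) := by rw [hb]; group
        _ = x ^ 2 := by rw [h3, pow_two]
    have hw2 : w * x ^ 2 = x ^ 2 * w := by
      rw [← hba]
      calc w * (b * a) = (w * b) * a := by group
        _ = b * (w * a) := by rw [hwb]; group
        _ = b * a * w := by rw [hwa]; group
    have hx2 : x ^ 2 ∈ centralizer ({w} : Set X) := mem_centralizer_singleton_iff.2 hw2.symm
    have hx1 : x ∈ centralizer ({w} : Set X) :=
      pow_mem_iff_of_coprime (Nat.coprime_two_left.2 hodd) hx2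
    have hx3 : zpowers x ≤ centralizer ({w} : Set X) := zpowers_le.2 hx1
    rw [mem_centralizer_iff]
    intro y hy
    exact mem_centralizer_singleton_iff.1 (hx3 hy)
  -- `|W1| ≤ 4`
  have hconj : ∀ (K L : Subgroup X) (g : X), (K.map (MulAut.conj g).toMonoidHom).relIndex
      (L.map (MulAut.conj g).toMonoidHom) = K.relIndex L := fun K L g =>
    relIndex_map_map_of_injective K L (MulAut.conj g).injective
  have hib : (centralizer ({b} : Set X)).relIndex W ≤ 2 := by
    have h3 := hconj (centralizer ({a} : Set X)) W x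
    have h4 : W.map (MulAut.conj x).toMonoidHom = W := by
      ext y
      constructor
      · rintro ⟨w, hw, rfl⟩
        exact (mem_normalizer_iff.1 hx w).1 hw
      · intro hy
        refine ⟨x⁻¹ * y * x, ?_, ?_⟩
        · refine (mem_normalizer_iff.1 hx _).2 ?_
          have : x * (x⁻¹ * y * x) * x⁻¹ = y := by group
          rwa [this]
        · show x * (x⁻¹ * y * x) * x⁻¹ = y
          group
    have h5 : (centralizer ({a} : Set X)).map (MulAut.conj x).toMonoidHom = centralizer ({b} : Set X) := by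
      ext y
      constructor
      · rintro ⟨w, hw, rfl⟩
        have hw' := mem_centralizer_singleton_iff.1 hw
        rw [mem_centralizer_singleton_iff]
        show x * w * x⁻¹ * (x * a * x⁻¹) = x * a * x⁻¹ * (x * w * x⁻¹)
        calc x * w * x⁻¹ * (x * a * x⁻¹) = x * (w * a) * x⁻¹ := by group
          _ = x * (a * w) * x⁻¹ := by rw [hw']
          _ = _ := by group
      · intro hy
        have hy' := mem_centralizer_singleton_iff.1 hy
        refine ⟨x⁻¹ * y * x, ?_, ?_⟩
        · refine mem_centralizer_singleton_iff.2 ?_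
          calc x⁻¹ * y * x * a = x⁻¹ * (y * (x * a * x⁻¹)) * x := by group
            _ = x⁻¹ * (x * a * x⁻¹ * y) * x := by rw [hy']
            _ = a * (x⁻¹ * y * x) := by group
        · show x * (x⁻¹ * y * x) * x⁻¹ = y
          group
    rw [h4, h5] at h3
    rw [h3]
    exact hi
  have hcard : Nat.card W1 ≤ 4 := by
    have h3 : (centralizer ({a} : Set X) ⊓ centralizer ({b} : Set X)).relIndex W1 ≤
        (centralizer ({a} : Set X)).relIndex W1 * (centralizer ({b} : Set X)).relIndex W1 := relIndex_inf_le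
    have hne : ∀ K : Subgroup X, K.relIndex W ≠ 0 := fun K h =>
      Nat.card_pos.ne' (Nat.eq_zero_of_zero_dvd (h ▸ relIndex_dvd_card K W))
    have h4 : (centralizer ({a} : Set X)).relIndex W1 ≤ 2 := (relIndex_le_of_le_right hW1le (hne _)).trans hi
    have h5 : (centralizer ({b} : Set X)).relIndex W1 ≤ 2 := (relIndex_le_of_le_right hW1le (hne _)).trans hib
    have h6 : (centralizer ({a} : Set X) ⊓ centralizer ({b} : Set X)) ⊓ W1 = ⊥ := by
      rw [eq_bot_iff, ← hinf]
      rintro w ⟨⟨hw1, hw2⟩, hw3⟩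
      exact ⟨⟨hW1le hw3, hab w hw1 hw2⟩, hw3⟩
    have h7 : (centralizer ({a} : Set X) ⊓ centralizer ({b} : Set X)).relIndex W1 = Nat.card W1 := by
      rw [← inf_relIndex_right, h6, relIndex_bot_left]
    rw [← h7]
    exact h3.trans (Nat.mul_le_mul h4 h5)
  -- `x ^ 3` centralizes `W1`
  have hxc : x ^ 3 ∈ centralizer (W1 : Set X) := by
    set φ := normalizerMonoidHom W1 ⟨x, hxW1⟩ with hφ
    have h3 : (MulAut.toPerm W1 φ) ^ 24 = 1 := by
      classical
      have : Fintype W1 := Fintype.ofFinite _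
      rw [← orderOf_dvd_iff_pow_eq_one]
      refine (_root_.orderOf_dvd_natCard _).trans ?_
      rw [Nat.card_eq_fintype_card, Fintype.card_perm, ← Nat.card_eq_fintype_card]
      exact Nat.factorial_dvd_factorial hcard
    have h4 : φ ^ 24 = 1 := by
      rw [← map_pow] at h3
      ext w
      exact congrArg (fun f : Equiv.Perm W1 => ((f w : W1) : X)) h3
    have h5 : x ^ 24 ∈ centralizer (W1 : Set X) := by
      rw [mem_centralizer_iff]
      intro w hw
      have h6 : (normalizerMonoidHom W1 (⟨x, hxW1⟩ ^ 24)) ⟨w, hw⟩ = ⟨w, hw⟩ := by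
        rw [map_pow, ← hφ, h4]
        rfl
      have h7 : x ^ 24 * w * (x ^ 24)⁻¹ = w := congrArg Subtype.val h6
      have := mul_inv_eq_iff_eq_mul.1 h7
      exact this.symm
    have h6 : x ^ 24 = (x ^ 3) ^ 8 := by rw [← pow_mul]
    rw [h6] at h5
    refine pow_mem_iff_of_coprime ?_ h5
    have h7 : (2 : ℕ).Coprime (orderOf (x ^ 3)) := by
      refine Nat.Coprime.coprime_dvd_right (orderOf_pow_dvd 3) ?_
      exact Nat.coprime_two_left.2 hodd
    have h8 : (8 : ℕ) = 2 ^ 3 := by norm_num
    rw [h8]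
    exact Nat.Coprime.pow_left 3 h7
  -- conclusion
  rw [← hsup]
  have hle : (W ⊓ centralizer (zpowers x : Set X)) ⊔ W1 ≤ centralizer ({x ^ 3} : Set X) := by
    refine sup_le ?_ ?_
    · rintro w ⟨-, hw⟩
      rw [mem_centralizer_singleton_iff]
      exact ((mem_centralizer_iff.1 hw) (x ^ 3) ((zpowers x).pow_mem (mem_zpowers x) 3)).symm
    · intro w hw
      rw [mem_centralizer_singleton_iff]
      exact (mem_centralizer_iff.1 hxc) w hw
  rw [mem_centralizer_iff]
  intro w hw
  exact mem_centralizer_singleton_iff.1 (hle hw)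


/-- The counting argument: if no involution `a ∈ A` inverts an element `x ∈ L` of order three on `V`, then
`|A|² ≤ |V : C_V(A)|`. -/
theorem card_sq_le [Finite X] {V L : Subgroup X} (hV : IsElementaryAbelian 2 V) (hL : Odd (Nat.card L))
    (hLV : L ≤ normalizer (V : Set X)) (hLf : L ⊓ centralizer (V : Set X) = ⊥) (n : ℕ) :
    ∀ A : Subgroup X, Nat.card A = n → IsElementaryAbelian 2 A → A ≤ normalizer (V : Set X) →
      A ≤ normalizer (L : Set X) → A ⊓ centralizer (L : Set X) = ⊥ →
      (∀ a ∈ A, ∀ x ∈ L, a * x * a⁻¹ = x⁻¹ → x ≠ 1 → x ^ 3 ∉ centralizer (V : Set X)) →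
      Nat.card A ^ 2 ≤ (centralizer (A : Set X)).relIndex V := by
  have h2 : Fact (Nat.Prime 2) := ⟨Nat.prime_two⟩
  induction n using Nat.strong_induction_on with
  | _ n ih =>
    intro A hn hA hAV hAL hAf hno
    have hVp : IsPGroup 2 V := by
      intro w
      refine ⟨1, Subtype.ext ?_⟩
      simpa using hV.2 w w.2
    have hpos : ∀ K : Subgroup X, 0 < K.relIndex V := fun K => Nat.pos_of_ne_zero fun h =>
      Nat.card_pos.ne' (Nat.eq_zero_of_zero_dvd (h ▸ relIndex_dvd_card K V))
    by_cases hA1 : A = ⊥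
    · rw [hA1, card_bot, one_pow]
      exact hpos _
    -- a hyperplane `B` of `A` with `[C_L(B), A] ≠ 1`
    have hLc : (Nat.card L).Coprime 2 := Nat.coprime_two_right.2 hL
    have hgen := Cfsg.Agent.Lib.CoprimeHyperplane.le_iSup_hyperplane A L hA hA1 hLc hAL
    obtain ⟨B, hBA, hBi, c, hcL, hcB, a, haA, hac⟩ : ∃ B : Subgroup X, B ≤ A ∧ B.relIndex A = 2 ∧
        ∃ c ∈ L, c ∈ centralizer (B : Set X) ∧ ∃ a ∈ A, a * c ≠ c * a := by
      by_contra hcon
      push Not at hcon
      apply hA1
      rw [eq_bot_iff, ← hAf]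
      refine le_inf le_rfl ?_
      have h3 : L ≤ centralizer (A : Set X) := by
        rw [hgen]
        refine iSup_le ?_
        rintro ⟨B, hBA, hBi⟩ c ⟨hc1, hc2⟩
        rw [mem_centralizer_iff]
        intro a ha
        exact hcon B hBA hBi c hc1 hc2 a ha
      rw [le_centralizer_iff]
      exact h3
    have hAc : ∀ u ∈ A, ∀ v ∈ A, u * v = v * u := fun u hu v hv =>
      congrArg Subtype.val (hA.1.is_comm.comm (⟨u, hu⟩ : A) ⟨v, hv⟩)
    have haB : a ∉ B := fun h => hac ((mem_centralizer_iff.1 hcB) a h)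
    have ha2 : a * a = 1 := by
      rw [← pow_two]
      exact hA.2 a haA
    have hai : a⁻¹ = a := inv_eq_of_mul_eq_one_right ha2
    have hBea : IsElementaryAbelian 2 B :=
      ⟨⟨⟨fun u v => Subtype.ext (hAc u (hBA u.2) v (hBA v.2))⟩⟩, fun u hu => hA.2 u (hBA hu)⟩
    have hBp : IsPGroup 2 B := by
      intro w
      refine ⟨1, Subtype.ext ?_⟩
      simpa using hBea.2 w w.2
    have hcard : Nat.card A = 2 * Nat.card B := by
      have h4 := Subgroup.card_mul_index (B.subgroupOf A)
      have h5 : Nat.card (B.subgroupOf A) = Nat.card B := Nat.card_congr (subgroupOfEquivOfLe hBA).toEquiv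
      have h6 : (B.subgroupOf A).index = 2 := hBi
      rw [h5, h6] at h4
      omega
    have hBpos : 0 < Nat.card B := Nat.card_pos
    -- induction
    have ihB := ih (Nat.card B) (by omega) B rfl hBea (hBA.trans hAV) (hBA.trans hAL)
      (by
        rw [eq_bot_iff, ← hAf]
        exact inf_le_inf_right _ hBA)
      (fun a' ha' => hno a' (hBA ha'))
    set W : Subgroup X := V ⊓ centralizer (B : Set X) with hW
    -- the inverted element
    set x := c * a * c⁻¹ * a⁻¹ with hx
    have hx1 : x ≠ 1 := by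
      intro h
      apply hac
      have h3 : c * a * c⁻¹ = a := by
        rw [hx, mul_inv_eq_one] at h
        exact h
      rw [mul_inv_eq_iff_eq_mul] at h3
      exact h3.symm
    have hxL : x ∈ L := by
      have h3 : a * c⁻¹ * a⁻¹ ∈ L := (mem_normalizer_iff.1 (hAL haA) _).1 (L.inv_mem hcL)
      have h4 : x = c * (a * c⁻¹ * a⁻¹) := by rw [hx]; group
      rw [h4]
      exact L.mul_mem hcL h3
    have haBc : a ∈ centralizer (B : Set X) := by
      rw [mem_centralizer_iff]
      intro b hb
      exact hAc b (hBA hb) a haA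
    have hxB : x ∈ centralizer (B : Set X) :=
      mul_mem (mul_mem (mul_mem hcB haBc) (inv_mem hcB)) (inv_mem haBc)
    have hax : a * x * a⁻¹ = x⁻¹ := by
      rw [hx]
      simp only [mul_inv_rev, inv_inv, hai]
      calc a * (c * a * c⁻¹ * a) * a = a * c * a * c⁻¹ * (a * a) := by group
        _ = a * (c * (a * c⁻¹)) := by rw [ha2]; group
    have hxo : Odd (orderOf x) := by
      have h3 : orderOf x ∣ Nat.card L := by
        rw [← Subgroup.orderOf_mk x hxL]
        exact _root_.orderOf_dvd_natCard _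
      exact Odd.of_dvd_nat hL h3
    have hxV : x ∈ normalizer (V : Set X) := hLV hxL
    have hWea : IsElementaryAbelian 2 W :=
      ⟨⟨⟨fun u v => Subtype.ext (show (u : X) * v = v * u from congrArg Subtype.val (hV.1.is_comm.comm
        (⟨u, (mem_inf.1 u.2).1⟩ : V) ⟨v, (mem_inf.1 v.2).1⟩))⟩⟩, fun u hu => hV.2 u (mem_inf.1 hu).1⟩
    have hxW : x ∈ normalizer (W : Set X) := by
      have h3 : ∀ y : X, y ∈ normalizer (V : Set X) → y ∈ centralizer (B : Set X) → ∀ w ∈ W, y * w * y⁻¹ ∈ W := by
        intro y hy hyB w hw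
        obtain ⟨hw1, hw2⟩ := mem_inf.1 hw
        exact mem_inf.2 ⟨(mem_normalizer_iff.1 hy w).1 hw1, mul_mem (mul_mem hyB hw2) (inv_mem hyB)⟩
      rw [mem_normalizer_iff]
      intro w
      refine ⟨h3 x hxV hxB w, fun h => ?_⟩
      have := h3 x⁻¹ (inv_mem hxV) (inv_mem hxB) _ h
      simpa [mul_assoc] using this
    -- `x` acts nontrivially on `W`
    have hxnW : x ^ 3 ∉ centralizer (W : Set X) := by
      intro h
      have h3 := Cfsg.Agent.Lib.ThompsonPQ.thompson_p_times_q 2 B (zpowers (x ^ 3)) V hBp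
        (by
          rw [Nat.card_zpowers]
          refine Nat.Coprime.coprime_dvd_left (orderOf_pow_dvd 3) ?_
          exact Nat.coprime_two_right.2 hxo) hVp
        (by
          rw [← le_centralizer_iff, zpowers_le]
          exact pow_mem hxB 3) (hBA.trans hAV) (zpowers_le.2 (pow_mem hxV 3))
        (by
          rw [← le_centralizer_iff, zpowers_le]
          exact h)
      exact hno a haA x hxL hax hx1 (h3 (mem_zpowers _))
    have h4 : 4 ≤ (centralizer ({a} : Set X)).relIndex W := by
      by_contra hcon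
      exact hxnW (pow_three_mem hWea hxW ha2 hax hxo (not_le.1 hcon))
    -- the centralizer of `A` in `V`
    have h5 : W ⊓ centralizer ({a} : Set X) = V ⊓ centralizer (A : Set X) := by
      have hAB : A ≤ B ⊔ zpowers a := by
        have hle : B ⊔ zpowers a ≤ A := sup_le hBA (zpowers_le.2 haA)
        have hlt : B < B ⊔ zpowers a := lt_of_le_of_ne le_sup_left fun h => haB (by
          rw [h]
          exact mem_sup_right (mem_zpowers a))
        have h6 : Nat.card (B ⊔ zpowers a : Subgroup X) ∣ Nat.card A := card_dvd_of_le hle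
        have h7 : Nat.card B ∣ Nat.card (B ⊔ zpowers a : Subgroup X) := card_dvd_of_le le_sup_left
        obtain ⟨k, hk⟩ := h7
        have h8 : 1 < k := by
          by_contra hk1
          have hk1' : k ≤ 1 := not_lt.1 hk1
          have : Nat.card (B ⊔ zpowers a : Subgroup X) ≤ Nat.card B := by
            rw [hk]
            calc Nat.card B * k ≤ Nat.card B * 1 := Nat.mul_le_mul_left _ hk1'
              _ = Nat.card B := mul_one _
          exact hlt.ne (eq_of_le_of_card_ge le_sup_left this)
        have h9 : Nat.card A ≤ Nat.card (B ⊔ zpowers a : Subgroup X) := by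
          rw [hk, hcard, mul_comm]
          exact Nat.mul_le_mul_left _ h8
        exact (eq_of_le_of_card_ge hle h9).ge
      ext w
      simp only [hW, mem_inf]
      constructor
      · rintro ⟨⟨h6, h7⟩, h8⟩
        refine ⟨h6, ?_⟩
        have h9 : B ⊔ zpowers a ≤ centralizer ({w} : Set X) := by
          refine sup_le ?_ (zpowers_le.2 ?_)
          · intro b hb
            rw [mem_centralizer_singleton_iff]
            exact (mem_centralizer_iff.1 h7) b hb
          · rw [mem_centralizer_singleton_iff]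
            exact (mem_centralizer_singleton_iff.1 h8).symm
        rw [mem_centralizer_iff]
        intro a' ha'
        exact mem_centralizer_singleton_iff.1 (h9 (hAB ha'))
      · rintro ⟨h6, h7⟩
        refine ⟨⟨h6, centralizer_le hBA h7⟩, ?_⟩
        rw [mem_centralizer_singleton_iff]
        exact ((mem_centralizer_iff.1 h7) a haA).symm
    have h6 : (centralizer (A : Set X)).relIndex V =
        (centralizer ({a} : Set X)).relIndex W * (centralizer (B : Set X)).relIndex V := by
      have h7 := relIndex_mul_relIndex (W ⊓ centralizer ({a} : Set X)) W V inf_le_left inf_le_left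
      have e1 : (W ⊓ centralizer ({a} : Set X)).relIndex W = (centralizer ({a} : Set X)).relIndex W :=
        inf_relIndex_left _ _
      have e2 : W.relIndex V = (centralizer (B : Set X)).relIndex V := inf_relIndex_left _ _
      have e3 : (W ⊓ centralizer ({a} : Set X)).relIndex V = (centralizer (A : Set X)).relIndex V := by
        rw [h5]
        exact inf_relIndex_left _ _
      rw [← e3, ← h7, e1, e2]
    rw [h6, hcard, mul_pow]
    exact Nat.mul_le_mul h4 ihB

end elementary

/-- Let M and V be subgroups of a finite group with V an elementary abelian 2-group, M normalizing V and acting faithfully on it (M ∩ C(V) = 1), and C_M(O_{2'}(M)) ≤ O_{2'}(M). If some elementary abelian 2-subgroup A of M satisfies |V : C_V(A)| < |A|², then M has a section isomorphic to the symmetric group of degree 3. -/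
theorem result {X : Type*} [Group X] [Finite X] (M V : Subgroup X) (hV : Cfsg.IsElementaryAbelian 2 V) (hMV : M ≤ Subgroup.normalizer (V : Set X)) (hfaith : M ⊓ Subgroup.centralizer (V : Set X) = ⊥) (hcon : Subgroup.centralizer (Cfsg.pPrimeCore 2 ↥M : Set ↥M) ≤ Cfsg.pPrimeCore 2 ↥M) (A : Subgroup X) (hAM : A ≤ M) (hA : Cfsg.IsElementaryAbelian 2 A) (hsmall : (V ⊓ Subgroup.centralizer (A : Set X)).relIndex V < Nat.card A ^ 2) : Cfsg.Involves (Equiv.Perm (Fin 3)) ↥M := by
  by_contra hinv
  set L : Subgroup X := (pPrimeCore 2 M).map M.subtype with hL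
  have hLM : L ≤ M := map_subtype_le _
  have hodd : Odd (Nat.card L) := by
    have h1 : (Nat.card (pPrimeCore 2 M)).Coprime 2 := Cfsg.Agent.Lib.Cores.pPrimeCore_coprime (G := M) 2
    have h2 : Nat.card L = Nat.card (pPrimeCore 2 M) :=
      (Nat.card_congr ((pPrimeCore 2 M).equivMapOfInjective M.subtype M.subtype_injective).toEquiv).symm
    rw [h2]
    exact Nat.coprime_two_right.1 h1
  have hLn : M ≤ normalizer (L : Set X) := by
    have h1 : (pPrimeCore 2 M).Normal := Cfsg.Agent.Lib.Cores.pPrimeCore_normal 2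
    have key : ∀ m ∈ M, ∀ l ∈ L, m * l * m⁻¹ ∈ L := by
      rintro m hm _ ⟨l, hl, rfl⟩
      exact ⟨⟨m, hm⟩ * l * ⟨m, hm⟩⁻¹, h1.conj_mem l hl ⟨m, hm⟩, rfl⟩
    intro m hm
    rw [mem_normalizer_iff]
    intro l
    refine ⟨key m hm l, fun h => ?_⟩
    have := key m⁻¹ (M.inv_mem hm) _ h
    simpa [mul_assoc] using this
  have hfix : A ⊓ centralizer (L : Set X) = ⊥ := by
    rw [eq_bot_iff]
    rintro a ⟨ha, hac⟩
    have h1 : (⟨a, hAM ha⟩ : M) ∈ centralizer (pPrimeCore 2 M : Set M) := by
      rw [mem_centralizer_iff]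
      intro l hl
      exact Subtype.ext ((mem_centralizer_iff.1 hac) l ⟨l, hl, rfl⟩)
    have haL : a ∈ L := ⟨_, hcon h1, rfl⟩
    have h2 : orderOf a ∣ Nat.card L := by
      rw [← Subgroup.orderOf_mk a haL]
      exact _root_.orderOf_dvd_natCard _
    have h3 : orderOf a ∣ 2 := orderOf_dvd_of_pow_eq_one (hA.2 a ha)
    have h4 : orderOf a ∣ Nat.gcd 2 (Nat.card L) := Nat.dvd_gcd h3 h2
    have h5 : Nat.gcd 2 (Nat.card L) = 1 := Nat.coprime_two_left.2 hodd
    rw [h5, Nat.dvd_one, orderOf_eq_one_iff] at h4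
    exact h4
  have hLf : L ⊓ centralizer (V : Set X) = ⊥ := by
    rw [eq_bot_iff, ← hfaith]
    exact inf_le_inf_right _ hLM
  rw [inf_relIndex_left] at hsmall
  refine absurd (card_sq_le hV hodd (hLM.trans hMV) hLf (Nat.card A) A rfl hA (hAM.trans hMV) (hAM.trans hLn)
    hfix ?_) (not_le.2 hsmall)
  intro a ha x hx hax hx1 hx3
  refine hinv (involves_perm_three hMV (hAM ha) (hLM hx) ?_ hax ?_ hx3)
  · rw [← pow_two]
    exact hA.2 a ha
  · intro h
    have h1 : x ∈ L ⊓ centralizer (V : Set X) := ⟨hx, h⟩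
    rw [hLf] at h1
    exact hx1 h1

end Cfsg.Agent.S3755
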