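import Cfsg.Statements.S3757
import Cfsg.Agent.SignalizersComponents.SolvableFunctor
import Cfsg.Agent.SignalizersComponents.CoprimeGen

set_option autoImplicit false
open Cfsg

namespace Cfsg.Agent.S3757

/-- Let A and G be subgroups of a finite group with A an elementary abelian p-group of rank at least 3 (order at least p³) normalizing G, and G of order prime to p. If C_G(a) is solvable for every non-identity a ∈ A, then G is solvable. -/
theorem result {X : Type*} [Group X] [Finite X] {p : ℕ} [Fact p.Prime] (A G : Subgroup X) (hA : Cfsg.IsElementaryAbelian p A) (hrank : p ^ 3 ≤ Nat.card A) (hAG : A ≤ Subgroup.normalizer (G : Set X)) (hG : (Nat.card G).Coprime p) (hsol : ∀ a ∈ A, a ≠ 1 → Group.IsSolvable ↥(G ⊓ Subgroup.centralizer ({a} : Set X))) : Group.IsSolvable G := by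
  have hp : p.Prime := Fact.out
  have hGp : ¬ p ∣ Nat.card G := (Nat.Prime.coprime_iff_not_dvd hp).1 hG.symm
  have hcomm : ∀ a ∈ A, ∀ b ∈ A, a * b = b * a := by
    intro a ha b hb
    have := hA.1.is_comm.comm (⟨a, ha⟩ : A) ⟨b, hb⟩
    exact congrArg Subtype.val this
  have hinv : ∀ b ∈ A, ∀ x ∈ G, b * x * b⁻¹ ∈ G := fun b hb x hx =>
    (Subgroup.mem_normalizer_iff.1 (hAG hb) x).1 hx
  set θ : X → Subgroup X := fun a => G ⊓ Subgroup.centralizer ({a} : Set X) with hθdef
  have hθ : Cfsg.IsSolvableSignalizerFunctor p A θ := by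
    refine ⟨⟨fun a _ _ => inf_le_right, fun a _ _ h => ?_, fun a ha _ b hb x hx => ?_, fun a _ _ b _ _ => ?_⟩,
      fun a ha ha1 => hsol a ha ha1⟩
    · exact hGp (h.trans (Subgroup.card_dvd_of_le inf_le_left))
    · obtain ⟨h1, h2⟩ := Subgroup.mem_inf.1 hx
      refine Subgroup.mem_inf.2 ⟨hinv b hb x h1, ?_⟩
      rw [Subgroup.mem_centralizer_singleton_iff] at h2 ⊢
      have hab := hcomm a ha b hb
      have hab' : b⁻¹ * a = a * b⁻¹ := by
        have := hcomm a ha b⁻¹ (A.inv_mem hb)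
        exact this.symm
      calc b * x * b⁻¹ * a = b * x * (b⁻¹ * a) := by group
        _ = b * (x * a) * b⁻¹ := by rw [hab']; group
        _ = b * (a * x) * b⁻¹ := by rw [h2]
        _ = (b * a) * x * b⁻¹ := by group
        _ = a * (b * x * b⁻¹) := by rw [← hab]; group
    · intro x hx
      obtain ⟨h1, h2⟩ := Subgroup.mem_inf.1 hx
      exact Subgroup.mem_inf.2 ⟨(Subgroup.mem_inf.1 h1).1, h2⟩
  obtain ⟨h1, -⟩ := Cfsg.Agent.SignalizersComponents.SolvableFunctor.closure_mem hA hrank hθ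
  have h2 : G ≤ ⨆ a : {a : X // a ∈ A ∧ a ≠ 1}, θ (a : X) :=
    Cfsg.Agent.SignalizersComponents.CoprimeGen.le_iSup_centralizer_ne_one hA
      ((Nat.pow_le_pow_right hp.pos (by norm_num)).trans hrank) hGp hAG
  have h3 : (⨆ a : {a : X // a ∈ A ∧ a ≠ 1}, θ (a : X)) ≤ G := iSup_le fun a => inf_le_left
  rw [le_antisymm h2 h3]
  exact h1.1

end Cfsg.Agent.S3757
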