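import Cfsg.Statements.S3768
import Cfsg.Agent.S0035
import Cfsg.Agent.S0039

set_option autoImplicit false
open Cfsg

namespace Cfsg.Agent.S3768

open Cfsg.Agent.Solvable.FrobeniusKernel

/-- If `r` has no nontrivial fixed points on the `r`-invariant finite subgroup `K`, then every
element of `K` is of the form `k⁻¹ (r k r⁻¹)`. -/
theorem exists_comm {G : Type*} [Group G] [Finite G] (K : Subgroup G) (r : G)
    (hr : ∀ k ∈ K, r * k * r⁻¹ ∈ K) (hfix : ∀ k ∈ K, r * k = k * r → k = 1) :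
    ∀ x ∈ K, ∃ k ∈ K, x = k⁻¹ * (r * k * r⁻¹) := by
  have hinj : Function.Injective
      (fun k : K => (⟨(k : G)⁻¹ * (r * k * r⁻¹), K.mul_mem (K.inv_mem k.2) (hr k k.2)⟩ : K)) := by
    rintro ⟨a, ha⟩ ⟨b, hb⟩ hab
    simp only [Subtype.mk.injEq] at hab
    have h1 : b * a⁻¹ = 1 := by
      apply hfix _ (K.mul_mem hb (K.inv_mem ha))
      have h2 : r * a⁻¹ * r⁻¹ * r = r * a⁻¹ := by group
      calc r * (b * a⁻¹) = (r * b * r⁻¹) * (r * a * r⁻¹)⁻¹ * r := by group
        _ = (b * (b⁻¹ * (r * b * r⁻¹))) * (r * a * r⁻¹)⁻¹ * r := by group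
        _ = (b * (a⁻¹ * (r * a * r⁻¹))) * (r * a * r⁻¹)⁻¹ * r := by rw [hab]
        _ = b * a⁻¹ * r := by group
    exact Subtype.ext (mul_inv_eq_one.1 h1).symm
  have hsurj := Finite.surjective_of_injective hinj
  intro x hx
  obtain ⟨⟨k, hk⟩, hk'⟩ := hsurj ⟨x, hx⟩
  exact ⟨k, hk, (congrArg Subtype.val hk').symm⟩


/-- Let G be a finite Frobenius group with Frobenius complement R and Frobenius kernel K (the identity together with the elements in no conjugate of R), and let N be a normal subgroup of G not containing K. Then G/N is a Frobenius group with Frobenius complement RN/N whose Frobenius kernel is the image of K. -/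
theorem result {G : Type*} [Group G] [Finite G] (R : Subgroup G) (hR : Cfsg.IsFrobeniusComplement R) (N : Subgroup G) [N.Normal] (hKN : ¬ Cfsg.frobeniusKernel R ⊆ N) : Cfsg.IsFrobeniusComplement (R.map (QuotientGroup.mk' N)) ∧ Cfsg.frobeniusKernel (R.map (QuotientGroup.mk' N)) = QuotientGroup.mk' N '' Cfsg.frobeniusKernel R := by
  obtain ⟨K, hKf, hKn, hc⟩ := Cfsg.Agent.S0035.result R hR
  have hdis : ∀ x, x ∈ K → x ∈ R → x = 1 := fun x hx hx' =>
    Subgroup.mem_bot.1 (hc.disjoint.le_bot ⟨hx, hx'⟩)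
  rw [← hKf] at hKN
  have hKN' : ¬ K ≤ N := hKN
  have hR1 : R ≠ ⊥ := hR.1
  have hK1 : K ≠ ⊥ := by
    rintro rfl
    exact hKN' bot_le
  -- fixed point freeness
  have hfpf : ∀ r ∈ R, r ≠ 1 → ∀ k ∈ K, r * k = k * r → k = 1 := by
    intro r hr hr1 k hk hrk
    apply hdis k hk
    apply centralizer_le hR hr hr1
    rw [Subgroup.mem_centralizer_singleton_iff]
    exact hrk.symm
  -- no nontrivial element of `R` lies in `N`
  have hRN : ∀ r ∈ R, r ∈ N → r = 1 := by
    intro r hr hrN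
    by_contra hr1
    apply hKN'
    intro x hx
    obtain ⟨k, hk, rfl⟩ := exists_comm K r (fun k hk => hKn.conj_mem k hk r) (hfpf r hr hr1) x hx
    have h1 : k⁻¹ * (r * k * r⁻¹) = (k⁻¹ * r * k⁻¹⁻¹) * r⁻¹ := by group
    rw [h1]
    exact N.mul_mem (Subgroup.Normal.conj_mem inferInstance r hrN k⁻¹) (N.inv_mem hrN)
  -- hence `N ≤ K`
  have hNK : N ≤ K := by
    intro x hx
    by_contra hxK
    have hxK' : x ∉ Cfsg.frobeniusKernel R := by rwa [← hKf]
    obtain ⟨hx1, g, hg⟩ := not_mem_kernel_iff.1 hxK'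
    have h2 : g⁻¹ * x * g ∈ N := by
      have := Subgroup.Normal.conj_mem (inferInstance : N.Normal) x hx g⁻¹
      rwa [inv_inv] at this
    have h3 := hRN _ hg h2
    apply hx1
    calc x = g * (g⁻¹ * x * g) * g⁻¹ := by group
      _ = 1 := by rw [h3]; simp
  set π := QuotientGroup.mk' N with hπ
  have hπs : Function.Surjective π := QuotientGroup.mk'_surjective N
  have hπ1 : ∀ g : G, π g = 1 ↔ g ∈ N := by
    intro g
    rw [← MonoidHom.mem_ker, QuotientGroup.ker_mk']
  have hKmem : ∀ g : G, π g ∈ K.map π ↔ g ∈ K := by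
    intro g
    constructor
    · rintro ⟨k, hk, hkg⟩
      have h4 : k⁻¹ * g ∈ N := by
        rw [← hπ1, map_mul, map_inv, hkg]; simp
      have := K.mul_mem hk (hNK h4)
      rwa [mul_inv_cancel_left] at this
    · intro hg
      exact ⟨g, hg, rfl⟩
  have hKn' : (K.map π).Normal := hKn.map π hπs
  have hdis' : ∀ x, x ∈ K.map π → x ∈ R.map π → x = 1 := by
    rintro x hx ⟨r, hr, rfl⟩
    rw [hKmem] at hx
    rw [hdis r hx hr, map_one]
  have hc' : Subgroup.IsComplement' (K.map π) (R.map π) := by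
    apply Subgroup.isComplement'_of_disjoint_and_mul_eq_univ
    · rw [Subgroup.disjoint_def]
      intro x hx hx'
      exact hdis' x hx hx'
    · rw [Set.eq_univ_iff_forall]
      intro x
      obtain ⟨g, rfl⟩ := hπs x
      obtain ⟨⟨⟨k, hk⟩, ⟨r, hr⟩⟩, rfl⟩ := hc.2 g
      exact ⟨π k, ⟨k, hk, rfl⟩, π r, ⟨r, hr, rfl⟩, (map_mul π k r).symm⟩
  have hF : Cfsg.IsFrobeniusComplement (R.map π) := by
    rw [Cfsg.Agent.S0039.result (K.map π) (R.map π) hc' ?_ ?_]
    · rintro _ ⟨r, hr, rfl⟩ hr1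
      rw [eq_bot_iff]
      rintro x ⟨⟨k, hk, rfl⟩, hx⟩
      rw [Subgroup.mem_bot]
      have hr1' : r ≠ 1 := by
        rintro rfl
        exact hr1 (map_one π)
      have h5 := Subgroup.mem_centralizer_singleton_iff.1 hx
      have h6 : k⁻¹ * (r * k * r⁻¹) ∈ N := by
        rw [← hπ1]
        simp only [map_mul, map_inv]
        rw [← h5]
        group
      obtain ⟨n, hn, hn'⟩ := exists_comm N r (fun k hk => Subgroup.Normal.conj_mem inferInstance k hk r)
        (fun k hk => hfpf r hr hr1' k (hNK hk)) _ h6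
      have h7 : k * n⁻¹ = 1 := by
        apply hfpf r hr hr1' _ (K.mul_mem hk (K.inv_mem (hNK hn)))
        calc r * (k * n⁻¹) = (r * k * r⁻¹) * (r * n * r⁻¹)⁻¹ * r := by group
          _ = (k * (k⁻¹ * (r * k * r⁻¹))) * (r * n * r⁻¹)⁻¹ * r := by group
          _ = (k * (n⁻¹ * (r * n * r⁻¹))) * (r * n * r⁻¹)⁻¹ * r := by rw [hn']
          _ = k * n⁻¹ * r := by group
      rw [hπ1, mul_inv_eq_one.1 h7]
      exact hn
    · intro h
      apply hKN'
      intro k hk
      rw [← hπ1]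
      have : π k ∈ K.map π := ⟨k, hk, rfl⟩
      rw [h] at this
      exact this
    · intro h
      apply hR1
      rw [eq_bot_iff]
      intro r hr
      have : π r ∈ R.map π := ⟨r, hr, rfl⟩
      rw [h, Subgroup.mem_bot, hπ1] at this
      exact hRN r hr this
  refine ⟨hF, ?_⟩
  obtain ⟨K', hKf', hKn'', hc''⟩ := Cfsg.Agent.S0035.result (R.map π) hF
  have hle : K.map π ≤ K' := by
    intro x hx
    change x ∈ (K' : Set (G ⧸ N))
    rw [hKf']
    by_contra hxn
    obtain ⟨hx1, g, hg⟩ := not_mem_kernel_iff.1 hxn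
    have h2 : g⁻¹ * x * g ∈ K.map π := by
      have := hKn'.conj_mem x hx g⁻¹
      rwa [inv_inv] at this
    have h3 := hdis' _ h2 hg
    apply hx1
    calc x = g * (g⁻¹ * x * g) * g⁻¹ := by group
      _ = 1 := by rw [h3]; simp
  have hcard : Nat.card (K.map π) = Nat.card K' := by
    have h1 := hc'.card_mul_card
    have h2 := hc''.card_mul_card
    have h3 : 0 < Nat.card (R.map π) := Nat.card_pos
    exact Nat.eq_of_mul_eq_mul_right h3 (h1.trans h2.symm)
  have heq : K.map π = K' := Subgroup.eq_of_le_of_card_ge hle hcard.ge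
  rw [← hKf', ← heq, ← hKf]
  rfl

end Cfsg.Agent.S3768
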