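import Cfsg.Statements.S3769
import Cfsg.Agent.OddOrderLocal.Thm34

set_option autoImplicit false
open Cfsg

namespace Cfsg.Agent.S3769

/-- Let G and V be subgroups of a finite group with G solvable of odd order normalizing V, V an elementary abelian ℓ-group for a prime ℓ not dividing the order of G, and suppose G has a normal Hall subgroup K with a complement R of prime order. If C_V(R) = 1, then [R, K] centralizes V. -/
theorem result {X : Type*} [Group X] [Finite X] (G : Subgroup X) (hsolv : Group.IsSolvable G) (hodd : Odd (Nat.card G)) (V : Subgroup X) {ℓ : ℕ} (hℓ : ℓ.Prime) (hV : Cfsg.IsElementaryAbelian ℓ V) (hℓG : ¬ ℓ ∣ Nat.card G) (hGV : G ≤ Subgroup.normalizer (V : Set X)) (K R : Subgroup X) (hKG : K ≤ G) (hKn : G ≤ Subgroup.normalizer (K : Set X)) (hHall : (Nat.card K).Coprime (K.relIndex G)) (hRG : R ≤ G) (hR : (Nat.card R).Prime) (hKR : K ⊓ R = ⊥) (hKRG : K ⊔ R = G) (hCV : V ⊓ Subgroup.centralizer (R : Set X) = ⊥) : ⁅R, K⁆ ≤ Subgroup.centralizer (V : Set X) := by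
  have hGn : Nat.card G ≠ 0 := Nat.card_pos.ne'
  have hKdvd : Nat.card K ∣ Nat.card G := Subgroup.card_dvd_of_le hKG
  have hRdvd : Nat.card R ∣ Nat.card G := Subgroup.card_dvd_of_le hRG
  have hKodd : Odd (Nat.card K) := Odd.of_dvd_nat hodd hKdvd
  have hRodd : Odd (Nat.card R) := Odd.of_dvd_nat hodd hRdvd
  have hR2 : Nat.card R ≠ 2 := by
    intro h
    rw [h] at hRodd
    exact absurd hRodd (by decide)
  have hrel : Nat.card R ∣ K.relIndex G := by
    have hn : (K.subgroupOf G).Normal := Subgroup.normal_subgroupOf_of_le_normalizer hKn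
    have h1 := Subgroup.relIndex_dvd_index_of_normal (K.subgroupOf G) (R.subgroupOf G)
    rw [Subgroup.relIndex_subgroupOf hRG] at h1
    have h2 : K.relIndex R = Nat.card R := by
      have h3 : K.subgroupOf R = ⊥ := by
        rw [Subgroup.subgroupOf_eq_bot, disjoint_iff]
        exact hKR
      show (K.subgroupOf R).index = Nat.card R
      rw [h3, Subgroup.index_bot]
    rw [h2] at h1
    exact h1
  have hcop : (Nat.card K).Coprime (Nat.card R) := Nat.Coprime.coprime_dvd_right hrel hHall
  obtain ⟨hVc, hVl⟩ := hV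
  have hfact : Fact ℓ.Prime := ⟨hℓ⟩
  have hVp : IsPGroup ℓ V := by
    intro v
    refine ⟨1, ?_⟩
    rw [pow_one]
    exact Subtype.ext (hVl v v.2)
  obtain ⟨n, hn⟩ := IsPGroup.iff_card.mp hVp
  have hVs : Group.IsSolvable V := by
    have := hVc.is_comm
    exact Group.isSolvable_of_comm (fun a b => this.comm a b)
  have hVG : (Nat.card V).Coprime (Nat.card G) := by
    rw [hn]
    exact Nat.Coprime.pow_left n ((Nat.Prime.coprime_iff_not_dvd hℓ).2 hℓG)
  have hKs : Group.IsSolvable K :=
    Group.isSolvable_of_isSolvable_injective (f := Subgroup.inclusion hKG)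
      (Subgroup.inclusion_injective hKG)
  rw [Subgroup.commutator_comm]
  exact OddOrderLocal.Thm34.commutator_le_centralizer_of_fixedFree K R V hKs hKodd hR hR2
    (hRG.trans hKn) hcop (hKG.trans hGV) (hRG.trans hGV) hVs
    (Nat.Coprime.coprime_dvd_right hKdvd hVG) (Nat.Coprime.coprime_dvd_right hRdvd hVG) hCV

end Cfsg.Agent.S3769
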