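import Cfsg.Statements.S3770
import Cfsg.Agent.OddOrderLocal.Sec3_5
import Cfsg.Agent.Solvable.FrobeniusTheorem

set_option autoImplicit false
open Cfsg

namespace Cfsg.Agent.S3770

/-- Let G and V be subgroups of a finite group with G a Frobenius group with complement R of prime order and kernel K, G normalizing V, and V an elementary abelian ℓ-group for a prime ℓ not dividing the order of G. If C_V(R) has order ℓ, then the derived subgroup of K centralizes V. -/
theorem result {X : Type*} [Group X] [Finite X] (G : Subgroup X) (V : Subgroup X) {ℓ : ℕ} (hℓ : ℓ.Prime) (hV : Cfsg.IsElementaryAbelian ℓ V) (hℓG : ¬ ℓ ∣ Nat.card G) (hGV : G ≤ Subgroup.normalizer (V : Set X)) (R : Subgroup ↥G) (hR : Cfsg.IsFrobeniusComplement R) (hRp : (Nat.card R).Prime) (hCV : Nat.card ↥(V ⊓ Subgroup.centralizer ((R.map G.subtype : Subgroup X) : Set X)) = ℓ) : ⁅Subgroup.closure (Subtype.val '' Cfsg.frobeniusKernel R), Subgroup.closure (Subtype.val '' Cfsg.frobeniusKernel R)⁆ ≤ Subgroup.centralizer (V : Set X) := by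
  obtain ⟨N, hN, hNn, hNc⟩ := Solvable.FrobeniusTheorem.frobenius hR
  have hcl : Subgroup.closure (Subtype.val '' Cfsg.frobeniusKernel R) = N.map G.subtype := by
    rw [← hN]
    have : (Subtype.val '' (N : Set G)) = ((N.map G.subtype : Subgroup X) : Set X) := by
      ext x; simp
    rw [this, Subgroup.closure_eq]
  rw [hcl]
  have hNG : N.map G.subtype ≤ G := Subgroup.map_subtype_le N
  have hRG : R.map G.subtype ≤ G := Subgroup.map_subtype_le R
  refine OddOrderLocal.Sec3_5.commutator_le_centralizer_of_prime hℓ V (N.map G.subtype)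
    (R.map G.subtype) hV (hNG.trans hGV) (hRG.trans hGV) ?_ ?_ ?_ ?_ hCV.le
  · rintro _ ⟨r, hr, rfl⟩
    rw [Subgroup.mem_normalizer_iff]
    intro x
    constructor
    · rintro ⟨n, hn, rfl⟩
      exact ⟨r * n * r⁻¹, hNn.conj_mem n hn r, by simp⟩
    · rintro ⟨n, hn, hx⟩
      refine ⟨r⁻¹ * n * r, by simpa using hNn.conj_mem n hn r⁻¹, ?_⟩
      simp only [Subgroup.coe_subtype, Subgroup.coe_mul, Subgroup.coe_inv] at hx ⊢
      rw [hx]; group
  · rw [Nat.card_congr (Subgroup.equivMapOfInjective R G.subtype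
      (Subgroup.subtype_injective G)).symm.toEquiv]
    exact hRp
  · rw [eq_bot_iff]
    rintro x ⟨⟨n, hn, rfl⟩, hx⟩
    obtain ⟨r, hr, hr1⟩ := R.bot_or_exists_ne_one.resolve_left hR.1
    have h1 : (n : X) * r = r * n := by
      have := (Subgroup.mem_centralizer_iff.1 hx) r ⟨r, hr, rfl⟩
      simpa using this.symm
    have h2 : n ∈ R := by
      refine Solvable.FrobeniusKernel.mem_of_conj_mem hR hr hr1 ?_
      have : n⁻¹ * r * n = r := by
        apply Subtype.ext
        simp only [Subgroup.coe_mul, Subgroup.coe_inv]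
        rw [mul_assoc, ← h1]; group
      rw [this]; exact hr
    have h5 : n ∈ N ⊓ R := ⟨hn, h2⟩
    rw [hNc.disjoint.eq_bot] at h5
    have h6 : n = 1 := Subgroup.mem_bot.1 h5
    rw [h6]; simp
  · intro h
    apply hℓG
    refine h.trans ?_
    exact Subgroup.card_dvd_of_le hNG

end Cfsg.Agent.S3770
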