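import Cfsg.Statements.S3773
import Cfsg.Agent.H447.CountBound
import Cfsg.Agent.H508.Basic

set_option autoImplicit false
open Cfsg

namespace Cfsg.Agent.S3773

/-- Let G be a finite 2-group of nilpotency class at most 2 and exponent dividing 4 in which the elements x with x² = 1 form a subgroup N. Then |G| ≤ |N|³, and |G| < |N|³ unless G is special. -/
theorem result {G : Type*} [Group G] [Finite G] (hG : IsPGroup 2 G) (hcl : (⊤ : Subgroup G).lowerCentralSeries 2 = ⊥) (hexp : ∀ x : G, x ^ 4 = 1) (hN : ∀ x y : G, x ^ 2 = 1 → y ^ 2 = 1 → (x * y) ^ 2 = 1) : Nat.card G ≤ Nat.card {x : G // x ^ 2 = 1} ^ 3 ∧ (¬ Cfsg.IsSpecial 2 G → Nat.card G < Nat.card {x : G // x ^ 2 = 1} ^ 3) := by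
  have hc := Cfsg.Agent.Transfer.CentralComm.comm_mem_center_of_eq_bot (G := G) hcl
  have hle := Cfsg.Agent.H508.frattini_le_omegaCenter_two hc hexp
  let N : Subgroup G :=
    { carrier := {x | x ^ 2 = 1}
      one_mem' := one_pow 2
      mul_mem' := fun {a b} ha hb => hN a b ha hb
      inv_mem' := fun {a} (ha : a ^ 2 = 1) => by
        show a⁻¹ ^ 2 = 1
        rw [inv_pow, ha, inv_one] }
  have hcN : Nat.card {x : G // x ^ 2 = 1} = Nat.card N := rfl
  obtain ⟨h1, h2⟩ := H447.CountBound.main hG (fun x hx => (hle hx).1) (fun x hx => (hle hx).2) N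
    (fun x => Iff.rfl)
  rw [hcN]
  refine ⟨h1, fun h => ?_⟩
  by_contra hcon
  exact h (h2 (not_lt.1 hcon))

end Cfsg.Agent.S3773
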