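import Cfsg.Statements.S3774

set_option autoImplicit false
open Cfsg

namespace Cfsg.Agent.S3774

/-- The involution power of a nontrivial element of a 2-group. -/
noncomputable def invPow {G : Type*} [Group G] (x : G) : G := x ^ (orderOf x / 2)

theorem invPow_map {G : Type*} [Group G] (a : MulAut G) (x : G) :
    invPow (a x) = a (invPow x) := by
  unfold invPow
  have h : orderOf (a x) = orderOf x := orderOf_injective a.toMonoidHom a.injective x
  rw [h, map_pow]

theorem invPow_ne_one {G : Type*} [Group G] [Finite G] (hG : IsPGroup 2 G) {x : G} (hx : x ≠ 1) :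
    invPow x ≠ 1 ∧ invPow x ^ 2 = 1 := by
  obtain ⟨k, hk⟩ := (IsPGroup.iff_orderOf.mp hG) x
  have hk0 : k ≠ 0 := by
    rintro rfl
    apply hx
    rw [pow_zero, orderOf_eq_one_iff] at hk
    exact hk
  obtain ⟨m, rfl⟩ := Nat.exists_eq_succ_of_ne_zero hk0
  have hdiv : orderOf x / 2 = 2 ^ m := by
    rw [hk, pow_succ]; simp
  constructor
  · unfold invPow
    rw [hdiv]
    intro h
    have := orderOf_dvd_of_pow_eq_one h
    rw [hk] at this
    have := (Nat.pow_dvd_pow_iff_le_right (by norm_num : 1 < 2)).mp this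
    omega
  · unfold invPow
    rw [hdiv, ← pow_mul, ← pow_succ, ← hk, pow_orderOf_eq_one]

/-- Let G be a nontrivial finite 2-group whose automorphism group permutes the involutions of G transitively. Then every involution of G is central, so that the involutions together with 1 form the subgroup Ω₁(Z(G)), and if this subgroup has order q then |G| is a power of q. -/
theorem result {G : Type*} [Group G] [Finite G] [Nontrivial G] (hG : IsPGroup 2 G) (htrans : ∀ x y : G, x ≠ 1 → x ^ 2 = 1 → y ≠ 1 → y ^ 2 = 1 → ∃ a : MulAut G, a x = y) : (∀ x : G, x ^ 2 = 1 → x ∈ Subgroup.center G) ∧ ∃ m : ℕ, Nat.card G = Nat.card {z : G // z ^ 2 = 1} ^ m := by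
  classical
  haveI : Fact (Nat.Prime 2) := ⟨Nat.prime_two⟩
  -- a central involution
  have hZ : Nontrivial (Subgroup.center G) := hG.center_nontrivial
  obtain ⟨z0, hz0⟩ := exists_ne (1 : Subgroup.center G)
  have hz0' : (z0 : G) ≠ 1 := fun h => hz0 (Subtype.ext h)
  have hz := invPow_ne_one hG hz0'
  have hzc : invPow (z0 : G) ∈ Subgroup.center G := Subgroup.pow_mem _ z0.2 _
  have hcent : ∀ x : G, x ^ 2 = 1 → x ∈ Subgroup.center G := by
    intro x hx
    by_cases hx1 : x = 1
    · rw [hx1]; exact Subgroup.one_mem _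
    obtain ⟨a, ha⟩ := htrans _ x hz.1 hz.2 hx1 hx
    rw [← ha]
    rw [Subgroup.mem_center_iff] at hzc ⊢
    intro g
    have := congrArg a (hzc (a.symm g))
    simpa using this
  refine ⟨hcent, ?_⟩
  -- the subgroup of elements with square one
  let Ω : Subgroup G :=
    { carrier := {z | z ^ 2 = 1}
      one_mem' := by simp
      mul_mem' := by
        intro a b ha hb
        have hab : Commute a b := ((Subgroup.mem_center_iff.mp (hcent b hb)) a)
        show (a * b) ^ 2 = 1
        rw [hab.mul_pow]
        rw [show a ^ 2 = 1 from ha, show b ^ 2 = 1 from hb, one_mul]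
      inv_mem' := by
        intro a ha
        show (a⁻¹) ^ 2 = 1
        rw [inv_pow, show a ^ 2 = 1 from ha, inv_one] }
  have hcardΩ : Nat.card {z : G // z ^ 2 = 1} = Nat.card Ω := rfl
  rw [hcardΩ]
  obtain ⟨N, hN⟩ := IsPGroup.iff_card.mp hG
  obtain ⟨n, hn⟩ := IsPGroup.iff_card.mp (hG.to_subgroup Ω)
  -- nontrivial elements
  letI : Fintype G := Fintype.ofFinite G
  let S : Finset G := Finset.univ.filter (fun x => x ≠ 1)
  let T : Finset G := Finset.univ.filter (fun x => x ≠ 1 ∧ x ^ 2 = 1)
  have hScard : S.card = Nat.card G - 1 := by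
    have : S = Finset.univ.erase (1 : G) := by ext x; simp [S]
    rw [this, Finset.card_erase_of_mem (Finset.mem_univ _), Finset.card_univ, Nat.card_eq_fintype_card]
  have hTcard : T.card = Nat.card Ω - 1 := by
    have h1 : (Finset.univ.filter (fun x : G => x ^ 2 = 1)).card = Nat.card Ω := by
      rw [← hcardΩ, Nat.card_eq_fintype_card, Fintype.card_subtype]
    have h2 : T = (Finset.univ.filter (fun x : G => x ^ 2 = 1)).erase (1 : G) := by
      ext x; simp [T]
    rw [h2, Finset.card_erase_of_mem (by simp), h1]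
  have hmaps : ∀ x ∈ S, invPow x ∈ T := by
    intro x hx
    have hx' : x ≠ 1 := by simpa [S] using hx
    have := invPow_ne_one hG hx'
    simp [T, this.1, this.2]
  have hfib : ∀ t ∈ T, (S.filter (fun x => invPow x = t)).card
      = (S.filter (fun x => invPow x = invPow (z0 : G))).card := by
    intro t ht
    have ht' : t ≠ 1 ∧ t ^ 2 = 1 := by simpa [T] using ht
    obtain ⟨a, ha⟩ := htrans _ t hz.1 hz.2 ht'.1 ht'.2
    symm
    apply Finset.card_bij (fun x _ => a x)
    · intro x hx
      simp only [Finset.mem_filter, S, Finset.mem_univ, true_and] at hx ⊢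
      refine ⟨fun h => hx.1 ((map_eq_one_iff a a.injective).mp h), ?_⟩
      rw [invPow_map, hx.2, ha]
    · intro x _ y _ h
      exact a.injective h
    · intro y hy
      simp only [Finset.mem_filter, S, Finset.mem_univ, true_and] at hy
      refine ⟨a.symm y, ?_, by simp⟩
      simp only [Finset.mem_filter, S, Finset.mem_univ, true_and]
      refine ⟨fun h => hy.1 ((map_eq_one_iff a.symm a.symm.injective).mp h), ?_⟩
      rw [invPow_map a.symm, hy.2, ← ha]
      simp
  have hdvd : Nat.card Ω - 1 ∣ Nat.card G - 1 := by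
    rw [← hScard, ← hTcard, Finset.card_eq_sum_card_fiberwise hmaps, Finset.sum_congr rfl hfib,
      Finset.sum_const, smul_eq_mul]
    exact Dvd.intro _ rfl
  rw [hN, hn] at hdvd
  have hgcd : Nat.gcd (2 ^ n - 1) (2 ^ N - 1) = 2 ^ (Nat.gcd n N) - 1 :=
    Nat.pow_sub_one_gcd_pow_sub_one 2 n N
  rw [Nat.gcd_eq_left hdvd] at hgcd
  have h1 : 2 ^ n = 2 ^ Nat.gcd n N := by
    have h3 : 1 ≤ 2 ^ n := Nat.one_le_two_pow
    have h4 : 1 ≤ 2 ^ Nat.gcd n N := Nat.one_le_two_pow
    omega
  have h2 : n = Nat.gcd n N := Nat.pow_right_injective (le_refl 2) h1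
  have h3 : n ∣ N := by rw [h2]; exact Nat.gcd_dvd_right _ _
  obtain ⟨m, hm⟩ := h3
  exact ⟨m, by rw [hN, hn, hm, pow_mul]⟩

end Cfsg.Agent.S3774
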