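import Cfsg.Statements.S3775

set_option autoImplicit false
open Cfsg

namespace Cfsg.Agent.S3775

/-- invariance, in element form -/
def Inv {A : Type*} [CommGroup A] (X : Subgroup (MulAut A)) (B : Subgroup A) : Prop :=
  ∀ x ∈ X, ∀ b ∈ B, x b ∈ B

theorem inv_iff {A : Type*} [CommGroup A] (X : Subgroup (MulAut A)) (B : Subgroup A) :
    (∀ x ∈ X, B.map x.toMonoidHom = B) ↔ Inv X B := by
  constructor
  · intro h x hx b hb
    rw [← h x hx]
    exact Subgroup.mem_map_of_mem x.toMonoidHom hb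
  · intro h x hx
    apply le_antisymm
    · rintro _ ⟨b, hb, rfl⟩
      exact h x hx b hb
    · intro b hb
      refine ⟨x⁻¹ b, h x⁻¹ (X.inv_mem hx) b hb, ?_⟩
      show x (x⁻¹ b) = b
      simp

section
variable {A : Type*} [CommGroup A] {X : Subgroup (MulAut A)}

theorem Inv.sup {B C : Subgroup A} (hB : Inv X B) (hC : Inv X C) : Inv X (B ⊔ C) := by
  intro x hx a ha
  obtain ⟨b, hb, c, hc, rfl⟩ := Subgroup.mem_sup.mp ha
  rw [map_mul]
  exact Subgroup.mul_mem_sup (hB x hx b hb) (hC x hx c hc)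

theorem Inv.inf {B C : Subgroup A} (hB : Inv X B) (hC : Inv X C) : Inv X (B ⊓ C) := by
  intro x hx a ha
  exact ⟨hB x hx a ha.1, hC x hx a ha.2⟩

/-- `{a | a ^ n ∈ C}` -/
def pre (C : Subgroup A) (n : ℕ) : Subgroup A := C.comap (powMonoidHom n)

theorem mem_pre {C : Subgroup A} {n : ℕ} {a : A} : a ∈ pre C n ↔ a ^ n ∈ C := Iff.rfl

theorem Inv.pre {C : Subgroup A} (hC : Inv X C) (n : ℕ) : Inv X (pre C n) := by
  intro x hx a ha
  rw [mem_pre] at ha ⊢
  rw [← map_pow]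
  exact hC x hx _ ha

/-- `{b ^ n | b ∈ B}` -/
def pw (B : Subgroup A) (n : ℕ) : Subgroup A := B.map (powMonoidHom n)

theorem mem_pw {B : Subgroup A} {n : ℕ} {a : A} : a ∈ pw B n ↔ ∃ b ∈ B, b ^ n = a := Iff.rfl

theorem Inv.pw {B : Subgroup A} (hB : Inv X B) (n : ℕ) : Inv X (pw B n) := by
  rintro x hx _ ⟨b, hb, rfl⟩
  exact ⟨x b, hB x hx b hb, (map_pow x b n).symm⟩

theorem inv_bot : Inv X (⊥ : Subgroup A) := by
  intro x _ b hb
  rw [Subgroup.mem_bot] at hb ⊢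
  rw [hb, map_one]

theorem inv_top : Inv X (⊤ : Subgroup A) := fun _ _ _ _ => Subgroup.mem_top _

end

/-- Maschke in a section. -/
theorem maschke {A : Type*} [CommGroup A] [Finite A] {p : ℕ} [hp : Fact p.Prime]
    (hA : IsPGroup p A) (X : Subgroup (MulAut A)) (hX : (Nat.card X).Coprime p)
    {K U M : Subgroup A} (hK : Inv X K) (hU : Inv X U) (hM : Inv X M) (hKU : K ≤ U) (hUM : U ≤ M)
    (hexp : ∀ m ∈ M, m ^ p ∈ K) :
    ∃ W : Subgroup A, Inv X W ∧ K ≤ W ∧ W ≤ M ∧ W ⊓ U = K ∧ W ⊔ U = M := by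
  classical
  -- a complement, not necessarily invariant
  obtain ⟨W₀, ⟨hKW, hWM, hWU⟩, hmax⟩ : ∃ W₀ : Subgroup A, (K ≤ W₀ ∧ W₀ ≤ M ∧ W₀ ⊓ U ≤ K) ∧
      ∀ W : Subgroup A, (K ≤ W ∧ W ≤ M ∧ W ⊓ U ≤ K) → W₀ ≤ W → W ≤ W₀ := by
    have hfin : ({W : Subgroup A | K ≤ W ∧ W ≤ M ∧ W ⊓ U ≤ K}).Finite := Set.toFinite _
    have hne : ({W : Subgroup A | K ≤ W ∧ W ≤ M ∧ W ⊓ U ≤ K}).Nonempty :=
      ⟨K, le_rfl, hKU.trans hUM, inf_le_left⟩
    obtain ⟨W₀, hW₀⟩ := hfin.exists_maximal hne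
    exact ⟨W₀, hW₀.1, fun W hW hle => hW₀.2 hW hle⟩
  have hsup : ∀ m ∈ M, m ∈ W₀ ⊔ U := by
    intro m hm
    by_contra hmn
    have hm0 : m ∉ W₀ := fun h => hmn ((le_sup_left : W₀ ≤ W₀ ⊔ U) h)
    have h1 := hmax (W₀ ⊔ Subgroup.zpowers m) ⟨hKW.trans le_sup_left, ?_, ?_⟩ le_sup_left
    · exact hm0 (h1 ((le_sup_right : Subgroup.zpowers m ≤ _) (Subgroup.mem_zpowers m)))
    · exact sup_le hWM (by rwa [Subgroup.zpowers_le])
    · rintro a ⟨ha, haU⟩
      obtain ⟨w, hw, y, hy, rfl⟩ := Subgroup.mem_sup.mp ha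
      obtain ⟨j, rfl⟩ := Subgroup.mem_zpowers_iff.mp hy
      by_cases hj : (p : ℤ) ∣ j
      · obtain ⟨t, rfl⟩ := hj
        have h2 : m ^ ((p : ℤ) * t) ∈ K := by
          rw [zpow_mul, zpow_natCast]
          exact K.zpow_mem (hexp m hm) t
        exact hWU ⟨W₀.mul_mem hw (hKW h2), haU⟩
      · exfalso
        apply hmn
        have h3 : m ^ j ∈ W₀ ⊔ U := by
          have : m ^ j = w⁻¹ * (w * m ^ j) := by group
          rw [this]
          exact Subgroup.mul_mem_sup (W₀.inv_mem hw) haU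
        have h4 : IsCoprime (p : ℤ) j := by
          rw [Int.isCoprime_iff_gcd_eq_one]
          rcases (Nat.coprime_or_dvd_of_prime hp.out j.natAbs) with h | h
          · exact h
          · exact absurd (Int.natCast_dvd.mpr h) hj
        obtain ⟨s, t, hst⟩ := h4
        have h5 : m = (m ^ p) ^ s * (m ^ j) ^ t := by
          conv_lhs => rw [← zpow_one m, ← hst]
          rw [zpow_add, mul_comm s, mul_comm t, zpow_mul, zpow_mul, zpow_natCast]
        rw [h5]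
        exact Subgroup.mul_mem _
          (Subgroup.zpow_mem _ ((le_sup_left : W₀ ≤ W₀ ⊔ U) (hKW (hexp m hm))) s)
          (Subgroup.zpow_mem _ h3 t)
  -- the projection
  have hproj : ∀ m : A, ∃ u : A, m ∈ M → (u ∈ U ∧ m * u⁻¹ ∈ W₀) := by
    intro m
    by_cases hm : m ∈ M
    · obtain ⟨w, hw, u, hu, hwu⟩ := Subgroup.mem_sup.mp (hsup m hm)
      refine ⟨u, fun _ => ⟨hu, ?_⟩⟩
      rw [← hwu]; simpa using hw
    · exact ⟨1, fun h => absurd h hm⟩
  choose u hu using hproj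
  have huniq : ∀ m ∈ M, ∀ v ∈ U, m * v⁻¹ ∈ W₀ → v * (u m)⁻¹ ∈ K := by
    intro m hm v hv hmv
    apply hWU
    refine ⟨?_, U.mul_mem hv (U.inv_mem (hu m hm).1)⟩
    have : v * (u m)⁻¹ = (m * v⁻¹)⁻¹ * (m * (u m)⁻¹) := by group
    rw [this]
    exact W₀.mul_mem (W₀.inv_mem hmv) (hu m hm).2
  have humul : ∀ m ∈ M, ∀ m' ∈ M, (u m * u m') * (u (m * m'))⁻¹ ∈ K := by
    intro m hm m' hm'
    apply huniq (m * m') (M.mul_mem hm hm') _ (U.mul_mem (hu m hm).1 (hu m' hm').1)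
    have : m * m' * (u m * u m')⁻¹ = (m * (u m)⁻¹) * (m' * (u m')⁻¹) := by
      rw [mul_inv_rev]
      rw [mul_mul_mul_comm m (u m)⁻¹ m' (u m')⁻¹, mul_comm (u m')⁻¹]
    rw [this]
    exact W₀.mul_mem (hu m hm).2 (hu m' hm').2
  have huU : ∀ m ∈ U, m * (u m)⁻¹ ∈ K := fun m hm =>
    huniq m (hUM hm) m hm (by simp)
  haveI : Finite X := inferInstance
  letI : Fintype X := Fintype.ofFinite X
  let ρ : A → A := fun m => ∏ x : X, (x : MulAut A) (u ((x⁻¹ : X).1 m))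
  have hinv : ∀ (x : X) (m : A), m ∈ M → (x : MulAut A) m ∈ M := fun x m hm => hM x x.2 m hm
  have hρU : ∀ m ∈ M, ρ m ∈ U := by
    intro m hm
    apply Subgroup.prod_mem
    intro x _
    exact hU x x.2 _ (hu _ (hinv x⁻¹ m hm)).1
  have hρmul : ∀ m ∈ M, ∀ m' ∈ M, (ρ m * ρ m') * (ρ (m * m'))⁻¹ ∈ K := by
    intro m hm m' hm'
    have h1 : (ρ m * ρ m') * (ρ (m * m'))⁻¹ =
        ∏ x : X, (x : MulAut A) ((u ((x⁻¹ : X).1 m) * u ((x⁻¹ : X).1 m')) *
          (u ((x⁻¹ : X).1 m * (x⁻¹ : X).1 m'))⁻¹) := by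
      simp only [ρ, map_mul, map_inv, Finset.prod_mul_distrib, Finset.prod_inv_distrib]
    rw [h1]
    apply Subgroup.prod_mem
    intro x _
    exact hK x x.2 _ (humul _ (hinv x⁻¹ m hm) _ (hinv x⁻¹ m' hm'))
  have hρone : ρ 1 ∈ K := by
    apply Subgroup.prod_mem
    intro x _
    apply hK x x.2
    rw [map_one]
    have := huU 1 U.one_mem
    rw [one_mul] at this
    exact (Subgroup.inv_mem_iff K).mp this
  have hρB : ∀ m ∈ U, (m ^ Nat.card X) * (ρ m)⁻¹ ∈ K := by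
    intro m hm
    have h1 : (m ^ Nat.card X) * (ρ m)⁻¹ =
        ∏ x : X, (x : MulAut A) ((x⁻¹ : X).1 m * (u ((x⁻¹ : X).1 m))⁻¹) := by
      simp only [ρ, map_mul, map_inv, Finset.prod_mul_distrib, Finset.prod_inv_distrib]
      congr 1
      rw [Finset.prod_congr rfl (g := fun _ => m)]
      · rw [Finset.prod_const, Finset.card_univ, Nat.card_eq_fintype_card]
      · intro x _
        simp
    rw [h1]
    apply Subgroup.prod_mem
    intro x _
    apply hK x x.2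
    exact huU _ (hU (x⁻¹ : X).1 (x⁻¹ : X).2 m hm)
  have hρeq : ∀ (y : X) (m : A), ρ ((y : MulAut A) m) = (y : MulAut A) (ρ m) := by
    intro y m
    simp only [ρ, map_prod]
    rw [← Equiv.prod_comp (Equiv.mulLeft y)]
    apply Finset.prod_congr rfl
    intro x _
    simp only [Equiv.coe_mulLeft, mul_inv_rev, Subgroup.coe_mul, MulAut.mul_apply]
    congr 3
    simp
  have hρK : ∀ m ∈ M, ∀ k ∈ K, m * k⁻¹ ∈ M := fun m hm k hk =>
    M.mul_mem hm (M.inv_mem (hKU.trans hUM hk))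
  let W : Subgroup A :=
    { carrier := {m | m ∈ M ∧ ρ m ∈ K}
      one_mem' := ⟨M.one_mem, hρone⟩
      mul_mem' := by
        rintro a b ⟨ha, ha'⟩ ⟨hb, hb'⟩
        refine ⟨M.mul_mem ha hb, ?_⟩
        have h1 := hρmul a ha b hb
        have h2 : ρ (a * b) = ((ρ a * ρ b) * (ρ (a * b))⁻¹)⁻¹ * (ρ a * ρ b) := by group
        rw [h2]
        exact K.mul_mem (K.inv_mem h1) (K.mul_mem ha' hb')
      inv_mem' := by
        rintro a ⟨ha, ha'⟩
        refine ⟨M.inv_mem ha, ?_⟩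
        have h1 := hρmul a ha a⁻¹ (M.inv_mem ha)
        rw [mul_inv_cancel] at h1
        have h2 : ρ a⁻¹ = (ρ a)⁻¹ * (((ρ a * ρ a⁻¹) * (ρ 1)⁻¹) * ρ 1) := by group
        rw [h2]
        exact K.mul_mem (K.inv_mem ha') (K.mul_mem h1 hρone) }
  have hcop : ∀ a : A, a ^ Nat.card X ∈ K → a ∈ K := by
    intro a ha
    obtain ⟨k, hk⟩ := (IsPGroup.iff_orderOf.mp hA) a
    have hc : (Nat.card X).Coprime (orderOf a) := by
      rw [hk]; exact Nat.Coprime.pow_right k hX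
    have h1 : a ∈ Subgroup.zpowers (a ^ Nat.card X) := by
      obtain ⟨s, hs⟩ := exists_pow_eq_self_of_coprime hc
      exact Subgroup.mem_zpowers_iff.mpr ⟨(s : ℤ), by rw [zpow_natCast]; exact hs⟩
    exact (Subgroup.zpowers_le.mpr ha) h1
  refine ⟨W, ?_, ?_, fun m hm => hm.1, ?_, ?_⟩
  · intro x hx m hm
    exact ⟨hM x hx m hm.1, by rw [hρeq ⟨x, hx⟩ m]; exact hK x hx _ hm.2⟩
  · intro k hk
    refine ⟨hKU.trans hUM hk, ?_⟩
    have h1 := hρB k (hKU hk)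
    have h2 : ρ k = ((k ^ Nat.card X) * (ρ k)⁻¹)⁻¹ * k ^ Nat.card X := by group
    rw [h2]
    exact K.mul_mem (K.inv_mem h1) (K.pow_mem hk _)
  · apply le_antisymm
    · rintro m ⟨⟨hm, hm'⟩, hmU⟩
      apply hcop
      have h1 := hρB m hmU
      have h2 : m ^ Nat.card X = ((m ^ Nat.card X) * (ρ m)⁻¹) * ρ m := by group
      rw [h2]
      exact K.mul_mem h1 hm'
    · intro k hk
      refine ⟨⟨hKU.trans hUM hk, ?_⟩, hKU hk⟩
      have h1 := hρB k (hKU hk)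
      have h2 : ρ k = ((k ^ Nat.card X) * (ρ k)⁻¹)⁻¹ * k ^ Nat.card X := by group
      rw [h2]
      exact K.mul_mem (K.inv_mem h1) (K.pow_mem hk _)
  · apply le_antisymm
    · exact sup_le (fun m hm => hm.1) hUM
    · intro m hm
      -- choose `s` inverse of `card X` modulo the order
      obtain ⟨k, hk⟩ := (IsPGroup.iff_orderOf.mp hA) (ρ m)
      have hc : (Nat.card X).Coprime (orderOf (ρ m)) := by
        rw [hk]; exact Nat.Coprime.pow_right k hX
      obtain ⟨s, hs⟩ := exists_pow_eq_self_of_coprime hc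
      -- v = (ρ m)^s
      have hv : (ρ m) ^ s ∈ U := U.pow_mem (hρU m hm) s
      have h2 : m * ((ρ m) ^ s)⁻¹ ∈ W := by
        have hm2 : m * ((ρ m) ^ s)⁻¹ ∈ M := M.mul_mem hm (M.inv_mem (hUM hv))
        refine ⟨hm2, ?_⟩
        have h3 := hρmul (m * ((ρ m) ^ s)⁻¹) hm2 ((ρ m) ^ s) (hUM hv)
        rw [inv_mul_cancel_right] at h3
        have h4 := hρB _ hv
        have h5 : ((ρ m) ^ s) ^ Nat.card X = ρ m := by
          rw [← pow_mul, mul_comm, pow_mul]; exact hs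
        rw [h5] at h4
        have h6 : ρ (m * ((ρ m) ^ s)⁻¹) =
            ((ρ (m * ((ρ m) ^ s)⁻¹) * ρ ((ρ m) ^ s)) * (ρ m)⁻¹) * (ρ m * (ρ ((ρ m) ^ s))⁻¹) := by
          group
        rw [h6]
        exact K.mul_mem h3 h4
      have h7 : m = (m * ((ρ m) ^ s)⁻¹) * (ρ m) ^ s := by group
      rw [h7]
      exact Subgroup.mul_mem_sup h2 hv

/-- relative uniserial lemma -/
theorem uniserial {A : Type*} [CommGroup A] [Finite A] {p : ℕ} [hp : Fact p.Prime]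
    (hA : IsPGroup p A) (X : Subgroup (MulAut A)) {C : Subgroup A} (hC : Inv X C)
    (H : ∀ D : Subgroup A, Inv X D → C < D → pre C p ≤ D) (D : Subgroup A) (hD : Inv X D)
    (hCD : C ≤ D) : ∃ i : ℕ, D = pre C (p ^ i) := by
  classical
  have hex : ∃ i : ℕ, ∀ d ∈ D, d ^ p ^ i ∈ C := by
    obtain ⟨n, hn⟩ := IsPGroup.iff_card.mp hA
    refine ⟨n, fun d _ => ?_⟩
    rw [← hn, pow_card_eq_one']
    exact C.one_mem
  set i := Nat.find hex with hi
  have hspec := Nat.find_spec hex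
  rw [← hi] at hspec
  refine ⟨i, le_antisymm (fun d hd => hspec d hd) ?_⟩
  -- show by induction `pre C (p^j) ≤ D` for `j ≤ i`
  have key : ∀ j, j ≤ i → pre C (p ^ j) ≤ D := by
    intro j
    induction j with
    | zero =>
      intro _ a ha
      rw [mem_pre, pow_zero, pow_one] at ha
      exact hCD ha
    | succ j ih =>
      intro hj a ha
      have hmin : ¬ ∀ d ∈ D, d ^ p ^ (i - 1) ∈ C := Nat.find_min hex (by omega)
      push Not at hmin
      obtain ⟨d₀, hd₀, hd₀'⟩ := hmin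
      have hE : Inv X (pw D (p ^ (i - 1)) ⊔ C) := (hD.pw _).sup hC
      have hlt : C < pw D (p ^ (i - 1)) ⊔ C := by
        refine lt_of_le_of_ne le_sup_right ?_
        intro heq
        apply hd₀'
        rw [heq]
        exact (le_sup_left : pw D (p ^ (i - 1)) ≤ _) ⟨d₀, hd₀, rfl⟩
      have h1 : a ^ p ^ j ∈ pw D (p ^ (i - 1)) ⊔ C := by
        apply H _ hE hlt
        rw [mem_pre, ← pow_mul, ← pow_succ]
        exact ha
      obtain ⟨_, ⟨d, hd, rfl⟩, c, hc, hdc⟩ := Subgroup.mem_sup.mp h1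
      change d ^ p ^ (i - 1) * c = a ^ p ^ j at hdc
      have h2 : a * (d ^ p ^ (i - 1 - j))⁻¹ ∈ D := by
        apply ih (by omega)
        rw [mem_pre, mul_pow, inv_pow, ← pow_mul, ← pow_add, ← hdc,
          Nat.sub_add_cancel (by omega : j ≤ i - 1)]
        have : d ^ p ^ (i - 1) * c * (d ^ p ^ (i - 1))⁻¹ = c := by
          rw [mul_comm (d ^ p ^ (i - 1)) c, mul_inv_cancel_right]
        rw [this]
        exact hc
      have h3 : a = (a * (d ^ p ^ (i - 1 - j))⁻¹) * d ^ p ^ (i - 1 - j) := by group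
      rw [h3]
      exact D.mul_mem h2 (D.pow_mem hd _)
  exact key i le_rfl

/-- a nontrivial subgroup of a `p`-group contains an element of order `p` -/
theorem exists_order {A : Type*} [CommGroup A] [Finite A] {p : ℕ} [hp : Fact p.Prime]
    (hA : IsPGroup p A) {D : Subgroup A} (hD : D ≠ ⊥) : ∃ d ∈ D, d ≠ 1 ∧ d ^ p = 1 := by
  haveI : Nontrivial D := (Subgroup.nontrivial_iff_ne_bot D).mpr hD
  have hDp : IsPGroup p D := hA.to_subgroup D
  obtain ⟨n, hn0, hn⟩ := (IsPGroup.nontrivial_iff_card hDp).mp inferInstance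
  have hdvd : p ∣ Nat.card D := by
    rw [hn]; exact dvd_pow_self p hn0.ne'
  obtain ⟨d, hd⟩ := exists_prime_orderOf_dvd_card' p hdvd
  refine ⟨d, d.2, ?_, ?_⟩
  · intro h
    have : d = 1 := Subtype.ext h
    rw [this, orderOf_one] at hd
    exact hp.out.one_lt.ne hd
  · have : d ^ p = 1 := by rw [← hd]; exact pow_orderOf_eq_one d
    exact congrArg Subtype.val this

theorem main {A : Type*} [CommGroup A] [Finite A] {p : ℕ} [hp : Fact p.Prime]
    (hA : IsPGroup p A) (X : Subgroup (MulAut A)) (hX : (Nat.card X).Coprime p)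
    (hind : ¬ ∃ B C : Subgroup A, B ≠ ⊥ ∧ C ≠ ⊥ ∧ Inv X B ∧ Inv X C ∧ B ⊓ C = ⊥ ∧ B ⊔ C = ⊤)
    (D : Subgroup A) (hD : Inv X D) (hD0 : D ≠ ⊥) : pre (⊥ : Subgroup A) p ≤ D := by
  classical
  -- the exponent
  have hex : ∃ e : ℕ, ∀ a : A, a ^ p ^ e = 1 := by
    obtain ⟨n, hn⟩ := IsPGroup.iff_card.mp hA
    exact ⟨n, fun d => by rw [← hn, pow_card_eq_one']⟩
  obtain ⟨e, he, hemin⟩ : ∃ e : ℕ, (∀ a : A, a ^ p ^ e = 1) ∧
      ∀ f < e, ¬ ∀ a : A, a ^ p ^ f = 1 :=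
    ⟨Nat.find hex, Nat.find_spec hex, fun f hf => Nat.find_min hex hf⟩
  have he0 : e ≠ 0 := by
    rintro rfl
    apply hD0
    rw [eq_bot_iff]
    intro a _
    have := he a
    rw [pow_zero, pow_one] at this
    exact this
  obtain ⟨f, rfl⟩ := Nat.exists_eq_succ_of_ne_zero he0
  have hf := hemin f (Nat.lt_succ_self f)
  push Not at hf
  obtain ⟨a₀, ha₀⟩ := hf
  -- V
  have hVex : ∃ V : Subgroup A, (Inv X V ∧ V ≠ ⊥ ∧ V ≤ pw ⊤ (p ^ f)) ∧
      ∀ V' : Subgroup A, (Inv X V' ∧ V' ≠ ⊥ ∧ V' ≤ pw ⊤ (p ^ f)) → V' ≤ V → V ≤ V' := by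
    have hfin : ({V : Subgroup A | Inv X V ∧ V ≠ ⊥ ∧ V ≤ pw ⊤ (p ^ f)}).Finite := Set.toFinite _
    have hne : ({V : Subgroup A | Inv X V ∧ V ≠ ⊥ ∧ V ≤ pw ⊤ (p ^ f)}).Nonempty := by
      refine ⟨pw ⊤ (p ^ f), inv_top.pw _, ?_, le_rfl⟩
      intro h
      apply ha₀
      have : a₀ ^ p ^ f ∈ pw (⊤ : Subgroup A) (p ^ f) := ⟨a₀, Subgroup.mem_top _, rfl⟩
      rw [h] at this
      exact this
    obtain ⟨V, hV⟩ := hfin.exists_minimal hne
    exact ⟨V, hV.1, fun W hW hle => hV.2 hW hle⟩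
  obtain ⟨V, ⟨hVinv, hV0, hVle⟩, hVmin⟩ := hVex
  have hVp : ∀ v ∈ V, v ^ p = 1 := by
    intro v hv
    obtain ⟨a, _, ha⟩ := hVle hv
    change a ^ p ^ f = v at ha
    rw [← ha, ← pow_mul, ← pow_succ]
    exact he a
  -- C
  have hCex : ∃ C : Subgroup A, (Inv X C ∧ C ⊓ V = ⊥) ∧
      ∀ C' : Subgroup A, (Inv X C' ∧ C' ⊓ V = ⊥) → C ≤ C' → C' ≤ C := by
    have hfin : ({C : Subgroup A | Inv X C ∧ C ⊓ V = ⊥}).Finite := Set.toFinite _
    have hne : ({C : Subgroup A | Inv X C ∧ C ⊓ V = ⊥}).Nonempty := ⟨⊥, inv_bot, bot_inf_eq _⟩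
    obtain ⟨C, hC⟩ := hfin.exists_maximal hne
    exact ⟨C, hC.1, fun W hW hle => hC.2 hW hle⟩
  obtain ⟨C, ⟨hCinv, hCV⟩, hCmax⟩ := hCex
  have hVD : ∀ D : Subgroup A, Inv X D → C < D → V ≤ D := by
    intro D hD hlt
    have h1 : D ⊓ V ≠ ⊥ := by
      intro h
      exact absurd (hCmax D ⟨hD, h⟩ hlt.le) (not_le_of_gt hlt)
    exact (hVmin (D ⊓ V) ⟨hD.inf hVinv, h1, inf_le_right.trans hVle⟩ inf_le_right).trans
      inf_le_left
  have hH : ∀ D : Subgroup A, Inv X D → C < D → pre C p ≤ D := by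
    intro D hD hlt
    have hCM : C ≤ pre C p := fun c hc => C.pow_mem hc p
    have hVM : V ≤ pre C p := fun v hv => by rw [mem_pre, hVp v hv]; exact C.one_mem
    obtain ⟨W, hW, hCW, hWM, hWU, hWsup⟩ := maschke hA X hX hCinv (hCinv.sup hVinv)
      (hCinv.pre p) le_sup_left (sup_le hCM hVM) (fun m hm => hm)
    have hWC : W = C := by
      by_contra hne
      have hlt' : C < W := lt_of_le_of_ne hCW (Ne.symm hne)
      have h1 : V ≤ C := by
        rw [← hWU]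
        exact le_inf (hVD W hW hlt') le_sup_right
      apply hV0
      rw [eq_bot_iff, ← hCV]
      exact le_inf h1 le_rfl
    rw [hWC, ← sup_assoc, sup_idem] at hWsup
    rw [← hWsup]
    exact sup_le hlt.le (hVD D hD hlt)
  -- B
  have hBex : ∃ B : Subgroup A, (Inv X B ∧ V ≤ pw B (p ^ f)) ∧
      ∀ B' : Subgroup A, (Inv X B' ∧ V ≤ pw B' (p ^ f)) → B' ≤ B → B ≤ B' := by
    have hfin : ({B : Subgroup A | Inv X B ∧ V ≤ pw B (p ^ f)}).Finite := Set.toFinite _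
    have hne : ({B : Subgroup A | Inv X B ∧ V ≤ pw B (p ^ f)}).Nonempty := ⟨⊤, inv_top, hVle⟩
    obtain ⟨B, hB⟩ := hfin.exists_minimal hne
    exact ⟨B, hB.1, fun W hW hle => hB.2 hW hle⟩
  obtain ⟨B, ⟨hBinv, hVB⟩, hBmin⟩ := hBex
  have hBV : ∀ b ∈ B, b ^ p ^ f ∈ V := by
    have h1 := hBmin (B ⊓ pre V (p ^ f)) ⟨hBinv.inf (hVinv.pre _), ?_⟩ inf_le_left
    · intro b hb
      exact (h1 hb).2
    · intro v hv
      obtain ⟨b, hb, hbv⟩ := hVB hv
      change b ^ p ^ f = v at hbv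
      refine ⟨b, ⟨hb, ?_⟩, hbv⟩
      show b ^ p ^ f ∈ V
      rw [hbv]; exact hv
  have hK' : B ⊓ pre ⊥ (p ^ f) = pw B p := by
    have hle1 : pw B p ≤ B ⊓ pre ⊥ (p ^ f) := by
      rintro _ ⟨b, hb, rfl⟩
      refine ⟨B.pow_mem hb p, ?_⟩
      show (b ^ p) ^ p ^ f ∈ (⊥ : Subgroup A)
      rw [← pow_mul, ← pow_succ', he, Subgroup.mem_bot]
    obtain ⟨W, hW, hKW, hWM, hWU, hWsup⟩ := maschke hA X hX (hBinv.pw p)
      (hBinv.inf (inv_bot.pre (p ^ f))) hBinv hle1 inf_le_left (fun m hm => ⟨m, hm, rfl⟩)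
    have hWB : W = B := by
      apply le_antisymm hWM
      apply hBmin W ⟨hW, ?_⟩ hWM
      intro v hv
      obtain ⟨b, hb, hbv⟩ := hVB hv
      change b ^ p ^ f = v at hbv
      rw [← hWsup] at hb
      obtain ⟨w, hw, k, hk, rfl⟩ := Subgroup.mem_sup.mp hb
      refine ⟨w, hw, ?_⟩
      show w ^ p ^ f = v
      have hk1 : k ^ p ^ f = 1 := hk.2
      rw [← hbv, mul_pow, hk1, mul_one]
    rw [hWB] at hWU
    rw [← hWU]
    rw [← inf_assoc, inf_idem]
  -- Ω₁(B) = V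
  have hVleB : V ≤ B := by
    intro v hv
    obtain ⟨b, hb, hbv⟩ := hVB hv
    rw [← hbv]
    exact B.pow_mem hb _
  have hΩ : B ⊓ pre ⊥ p = V := by
    symm
    apply Subgroup.eq_of_le_of_card_ge
    · exact le_inf hVleB (fun v hv => by rw [mem_pre, hVp v hv]; exact Subgroup.one_mem _)
    · -- cardinalities
      have hcard : ∀ n : ℕ, Nat.card (B ⊓ pre ⊥ n : Subgroup A) * Nat.card (pw B n) = Nat.card B := by
        intro n
        let g : B →* A := (powMonoidHom n).comp B.subtype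
        have h1 := Subgroup.card_mul_index g.ker
        rw [Subgroup.index_ker] at h1
        have h2 : Nat.card g.ker = Nat.card (B ⊓ pre ⊥ n : Subgroup A) := by
          apply Nat.card_congr
          refine ⟨fun k => ⟨k.1.1, k.1.2, ?_⟩, fun k => ⟨⟨k.1, k.2.1⟩, ?_⟩, ?_, ?_⟩
          · have := k.2
            exact this
          · exact k.2.2
          · intro k; rfl
          · intro k; rfl
        have h3 : g.range = pw B n := by
          ext a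
          constructor
          · rintro ⟨b, rfl⟩
            exact ⟨b.1, b.2, rfl⟩
          · rintro ⟨b, hb, rfl⟩
            exact ⟨⟨b, hb⟩, rfl⟩
        rw [h2, h3] at h1
        exact h1
      have h1 := hcard p
      have h2 := hcard (p ^ f)
      rw [hK'] at h2
      have h3 : Nat.card (pw B (p ^ f)) ≤ Nat.card V := by
        apply Nat.card_le_card_of_injective
          (fun k : pw B (p ^ f) => (⟨k.1, by obtain ⟨b, hb, hbk⟩ := k.2; rw [← hbk]; exact hBV b hb⟩ : V))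
        intro k k' h
        exact Subtype.ext (congrArg (fun z : V => z.1) h)
      have hpos : 0 < Nat.card (pw B p) := Nat.card_pos
      have h4 : Nat.card (pw B p) * Nat.card (B ⊓ pre ⊥ p : Subgroup A)
          ≤ Nat.card (pw B p) * Nat.card V := by
        calc _ = Nat.card B := by rw [mul_comm]; exact h1
          _ = Nat.card (pw B p) * Nat.card (pw B (p ^ f)) := h2.symm
          _ ≤ _ := Nat.mul_le_mul_left _ h3
      exact Nat.le_of_mul_le_mul_left h4 hpos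
  have hBC : B ⊓ C = ⊥ := by
    by_contra hne
    obtain ⟨d, ⟨hdB, hdC⟩, hd1, hdp⟩ := exists_order hA hne
    apply hd1
    have : d ∈ V := by
      rw [← hΩ]
      refine ⟨hdB, ?_⟩
      change d ^ p ∈ (⊥ : Subgroup A)
      rw [hdp]
      exact Subgroup.one_mem _
    have h2 : d ∈ C ⊓ V := ⟨hdC, this⟩
    rw [hCV] at h2
    exact h2
  have hB0 : B ≠ ⊥ := by
    intro h
    apply hV0
    rw [eq_bot_iff, ← h]
    exact hVleB
  have hBCtop : B ⊔ C = ⊤ := by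
    obtain ⟨i, hi⟩ := uniserial hA X hCinv hH (B ⊔ C) (hBinv.sup hCinv) le_sup_right
    have hfi : f < i := by
      by_contra hcon
      push Not at hcon
      -- take v ≠ 1 in V
      obtain ⟨v, hv, hv1, _⟩ := exists_order hA hV0
      obtain ⟨b, hb, hbv⟩ := hVB hv
      change b ^ p ^ f = v at hbv
      apply hv1
      have h1 : b ∈ B ⊔ C := (le_sup_left : B ≤ B ⊔ C) hb
      rw [hi, mem_pre] at h1
      have h2 : b ^ p ^ i ∈ B ⊓ C := ⟨B.pow_mem hb _, h1⟩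
      rw [hBC, Subgroup.mem_bot] at h2
      rw [← hbv, ← Nat.add_sub_cancel' hcon, pow_add, pow_mul, h2, one_pow]
    rw [hi, eq_top_iff]
    intro a _
    rw [mem_pre, ← Nat.add_sub_cancel' (Nat.succ_le_of_lt hfi), pow_add, pow_mul, he, one_pow]
    exact C.one_mem
  have hC0 : C = ⊥ := by
    by_contra hne
    exact hind ⟨B, C, hB0, hne, hBinv, hCinv, hBC, hBCtop⟩
  rw [hC0] at hH
  exact hH D hD (bot_lt_iff_ne_bot.mpr hD0)

theorem result {A : Type*} [CommGroup A] [Finite A] {p : ℕ} [Fact p.Prime] (hA : IsPGroup p A) (X : Subgroup (MulAut A)) (hX : (Nat.card X).Coprime p) : ((¬ ∃ B C : Subgroup A, B ≠ ⊥ ∧ C ≠ ⊥ ∧ (∀ x ∈ X, B.map x.toMonoidHom = B) ∧ (∀ x ∈ X, C.map x.toMonoidHom = C) ∧ B ⊓ C = ⊥ ∧ B ⊔ C = ⊤) ↔ (∀ B : Subgroup A, (∀ x ∈ X, B.map x.toMonoidHom = B) → ∃ i : ℕ, ∀ a : A, a ∈ B ↔ a ^ p ^ i = 1)) ∧ ((∀ B : Subgroup A, (∀ x ∈ X, B.map x.toMonoidHom = B) → ∃ i : ℕ, ∀ a : A, a ∈ B ↔ a ^ p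 ^ i = 1) ↔ (∀ B : Subgroup A, (∀ x ∈ X, B.map x.toMonoidHom = B) → (∀ b ∈ B, b ^ p = 1) → B = ⊥ ∨ ∀ a : A, a ∈ B ↔ a ^ p = 1)) := by
  simp only [inv_iff]
  -- (iii) → (ii)
  have h32 : (∀ B : Subgroup A, Inv X B → (∀ b ∈ B, b ^ p = 1) → B = ⊥ ∨ ∀ a : A, a ∈ B ↔ a ^ p = 1) →
      (∀ B : Subgroup A, Inv X B → ∃ i : ℕ, ∀ a : A, a ∈ B ↔ a ^ p ^ i = 1) := by
    intro h3 B hB
    have hH : ∀ D : Subgroup A, Inv X D → (⊥ : Subgroup A) < D → pre ⊥ p ≤ D := by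
      intro D hD hlt
      have h4 : Inv X (D ⊓ pre ⊥ p) := hD.inf (inv_bot.pre p)
      rcases h3 _ h4 (fun b hb => hb.2) with h | h
      · exfalso
        obtain ⟨d, hd, hd1, hdp⟩ := exists_order hA (bot_lt_iff_ne_bot.mp hlt)
        apply hd1
        have : d ∈ D ⊓ pre ⊥ p := ⟨hd, hdp⟩
        rw [h] at this
        exact this
      · intro a ha
        exact ((h a).mpr ha).1
    obtain ⟨i, hi⟩ := uniserial hA X inv_bot hH B hB bot_le
    exact ⟨i, fun a => by rw [hi, mem_pre, Subgroup.mem_bot]⟩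
  have h23 : (∀ B : Subgroup A, Inv X B → ∃ i : ℕ, ∀ a : A, a ∈ B ↔ a ^ p ^ i = 1) →
      (∀ B : Subgroup A, Inv X B → (∀ b ∈ B, b ^ p = 1) → B = ⊥ ∨ ∀ a : A, a ∈ B ↔ a ^ p = 1) := by
    intro h2 B hB hBp
    obtain ⟨i, hi⟩ := h2 B hB
    rcases Nat.eq_zero_or_pos i with rfl | hpos
    · left
      rw [eq_bot_iff]
      intro b hb
      have := (hi b).mp hb
      rw [pow_zero, pow_one] at this
      exact this
    · right
      intro a
      refine ⟨hBp a, fun ha => (hi a).mpr ?_⟩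
      obtain ⟨j, rfl⟩ := Nat.exists_eq_succ_of_ne_zero hpos.ne'
      rw [pow_succ', pow_mul, ha, one_pow]
  refine ⟨⟨?_, ?_⟩, ⟨h23, h32⟩⟩
  · intro h1
    apply h32
    intro B hB hBp
    by_cases hB0 : B = ⊥
    · exact Or.inl hB0
    · right
      have hle := main hA X hX h1 B hB hB0
      exact fun a => ⟨hBp a, fun ha => hle ha⟩
  · rintro h2 ⟨B, C, hB0, hC0, hB, hC, hBC, _⟩
    obtain ⟨i, hi⟩ := h2 B hB
    obtain ⟨j, hj⟩ := h2 C hC
    rcases le_total i j with hij | hij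
    · apply hB0
      rw [eq_bot_iff, ← hBC]
      intro b hb
      refine ⟨hb, (hj b).mpr ?_⟩
      rw [← Nat.add_sub_cancel' hij, pow_add, pow_mul, (hi b).mp hb, one_pow]
    · apply hC0
      rw [eq_bot_iff, ← hBC]
      intro c hc
      refine ⟨(hi c).mpr ?_, hc⟩
      rw [← Nat.add_sub_cancel' hij, pow_add, pow_mul, (hj c).mp hc, one_pow]

end Cfsg.Agent.S3775
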