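import Cfsg.Statements.S3776
import Cfsg.Agent.H448.SuzSolv
import Cfsg.Agent.Lib.FrattiniPGroup

set_option autoImplicit false
open Cfsg

namespace Cfsg.Agent.S3776

/-- Let G be a finite non-abelian 2-group with more than one involution admitting a solvable group of automorphisms that permutes its involutions transitively. Then the derived subgroup, the Frattini subgroup and the centre of G coincide and consist exactly of the elements x with x² = 1. -/
theorem result {G : Type*} [Group G] [Finite G] (hG : IsPGroup 2 G) (hna : ¬ IsMulCommutative G) (htwo : ∃ x y : G, x ≠ y ∧ x ≠ 1 ∧ x ^ 2 = 1 ∧ y ≠ 1 ∧ y ^ 2 = 1) (hY : ∃ Y : Subgroup (MulAut G), Group.IsSolvable Y ∧ ∀ x y : G, x ≠ 1 → x ^ 2 = 1 → y ≠ 1 → y ^ 2 = 1 → ∃ a ∈ Y, a x = y) : commutator G = frattini G ∧ frattini G = Subgroup.center G ∧ ∀ x : G, x ∈ Subgroup.center G ↔ x ^ 2 = 1 := by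
  have h2f : Fact (Nat.Prime 2) := ⟨Nat.prime_two⟩
  obtain ⟨h1, h2, h3, h4⟩ := Cfsg.Agent.H448.SuzSolv.main hG hna htwo hY
  have hcen : ∀ x : G, x ∈ Subgroup.center G ↔ x ^ 2 = 1 := by
    intro x
    rw [pow_two]
    constructor
    · intro hx
      exact h3 x fun g => ((Subgroup.mem_center_iff.mp hx) g).symm
    · intro hx
      exact Subgroup.mem_center_iff.mpr fun g => (h1 x g hx).symm
  have hsq : ∀ x : G, x ^ 2 ∈ Subgroup.center G := by
    intro x
    rw [hcen, pow_two, pow_two]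
    exact h2 x
  have hcom : ∀ x y : G, x * y * x⁻¹ * y⁻¹ ∈ Subgroup.center G := by
    intro x y
    have h5 : x * y * x⁻¹ * y⁻¹ = (x * y) ^ 2 * (y⁻¹ * x⁻¹ * y) ^ 2 * y⁻¹ ^ 2 := by
      simp only [pow_two]; group
    rw [h5]
    exact Subgroup.mul_mem _ (Subgroup.mul_mem _ (hsq _) (hsq _)) (hsq _)
  have hfc : frattini G ≤ Subgroup.center G :=
    Cfsg.Agent.Lib.FrattiniPGroup.frattini_le _ hcom hsq
  have hcf : commutator G ≤ frattini G := Cfsg.Agent.Lib.FrattiniPGroup.commutator_le_frattini hG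
  have hcne : commutator G ≠ ⊥ := by
    intro h
    apply hna
    refine ⟨⟨fun x y => ?_⟩⟩
    have h5 : x * y * x⁻¹ * y⁻¹ ∈ commutator G :=
      Subgroup.commutator_mem_commutator (Subgroup.mem_top x) (Subgroup.mem_top y)
    rw [h, Subgroup.mem_bot, mul_inv_eq_one, mul_inv_eq_iff_eq_mul] at h5
    exact h5
  have hcc : Subgroup.center G ≤ commutator G := by
    intro x hx
    apply h4 _ inferInstance hcne
    rw [← pow_two]
    exact (hcen x).mp hx
  exact ⟨le_antisymm hcf (hfc.trans hcc), le_antisymm hfc (hcc.trans hcf), hcen⟩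

end Cfsg.Agent.S3776
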