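import Cfsg.Statements.S3779
-- import your own Cfsg.Agent.* helpers here
import Cfsg.Agent.H449.GroupCore
import Cfsg.Agent.S0032
import Cfsg.Agent.S0033

set_option autoImplicit false
open Cfsg

namespace Cfsg.Agent.S3779

open Cfsg.Agent.H449

/-- In a nilpotent group the lower central series stops only at `1`. -/
theorem lcs_eq_bot {G : Type*} [Group G] (hnil : Group.IsNilpotent G) (h : ℕ)
    (hle : (⊤ : Subgroup G).lowerCentralSeries h ≤ (⊤ : Subgroup G).lowerCentralSeries (h + 1)) :
    (⊤ : Subgroup G).lowerCentralSeries h = ⊥ := by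
  obtain ⟨c, hc⟩ := Subgroup.nilpotent_iff_lowerCentralSeries.mp hnil
  have h1 : ∀ m, (⊤ : Subgroup G).lowerCentralSeries h ≤
      (⊤ : Subgroup G).lowerCentralSeries (h + m) := by
    intro m
    induction m with
    | zero => exact le_rfl
    | succ m ih =>
      refine hle.trans ?_
      rw [← add_assoc, Subgroup.lowerCentralSeries_succ, Subgroup.lowerCentralSeries_succ]
      exact Subgroup.commutator_mono ih le_rfl
  have h2 := (h1 c).trans (Subgroup.lowerCentralSeries_antitone ⊤ (Nat.le_add_left c h))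
  rw [hc] at h2
  exact le_bot_iff.mp h2

/-- A fixed-point-free automorphism of prime order `p` exists only on `p'`-groups. -/
theorem coprime_card {G : Type*} [Group G] [Finite G] {p : ℕ} (hp : p.Prime) (α : MulAut G)
    (hα : orderOf α = p) (hfpf : ∀ g : G, α g = g → g = 1) : (Nat.card G).Coprime p := by
  have : Fact p.Prime := ⟨hp⟩
  have hP : IsPGroup p (Subgroup.zpowers α) := by
    apply IsPGroup.of_card (n := 1)
    rw [Nat.card_zpowers, hα, pow_one]
  have h1 := hP.card_modEq_card_fixedPoints G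
  have h2 : Nat.card (MulAction.fixedPoints (Subgroup.zpowers α) G) = 1 := by
    rw [Nat.card_eq_one_iff_unique]
    constructor
    · refine ⟨fun a b => Subtype.ext ?_⟩
      have h3 : ∀ a : MulAction.fixedPoints (Subgroup.zpowers α) G, (a : G) = 1 := by
        intro a
        apply hfpf
        exact a.2 ⟨α, Subgroup.mem_zpowers α⟩
      rw [h3 a, h3 b]
    · exact ⟨⟨1, fun g => map_one (g : MulAut G)⟩⟩
  rw [h2] at h1
  rw [Nat.coprime_comm, hp.coprime_iff_not_dvd]
  intro h3
  have h4 : 1 ≡ 0 [MOD p] := h1.symm.trans ((Nat.modEq_zero_iff_dvd).mpr h3)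
  have h5 := (Nat.modEq_zero_iff_dvd).mp h4
  exact hp.one_lt.ne' (Nat.dvd_one.mp h5)

theorem lcs_eq_bot_of_bound.{u} {G : Type u} [Group G] [Finite G] {p : ℕ} [Fact p.Prime]
    (α : MulAut G) (hα : orderOf α = p) (hfpf : ∀ g : G, α g = g → g = 1) (h : ℕ)
    (hh : ∀ (V : Type u) [LieRing V] (F : ZMod p → AddSubgroup V), fbr F F ≤ F → F 0 = ⊥ →
      flcs F h = ⊥) : (⊤ : Subgroup G).lowerCentralSeries h = ⊥ := by
  have hp : p.Prime := Fact.out
  have hfp : MonoidHom.FixedPointFree (α : G →* G) := fun g hg => hfpf g hg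
  have hnil : Group.IsNilpotent G := Cfsg.Agent.S0033.result α hfp p hp hα
  have hcop := coprime_card hp α hα hfpf
  apply lcs_eq_bot hnil
  have hiter : ∀ x, (⇑(α : G →* G))^[p] x = x := by
    intro x
    have h1 : ∀ m : ℕ, (⇑(α : G →* G))^[m] x = (α ^ m) x := by
      intro m
      induction m with
      | zero => rfl
      | succ m ih => rw [Function.iterate_succ_apply', ih, pow_succ']; rfl
    rw [h1, ← hα, pow_orderOf_eq_one]
    rfl
  have key := group_core h hh (α : G →* G) hiter 1 (by
    intro k x hx hx'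
    rw [pow_one]
    apply Cfsg.Agent.S0032.result α hfp ((⊤ : Subgroup G).lowerCentralSeries (k + 1))
    · intro n hn
      have h1 : α n ∈ ((⊤ : Subgroup G).lowerCentralSeries (k + 1)).map (α : G →* G) := ⟨n, hn, rfl⟩
      rw [Subgroup.map_lowerCentralSeries] at h1
      exact Subgroup.lowerCentralSeries_mono _ le_top h1
    · have h1 := inv_mem hx'
      rwa [mul_inv_rev, inv_inv] at h1)
  intro x hx
  have h1 := key x hx
  rw [one_mul] at h1
  have h2 : (orderOf x).Coprime (p ^ (h + 1)) :=
    Nat.Coprime.coprime_dvd_left (orderOf_dvd_natCard x) (hcop.pow_right _)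
  obtain ⟨m, hm⟩ := exists_pow_eq_self_of_coprime h2.symm
  rw [← hm]
  exact pow_mem h1 m

/-- Let G be a finite group with an automorphism of prime order p fixing only the identity. Then G is nilpotent; if p = 2 then G is abelian, if p = 3 then G has class at most 2, and in general the class of G is at most ξ = 1 + (p−1) + (p−1)² + ⋯ + (p−1)^(n−1) with n = 2^(p−1) − 1 (the Higman–Kreknin–Kostrikin bound). -/
theorem result {G : Type*} [Group G] [Finite G] {p : ℕ} (hp : p.Prime) (α : MulAut G) (hα : orderOf α = p) (hfpf : ∀ g : G, α g = g → g = 1) : (p = 2 → (⊤ : Subgroup G).lowerCentralSeries 1 = ⊥) ∧ (p = 3 → (⊤ : Subgroup G).lowerCentralSeries 2 = ⊥) ∧ (⊤ : Subgroup G).lowerCentralSeries (Finset.sum (Finset.range (2 ^ (p - 1) - 1)) (fun i => (p - 1) ^ i)) = ⊥ := by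
  have : Fact p.Prime := ⟨hp⟩
  have hmain : (⊤ : Subgroup G).lowerCentralSeries
      (Finset.sum (Finset.range (2 ^ (p - 1) - 1)) (fun i => (p - 1) ^ i)) = ⊥ :=
    lcs_eq_bot_of_bound α hα hfpf _ (fun V _ F hF h0 => flcs_eq_bot F hF h0)
  refine ⟨?_, ?_, hmain⟩
  · intro h2
    subst h2
    simpa using hmain
  · intro h3
    subst h3
    exact lcs_eq_bot_of_bound α hα hfpf 2 (fun V _ F hF h0 => flcs_three_eq_bot F hF h0)

end Cfsg.Agent.S3779
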