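import Cfsg.Statements.S3781
-- import your own Cfsg.Agent.* helpers here
import Cfsg.Agent.H449.Lcs

set_option autoImplicit false
open Cfsg

namespace Cfsg.Agent.S3781

open Cfsg.Agent.H449
open scoped commutatorElement

/-- A nontrivial normal subgroup of a finite `p`-group contains a normal subgroup of index `p`. -/
theorem exists_normal_relIndex {G : Type*} [Group G] [Finite G] {p : ℕ} [Fact p.Prime]
    (hG : IsPGroup p G) (L : Subgroup G) [L.Normal] (hL : L ≠ ⊥) :
    ∃ K : Subgroup G, K.Normal ∧ K ≤ L ∧ Nat.card L = Nat.card K * p := by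
  have hp : p.Prime := Fact.out
  obtain ⟨b, hb⟩ := (IsPGroup.iff_card).mp (hG.to_subgroup L)
  have hb0 : b ≠ 0 := by
    rintro rfl
    apply hL
    exact Subgroup.eq_bot_of_card_le _ (by rw [hb, pow_zero])
  set C : Subgroup G := ⁅L, (⊤ : Subgroup G)⁆ with hC
  have hCL : C ≤ L := Subgroup.commutator_le_left _ _
  obtain ⟨a, ha⟩ := (IsPGroup.iff_card).mp (hG.to_subgroup C)
  have hCne : C ≠ L := by
    intro heq
    have h1 := iterComm_eq_bot_of_card hG L b hb.le
    have h2 : ∀ k, iterComm L (⊤ : Subgroup G) k = L := by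
      intro k
      induction k with
      | zero => rfl
      | succ k ih => rw [iterComm_succ, ih]; exact heq
    rw [h2] at h1
    exact hL h1
  have hab : a < b := by
    by_contra hnot
    apply hCne
    apply Subgroup.eq_of_le_of_card_ge hCL
    rw [ha, hb]
    exact Nat.pow_le_pow_right hp.pos (not_lt.mp hnot)
  have hC' : Nat.card (C.subgroupOf L) = p ^ a := by
    rw [← ha]
    exact Nat.card_congr (Subgroup.subgroupOfEquivOfLe hCL).toEquiv
  obtain ⟨K, hK, hCK⟩ := Sylow.exists_subgroup_card_pow_prime_le p (n := a) (m := b - 1)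
    (by rw [hb]; exact pow_dvd_pow p (Nat.sub_le b 1)) (C.subgroupOf L) hC' (by omega)
  refine ⟨K.map L.subtype, ?_, Subgroup.map_subtype_le K, ?_⟩
  · refine ⟨?_⟩
    rintro _ ⟨k, hk, rfl⟩ g
    have h1 : ⁅g, (k : G)⁆ ∈ C := by
      rw [hC, Subgroup.commutator_comm]
      exact Subgroup.commutator_mem_commutator (Subgroup.mem_top g) k.2
    have h2 : (⟨⁅g, (k : G)⁆, hCL h1⟩ : L) ∈ K := hCK (by
      rw [Subgroup.mem_subgroupOf]; exact h1)
    refine ⟨⟨⁅g, (k : G)⁆, hCL h1⟩ * k, K.mul_mem h2 hk, ?_⟩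
    simp [commutatorElement_def]
  · have h1 : Nat.card (K.map L.subtype) = Nat.card K :=
      Nat.card_congr (K.equivMapOfInjective L.subtype L.subtype_injective).toEquiv.symm
    rw [h1, hK, hb, ← pow_succ]
    congr 1
    omega

/-- Let G be a finite p-group and n ≥ 1, and write γ_1(G) = G, γ_{k+1}(G) = [γ_k(G), G], and likewise γ_k(N) for a subgroup N. Let N be a normal subgroup of G contained in γ_n(G). If i > 1 and γ_{i+1}(N) ≠ 1, then |γ_i(N) : γ_{i+1}(N)| ≥ p^n. -/
theorem result {G : Type*} [Group G] [Finite G] {p : ℕ} [Fact p.Prime] (hG : IsPGroup p G) (n : ℕ) (hn : 1 ≤ n) (N : Subgroup G) [N.Normal] (hN : N ≤ (⊤ : Subgroup G).lowerCentralSeries (n - 1)) (i : ℕ) (hi : 1 < i) (hne : N.lowerCentralSeries i ≠ ⊥) : p ^ n ≤ (N.lowerCentralSeries i).relIndex (N.lowerCentralSeries (i - 1)) := by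
  have hp : p.Prime := Fact.out
  have hnorm : ∀ k, (N.lowerCentralSeries k).Normal := by
    intro k
    rw [← iterComm_self]
    exact iterComm_normal N N k
  by_contra hlt
  rw [not_le] at hlt
  obtain ⟨j, rfl⟩ : ∃ j, i = j + 1 := ⟨i - 1, by omega⟩
  rw [Nat.add_sub_cancel] at hlt
  set M := N.lowerCentralSeries j with hM
  set L := N.lowerCentralSeries (j + 1) with hL
  have hMn : M.Normal := hnorm j
  have hLn : L.Normal := hnorm (j + 1)
  have hLM : L ≤ M := Subgroup.lowerCentralSeries_antitone N (Nat.le_succ j)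
  obtain ⟨K, hKn, hKL, hK⟩ := exists_normal_relIndex hG L hne
  -- cardinalities
  have hc1 : Nat.card L * L.relIndex M = Nat.card M := by
    have := Subgroup.relIndex_mul_relIndex ⊥ L M bot_le hLM
    rwa [Subgroup.relIndex_bot_left, Subgroup.relIndex_bot_left] at this
  have hlt' : L.relIndex M * p ≤ p ^ n := by
    obtain ⟨e, he⟩ := (IsPGroup.iff_card).mp (hG.to_subgroup M)
    have h5 : L.relIndex M ∣ p ^ e := by rw [← he, ← hc1]; exact dvd_mul_left _ _
    obtain ⟨f, hf, hf'⟩ := (Nat.dvd_prime_pow hp).mp h5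
    rw [hf'] at hlt ⊢
    have : f < n := (Nat.pow_lt_pow_iff_right hp.one_lt).mp hlt
    rw [← pow_succ]
    exact Nat.pow_le_pow_right hp.pos this
  -- pass to the quotient by `K`
  let f := QuotientGroup.mk' K
  have hf : Function.Surjective f := QuotientGroup.mk'_surjective K
  have hGK : IsPGroup p (G ⧸ K) := hG.to_quotient K
  have hMK : (M.map f).Normal := hMn.map f hf
  have hKM : K ≤ M := hKL.trans hLM
  have hcard : Nat.card (M.map f) ≤ p ^ n := by
    have h1 : Nat.card K * K.relIndex M = Nat.card M := by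
      have := Subgroup.relIndex_mul_relIndex ⊥ K M bot_le hKM
      rwa [Subgroup.relIndex_bot_left, Subgroup.relIndex_bot_left] at this
    have h2 : Nat.card (M.map f) = K.relIndex M := by
      rw [← Subgroup.relIndex_ker, QuotientGroup.ker_mk']
    have h3 : Nat.card K * K.relIndex M = Nat.card K * (L.relIndex M * p) := by
      rw [h1, ← hc1, hK]; ring
    rw [h2, Nat.eq_of_mul_eq_mul_left Nat.card_pos h3]
    exact hlt'
  have h1 := iterComm_eq_bot_of_card hGK (M.map f) n hcard
  have h2 := commutator_iterComm_le (M.map f) ⊤ (n - 1) 0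
  rw [show 0 + (n - 1) + 1 = n by omega, h1, iterComm_zero] at h2
  have h3 : N.map f ≤ (⊤ : Subgroup (G ⧸ K)).lowerCentralSeries (n - 1) := by
    refine (Subgroup.map_mono hN).trans ?_
    rw [Subgroup.map_lowerCentralSeries, Subgroup.map_top_of_surjective f hf]
  have h4 : (L.map f) = ⊥ := by
    rw [hL, Subgroup.lowerCentralSeries_succ, Subgroup.map_commutator, ← le_bot_iff]
    exact (Subgroup.commutator_mono le_rfl h3).trans h2
  have h5 : L ≤ K := by
    rw [Subgroup.map_eq_bot_iff, QuotientGroup.ker_mk'] at h4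
    exact h4
  have h6 : Nat.card L ≤ Nat.card K := Subgroup.card_le_of_le h5
  rw [hK] at h6
  have h7 : 0 < Nat.card K := Nat.card_pos
  have := hp.two_le
  nlinarith

end Cfsg.Agent.S3781
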