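import Cfsg.Statements.S3782
-- import your own Cfsg.Agent.* helpers here
import Cfsg.Agent.H449.Alperin
import Cfsg.Agent.S3779
import Cfsg.Agent.S0029
import Cfsg.Agent.Lib.HallHigman
import Cfsg.Agent.Lib.FrattiniPGroup

set_option autoImplicit false
open Cfsg

namespace Cfsg.Agent.S3782

open Cfsg.Agent.H449

/-- A finite solvable group of order at most `M` has derived length at most `M`. -/
theorem derivedSeries_eq_bot_of_card {Q : Type*} [Group Q] [Finite Q]
    (hQ : Group.IsSolvable Q) (M : ℕ) (hM : Nat.card Q ≤ M) : derivedSeries Q M = ⊥ := by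
  obtain ⟨n, hn⟩ := (Group.isSolvable_def Q).mp hQ
  have key : ∀ k : ℕ, derivedSeries Q k = ⊥ ∨ k + Nat.card (derivedSeries Q k) ≤ Nat.card Q := by
    intro k
    induction k with
    | zero => right; simp
    | succ k ih =>
      rcases ih with ih | ih
      · left
        have := derivedSeries_antitone Q (Nat.le_succ k)
        rw [ih] at this
        exact le_bot_iff.mp this
      · by_cases hb : derivedSeries Q k = ⊥
        · left
          have := derivedSeries_antitone Q (Nat.le_succ k)
          rw [hb] at this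
          exact le_bot_iff.mp this
        · right
          have hle := derivedSeries_antitone Q (Nat.le_succ k)
          have hlt : Nat.card (derivedSeries Q (k + 1)) < Nat.card (derivedSeries Q k) := by
            by_contra hnot
            have heq : derivedSeries Q (k + 1) = derivedSeries Q k :=
              Subgroup.eq_of_le_of_card_ge hle (not_lt.mp hnot)
            have h1 : ∀ m, derivedSeries Q (k + m) = derivedSeries Q k := by
              intro m
              induction m with
              | zero => rfl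
              | succ m ih2 => rw [← add_assoc, derivedSeries_succ, ih2, ← derivedSeries_succ, heq]
            have h2 := derivedSeries_antitone Q (Nat.le_add_left n k)
            rw [h1 n, hn] at h2
            exact hb (le_bot_iff.mp h2)
          omega
  rcases key M with h | h
  · exact h
  · have h1 : 0 < Nat.card (derivedSeries Q M) := Nat.card_pos
    omega

/-- `G^(m + k) ≤ N^(k)` if `G^(m) ≤ N`. -/
theorem derivedSeries_add_le {G : Type*} [Group G] (N : Subgroup G) (m : ℕ)
    (h : derivedSeries G m ≤ N) (k : ℕ) :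
    derivedSeries G (m + k) ≤ (derivedSeries N k).map N.subtype := by
  induction k with
  | zero =>
    rw [derivedSeries_zero, ← MonoidHom.range_eq_map, N.range_subtype]
    exact h
  | succ k ih =>
    rw [← add_assoc, derivedSeries_succ, derivedSeries_succ, Subgroup.map_commutator]
    exact Subgroup.commutator_mono ih ih

/-- The `p'`-core is characteristic. -/
theorem map_pPrimeCore {G : Type*} [Group G] [Finite G] (p : ℕ) (α : G ≃* G) :
    ∀ x ∈ pPrimeCore p G, α x ∈ pPrimeCore p G := by
  intro x hx
  have hn := Cfsg.Agent.Lib.HallHigman.pPrimeCore_normal (G := G) p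
  have h1 : ((pPrimeCore p G).map (α : G →* G)).Normal :=
    hn.map _ α.surjective
  have h2 : Nat.card ((pPrimeCore p G).map (α : G →* G)) = Nat.card (pPrimeCore p G) :=
    Nat.card_congr ((pPrimeCore p G).equivMapOfInjective _ α.injective).toEquiv.symm
  have h3 := Cfsg.Agent.Lib.HallHigman.pPrimeCore_coprime (G := G) p
  rw [← h2] at h3
  exact Cfsg.Agent.Lib.HallHigman.le_pPrimeCore h1 h3 ⟨x, hx, rfl⟩

/-- Hall–Higman: bound for the group above its `p`-core. -/
theorem derivedSeries_le_pCore {G : Type*} [Group G] [Finite G] (hG : Group.IsSolvable G)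
    {p : ℕ} [Fact p.Prime] (h : pPrimeCore p G = ⊥) (M : ℕ)
    (hM : Nat.card (pCore p G ⧸ frattini (pCore p G)) ≤ M) :
    derivedSeries G M.factorial ≤ pCore p G := by
  have hp : p.Prime := Fact.out
  have hPn : (pCore p G).Normal := Cfsg.Agent.Lib.HallHigman.pCore_normal p
  have hPp := Cfsg.Agent.Lib.HallHigman.pCore_isPGroup (G := G) p
  have hC := Cfsg.Agent.Lib.HallHigman.centralizer_pCore_le_of_solvable (G := G) p h
  set P := pCore p G with hP
  have hconj : ∀ g : G, (frattini P).map ((MulAut.conjNormal g : MulAut P) : P →* P) =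
      frattini P := by
    intro g
    exact Subgroup.characteristic_iff_map_eq.mp inferInstance (MulAut.conjNormal g : MulAut P)
  let ρ : G →* MulAut (P ⧸ frattini P) :=
    { toFun := fun g => QuotientGroup.congr (frattini P) (frattini P) (MulAut.conjNormal g) (hconj g)
      map_one' := by
        ext x
        obtain ⟨x, rfl⟩ := QuotientGroup.mk_surjective x
        change ((MulAut.conjNormal (1 : G) x : P) : P ⧸ frattini P) = _
        rw [map_one]; rfl
      map_mul' := by
        intro g g'
        ext x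
        obtain ⟨x, rfl⟩ := QuotientGroup.mk_surjective x
        change ((MulAut.conjNormal (g * g') x : P) : P ⧸ frattini P) = _
        rw [map_mul]; rfl }
  have hρ : ∀ g : G, ρ g = 1 → ∀ x : P, x⁻¹ * MulAut.conjNormal g x ∈ frattini P := by
    intro g hg x
    have h1 : ρ g (x : P ⧸ frattini P) = (x : P ⧸ frattini P) := by rw [hg]; rfl
    have h2 : ((MulAut.conjNormal g x : P) : P ⧸ frattini P) = (x : P ⧸ frattini P) := h1
    exact QuotientGroup.eq.mp h2.symm
  -- the kernel is contained in `P`
  have hker : ρ.ker ≤ P := by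
    have hkp : IsPGroup p ρ.ker := by
      rw [IsPGroup.iff_card]
      by_contra hno
      push Not at hno
      obtain ⟨r, hr, hrd, hrp⟩ : ∃ r : ℕ, r.Prime ∧ r ∣ Nat.card ρ.ker ∧ r ≠ p := by
        by_contra hall
        push Not at hall
        have h1 : ∀ {d : ℕ}, d.Prime → d ∣ Nat.card ρ.ker → d = p := fun hd hd' => hall _ hd hd'
        exact hno _ (Nat.eq_prime_pow_of_unique_prime_dvd Nat.card_pos.ne' h1)
      have : Fact r.Prime := ⟨hr⟩
      obtain ⟨y, hy⟩ := exists_prime_orderOf_dvd_card' r hrd
      have hy' : orderOf (y : G) = r := by rw [← hy]; exact Subgroup.orderOf_coe y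
      have h2 : Subgroup.zpowers (y : G) ≤ Subgroup.centralizer (P : Set G) := by
        apply Cfsg.Agent.S0029.result
        · exact le_top.trans (Subgroup.normalizer_eq_top_iff.mpr hPn).ge
        · rw [Nat.card_zpowers, hy']
          obtain ⟨k, hk⟩ := (IsPGroup.iff_card).mp (hPp.to_subgroup (frattini P))
          rw [hk]
          exact Nat.Coprime.pow_right k ((Nat.coprime_primes hr hp).mpr hrp)
        · intro a ha k hk
          have ha' : a ∈ ρ.ker := (Subgroup.zpowers_le.mpr y.2) ha
          have h3 := hρ a ha' ⟨k⁻¹, inv_mem hk⟩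
          refine ⟨_, (frattini P).inv_mem h3, ?_⟩
          simp [MulAut.conjNormal_apply, mul_assoc]
      have h3 : (y : G) ∈ P := hC (h2 (Subgroup.mem_zpowers _))
      obtain ⟨k, hk⟩ := hPp ⟨(y : G), h3⟩
      have h4 : (y : G) ^ p ^ k = 1 := congrArg Subtype.val hk
      have h5 : r ∣ p ^ k := by rw [← hy']; exact orderOf_dvd_of_pow_eq_one h4
      exact hrp ((Nat.prime_dvd_prime_iff_eq hr hp).mp (hr.dvd_of_dvd_pow h5))
    exact Cfsg.Agent.Lib.HallHigman.le_pCore inferInstance hkp
  refine le_trans ?_ hker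
  have hcard : Nat.card ρ.range ≤ M.factorial := by
    have h1 : Nat.card ρ.range ≤ Nat.card (MulAut (P ⧸ frattini P)) :=
      Nat.card_le_card_of_injective _ ρ.range.subtype_injective
    have h2 : Nat.card (MulAut (P ⧸ frattini P)) ≤ Nat.card (Equiv.Perm (P ⧸ frattini P)) :=
      Nat.card_le_card_of_injective _ (MulEquiv.toEquiv_injective)
    rw [Nat.card_perm] at h2
    exact h1.trans (h2.trans (Nat.factorial_le hM))
  have hsol : Group.IsSolvable ρ.range := Group.isSolvable_of_surjective ρ.rangeRestrict_surjective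
  have h1 := derivedSeries_eq_bot_of_card hsol _ hcard
  have h2 := map_derivedSeries_le_derivedSeries ρ.rangeRestrict M.factorial
  rw [h1, le_bot_iff, Subgroup.map_eq_bot_iff, MonoidHom.ker_rangeRestrict] at h2
  exact h2

/-- The restriction of an automorphism to an invariant subgroup. -/
noncomputable def restr {G : Type*} [Group G] [Finite G] (α : G ≃* G) (H : Subgroup G)
    (hH : ∀ x ∈ H, α x ∈ H) : H ≃* H :=
  MulEquiv.ofBijective (((α : G →* G).comp H.subtype).codRestrict H (fun x => hH x.1 x.2)) (by
    rw [← Finite.injective_iff_bijective]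
    intro a b hab
    exact Subtype.ext (α.injective (congrArg Subtype.val hab)))

theorem restr_apply {G : Type*} [Group G] [Finite G] (α : G ≃* G) (H : Subgroup G)
    (hH : ∀ x ∈ H, α x ∈ H) (x : H) : (restr α H hH x : G) = α x := rfl

theorem restr_iterate {G : Type*} [Group G] [Finite G] (α : G ≃* G) (H : Subgroup G)
    (hH : ∀ x ∈ H, α x ∈ H) (m : ℕ) (hm : ∀ x, (⇑α)^[m] x = x) (x : H) :
    (⇑(restr α H hH))^[m] x = x := by
  have h1 : ∀ m : ℕ, ∀ x : H, (((⇑(restr α H hH))^[m] x : H) : G) = (⇑α)^[m] x := by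
    intro m
    induction m with
    | zero => intro x; rfl
    | succ m ih => intro x; rw [Function.iterate_succ_apply, ih, Function.iterate_succ_apply]; rfl
  exact Subtype.ext ((h1 m x).trans (hm _))

theorem card_fix_restr {G : Type*} [Group G] [Finite G] (α : G ≃* G) (H : Subgroup G)
    (hH : ∀ x ∈ H, α x ∈ H) :
    Nat.card {x : H // restr α H hH x = x} ≤ Nat.card {x : G // α x = x} := by
  refine Nat.card_le_card_of_injective
    (fun x => (⟨(x.1 : G), congrArg Subtype.val x.2⟩ : {x : G // α x = x})) ?_
  intro a b hab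
  have h1 : ((a.1 : H) : G) = ((b.1 : H) : G) := (Subtype.mk.injEq _ _ _ _).mp hab
  exact Subtype.ext (Subtype.ext h1)

theorem pow_eq_one_of_iterate {G : Type*} [Group G] (α : MulAut G) (m : ℕ)
    (hm : ∀ x, (⇑α)^[m] x = x) : α ^ m = 1 := by
  have h1 : ∀ m : ℕ, ∀ x, (⇑α)^[m] x = (α ^ m) x := by
    intro m
    induction m with
    | zero => intro x; rfl
    | succ m ih => intro x; rw [Function.iterate_succ_apply', ih, pow_succ']; rfl
  ext x
  rw [← h1, hm]; rfl

theorem iterate_of_orderOf {G : Type*} [Group G] (α : MulAut G) (m : ℕ)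
    (hm : orderOf α = m) (x : G) : (⇑α)^[m] x = x := by
  have h1 : ∀ m : ℕ, ∀ x, (⇑α)^[m] x = (α ^ m) x := by
    intro m
    induction m with
    | zero => intro x; rfl
    | succ m ih => intro x; rw [Function.iterate_succ_apply', ih, pow_succ']; rfl
  rw [h1, ← hm, pow_orderOf_eq_one]; rfl

/-- The `p'`-core. -/
theorem derivedSeries_pPrimeCore {G : Type*} [Group G] [Finite G] {p : ℕ} (hp : p.Prime)
    (α : MulAut G) (hα : ∀ x, (⇑α)^[p] x = x) (n : ℕ)
    (hn : Nat.card {g : G // α g = g} = p ^ n) :
    derivedSeries (pPrimeCore p G) (hk p) = ⊥ := by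
  have : Fact p.Prime := ⟨hp⟩
  have hO := map_pPrimeCore p (G := G) α
  have hcop := Cfsg.Agent.Lib.HallHigman.pPrimeCore_coprime (G := G) p
  set O := pPrimeCore p G with hOdef
  let a : MulAut O := restr α O hO
  have hfpf : ∀ g : O, a g = g → g = 1 := by
    intro g hg
    have h1 : α (g : G) = g := congrArg Subtype.val hg
    let F : Subgroup G := (α : G →* G).eqLocus (MonoidHom.id _)
    have h2 : Nat.card F = p ^ n := hn
    have h3 : (g : G) ^ p ^ n = 1 := by
      rw [← h2]
      exact congrArg Subtype.val (pow_card_eq_one' (x := (⟨(g : G), h1⟩ : F)))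
    have h4 : (orderOf g) ∣ p ^ n := by
      rw [← Subgroup.orderOf_coe]
      exact orderOf_dvd_of_pow_eq_one h3
    have h5 : (orderOf g) ∣ Nat.card O := orderOf_dvd_natCard g
    have h6 := Nat.eq_one_of_dvd_coprimes (hcop.pow_right n) h5 h4
    exact orderOf_eq_one_iff.mp h6
  have hap : a ^ p = 1 := pow_eq_one_of_iterate a p (restr_iterate α O hO p hα)
  have hdvd : orderOf a ∣ p := orderOf_dvd_of_pow_eq_one hap
  rcases (Nat.dvd_prime hp).mp hdvd with h1 | h1
  · have h2 : a = 1 := orderOf_eq_one_iff.mp h1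
    have h3 : ∀ g : O, g = 1 := fun g => hfpf g (by rw [h2]; rfl)
    rw [eq_bot_iff]
    intro x _
    exact Subgroup.mem_bot.mpr (h3 x)
  · have h2 := (Cfsg.Agent.S3779.result hp a h1 hfpf).2.2
    rw [← le_bot_iff, ← h2]
    exact Subgroup.derived_le_lower_central _

/-- The quotient of the `p`-core by its Frattini subgroup. -/
theorem card_frattini_quotient_le {P : Type*} [Group P] [Finite P] {p : ℕ} [Fact p.Prime]
    (hP : IsPGroup p P) (b : P ≃* P) (hb : ∀ x, (⇑b)^[p] x = x) (n : ℕ)
    (hn : Nat.card {x : P // b x = x} ≤ p ^ n) :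
    Nat.card (P ⧸ frattini P) ≤ p ^ (n * p) := by
  have hmap : frattini P ≤ (frattini P).comap (b : P →* P) := by
    have h1 : (frattini P).comap (b : P →* P) = frattini P :=
      Subgroup.characteristic_iff_comap_eq.mp inferInstance b
    rw [h1]
  let β : P ⧸ frattini P →* P ⧸ frattini P := QuotientGroup.map _ _ (b : P →* P) hmap
  have h1 : Nat.card {q : P ⧸ frattini P // β q = q} ≤ p ^ n :=
    (card_fixed_le_of_surjective (QuotientGroup.mk' (frattini P))
      (QuotientGroup.mk'_surjective _) (b : P →* P) β (fun _ => rfl)).trans hn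
  letI : CommGroup (P ⧸ frattini P) :=
    { (inferInstance : Group (P ⧸ frattini P)) with
      mul_comm := by
        intro x y
        obtain ⟨x, rfl⟩ := QuotientGroup.mk_surjective x
        obtain ⟨y, rfl⟩ := QuotientGroup.mk_surjective y
        change ((x * y : P) : P ⧸ frattini P) = ((y * x : P) : P ⧸ frattini P)
        rw [QuotientGroup.eq]
        have h2 := Cfsg.Agent.Lib.FrattiniPGroup.commutator_mem_frattini hP y⁻¹ x⁻¹
        rw [commutatorElement_def] at h2
        have h3 : (x * y)⁻¹ * (y * x) = y⁻¹ * x⁻¹ * y⁻¹⁻¹ * x⁻¹⁻¹ := by group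
        rw [h3]
        exact h2 }
  let A := Additive (P ⧸ frattini P)
  let a : AddMonoid.End A := MonoidHom.toAdditive β
  have hA : ∀ v : A, p • v = 0 := by
    intro v
    obtain ⟨x, hx⟩ := QuotientGroup.mk_surjective (Additive.toMul v)
    apply Additive.toMul.injective
    rw [toMul_nsmul, toMul_zero, ← hx]
    exact (QuotientGroup.eq_one_iff (x ^ p)).mpr (Cfsg.Agent.Lib.FrattiniPGroup.pow_mem_frattini hP x)
  have ha : a ^ p = 1 := by
    have hpow : ∀ (k : ℕ) (x : P), (a ^ k) (Additive.ofMul (x : P ⧸ frattini P)) =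
        Additive.ofMul ((((⇑b)^[k] x : P)) : P ⧸ frattini P) := by
      intro k
      induction k with
      | zero => intro x; rfl
      | succ k ih =>
        intro x
        rw [pow_succ, Function.iterate_succ_apply]
        exact ih (b x)
    ext v
    obtain ⟨x, hx⟩ := QuotientGroup.mk_surjective (Additive.toMul v)
    have hv : v = Additive.ofMul (x : P ⧸ frattini P) := by rw [hx]; rfl
    rw [hv, hpow, hb]
    rfl
  have h2 := card_le_card_fixed_pow hA a ha
  have h4 : Nat.card {v : A // a v = v} = Nat.card {q : P ⧸ frattini P // β q = q} := rfl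
  rw [h4] at h2
  refine h2.trans ((Nat.pow_le_pow_left h1 p).trans (le_of_eq ?_))
  rw [← pow_mul]

/-- Alperin's Theorem: for each prime p and each n ≥ 0 there is an integer l such that every finite solvable group admitting an automorphism of order p with exactly p^n fixed points has derived length at most l. -/
theorem result (p : ℕ) (hp : p.Prime) (n : ℕ) : ∃ l : ℕ, ∀ (G : Type) [Group G] [Finite G], Group.IsSolvable G → ∀ α : MulAut G, orderOf α = p → Nat.card {g : G // α g = g} = p ^ n → derivedSeries G l = ⊥ := by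
  have : Fact p.Prime := ⟨hp⟩
  refine ⟨(p ^ (n * p)).factorial + (n * p * (n + (hk p + 1)) + (hk p + 1)) + hk p, ?_⟩
  intro G _ _ hG α hα hn
  have hα' : ∀ x, (⇑α)^[p] x = x := iterate_of_orderOf α p hα
  have hO := map_pPrimeCore p (G := G) α
  have hOd := derivedSeries_pPrimeCore hp α hα' n hn
  have hON := Cfsg.Agent.Lib.HallHigman.pPrimeCore_normal (G := G) p
  set O := pPrimeCore p G with hOdef
  -- the quotient by the `p'`-core
  have hOmap : O.map (α : G →* G) = O := by
    apply Subgroup.eq_of_le_of_card_ge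
    · rintro _ ⟨x, hx, rfl⟩
      exact hO x hx
    · exact (Nat.card_congr (O.equivMapOfInjective _ α.injective).toEquiv).le
  let β : G ⧸ O ≃* G ⧸ O := QuotientGroup.congr O O α hOmap
  have hβ : ∀ x, (⇑β)^[p] x = x := by
    have h1 : ∀ m : ℕ, ∀ x : G, (⇑β)^[m] (x : G ⧸ O) = (((⇑α)^[m] x : G) : G ⧸ O) := by
      intro m
      induction m with
      | zero => intro x; rfl
      | succ m ih =>
        intro x
        rw [Function.iterate_succ_apply, Function.iterate_succ_apply]
        exact ih (α x)
    intro x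
    obtain ⟨x, rfl⟩ := QuotientGroup.mk_surjective x
    rw [h1, hα']
  have hβn : Nat.card {x : G ⧸ O // β x = x} ≤ p ^ n := by
    rw [← hn]
    exact card_fixed_le_of_surjective (QuotientGroup.mk' O) (QuotientGroup.mk'_surjective O)
      (α : G →* G) (⇑β) (fun _ => rfl)
  have hsol : Group.IsSolvable (G ⧸ O) :=
    Group.isSolvable_of_surjective (QuotientGroup.mk'_surjective O)
  have hcore : pPrimeCore p (G ⧸ O) = ⊥ :=
    Cfsg.Agent.Lib.HallHigman.pPrimeCore_quotient_eq_bot p O rfl
  have hPn := Cfsg.Agent.Lib.HallHigman.pCore_normal (G := G ⧸ O) p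
  have hPp := Cfsg.Agent.Lib.HallHigman.pCore_isPGroup (G := G ⧸ O) p
  have hPβ : ∀ x ∈ pCore p (G ⧸ O), β x ∈ pCore p (G ⧸ O) := by
    intro x hx
    have h1 : ((pCore p (G ⧸ O)).map (β : G ⧸ O →* G ⧸ O)).Normal := hPn.map _ β.surjective
    exact Cfsg.Agent.Lib.HallHigman.le_pCore h1 (hPp.map _) ⟨x, hx, rfl⟩
  set P := pCore p (G ⧸ O) with hPdef
  let b : P ≃* P := restr β P hPβ
  have hb : ∀ x, (⇑b)^[p] x = x := restr_iterate β P hPβ p hβ
  have hbn : Nat.card {x : P // b x = x} ≤ p ^ n := (card_fix_restr β P hPβ).trans hβn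
  have h1 := derivedSeries_le_pCore hsol hcore (p ^ (n * p))
    (card_frattini_quotient_le hPp b hb n hbn)
  have h2 := derivedSeries_eq_bot_of_pgroup hPp (b : P →* P) hb n hbn
  have h3 := derivedSeries_add_le P _ h1 (n * p * (n + (hk p + 1)) + (hk p + 1))
  rw [h2, Subgroup.map_bot, le_bot_iff] at h3
  have h4 := map_derivedSeries_le_derivedSeries (QuotientGroup.mk' O)
    ((p ^ (n * p)).factorial + (n * p * (n + (hk p + 1)) + (hk p + 1)))
  rw [h3, le_bot_iff, Subgroup.map_eq_bot_iff, QuotientGroup.ker_mk'] at h4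
  have h5 := derivedSeries_add_le O _ h4 (hk p)
  rw [hOd, Subgroup.map_bot, le_bot_iff] at h5
  exact h5

end Cfsg.Agent.S3782
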