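import Cfsg.Statements.S3783
import Cfsg.Agent.H450.ExpDrop

set_option autoImplicit false
open Cfsg

namespace Cfsg.Agent.S3783

/-- Let G be a finite p-soluble group in which, for every prime q ≠ p, the Sylow q-subgroups are abelian. If the Sylow p-subgroups of G have exponent dividing p^n, then G has p-length at most n. -/
theorem result {G : Type*} [Group G] [Finite G] {p : ℕ} [Fact p.Prime] (hG : Cfsg.IsPSolvable p G) (hab : ∀ (q : ℕ) [Fact q.Prime], q ≠ p → ∀ Q : Sylow q G, IsMulCommutative (Q : Subgroup G)) (n : ℕ) (hexp : ∀ (P : Sylow p G), ∀ x ∈ (P : Subgroup G), x ^ p ^ n = 1) : Cfsg.PLengthLE p n G := by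
  refine Cfsg.Agent.H450.ExpDrop.pLengthLE_of_good n G hG
    (Cfsg.Agent.H450.ExpDrop.exp_of_sylow hexp) ?_
  intro q n₀ m hq h1 h2 h3
  have : Fact q.Prime := ⟨hq⟩
  have hp : p.Prime := Fact.out
  refine ⟨default, hab q ?_ _⟩
  rintro rfl
  have h4 : q ∣ q ^ n₀ - 1 := by rw [h3]; exact dvd_pow_self q (by omega)
  have h5 : q ∣ q ^ n₀ := dvd_pow_self q (by omega)
  have h6 : 1 ≤ q ^ n₀ := Nat.one_le_pow _ _ hq.pos
  have h7 : q ∣ 1 := (Nat.dvd_sub_iff_right h6 h5).mp h4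
  exact hq.one_lt.ne' (Nat.dvd_one.mp h7)

end Cfsg.Agent.S3783
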