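import Cfsg.Statements.S3786
import Cfsg.Agent.H450.TwoStep

set_option autoImplicit false
open Cfsg

namespace Cfsg.Agent.S3786

open Cfsg.Agent.H450

theorem good {p : ℕ} [hp : Fact p.Prime] (hp2 : p ≠ 2) {q n₀ m : ℕ} (hq : q.Prime)
    (h : p ^ n₀ - 1 = q ^ m) (h1 : 1 ≤ n₀) (h2 : 1 ≤ m) : q = 2 ∧ ∃ k, p = 2 ^ k + 1 := by
  have hpodd : Odd p := hp.out.odd_of_ne_two hp2
  have h5 : Even (p ^ n₀ - 1) := Nat.Odd.sub_odd hpodd.pow odd_one
  have hq2 : q = 2 := by
    rw [h, Nat.even_pow] at h5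
    exact (Nat.Prime.even_iff hq).mp h5.1
  subst hq2
  refine ⟨rfl, ?_⟩
  have h6 : (p - 1) ∣ 2 ^ m := by
    rw [← h]
    simpa using Nat.sub_dvd_pow_sub_pow p 1 n₀
  obtain ⟨k, -, hk⟩ := (Nat.dvd_prime_pow Nat.prime_two).mp h6
  exact ⟨k, by have := hp.out.pos; omega⟩

/-- The Hall–Higman bound on p-length. Let p be an odd prime and G a finite p-soluble group whose Sylow p-subgroups have exponent dividing p^e. (a) If p is not of the form 2^k + 1, or if the Sylow 2-subgroups of G are abelian, then G has p-length at most e. (b) In every case G has p-length at most 2e. -/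
theorem result {G : Type*} [Group G] [Finite G] {p : ℕ} [Fact p.Prime] (hp : p ≠ 2) (hG : Cfsg.IsPSolvable p G) (e : ℕ) (hexp : ∀ (P : Sylow p G), ∀ x ∈ (P : Subgroup G), x ^ p ^ e = 1) : (((¬ ∃ k : ℕ, p = 2 ^ k + 1) ∨ ∀ S : Sylow 2 G, IsMulCommutative (S : Subgroup G)) → Cfsg.PLengthLE p e G) ∧ Cfsg.PLengthLE p (2 * e) G := by
  have hexp' := ExpDrop.exp_of_sylow hexp
  have ha : ((¬ ∃ k : ℕ, p = 2 ^ k + 1) ∨ ∀ S : Sylow 2 G, IsMulCommutative (S : Subgroup G)) →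
      Cfsg.PLengthLE p e G := by
    intro h
    refine ExpDrop.pLengthLE_of_good e G hG hexp' ?_
    intro q n₀ m hq h1 h2 h3
    obtain ⟨rfl, hk⟩ := good hp hq h3 h1 h2
    rcases h with h | h
    · exact absurd hk h
    · obtain ⟨S⟩ : Nonempty (Sylow 2 G) := inferInstance
      exact ⟨S, h S⟩
  refine ⟨ha, ?_⟩
  by_cases hk : ∃ k : ℕ, p = 2 ^ k + 1
  · obtain ⟨k, hk⟩ := hk
    have hk1 : 1 ≤ k := by
      rcases Nat.eq_zero_or_pos k with h0 | h0
      · rw [h0] at hk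
        exact absurd hk hp
      · exact h0
    exact TwoStep.pLengthLE_two_mul hk.symm hk1 e G hG hexp'
  · exact H451.PLength.pLengthLE_mono (by omega) (ha (Or.inl hk))

end Cfsg.Agent.S3786
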