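import Cfsg.Statements.S3787
import Cfsg.Agent.H450.WreathSection

set_option autoImplicit false
open Cfsg

namespace Cfsg.Agent.S3787

/-- Let G be a finite p-soluble group, p an odd prime not of the form 2^k + 1, and suppose the wreath product C_p ≀ C_p (of order p^(p+1)) is not involved in a Sylow p-subgroup of G: no section of a Sylow p-subgroup is isomorphic to it. Then G has p-length at most 1. -/
theorem result {G : Type*} [Group G] [Finite G] {p : ℕ} [Fact p.Prime] (hp2 : p ≠ 2) (hnf : (¬ ∃ k : ℕ, p = 2 ^ k + 1)) (hG : Cfsg.IsPSolvable p G) (P : Sylow p G) (hwr : ∀ (W : Type) [Group W] [Finite W], (∃ (B : Subgroup W) (t : W), B.Normal ∧ IsMulCommutative B ∧ (∀ b ∈ B, b ^ p = 1) ∧ Nat.card B = p ^ p ∧ orderOf t = p ∧ t ∉ B ∧ Nat.card W = p ^ (p + 1) ∧ Nat.card ↥(B ⊓ Subgroup.centralizer ({t} : Set W)) = p) → ¬ Cfsg.Involves W ↥(P : Subgroup G)) : Cfsg.PLengthLE p 1 G := by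
  have hn1 : (pPrimeCore p G).Normal := Lib.Cores.pPrimeCore_normal p
  have hn2 : (pCore p (G ⧸ pPrimeCore p G)).Normal := Lib.Cores.pCore_normal p
  refine H450.ExpDrop.pLengthLE_of_quotient_pPrimeCore hn1 ?_
  by_cases hdvd : p ∣ (pCore p (G ⧸ pPrimeCore p G)).index
  swap
  · refine H450.ExpDrop.pLengthLE_succ_of_quotient_pCore hn2 ?_
    rw [H451.PLength.pLengthLE_zero_iff]
    exact ((Nat.Prime.coprime_iff_not_dvd Fact.out).mpr hdvd).symm
  exfalso
  obtain ⟨T₀, hT₀, N, hN, hW⟩ := H450.WreathSection.exists_section hp2 hnf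
    (Lib.PSolvable.IsPSolvable_of_surjective p hG _ (QuotientGroup.mk'_surjective _))
    (Lib.Cores.pPrimeCore_quotient_pPrimeCore p) hdvd
  obtain ⟨W, _, _, ⟨e⟩⟩ := H450.Wreath.exists_type (T₀ ⧸ N)
  apply hwr W (hW.congr e)
  -- the involvement
  have h1 : Lib.Involves.Involves P W := by
    have h2 : Lib.Involves.Involves T₀ W :=
      Lib.Involves.of_surjective (e.toMonoidHom.comp (QuotientGroup.mk' N))
        (e.surjective.comp (QuotientGroup.mk'_surjective N))
    refine Lib.Involves.trans ?_ h2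
    let f := QuotientGroup.mk' (pPrimeCore p G)
    obtain ⟨S, hS⟩ := hT₀.exists_le_sylow
    obtain ⟨g, hg⟩ := MulAction.exists_smul_eq (G ⧸ pPrimeCore p G) S
      (P.mapSurjective (QuotientGroup.mk'_surjective (pPrimeCore p G)))
    have h3 : ∀ x ∈ T₀, g * x * g⁻¹ ∈ (P : Subgroup G).map f := by
      intro x hx
      have h4 : g * x * g⁻¹ ∈ ((g • S : Sylow p (G ⧸ pPrimeCore p G)) : Subgroup (G ⧸ pPrimeCore p G)) := by
        rw [Sylow.coe_subgroup_smul]
        exact ⟨x, hS hx, rfl⟩
      rw [hg] at h4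
      exact h4
    have h5 : Lib.Involves.Involves ((P : Subgroup G).map f) T₀ := by
      refine Lib.Involves.of_injective
        (((MulAut.conj g).toMonoidHom.comp T₀.subtype).codRestrict _ (fun x => h3 x x.2)) ?_
      intro a b hab
      have h6 : g * (a : G ⧸ pPrimeCore p G) * g⁻¹ = g * b * g⁻¹ := congrArg Subtype.val hab
      exact Subtype.ext (mul_left_cancel (mul_right_cancel h6))
    refine Lib.Involves.trans ?_ h5
    exact Lib.Involves.of_surjective (f.subgroupMap (P : Subgroup G)) (f.subgroupMap_surjective _)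
  exact Lib.Involves.involves_iff.mp h1

end Cfsg.Agent.S3787
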