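import Cfsg.Statements.S3788
import Cfsg.Agent.H440.CyclicNormalMain

set_option autoImplicit false
open Cfsg

namespace Cfsg.Agent.S3788

/-- Let G be a finite p-soluble group, P a Sylow p-subgroup of G and A a cyclic normal subgroup of P. If p is odd, or if no section of G is isomorphic to the symmetric group of degree 4, then A ≤ O_{p',p}(G). -/
theorem result {G : Type*} [Group G] [Finite G] {p : ℕ} [Fact p.Prime] (hG : Cfsg.IsPSolvable p G) (P : Sylow p G) (A : Subgroup G) (hAP : A ≤ (P : Subgroup G)) (hAn : (P : Subgroup G) ≤ Subgroup.normalizer (A : Set G)) (hA : IsCyclic A) (h : p ≠ 2 ∨ ¬ Cfsg.Involves (Equiv.Perm (Fin 4)) G) : A ≤ Cfsg.pPrimePCore p G := by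
  haveI hn : (Cfsg.pPrimeCore p G).Normal := Lib.Cores.pPrimeCore_normal p
  have hs : Function.Surjective (QuotientGroup.mk' (Cfsg.pPrimeCore p G)) :=
    QuotientGroup.mk'_surjective _
  show A ≤ (Cfsg.pCore p (G ⧸ Cfsg.pPrimeCore p G)).comap (QuotientGroup.mk' (Cfsg.pPrimeCore p G))
  rw [← Subgroup.map_le_iff_le_comap]
  refine H440.CyclicNormalMain.le_pCore (PLocal.PSolvable.isPSolvable_quotient hG _)
    (Lib.Cores.pPrimeCore_quotient_pPrimeCore p) (P.mapSurjective hs) _ ?_ ?_ ?_ ?_
  · exact Subgroup.map_mono hAP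
  · apply SignalizersComponents.GoldschmidtGen.le_normalizer_of_conj_mem
    rintro _ ⟨x, hx, rfl⟩ _ ⟨a, ha, rfl⟩
    refine ⟨x * a * x⁻¹, ?_, by rw [map_mul, map_mul, map_inv]⟩
    exact SignalizersComponents.GoldschmidtGen.conj_mem_of_le_normalizer hAn hx ha
  · haveI := hA
    exact isCyclic_of_surjective ((QuotientGroup.mk' (Cfsg.pPrimeCore p G)).subgroupMap A)
      ((QuotientGroup.mk' (Cfsg.pPrimeCore p G)).subgroupMap_surjective A)
  · rcases h with h | h
    · exact Or.inl h
    · right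
      intro hinv
      apply h
      have h1 : Lib.Involves.Involves (G ⧸ Cfsg.pPrimeCore p G) (Equiv.Perm (Fin 4)) :=
        Lib.Involves.involves_iff.mpr hinv
      exact Lib.Involves.involves_iff.mp (Lib.Involves.of_quotient h1)

end Cfsg.Agent.S3788
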