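import Cfsg.Statements.S3789
-- import your own Cfsg.Agent.* helpers here
import Cfsg.Agent.H451.PLength
import Cfsg.Agent.H451.DerivedCore
import Cfsg.Agent.S0625

set_option autoImplicit false
set_option linter.style.haveILetI false
open Cfsg

namespace Cfsg.Agent.S3789

open Subgroup Cfsg.Agent.H451.PLength Cfsg.Agent.OddOrderLocal
open scoped commutatorElement

universe u

/-- `O_{p'}(G / N) = 1` for `N = O_{p',p,…,p'}(G)` -/
theorem pPrimeCore_quotient {G : Type u} [Group G] [Finite G] {p : ℕ} [Fact p.Prime] (k : ℕ) :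
    pPrimeCore p (G ⧸ (upperPSeries p G (2 * k + 1)).1) = ⊥ := by
  set N := (upperPSeries p G (2 * k + 1)).1 with hN
  have hE : Even (2 * k) := even_two_mul k
  haveI : (pPrimeCore p (G ⧸ N)).Normal := Lib.Cores.pPrimeCore_normal p
  have hser := isSeries_upperPSeries (G := G) (p := p)
  have hUN : (upperPSeries p G (2 * k)).1 ≤ N := upperPSeries_le_succ p (2 * k)
  set K := (pPrimeCore p (G ⧸ N)).comap (QuotientGroup.mk' N) with hK
  have hNK : N ≤ K := by
    intro x hx
    rw [hK, mem_comap]
    have : QuotientGroup.mk' N x = 1 := (QuotientGroup.eq_one_iff x).2 hx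
    rw [this]; exact one_mem _
  have h1 : K ≤ N := by
    rw [hN, PLengthOne.upperPSeries_succ_even p hE, ← map_le_iff_le_comap]
    apply PLengthOne.le_pPrimeCore
    · exact Subgroup.Normal.map inferInstance _ (QuotientGroup.mk'_surjective _)
    · rw [PLengthSub.card_map_mk', ← relIndex_mul_relIndex _ N K hUN hNK]
      refine Nat.Coprime.mul_left (hser.even (2 * k) hE) ?_
      rw [hK, relIndex_comap_mk']
      exact Lib.Cores.pPrimeCore_coprime p
  rw [eq_bot_iff]
  intro x hx
  obtain ⟨g, rfl⟩ := QuotientGroup.mk'_surjective N x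
  rw [mem_bot]
  exact (QuotientGroup.eq_one_iff g).2 (h1 hx)

/-- **Core statement, `p ≥ 5`.** -/
theorem core_five {G : Type u} [Group G] [Finite G] {p : ℕ} [Fact p.Prime] (hp : 5 ≤ p)
    (hG : IsPSolvable p G) (h1 : pPrimeCore p G = ⊥) (A : Subgroup G)
    (hAn : ∀ q ∈ pCore p G, ∀ x ∈ A, q * x * q⁻¹ ∈ A)
    (hab : ∀ a ∈ A, ∀ b ∈ A, a * b = b * a) : A ≤ pCore p G := by
  haveI : (pCore p G).Normal := Lib.Cores.pCore_normal p
  have hst := (Cfsg.Agent.S0625.result hp hG).2.1
  intro a ha
  refine PLocal.SectionFrattini.mem_pCore_of_quadratic (pCore p G)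
    (Lib.Cores.pCore_isPGroup p) (Lib.PSolvable.centralizer_pCore_le_of_pSolvable p hG h1) hst ?_
  have hz : zpowers a ≤ A := by rw [zpowers_le]; exact ha
  have h2 : ⁅pCore p G, zpowers a⁆ ≤ A := by
    rw [commutator_le]
    intro q hq b hb
    rw [commutatorElement_def]
    exact mul_mem (hAn q hq b (hz hb)) (inv_mem (hz hb))
  have h3 : ⁅⁅pCore p G, zpowers a⁆, zpowers a⁆ = ⊥ := by
    rw [commutator_eq_bot_iff_le_centralizer]
    intro x hx
    rw [mem_centralizer_iff]
    intro b hb
    exact hab b (hz hb) x (h2 hx)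
  rw [h3]
  exact bot_le

/-- Let p be an odd prime and G a finite p-soluble group whose Sylow p-subgroups have derived length at most d. Then G has p-length at most d. -/
theorem result {G : Type*} [Group G] [Finite G] {p : ℕ} [Fact p.Prime] (hp : p ≠ 2) (hG : Cfsg.IsPSolvable p G) (d : ℕ) (hd : ∀ P : Sylow p G, derivedSeries ↥(P : Subgroup G) d = ⊥) : Cfsg.PLengthLE p d G := by
  obtain ⟨S⟩ := (inferInstance : Nonempty (Sylow p G))
  have hSd := hd S
  -- the terms of the derived series of `S`, as subgroups of `G`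
  let X : ℕ → Subgroup G := fun j => (derivedSeries ↥(S : Subgroup G) j).map (S : Subgroup G).subtype
  have hX0 : X 0 = (S : Subgroup G) := by
    show (derivedSeries ↥(S : Subgroup G) 0).map (S : Subgroup G).subtype = S
    rw [derivedSeries_zero, ← MonoidHom.range_eq_map, range_subtype]
  have hXsucc : ∀ j, X (j + 1) = ⁅X j, X j⁆ := by
    intro j
    show (derivedSeries ↥(S : Subgroup G) (j + 1)).map (S : Subgroup G).subtype = _
    rw [derivedSeries_succ, map_commutator]
  have hXS : ∀ j, X j ≤ S := fun j => map_subtype_le _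
  have hXn : ∀ j, ∀ s ∈ (S : Subgroup G), ∀ x ∈ X j, s * x * s⁻¹ ∈ X j := by
    rintro j s hs _ ⟨x, hx, rfl⟩
    have hn : (derivedSeries ↥(S : Subgroup G) j).Normal := inferInstance
    exact ⟨⟨s, hs⟩ * x * ⟨s, hs⟩⁻¹, hn.conj_mem x hx ⟨s, hs⟩, rfl⟩
  have hp3 : p = 3 ∨ 5 ≤ p := by
    have h2 := (Fact.out : p.Prime).two_le
    have h4 : p ≠ 4 := by
      intro h
      have h5 : p.Prime := Fact.out
      rw [h] at h5
      norm_num at h5
    omega
  have key : ∀ k, k ≤ d → X (d - k) ≤ (upperPSeries p G (2 * k)).1 := by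
    intro k
    induction k with
    | zero =>
      intro _
      show (derivedSeries ↥(S : Subgroup G) d).map (S : Subgroup G).subtype ≤ _
      rw [hSd, Subgroup.map_bot]
      exact bot_le
    | succ k ih =>
      intro hk
      obtain ⟨m, hm⟩ : ∃ m, d - k = m + 1 := ⟨d - k - 1, by omega⟩
      have hm' : d - (k + 1) = m := by omega
      rw [hm']
      have hih := ih (by omega)
      rw [hm] at hih
      set N := (upperPSeries p G (2 * k + 1)).1 with hN
      have hsurj := QuotientGroup.mk'_surjective N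
      have hUN : (upperPSeries p G (2 * k)).1 ≤ N := upperPSeries_le_succ p (2 * k)
      have hO : pPrimeCore p (G ⧸ N) = ⊥ := pPrimeCore_quotient (G := G) (p := p) k
      have hsol : IsPSolvable p (G ⧸ N) :=
        Lib.PSolvable.IsPSolvable_of_surjective p hG (QuotientGroup.mk' N) hsurj
      -- the images
      let Y : ℕ → Subgroup (G ⧸ N) := fun j => (X j).map (QuotientGroup.mk' N)
      have hYsucc : ∀ j, Y (j + 1) = ⁅Y j, Y j⁆ := by
        intro j
        show (X (j + 1)).map _ = _
        rw [hXsucc, map_commutator]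
      have hYm : Y (m + 1) = ⊥ := by
        show (X (m + 1)).map _ = ⊥
        rw [Subgroup.map_eq_bot_iff, QuotientGroup.ker_mk']
        exact hih.trans hUN
      have hYab : ∀ a ∈ Y m, ∀ b ∈ Y m, a * b = b * a := by
        intro a ha b hb
        have h1 : ⁅a, b⁆ ∈ Y (m + 1) := by
          rw [hYsucc]; exact commutator_mem_commutator ha hb
        rw [hYm, mem_bot, commutatorElement_eq_one_iff_mul_comm] at h1
        exact h1
      -- the Sylow subgroup of the quotient
      let T : Sylow p (G ⧸ N) := S.mapSurjective hsurj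
      have hT : (T : Subgroup (G ⧸ N)) = Y 0 := by
        show (T : Subgroup (G ⧸ N)) = (X 0).map _
        rw [hX0]
        exact Sylow.coe_mapSurjective hsurj S
      have hcoreT : pCore p (G ⧸ N) ≤ Y 0 := by
        rw [← hT]
        exact Lib.Cores.pCore_le_sylow T
      have hYn : ∀ j, ∀ q ∈ pCore p (G ⧸ N), ∀ y ∈ Y j, q * y * q⁻¹ ∈ Y j := by
        rintro j q hq _ ⟨x, hx, rfl⟩
        obtain ⟨s, hs, rfl⟩ := hcoreT hq
        rw [hX0] at hs
        exact ⟨s * x * s⁻¹, hXn j s hs x hx, by simp⟩
      have hYp : ∀ j, IsPGroup p (Y j) := fun j => (S.2.to_le (hXS j)).map _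
      have hmain : Y m ≤ pCore p (G ⧸ N) := by
        cases m with
        | zero =>
          refine le_trans ?_ (Lib.PSolvable.centralizer_pCore_le_of_pSolvable p hsol hO)
          intro y hy
          rw [mem_centralizer_iff]
          intro c hc
          exact hYab c (hcoreT hc) y hy
        | succ m =>
          rcases hp3 with h3 | h5
          · subst h3
            rw [hYsucc]
            rw [hYsucc] at hYab
            exact Cfsg.Agent.H451.DerivedCore.core_three hsol hO (Y m) (hYp m) (hYn m) hYab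
          · exact core_five h5 hsol hO (Y (m + 1)) (hYn _) hYab
      have hodd : ¬ Even (2 * k + 1) := by simp
      have h2 : 2 * (k + 1) = 2 * k + 1 + 1 := by ring
      rw [h2, PLengthOne.upperPSeries_succ_odd p hodd, ← map_le_iff_le_comap]
      exact hmain
  have hfin := key d le_rfl
  rw [Nat.sub_self, hX0] at hfin
  show (upperPSeries p G (2 * d + 1)).1 = ⊤
  rw [PLengthOne.upperPSeries_succ_even p (even_two_mul d)]
  have h3 : pPrimeCore p (G ⧸ (upperPSeries p G (2 * d)).1) = ⊤ := by
    rw [Lib.Cores.pPrimeCore_eq_top_iff]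
    have h5 : ¬ p ∣ (upperPSeries p G (2 * d)).1.index := fun h =>
      S.not_dvd_index (h.trans (index_dvd_of_le hfin))
    exact ((Nat.Prime.coprime_iff_not_dvd Fact.out).mpr h5).symm
  rw [h3]
  exact comap_top _

end Cfsg.Agent.S3789
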