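import Cfsg.Statements.S3790
-- import your own Cfsg.Agent.* helpers here
import Cfsg.Agent.H451.PLength

set_option autoImplicit false
open Cfsg

namespace Cfsg.Agent.S3790

open Cfsg.Agent.H451.PLength Cfsg.Agent.OddOrderLocal

universe u

/-- form with a finite set of primes, by induction on the set -/
theorem key (p : ℕ) [Fact p.Prime] (l : ℕ → ℕ) (S : Finset ℕ) :
    ∀ (G : Type u) [Group G] [Finite G], (∀ s ∈ S, s.Prime ∧ s ≠ p) →
      (∀ s : ℕ, s.Prime → s ∣ Nat.card G → s ≠ p → s ∈ S) →
      (∀ s ∈ S, PLengthLE s (l s) G) → PLengthLE p (∏ s ∈ S, (1 + l s)) G := by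
  classical
  induction S using Finset.induction_on with
  | empty =>
    intro G _ _ _ hcov _
    rw [Finset.prod_empty]
    apply pLengthLE_one_of_isPGroup
    have h : ∃ n, Nat.card G = p ^ n := by
      refine ⟨(Nat.card G).primeFactorsList.length, ?_⟩
      refine Nat.eq_prime_pow_of_unique_prime_dvd (Nat.card_pos.ne') ?_
      intro d hd hdvd
      by_contra hne
      have := hcov d hd hdvd hne
      simp at this
    exact IsPGroup.iff_card.mpr h
  | insert q S hq ih =>
    intro G _ _ hS hcov hl
    rw [Finset.prod_insert hq]
    have hqp : q.Prime := (hS q (Finset.mem_insert_self q S)).1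
    have hqne : q ≠ p := (hS q (Finset.mem_insert_self q S)).2
    haveI : Fact q.Prime := ⟨hqp⟩
    -- induction on the `q`-length, over all groups
    have main : ∀ (a : ℕ) (K : Type u) [Group K] [Finite K],
        (∀ s : ℕ, s.Prime → s ∣ Nat.card K → s ≠ p → s ∈ insert q S) →
        (∀ s ∈ S, PLengthLE s (l s) K) → PLengthLE q a K →
        PLengthLE p ((1 + a) * ∏ s ∈ S, (1 + l s)) K := by
      -- a `q'`-group satisfies the bound for `S`
      have base : ∀ (K : Type u) [Group K] [Finite K],
          (∀ s : ℕ, s.Prime → s ∣ Nat.card K → s ≠ p → s ∈ insert q S) →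
          (∀ s ∈ S, PLengthLE s (l s) K) → (Nat.card K).Coprime q →
          PLengthLE p (∏ s ∈ S, (1 + l s)) K := by
        intro K _ _ hcK hlK hK
        apply ih K (fun s hs => hS s (Finset.mem_insert_of_mem hs)) _ hlK
        intro s hs hsd hsp
        rcases Finset.mem_insert.mp (hcK s hs hsd hsp) with h | h
        · exfalso
          subst h
          exact (Nat.Prime.coprime_iff_not_dvd hs).mp hK.symm hsd
        · exact h
      intro a
      induction a with
      | zero =>
        intro K _ _ hcK hlK hK
        have h1 := base K hcK hlK (pLengthLE_zero_iff.mp hK)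
        simpa using h1
      | succ a iha =>
        intro K _ _ hcK hlK hK
        have hcov' : ∀ (L : Type u) [Group L] [Finite L], Nat.card L ∣ Nat.card K →
            (∀ s : ℕ, s.Prime → s ∣ Nat.card L → s ≠ p → s ∈ insert q S) :=
          fun L _ _ hL s hs hsd hsp => hcK s hs (hsd.trans hL) hsp
        have hfs : ∀ s ∈ S, Fact s.Prime := fun s hs => ⟨(hS s (Finset.mem_insert_of_mem hs)).1⟩
        -- the subgroup `U₂`
        have h2 := iha (K ⧸ (upperPSeries q K 2).1)
          (hcov' _ (Subgroup.card_quotient_dvd_card _))
          (fun s hs => by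
            haveI := hfs s hs
            exact pLengthLE_quotient (hlK s hs) _) (pLengthLE_quotient_two hK)
        set U₂ := (upperPSeries q K 2).1 with hU₂
        have h3 : PLengthLE p (∏ s ∈ S, (1 + l s) + 0) ↥U₂ := by
          -- normal subgroup `U₁` of `U₂`
          let U₁ : Subgroup ↥U₂ := ((upperPSeries q K 1).1).subgroupOf U₂
          have hn : U₁.Normal := inferInstance
          have hser := isSeries_upperPSeries (G := K) (p := q)
          have h12 : (upperPSeries q K 1).1 ≤ U₂ := upperPSeries_le_succ q 1
          have hU1c : Nat.card U₁ = Nat.card (upperPSeries q K 1).1 :=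
            Nat.card_congr (Subgroup.subgroupOfEquivOfLe h12).toEquiv
          apply pLengthLE_ext U₁
          · apply base ↥U₁ (hcov' _ _)
            · intro s hs
              haveI := hfs s hs
              exact pLengthLE_subgroup (pLengthLE_subgroup (hlK s hs) _) _
            · rw [hU1c, PLengthOne.upperPSeries_one]
              exact PLengthOne.card_pPrimeCore_coprime q
            · rw [hU1c]
              exact Subgroup.card_subgroup_dvd_card _
          · apply pLengthLE_zero_iff.mpr
            obtain ⟨m, hm⟩ := hser.odd 1 (by decide)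
            have h4 : Nat.card (↥U₂ ⧸ U₁) = q ^ m := hm
            rw [h4]
            exact Nat.Coprime.pow_left m ((Nat.coprime_primes hqp Fact.out).mpr hqne)
        have h5 := pLengthLE_ext U₂ h3 h2
        have h6 : (∏ s ∈ S, (1 + l s) + 0) + (1 + a) * ∏ s ∈ S, (1 + l s) =
            (1 + (a + 1)) * ∏ s ∈ S, (1 + l s) := by ring
        rw [h6] at h5
        exact h5
    exact main (l q) G hcov (fun s hs => hl s (Finset.mem_insert_of_mem hs))
      (hl q (Finset.mem_insert_self q S))

/-- Let G be a finite solvable group and p a prime. Suppose p₁, …, p_r are distinct primes, all different from p, that include every prime dividing the order of G other than p, and that G has p_i-length at most l_i for each i. Then G has p-length at most the product of the numbers 1 + l_i. -/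
theorem result {G : Type*} [Group G] [Finite G] (hG : Group.IsSolvable G) (p : ℕ) [Fact p.Prime] (r : ℕ) (q : Fin r → ℕ) (hq : ∀ i, (q i).Prime ∧ q i ≠ p) (hinj : Function.Injective q) (hcover : ∀ s : ℕ, s.Prime → s ∣ Nat.card G → s ≠ p → ∃ i, q i = s) (l : Fin r → ℕ) (hl : ∀ i, Cfsg.PLengthLE (q i) (l i) G) : Cfsg.PLengthLE p (Finset.univ.prod fun i => 1 + l i) G := by
  classical
  let l' : ℕ → ℕ := fun s => if h : ∃ i, q i = s then l h.choose else 0
  have hl' : ∀ i, l' (q i) = l i := by
    intro i
    have h : ∃ j, q j = q i := ⟨i, rfl⟩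
    have h1 : l' (q i) = l h.choose := dif_pos h
    rw [h1, hinj h.choose_spec]
  have h1 := key p l' (Finset.univ.image q) G
    (by
      intro s hs
      obtain ⟨i, -, rfl⟩ := Finset.mem_image.mp hs
      exact hq i)
    (by
      intro s hs hsd hsp
      obtain ⟨i, rfl⟩ := hcover s hs hsd hsp
      exact Finset.mem_image_of_mem q (Finset.mem_univ i))
    (by
      intro s hs
      obtain ⟨i, -, rfl⟩ := Finset.mem_image.mp hs
      rw [hl']
      exact hl i)
  rw [Finset.prod_image (fun a _ b _ h => hinj h)] at h1
  have h2 : ∏ i, (1 + l' (q i)) = ∏ i, (1 + l i) := Finset.prod_congr rfl (fun i _ => by rw [hl'])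
  rw [h2] at h1
  exact h1

end Cfsg.Agent.S3790
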