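import Cfsg.Statements.S3791
-- import your own Cfsg.Agent.* helpers here
import Cfsg.Agent.H451.PLength

set_option autoImplicit false
open Cfsg

namespace Cfsg.Agent.S3791

open Cfsg.Agent.H451.PLength Cfsg.Agent.OddOrderLocal

universe u

/-- the derived length passes along injective homomorphisms -/
theorem derived_of_injective {A B : Type*} [Group A] [Group B] (f : A →* B)
    (hf : Function.Injective f) {n : ℕ} (h : derivedSeries B n = ⊥) : derivedSeries A n = ⊥ := by
  rw [eq_bot_iff]
  intro x hx
  have h1 : f x ∈ derivedSeries B n := map_derivedSeries_le_derivedSeries f n ⟨x, hx, rfl⟩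
  rw [h, Subgroup.mem_bot] at h1
  rw [Subgroup.mem_bot]
  exact hf (by rw [h1, map_one])

/-- the derived length passes along surjective homomorphisms -/
theorem derived_of_surjective {A B : Type*} [Group A] [Group B] (f : A →* B)
    (hf : Function.Surjective f) {n : ℕ} (h : derivedSeries A n = ⊥) : derivedSeries B n = ⊥ := by
  rw [← map_derivedSeries_eq hf n, h, Subgroup.map_bot]

/-- if the `m`-th derived subgroup lies in a subgroup of derived length at most `n`, the group has
derived length at most `m + n` -/
theorem derived_add {A : Type*} [Group A] (N : Subgroup A) {m n : ℕ}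
    (h1 : derivedSeries A m ≤ N) (h2 : derivedSeries ↥N n = ⊥) : derivedSeries A (m + n) = ⊥ := by
  have h3 : derivedSeries A (m + n) ≤ (derivedSeries ↥N n).map N.subtype := by
    clear h2
    induction n with
    | zero =>
      rw [add_zero, derivedSeries_zero, ← MonoidHom.range_eq_map, Subgroup.range_subtype]
      exact h1
    | succ n ih =>
      rw [← add_assoc, derivedSeries_succ, derivedSeries_succ, Subgroup.map_commutator]
      exact Subgroup.commutator_mono ih ih
  rw [h2, Subgroup.map_bot] at h3
  exact eq_bot_iff.mpr h3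

/-- the inductive form: the sum over a finite set `S` of primes containing all prime divisors -/
theorem key (S : Finset ℕ) (hS : ∀ s ∈ S, s.Prime) (d : ℕ → ℕ) :
    ∀ (N : ℕ) (l : ℕ → ℕ) (G : Type u) [Group G] [Finite G],
      Nat.card G + ∑ s ∈ S, l s ≤ N →
      (∀ s : ℕ, s.Prime → s ∣ Nat.card G → s ∈ S) →
      (∀ s ∈ S, ∀ P : Subgroup G, IsPGroup s P → derivedSeries ↥P (d s) = ⊥) →
      (∀ s ∈ S, PLengthLE s (l s) G) →
      derivedSeries G (∑ s ∈ S, d s * l s) = ⊥ := by
  classical
  intro N
  induction N with
  | zero =>
    intro l G _ _ hN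
    exfalso
    have : 0 < Nat.card G := Nat.card_pos
    omega
  | succ N ih =>
    intro l G _ _ hN hcov hd hl
    -- quotients inherit the bound on the derived lengths of the `s`-subgroups
    have hdq : ∀ (M : Subgroup G) [M.Normal], ∀ s ∈ S, ∀ P : Subgroup (G ⧸ M), IsPGroup s P →
        derivedSeries ↥P (d s) = ⊥ := by
      intro M _ s hs P hP
      haveI : Fact s.Prime := ⟨hS s hs⟩
      obtain ⟨Q, hQ⟩ := hP.exists_le_sylow
      obtain ⟨R, hR⟩ := Sylow.mapSurjective_surjective (QuotientGroup.mk'_surjective M) s Q
      have h1 := hd s hs R R.2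
      have h2 : (Q : Subgroup (G ⧸ M)) = (R : Subgroup G).map (QuotientGroup.mk' M) := by
        rw [← hR]; rfl
      rw [h2] at hQ
      have h3 : derivedSeries ↥((R : Subgroup G).map (QuotientGroup.mk' M)) (d s) = ⊥ :=
        derived_of_surjective ((QuotientGroup.mk' M).subgroupMap (R : Subgroup G))
          ((QuotientGroup.mk' M).subgroupMap_surjective _) h1
      exact derived_of_injective (Subgroup.inclusion hQ) (Subgroup.inclusion_injective hQ) h3
    have hfs : ∀ s ∈ S, Fact s.Prime := fun s hs => ⟨hS s hs⟩
    by_cases hcase : ∃ s ∈ S, pPrimeCore s G = ⊥ ∧ l s ≠ 0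
    · obtain ⟨s, hs, hcore, hls⟩ := hcase
      haveI : Fact s.Prime := ⟨hS s hs⟩
      obtain ⟨m, hm⟩ := Nat.exists_eq_succ_of_ne_zero hls
      set U := (upperPSeries s G 2).1 with hU
      let l' : ℕ → ℕ := fun t => if t = s then m else l t
      have hls' : l' s = m := if_pos rfl
      have hlt' : ∀ t, t ≠ s → l' t = l t := fun t ht => if_neg ht
      have hle : ∀ t, l' t ≤ l t := by
        intro t
        by_cases ht : t = s
        · subst ht; rw [hls', hm]; exact Nat.le_succ m
        · rw [hlt' t ht]
      have hlt : ∑ t ∈ S, l' t < ∑ t ∈ S, l t := by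
        apply Finset.sum_lt_sum (fun t _ => hle t)
        exact ⟨s, hs, by rw [hls', hm]; exact Nat.lt_succ_self m⟩
      have hcard : Nat.card (G ⧸ U) ≤ Nat.card G :=
        Nat.le_of_dvd Nat.card_pos (Subgroup.card_quotient_dvd_card _)
      have h1 := ih l' (G ⧸ U) (by omega)
        (fun t ht htd => hcov t ht (htd.trans (Subgroup.card_quotient_dvd_card _)))
        (hdq U)
        (by
          intro t ht
          haveI := hfs t ht
          by_cases hts : t = s
          · subst hts
            rw [hls']
            have h2 : PLengthLE t (m + 1) G := by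
              have h3 := hl t ht
              rwa [hm] at h3
            exact pLengthLE_quotient_two h2
          · rw [hlt' t hts]
            exact pLengthLE_quotient (hl t ht) U)
      have h2 : derivedSeries G (∑ t ∈ S, d t * l' t) ≤ U := by
        have h3 : (derivedSeries G (∑ t ∈ S, d t * l' t)).map (QuotientGroup.mk' U) = ⊥ := by
          rw [map_derivedSeries_eq (QuotientGroup.mk'_surjective U), h1]
        rwa [Subgroup.map_eq_bot_iff, QuotientGroup.ker_mk'] at h3
      have h3 := derived_add U h2 (hd s hs U (isPGroup_upperPSeries_two hcore))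
      have h4 : ∑ t ∈ S, d t * l t = ∑ t ∈ S, d t * l' t + d s := by
        rw [← Finset.add_sum_erase S _ hs, ← Finset.add_sum_erase S (fun t => d t * l' t) hs]
        have h5 : ∑ t ∈ S.erase s, d t * l t = ∑ t ∈ S.erase s, d t * l' t := by
          apply Finset.sum_congr rfl
          intro t ht
          rw [hlt' t (Finset.ne_of_mem_erase ht)]
        show d s * l s + ∑ t ∈ S.erase s, d t * l t = d s * l' s + ∑ t ∈ S.erase s, d t * l' t + d s
        rw [h5, hls', hm, Nat.mul_succ]
        ring
      rw [h4]
      exact h3
    · push Not at hcase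
      rcases subsingleton_or_nontrivial G with hG | hG
      · exact Subsingleton.elim _ _
      have hne : ∀ s ∈ S, pPrimeCore s G ≠ ⊥ := by
        intro s hs h0
        haveI := hfs s hs
        have h1 := hl s hs
        rw [hcase s hs h0] at h1
        have h2 : (upperPSeries s G 1).1 = ⊤ := h1
        rw [PLengthOne.upperPSeries_one, h0] at h2
        exact bot_ne_top h2
      set D := derivedSeries G (∑ t ∈ S, d t * l t) with hD
      have hDle : ∀ s ∈ S, D ≤ pPrimeCore s G := by
        intro s hs
        have hlt : Nat.card (G ⧸ pPrimeCore s G) < Nat.card G := by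
          have h1 := Subgroup.card_eq_card_quotient_mul_card_subgroup (pPrimeCore s G)
          have h2 : 1 < Nat.card (pPrimeCore s G) := by
            rw [Subgroup.one_lt_card_iff_ne_bot]
            exact hne s hs
          have h3 : 0 < Nat.card (G ⧸ pPrimeCore s G) := Nat.card_pos
          rw [h1]
          exact lt_mul_of_one_lt_right h3 h2
        have h1 := ih l (G ⧸ pPrimeCore s G) (by omega)
          (fun t ht htd => hcov t ht (htd.trans (Subgroup.card_quotient_dvd_card _)))
          (hdq _)
          (fun t ht => by
            haveI := hfs t ht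
            exact pLengthLE_quotient (hl t ht) _)
        have h3 : D.map (QuotientGroup.mk' (pPrimeCore s G)) = ⊥ := by
          rw [hD, map_derivedSeries_eq (QuotientGroup.mk'_surjective _), h1]
        rwa [Subgroup.map_eq_bot_iff, QuotientGroup.ker_mk'] at h3
      have hone : Nat.card D = 1 := by
        by_contra hne1
        obtain ⟨s, hs, hsd⟩ := Nat.exists_prime_and_dvd hne1
        have hsS : s ∈ S := hcov s hs (hsd.trans (Subgroup.card_subgroup_dvd_card _))
        have h1 := Nat.Coprime.coprime_dvd_left (Subgroup.card_dvd_of_le (hDle s hsS))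
          (PLengthOne.card_pPrimeCore_coprime (G := G) s)
        exact (Nat.Prime.coprime_iff_not_dvd hs).mp h1.symm hsd
      exact Subgroup.card_eq_one.mp hone

/-- The Hall–Higman bound on derived length: let G be a finite solvable group, let p₁, …, p_r be distinct primes that include every prime dividing the order of G, and suppose that for each i the Sylow p_i-subgroups of G have derived length at most d_i and G has p_i-length at most l_i. Then G has derived length at most Σ d_i l_i. -/
theorem result {G : Type*} [Group G] [Finite G] (hG : Group.IsSolvable G) (r : ℕ) (q : Fin r → ℕ) (hq : ∀ i, (q i).Prime) (hinj : Function.Injective q) (hcover : ∀ s : ℕ, s.Prime → s ∣ Nat.card G → ∃ i, q i = s) (d l : Fin r → ℕ) (hd : ∀ i, ∀ P : Subgroup G, (haveI := Fact.mk (hq i); ∃ S : Sylow (q i) G, (S : Subgroup G) = P) → derivedSeries ↥P (d i) = ⊥) (hl : ∀ i, Cfsg.PLengthLE (q i) (l i) G) : derivedSeries G (Finset.univ.sum fun i => d i * l i) = ⊥ := by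
  classical
  have hext : ∀ f : Fin r → ℕ, ∃ f' : ℕ → ℕ, ∀ i, f' (q i) = f i := by
    intro f
    refine ⟨fun s => if h : ∃ i, q i = s then f h.choose else 0, fun i => ?_⟩
    have h : ∃ j, q j = q i := ⟨i, rfl⟩
    have h1 : (if h : ∃ j, q j = q i then f h.choose else 0) = f h.choose := dif_pos h
    show (if h : ∃ j, q j = q i then f h.choose else 0) = f i
    rw [h1, hinj h.choose_spec]
  obtain ⟨d', hd'⟩ := hext d
  obtain ⟨l', hl'⟩ := hext l
  have h1 := key (Finset.univ.image q)
    (by
      intro s hs
      obtain ⟨i, -, rfl⟩ := Finset.mem_image.mp hs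
      exact hq i) d' _ l' G le_rfl
    (by
      intro s hs hsd
      obtain ⟨i, rfl⟩ := hcover s hs hsd
      exact Finset.mem_image_of_mem q (Finset.mem_univ i))
    (by
      intro s hs P hP
      obtain ⟨i, -, rfl⟩ := Finset.mem_image.mp hs
      haveI := Fact.mk (hq i)
      rw [hd']
      obtain ⟨Q, hQ⟩ := hP.exists_le_sylow
      exact derived_of_injective (Subgroup.inclusion hQ) (Subgroup.inclusion_injective hQ)
        (hd i Q ⟨Q, rfl⟩))
    (by
      intro s hs
      obtain ⟨i, -, rfl⟩ := Finset.mem_image.mp hs
      rw [hl']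
      exact hl i)
  rw [Finset.sum_image (fun a _ b _ h => hinj h)] at h1
  have h2 : ∑ i, d' (q i) * l' (q i) = ∑ i, d i * l i :=
    Finset.sum_congr rfl (fun i _ => by rw [hd', hl'])
  rw [h2] at h1
  exact h1

end Cfsg.Agent.S3791
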