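import Cfsg.Statements.S3792
import Cfsg.Agent.H451.PowellD
import Cfsg.Agent.H451.PowellE
import Cfsg.Agent.S0336
import Cfsg.Agent.S2405
import Cfsg.Agent.S2411
import Cfsg.Agent.S2412
import Cfsg.Agent.S2413
import Cfsg.Agent.S2414
import Cfsg.Agent.S2415
import Cfsg.Agent.S0000

set_option autoImplicit false
open Cfsg

namespace Cfsg.Agent.S3792

open Cfsg.Agent.H451

theorem three_of_pair {G : Type*} [Group G] (h : ∃ a b : G, Subgroup.closure ({a, b} : Set G) = ⊤) :
    ∃ x y z : G, Subgroup.closure ({x, y, z} : Set G) = ⊤ := by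
  obtain ⟨a, b, hab⟩ := h
  refine ⟨a, b, b, ?_⟩
  rwa [Set.pair_eq_singleton]

theorem notMem (D : Lie.ChevalleyDatum) (h : 12 < D.nroots) : ¬ D ∈ [Lie.chevB2, Lie.chevG2] := by
  intro hD
  simp only [List.mem_cons, List.not_mem_nil, or_false] at hD
  rcases hD with rfl | rfl
  · exact absurd h (by decide)
  · exact absurd h (by decide)

/-- Two-generation of the known simple groups of Lie type of order divisible by 3. -/
theorem lie {G : Type*} [Group G] [Finite G]
    (h : IsPSL G ∨ IsPSp G ∨ IsPSU G ∨ IsPOmegaOdd G ∨ IsPOmegaPlus G ∨ IsPOmegaMinus G ∨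
      IsExceptionalLieType G) (hdvd : 3 ∣ Nat.card G) (hT : ¬ Lie.IsoTits G) :
    ∃ a b : G, Subgroup.closure ({a, b} : Set G) = ⊤ := by
  rcases h with h | h | h | h | h | h | h
  · exact PowellE.psl h
  · obtain ⟨F, _, _, m, hm, hF, ⟨e⟩⟩ := h
    exact PowellE.exists_pair_of_surjective e.symm.toMonoidHom e.symm.surjective
      (S2411.result m hm (fun h => by have := hF h; omega))
  · obtain ⟨F, _, _, n, q, hF, hn, h32, ⟨e⟩⟩ := h
    have hq : IsPrimePow q := by
      obtain ⟨p, k, hp, hk, hpk⟩ := (isPrimePow_def _).mp (FiniteField.isPrimePow_card F)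
      rw [← Nat.prime_iff] at hp
      rw [hF] at hpk
      have h1 : q ∣ p ^ k := by rw [hpk]; exact dvd_pow_self q two_ne_zero
      obtain ⟨i, -, hi⟩ := (Nat.dvd_prime_pow hp).mp h1
      refine (isPrimePow_nat_iff q).mpr ⟨p, i, hp, ?_, hi.symm⟩
      rcases Nat.eq_zero_or_pos i with h0 | h0
      · exfalso
        rw [h0, pow_zero] at hi
        rw [hi, one_pow] at hpk
        have := Nat.one_lt_pow hk.ne' hp.one_lt
        omega
      · exact h0
    exact PowellE.exists_pair_of_surjective e.symm.toMonoidHom e.symm.surjective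
      (S2412.result hq hF n hn (fun h1 h2 => h32 ⟨h1, h2⟩))
  · obtain ⟨F, _, _, m, hm, hF, ⟨e⟩⟩ := h
    exact PowellE.exists_pair_of_surjective e.symm.toMonoidHom e.symm.surjective
      (S2413.result hF m (by omega))
  · obtain ⟨F, _, _, m, hm, ⟨e⟩⟩ := h
    exact PowellE.exists_pair_of_surjective e.symm.toMonoidHom e.symm.surjective
      (S2414.result m hm)
  · obtain ⟨F, _, _, m, a, b, hm, hab, ⟨e⟩⟩ := h
    exact PowellE.exists_pair_of_surjective e.symm.toMonoidHom e.symm.surjective
      (S2415.result m hm a b hab)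
  · rcases h with h | h | h | h | h | h | h | h | h | h | h
    · obtain ⟨F, _, _, hF, ⟨e⟩⟩ := h
      refine PowellE.exists_pair_of_surjective e.symm.toMonoidHom e.symm.surjective
        (S2405.result Lie.chevG2 (by simp) ?_)
      intro _
      classical
      by_contra hcon
      push Not at hcon
      have h1 : (Finset.univ : Finset F) ⊆ {0, 1} := by
        intro x _
        by_cases hx : x = 0
        · simp [hx]
        · simp [hcon x hx]
      have h2 := Finset.card_le_card h1
      rw [Finset.card_univ] at h2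
      have h3 := Finset.card_le_two (a := (0 : F)) (b := 1)
      omega
    · obtain ⟨F, _, _, ⟨e⟩⟩ := h
      exact PowellE.exists_pair_of_surjective e.symm.toMonoidHom e.symm.surjective
        (S2405.result Lie.chevF4 (by simp) (fun h => absurd h (notMem _ (by decide))))
    · obtain ⟨F, _, _, ⟨e⟩⟩ := h
      exact PowellE.exists_pair_of_surjective e.symm.toMonoidHom e.symm.surjective
        (S2405.result Lie.chevE6 (by simp) (fun h => absurd h (notMem _ (by decide))))
    · obtain ⟨F, _, _, ⟨e⟩⟩ := h
      exact PowellE.exists_pair_of_surjective e.symm.toMonoidHom e.symm.surjective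
        (S2405.result Lie.chevE7 (by simp) (fun h => absurd h (notMem _ (by decide))))
    · obtain ⟨F, _, _, ⟨e⟩⟩ := h
      exact PowellE.exists_pair_of_surjective e.symm.toMonoidHom e.symm.surjective
        (S2405.result Lie.chevE8 (by simp) (fun h => absurd h (notMem _ (by decide))))
    · exact PowellE.twistedE6 h
    · exact PowellE.twistedD4 h
    · exact absurd hdvd (PowellE.not_three_dvd_suzuki h)
    · exact PowellE.ree h
    · exact PowellE.twistedF4 h
    · exact absurd h hT

/-- Powell's Theorem: let G be a finite non-abelian simple group and p an odd prime dividing its order such that every proper subgroup of G is p-soluble. Then G can be generated by three elements. -/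
theorem result {G : Type*} [Group G] [Finite G] [IsSimpleGroup G] (hna : ¬ IsMulCommutative G) {p : ℕ} [Fact p.Prime] (hp : p ≠ 2) (hdvd : p ∣ Nat.card G) (hprop : ∀ H : Subgroup G, H ≠ ⊤ → Cfsg.IsPSolvable p ↥H) : ∃ x y z : G, Subgroup.closure ({x, y, z} : Set G) = ⊤ := by
  have hpp : p.Prime := Fact.out
  by_cases hp5 : 5 ≤ p
  · exact PowellB.exists_gen_of_five_le hna hp5 hdvd hprop
  have hp3 : p = 3 := by
    have h2 := hpp.two_le
    have h4 : p ≠ 4 := by
      rintro rfl
      exact absurd hpp (by decide)
    omega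
  subst hp3
  have hT : PowellC.ThreePrime := fun K _ _ _ h1 h2 => S0336.result h1 h2
  by_cases hTits : Lie.IsoTits G
  · exact PowellD.tits hT hna hprop hTits
  rcases (S0000.result : IsKnownSimple' G) with h | h | h
  · exact absurd ((isCyclic_of_prime_card (hp := ⟨h⟩) rfl : IsCyclic G).isMulCommutative) hna
  · exact PowellD.alternating hT hna hprop h
  · rcases h with h | h | h | h | h | h | h | h
    · exact three_of_pair (lie (Or.inl h) hdvd hTits)
    · exact three_of_pair (lie (Or.inr (Or.inl h)) hdvd hTits)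
    · exact three_of_pair (lie (Or.inr (Or.inr (Or.inl h))) hdvd hTits)
    · exact three_of_pair (lie (Or.inr (Or.inr (Or.inr (Or.inl h)))) hdvd hTits)
    · exact three_of_pair (lie (Or.inr (Or.inr (Or.inr (Or.inr (Or.inl h))))) hdvd hTits)
    · exact three_of_pair (lie (Or.inr (Or.inr (Or.inr (Or.inr (Or.inr (Or.inl h)))))) hdvd hTits)
    · exact three_of_pair (lie (Or.inr (Or.inr (Or.inr (Or.inr (Or.inr (Or.inr h)))))) hdvd hTits)
    · exact PowellD.sporadic hT hna hprop h

end Cfsg.Agent.S3792
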