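import Cfsg.Statements.S3795
import Cfsg.Agent.H452.EvenExt

set_option autoImplicit false
open Cfsg

namespace Cfsg.Agent.S3795

/-- Gross's Theorem: let G be a finite solvable group with an automorphism σ of order 2^n, n > 1, fixing only the identity. Then G has Fitting height at most 2n − 2: G has Fitting height at most m when there is a chain of normal subgroups 1 = F₀ ≤ F₁ ≤ ⋯ ≤ F_m = G with each F_{i+1}/F_i nilpotent. -/
theorem result {G : Type*} [Group G] [Finite G] (hG : Group.IsSolvable G) (σ : MulAut G) (n : ℕ) (hn : 1 < n) (hσ : orderOf σ = 2 ^ n) (hfpf : ∀ g : G, σ g = g → g = 1) : ∃ F : Fin ((2 * n - 2) + 1) → Subgroup G, F 0 = ⊥ ∧ F (Fin.last (2 * n - 2)) = ⊤ ∧ Monotone F ∧ (∀ i, (F i).Normal) ∧ ∀ i : Fin (2 * n - 2), ∃ k : ℕ, (F i.succ).lowerCentralSeries k ≤ F i.castSucc := by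
  obtain ⟨j, rfl⟩ := Nat.exists_eq_add_of_lt hn
  have h1 : σ ^ 2 ^ (j + 2) = 1 := by
    have h2 : 1 + j + 1 = j + 2 := by omega
    rw [← h2, ← hσ, pow_orderOf_eq_one]
  have h2 := H452.EvenExt.gross j G hG σ h1 hfpf
  have h3 : 2 * (1 + j + 1) - 2 = 2 * j + 2 := by omega
  rw [h3]
  exact h2

end Cfsg.Agent.S3795
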