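import Cfsg.Statements.S3796
import Mathlib
import Cfsg.Agent.H452.Ward
import Cfsg.Agent.H452.ExtTwo

set_option autoImplicit false
open Cfsg

namespace Cfsg.Agent.S3796

/-- Ward's Theorem: let G be a finite solvable group and A an elementary abelian group of automorphisms of G of order p² (p a prime) with no non-identity common fixed point. Then G has Fitting height at most 2: G has Fitting height at most m when there is a chain of normal subgroups 1 = F₀ ≤ F₁ ≤ ⋯ ≤ F_m = G with each F_{i+1}/F_i nilpotent. -/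
theorem result {G : Type*} [Group G] [Finite G] (hG : Group.IsSolvable G) {p : ℕ} (hp : p.Prime) (A : Subgroup (MulAut G)) (hA : Cfsg.IsElementaryAbelian p A) (hcard : Nat.card A = p ^ 2) (hfpf : ∀ g : G, (∀ a ∈ A, a g = g) → g = 1) : ∃ F : Fin (2 + 1) → Subgroup G, F 0 = ⊥ ∧ F (Fin.last 2) = ⊤ ∧ Monotone F ∧ (∀ i, (F i).Normal) ∧ ∀ i : Fin 2, ∃ k : ℕ, (F i.succ).lowerCentralSeries k ≤ F i.castSucc := by
  have hpf : Fact p.Prime := ⟨hp⟩
  have hAp : IsPGroup p A := IsPGroup.of_card hcard
  obtain ⟨N, L, hN, hL, hNL, hNn, hk, -, -, htop⟩ := H452.ExtTwo.h2_ext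
    (H452.Ward.closed_wp p) H452.Ward.t3_ward hG A A le_rfl hAp hfpf (by
      have h1 : (A.subgroupOf A).map (SemidirectProduct.inr : A →* G ⋊[A.subtype] A) =
          (SemidirectProduct.inr : A →* G ⋊[A.subtype] A).range := by
        rw [Subgroup.subgroupOf_self, ← MonoidHom.range_eq_map]
      rw [h1]
      refine ⟨rfl, ⟨?_, ?_⟩, ?_⟩
      · refine ⟨⟨?_⟩⟩
        rintro ⟨_, a, rfl⟩ ⟨_, b, rfl⟩
        apply Subtype.ext
        show SemidirectProduct.inr a * SemidirectProduct.inr b =
          SemidirectProduct.inr b * SemidirectProduct.inr a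
        rw [← map_mul, ← map_mul]
        congr 1
        exact hA.1.1.comm a b
      · rintro _ ⟨a, rfl⟩
        rw [← map_pow]
        have h2 : a ^ p = 1 := Subtype.ext (hA.2 a a.2)
        rw [h2, map_one]
      · rw [← hcard]
        exact Nat.card_congr (MonoidHom.ofInjective SemidirectProduct.inr_injective).toEquiv.symm)
  have hL1 := htop rfl
  have h0 : H452.Ext.HasChain (G ⧸ L) 0 := by
    apply H452.Ext.hasChain_zero
    intro x
    obtain ⟨g, rfl⟩ := QuotientGroup.mk_surjective x
    refine (QuotientGroup.eq_one_iff g).2 ?_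
    rw [hL1]; trivial
  exact H452.Ext.chain_of_quot_two N L hNL hNn hk h0

end Cfsg.Agent.S3796
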