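import Cfsg.Statements.S3797
import Cfsg.Agent.H453.SuzMain
import Cfsg.Agent.H453.Homocyclic

set_option autoImplicit false
open Cfsg

namespace Cfsg.Agent.S3797

open Subgroup

theorem orderOf_eq_two {G : Type*} [Group G] {x : G} (h1 : x ≠ 1) (h2 : x ^ 2 = 1) : orderOf x = 2 :=
  orderOf_eq_prime h2 h1

theorem pLength {G : Type*} [Group G] [Finite G] (hG : Group.IsSolvable G) (S : Sylow 2 G)
    (htwo : ∃ x y : G, x ∈ (S : Subgroup G) ∧ y ∈ (S : Subgroup G) ∧ x ≠ y ∧ x ≠ 1 ∧ x ^ 2 = 1 ∧ y ≠ 1 ∧ y ^ 2 = 1)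
    (hconj : ∀ x y : G, x ≠ 1 → x ^ 2 = 1 → y ≠ 1 → y ^ 2 = 1 → IsConj x y) :
    Cfsg.PLengthLE 2 1 G := by
  have hOc : (Nat.card (pPrimeCore 2 G)).Coprime 2 := Lib.Cores.pPrimeCore_coprime 2
  refine OddOrderLocal.Thm36Aux.pLength_of_surjective (QuotientGroup.mk' (pPrimeCore 2 G))
    (QuotientGroup.mk'_surjective _) (by rwa [QuotientGroup.ker_mk']) ?_
  set O := pPrimeCore 2 G with hO
  have hsol : Group.IsSolvable (G ⧸ O) := inferInstance
  have hO1 : pPrimeCore 2 (G ⧸ O) = ⊥ := Lib.Cores.pPrimeCore_quotient_pPrimeCore 2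
  have hlift : ∀ x : G ⧸ O, orderOf x = 2 → ∃ y : G, orderOf y = 2 ∧ QuotientGroup.mk' O y = x := by
    intro x hx
    obtain ⟨U, hU, hU2⟩ := H453.PLen.exists_lift O hOc (zpowers x) (by rw [Nat.card_zpowers, hx])
    have h1 : x ∈ U.map (QuotientGroup.mk' O) := by rw [hU2]; exact mem_zpowers x
    obtain ⟨y, hy, hyx⟩ := h1
    refine ⟨y, ?_, hyx⟩
    have h2 : orderOf y ∣ 2 := by rw [← hU]; exact Subgroup.orderOf_dvd_natCard U hy
    rcases (Nat.dvd_prime Nat.prime_two).mp h2 with h | h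
    · rw [orderOf_eq_one_iff.mp h, map_one] at hyx
      rw [← hyx, orderOf_one] at hx
      norm_num at hx
    · exact h
  have hne : ∀ x : G, orderOf x = 2 → x ≠ 1 ∧ x ^ 2 = 1 := by
    intro x hx
    refine ⟨?_, by rw [← hx]; exact pow_orderOf_eq_one x⟩
    rintro rfl
    rw [orderOf_one] at hx
    norm_num at hx
  have h := H453.Suz.index_coprime hsol hO1
    (by
      intro x y hx hy
      obtain ⟨x', hx', rfl⟩ := hlift x hx
      obtain ⟨y', hy', rfl⟩ := hlift y hy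
      obtain ⟨c, hc⟩ := isConj_iff.mp
        (hconj x' y' (hne x' hx').1 (hne x' hx').2 (hne y' hy').1 (hne y' hy').2)
      exact isConj_iff.mpr ⟨QuotientGroup.mk' O c, by rw [← hc, map_mul, map_mul, map_inv]⟩)
    (by
      obtain ⟨x, y, hxS, hyS, hxy, hx1, hx2, hy1, hy2⟩ := htwo
      have hSO : O ⊓ (S : Subgroup G) = ⊥ := OddOrderLocal.PLengthOne.pPrimeCore_inf_sylow S
      have hker : ∀ z ∈ (S : Subgroup G), QuotientGroup.mk' O z = 1 → z = 1 := by
        intro z hz hz1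
        have h1 : z ∈ O ⊓ (S : Subgroup G) := ⟨(QuotientGroup.eq_one_iff z).mp hz1, hz⟩
        rw [hSO, mem_bot] at h1
        exact h1
      refine ⟨QuotientGroup.mk' O x, QuotientGroup.mk' O y, ?_, ?_, ?_⟩
      · exact orderOf_eq_two (fun h => hx1 (hker x hxS h)) (by rw [← map_pow, hx2, map_one])
      · exact orderOf_eq_two (fun h => hy1 (hker y hyS h)) (by rw [← map_pow, hy2, map_one])
      · intro h
        apply hxy
        have h1 := hker (x⁻¹ * y) (mul_mem (inv_mem hxS) hyS) (by rw [map_mul, map_inv, h, inv_mul_cancel])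
        exact (inv_mul_eq_one.mp h1))
  exact OddOrderLocal.Thm36Aux.pLength_of_normal_pgroup (pCore 2 (G ⧸ O)) inferInstance
    (Lib.Cores.pCore_isPGroup 2) h

/-- Let G be a finite solvable group of even order whose Sylow 2-subgroups contain more than one involution, and suppose all involutions of G are conjugate. Then G has 2-length at most 1, and a Sylow 2-subgroup S of G is either homocyclic (a direct product of cyclic groups of one common order) or a non-abelian 2-group with more than one involution admitting a solvable group of automorphisms transitive on its involutions. -/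
theorem result {G : Type*} [Group G] [Finite G] (hG : Group.IsSolvable G) (heven : Even (Nat.card G)) (S : Sylow 2 G) (htwo : ∃ x y : G, x ∈ (S : Subgroup G) ∧ y ∈ (S : Subgroup G) ∧ x ≠ y ∧ x ≠ 1 ∧ x ^ 2 = 1 ∧ y ≠ 1 ∧ y ^ 2 = 1) (hconj : ∀ x y : G, x ≠ 1 → x ^ 2 = 1 → y ≠ 1 → y ^ 2 = 1 → IsConj x y) : Cfsg.PLengthLE 2 1 G ∧ ((∃ m r : ℕ, Nonempty (↥(S : Subgroup G) ≃* (Fin r → Multiplicative (ZMod (2 ^ m))))) ∨ (¬ IsMulCommutative (S : Subgroup G) ∧ ∃ Y : Subgroup (MulAut ↥(S : Subgroup G)), Group.IsSolvable Y ∧ ∀ x y : ↥(S : Subgroup G), x ≠ 1 → x ^ 2 = 1 → y ≠ 1 → y ^ 2 = 1 → ∃ a ∈ Y, a x = y)) := by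
  have hp1 := pLength hG S htwo hconj
  refine ⟨hp1, ?_⟩
  -- the automorphisms induced by the normalizer
  have hY : ∀ x y : ↥(S : Subgroup G), x ≠ 1 → x ^ 2 = 1 → y ≠ 1 → y ^ 2 = 1 →
      ∃ a ∈ ((S : Subgroup G).normalizerMonoidHom).range, a x = y := by
    intro x y hx1 hx2 hy1 hy2
    obtain ⟨g, hg⟩ := isConj_iff.mp (hconj (x : G) (y : G) (fun h => hx1 (Subtype.ext h))
      (congrArg Subtype.val hx2) (fun h => hy1 (Subtype.ext h)) (congrArg Subtype.val hy2))
    obtain ⟨n, hn, k, hk, rfl⟩ := OddOrderLocal.PLengthOne.exists_mul_of_pLengthLE_one hp1 S g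
    refine ⟨(S : Subgroup G).normalizerMonoidHom ⟨n, hn⟩, ⟨_, rfl⟩, ?_⟩
    apply Subtype.ext
    show n * (x : G) * n⁻¹ = y
    have hSO : pPrimeCore 2 G ⊓ (S : Subgroup G) = ⊥ := OddOrderLocal.PLengthOne.pPrimeCore_inf_sylow S
    have hOn : (pPrimeCore 2 G).Normal := inferInstance
    have h1 : (y : G)⁻¹ * (n * (x : G) * n⁻¹) ∈ pPrimeCore 2 G ⊓ (S : Subgroup G) := by
      refine ⟨?_, ?_⟩
      · have h2 : (y : G)⁻¹ * (n * (x : G) * n⁻¹) = n * (k * ((x : G)⁻¹ * k⁻¹ * (x : G)⁻¹⁻¹)) * n⁻¹ := by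
          rw [← hg]; group
        rw [h2]
        exact hOn.conj_mem _ (mul_mem hk (hOn.conj_mem k⁻¹ (inv_mem hk) (x : G)⁻¹)) n
      · exact (S : Subgroup G).mul_mem ((S : Subgroup G).inv_mem y.2) ((mem_normalizer_iff.mp hn _).mp x.2)
    rw [hSO, mem_bot] at h1
    exact (inv_mul_eq_one.mp h1).symm
  by_cases hc : IsMulCommutative (S : Subgroup G)
  · left
    letI : CommGroup (S : Subgroup G) :=
      { (inferInstance : Group (S : Subgroup G)) with mul_comm := hc.is_comm.comm }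
    refine H453.Homocyclic.exists_equiv (p := 2) S.2 ?_
    intro x y hx hy
    have hne : ∀ x : (S : Subgroup G), orderOf x = 2 → x ≠ 1 ∧ x ^ 2 = 1 := by
      intro x hx
      refine ⟨?_, orderOf_dvd_iff_pow_eq_one.mp hx.dvd⟩
      rintro rfl
      rw [orderOf_one] at hx
      norm_num at hx
    obtain ⟨a, -, ha⟩ := hY x y (hne x hx).1 (hne x hx).2 (hne y hy).1 (hne y hy).2
    exact ⟨a, by rw [ha]; exact mem_zpowers y⟩
  · right
    refine ⟨hc, _, ?_, hY⟩
    have h1 : Group.IsSolvable (normalizer ((S : Subgroup G) : Set G)) := inferInstance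
    exact Group.isSolvable_of_surjective (f := (S : Subgroup G).normalizerMonoidHom.rangeRestrict)
      (MonoidHom.rangeRestrict_surjective _)

end Cfsg.Agent.S3797
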