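import Cfsg.Statements.S3798
import Cfsg.Agent.H453.PLen

set_option autoImplicit false
open Cfsg

namespace Cfsg.Agent.S3798

open Subgroup

/-- The Gaschütz–Yen Theorem: let G be a finite p-soluble group, p an odd prime dividing its order, such that the automorphism group of G permutes the subgroups of G of order p transitively. Then G has p-length at most 1. -/
theorem result {G : Type*} [Group G] [Finite G] {p : ℕ} [Fact p.Prime] (hp : p ≠ 2) (hdvd : p ∣ Nat.card G) (hG : Cfsg.IsPSolvable p G) (htrans : ∀ U V : Subgroup G, Nat.card U = p → Nat.card V = p → ∃ a : MulAut G, U.map a.toMonoidHom = V) : Cfsg.PLengthLE p 1 G := by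
  have hpf : Fact p.Prime := inferInstance
  have hOc : (Nat.card (pPrimeCore p G)).Coprime p := Lib.Cores.pPrimeCore_coprime p
  have hOch : (pPrimeCore p G).Characteristic := Lib.Cores.pPrimeCore_characteristic p
  refine OddOrderLocal.Thm36Aux.pLength_of_surjective (QuotientGroup.mk' (pPrimeCore p G))
    (QuotientGroup.mk'_surjective _) (by rwa [QuotientGroup.ker_mk']) ?_
  set O := pPrimeCore p G with hO
  have hsol : IsPSolvable p (G ⧸ O) :=
    Lib.PSolvable.IsPSolvable_of_surjective p hG (QuotientGroup.mk' O) (QuotientGroup.mk'_surjective O)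
  have hO1 : pPrimeCore p (G ⧸ O) = ⊥ := Lib.Cores.pPrimeCore_quotient_pPrimeCore p
  have hd : p ∣ Nat.card (G ⧸ O) := by
    have h1 : Nat.card G = Nat.card (G ⧸ O) * Nat.card O := Subgroup.card_eq_card_quotient_mul_card_subgroup O
    rw [h1] at hdvd
    rcases (Nat.Prime.dvd_mul hpf.out).mp hdvd with h | h
    · exact h
    · exact absurd h ((Nat.Prime.coprime_iff_not_dvd hpf.out).mp hOc.symm)
  have htr : ∀ D : Subgroup (G ⧸ O), D.Characteristic → (∃ x ∈ D, orderOf x = p) →
      ∀ x : G ⧸ O, orderOf x = p → x ∈ D := by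
    rintro D hD ⟨x, hx, hxp⟩ y hy
    obtain ⟨U, hU, hU2⟩ := H453.PLen.exists_lift O hOc (zpowers x) (by rw [Nat.card_zpowers, hxp])
    obtain ⟨V, hV, hV2⟩ := H453.PLen.exists_lift O hOc (zpowers y) (by rw [Nat.card_zpowers, hy])
    obtain ⟨a, ha⟩ := htrans U V hU hV
    let e' : (G ⧸ O) ≃* (G ⧸ O) := QuotientGroup.congr O O a (Subgroup.characteristic_iff_map_eq.mp hOch a)
    have h1 : (zpowers x).map e'.toMonoidHom = zpowers y := by
      rw [← hU2, ← hV2, ← ha, Subgroup.map_map, Subgroup.map_map]
      rfl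
    have h2 : zpowers y ≤ D := by
      rw [← h1, ← Subgroup.characteristic_iff_map_eq.mp hD e']
      exact Subgroup.map_mono (zpowers_le.mpr hx)
    exact h2 (mem_zpowers y)
  have h := H453.PLen.index_coprime hp hsol hO1 hd htr
  exact OddOrderLocal.Thm36Aux.pLength_of_normal_pgroup (pCore p (G ⧸ O)) inferInstance
    (Lib.Cores.pCore_isPGroup p) h

end Cfsg.Agent.S3798
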