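import Cfsg.Statements.S3951
import Cfsg.Agent.H486.BilinExt

set_option autoImplicit false
open Cfsg

namespace Cfsg.Agent.S3951

open Cfsg.Agent.H486
open scoped commutatorElement

/-- the bimultiplicative map `((x, y), (x', y')) ↦ x y'` -/
noncomputable def beta (m n : ℕ) (hnm : n ∣ m) :
    Multiplicative (ZMod m × ZMod n) →* (Multiplicative (ZMod m × ZMod n) →* Multiplicative (ZMod n)) where
  toFun g := AddMonoidHom.toMultiplicative
    ((AddMonoidHom.mulLeft (ZMod.castHom hnm (ZMod n) g.toAdd.1)).comp (AddMonoidHom.snd (ZMod m) (ZMod n)))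
  map_one' := by
    apply MonoidHom.ext
    intro x
    change Multiplicative.ofAdd (ZMod.castHom hnm (ZMod n) 0 * x.toAdd.2) = Multiplicative.ofAdd 0
    rw [map_zero, zero_mul]
  map_mul' g h := by
    apply MonoidHom.ext
    intro x
    change Multiplicative.ofAdd (ZMod.castHom hnm (ZMod n) (g.toAdd.1 + h.toAdd.1) * x.toAdd.2) =
      Multiplicative.ofAdd (ZMod.castHom hnm (ZMod n) g.toAdd.1 * x.toAdd.2 +
        ZMod.castHom hnm (ZMod n) h.toAdd.1 * x.toAdd.2)
    rw [map_add, add_mul]

theorem beta_apply (m n : ℕ) (hnm : n ∣ m) (g h : Multiplicative (ZMod m × ZMod n)) :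
    beta m n hnm g h = Multiplicative.ofAdd (ZMod.castHom hnm (ZMod n) g.toAdd.1 * h.toAdd.2) := rfl

/-- For positive integers `m` and `n` with `n` dividing `m`, the Schur multiplier of the abelian group `ZMod m × ZMod n` (written multiplicatively) is cyclic of order `n`. In particular the elementary abelian group of order `p ^ 2` has multiplier of order `p`. -/
theorem result (m n : ℕ) [NeZero m] [NeZero n] (hnm : n ∣ m) : Cfsg.HasCyclicSchurMultiplier (Multiplicative (ZMod m × ZMod n)) n := by
  refine ⟨⟨BExt (beta m n hnm), inferInstance, inferInstance, BExt.proj _, ?_, ⟨BExt.kerEquiv _⟩⟩, ?_⟩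
  · apply BExt.isStemExtension
    rw [eq_top_iff]
    intro c _
    have h1 : Multiplicative.ofAdd (1 : ZMod n) ∈ Subgroup.closure {c : Multiplicative (ZMod n) |
        ∃ g h : Multiplicative (ZMod m × ZMod n), g * h = h * g ∧
          c = beta m n hnm g h * (beta m n hnm h g)⁻¹} := by
      apply Subgroup.subset_closure
      refine ⟨Multiplicative.ofAdd (1, 0), Multiplicative.ofAdd (0, 1), mul_comm _ _, ?_⟩
      rw [beta_apply, beta_apply]
      simp only [toAdd_ofAdd, map_one, map_zero, mul_one, mul_zero, ofAdd_zero, inv_one]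
    have h2 : c = (Multiplicative.ofAdd (1 : ZMod n)) ^ (c.toAdd.val) := by
      rw [← ofAdd_nsmul, nsmul_eq_mul, mul_one, ZMod.natCast_val, ZMod.cast_id]
      rfl
    rw [h2]
    exact Subgroup.pow_mem _ h1 _
  · intro Γ _ _ σ hσ
    obtain ⟨hs, hc, hk⟩ := hσ
    obtain ⟨a, ha⟩ := hs (Multiplicative.ofAdd (1, 0))
    obtain ⟨b, hb⟩ := hs (Multiplicative.ofAdd (0, 1))
    have hgen : Subgroup.closure {σ a, σ b} = ⊤ := by
      rw [eq_top_iff]
      intro x _
      have h2 : x = σ a ^ (x.toAdd.1.val) * σ b ^ (x.toAdd.2.val) := by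
        rw [ha, hb, ← ofAdd_nsmul, ← ofAdd_nsmul, ← ofAdd_add]
        apply Multiplicative.toAdd.injective
        rw [toAdd_ofAdd]
        apply Prod.ext
        · simp
        · simp
      rw [h2]
      exact Subgroup.mul_mem _ (Subgroup.pow_mem _ (Subgroup.subset_closure (by simp)) _)
        (Subgroup.pow_mem _ (Subgroup.subset_closure (by simp)) _)
    have hle := commutator_le_zpowers hc (fun x y => mul_comm x y) a b hgen
    have hab : ⁅a, b⁆ ∈ σ.ker := by
      rw [MonoidHom.mem_ker, map_commutatorElement, commutatorElement_eq_one_iff_mul_comm]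
      exact mul_comm _ _
    have hbn : b ^ n ∈ σ.ker := by
      rw [MonoidHom.mem_ker, map_pow, hb, ← ofAdd_nsmul]
      change _ = Multiplicative.ofAdd 0
      congr 1
      apply Prod.ext
      · simp
      · simp
    have hpow := commutator_pow_eq_one (hc hab) (hc hbn)
    refine exists_surj_zmod (⟨⁅a, b⁆, hab⟩ : σ.ker) ?_ (Subtype.ext hpow)
    intro x
    obtain ⟨k, hk'⟩ := Subgroup.mem_zpowers_iff.1 (hle (hk x.2))
    exact Subgroup.mem_zpowers_iff.2 ⟨k, Subtype.ext hk'⟩

end Cfsg.Agent.S3951
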