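import Cfsg.Statements.S3953
import Cfsg.Agent.H486.SchurCores

set_option autoImplicit false
open Cfsg

namespace Cfsg.Agent.S3953

open Cfsg.Agent.H486 Cfsg.Agent.H487

/-- Let `P` be a Sylow `p`-subgroup of the finite group `G`, let `A` be the Schur multiplier of `G` and `B` that of `P`. Then the `p`-primary component of `A` is isomorphic to a direct factor of `B`: there are subgroups `C` and `D` of `B` meeting trivially and generating `B`, with `C` isomorphic to the `p`-primary component of `A`. -/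
theorem result {G : Type*} [Group G] [Finite G] (p : ℕ) [Fact p.Prime] (P : Sylow p G) {A B : Type*} [CommGroup A] [CommGroup B] (hA : Cfsg.HasSchurMultiplier G A) (hB : Cfsg.HasSchurMultiplier P B) : ∃ C D : Subgroup B, C ⊓ D = ⊥ ∧ C ⊔ D = ⊤ ∧ Nonempty (CommGroup.primaryComponent A p ≃* C) := by
  have hp : p.Prime := Fact.out
  have : Finite A := finite_multiplier hA
  obtain ⟨res, cor, hrc⟩ := exists_res_cor (P : Subgroup G) hA hB
  set m := (P : Subgroup G).index with hm
  have hpm : ¬ p ∣ m := P.not_dvd_index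
  -- the exponent
  set N := Nat.card A with hN
  have hN0 : N ≠ 0 := Nat.card_pos.ne'
  set k := N.factorization p with hk
  have hmul : p ^ k * (N / p ^ k) = N := Nat.ordProj_mul_ordCompl_eq_self N p
  set n' := N / p ^ k with hn'
  have hpn' : ¬ p ∣ n' := Nat.not_dvd_ordCompl hp hN0
  have hcop : Nat.Coprime (p ^ k) (m * n') := by
    apply Nat.Coprime.pow_left
    exact (Nat.Prime.coprime_iff_not_dvd hp).2 (fun h => (hp.dvd_mul.1 h).elim hpm hpn')
  -- an integer `l` with `m n' l ≡ 1 mod p ^ k`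
  obtain ⟨l, hl⟩ : ∃ l : ℤ, ∃ t : ℤ, (m : ℤ) * n' * l = 1 + p ^ k * t := by
    have h1 := Nat.isCoprime_iff_coprime.2 hcop
    obtain ⟨a, b, hab⟩ := h1
    refine ⟨b, -a, ?_⟩
    push_cast at hab ⊢
    linarith
  obtain ⟨t, hl⟩ := hl
  have hpow : ∀ a ∈ CommGroup.primaryComponent A p, a ^ p ^ k = 1 := by
    rintro a ⟨j, hj⟩
    obtain ⟨i, _, hi⟩ := (Nat.dvd_prime_pow hp).1 (orderOf_dvd_of_pow_eq_one hj)
    have h1 : p ^ i ∣ N := hi ▸ orderOf_dvd_natCard a
    have h2 : i ≤ k := (hp.pow_dvd_iff_le_factorization hN0).1 h1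
    rw [← orderOf_dvd_iff_pow_eq_one, hi]
    exact pow_dvd_pow p h2
  -- the retraction
  let ρ0 : B →* A := (zpowGroupHom ((n' : ℤ) * l)).comp cor
  have hρ0 : ∀ b, ρ0 b ∈ CommGroup.primaryComponent A p := by
    intro b
    have h1 : (ρ0 b) ^ p ^ k = 1 := by
      change ((cor b) ^ ((n' : ℤ) * l)) ^ p ^ k = 1
      have h2 : ((cor b) ^ ((n' : ℤ) * l)) ^ p ^ k = ((cor b) ^ N) ^ l := by
        rw [← zpow_natCast, ← zpow_natCast, ← zpow_mul, ← zpow_mul]
        congr 1
        rw [← hmul]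
        push_cast
        ring
      rw [h2, hN, pow_card_eq_one', one_zpow]
    exact ⟨k, h1⟩
  have hret : ∀ a ∈ CommGroup.primaryComponent A p, ρ0 (res a) = a := by
    intro a ha
    change (cor (res a)) ^ ((n' : ℤ) * l) = a
    rw [hrc, ← zpow_natCast, ← zpow_mul, ← mul_assoc, hl, zpow_add, zpow_one, zpow_mul]
    have h1 : a ^ ((p : ℤ) ^ k) = 1 := by
      have := hpow a ha
      exact_mod_cast this
    rw [h1, one_zpow, mul_one]
  let i : CommGroup.primaryComponent A p →* B := res.comp (CommGroup.primaryComponent A p).subtype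
  have hi : Function.Injective i := by
    rw [injective_iff_map_eq_one]
    intro a ha
    have h1 := hret a.1 a.2
    change res a.1 = 1 at ha
    rw [ha, map_one] at h1
    exact Subtype.ext h1.symm
  refine ⟨i.range, ρ0.ker, ?_, ?_, ⟨MonoidHom.ofInjective hi⟩⟩
  · rw [eq_bot_iff]
    rintro _ ⟨⟨a, rfl⟩, ha⟩
    have h1 : ρ0 (res a.1) = 1 := ha
    rw [hret a.1 a.2] at h1
    have h2 : a = 1 := Subtype.ext h1
    rw [h2, map_one]
    exact Subgroup.one_mem _
  · rw [eq_top_iff]
    intro b _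
    have h1 : b = res (ρ0 b) * ((res (ρ0 b))⁻¹ * b) := by group
    rw [h1]
    refine Subgroup.mul_mem_sup ⟨⟨ρ0 b, hρ0 b⟩, rfl⟩ ?_
    rw [MonoidHom.mem_ker, map_mul, map_inv, hret _ (hρ0 b), inv_mul_cancel]

end Cfsg.Agent.S3953
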