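import Cfsg.Statements.S3954
import Cfsg.Agent.H487.SchurTransfer
import Cfsg.Agent.H487.SchurAb

set_option autoImplicit false
open Cfsg

namespace Cfsg.Agent.S3954

/-- Let `U` be a subgroup of index `m` in the finite group `G`, let `A` be the Schur multiplier of `G` and `B` that of `U`. Then the subgroup of `m`-th powers of `A` is isomorphic to a subgroup of `B`. -/
theorem result {G : Type*} [Group G] [Finite G] (U : Subgroup G) {A B : Type*} [CommGroup A] [CommGroup B] (hA : Cfsg.HasSchurMultiplier G A) (hB : Cfsg.HasSchurMultiplier U B) : ∃ C : Subgroup B, Nonempty ((powMonoidHom U.index : A →* A).range ≃* C) := by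
  have hBf := H487.finite_multiplier hB
  obtain ⟨⟨Γ, _, _, σ, hσ, ⟨e⟩⟩, -⟩ := hA
  have hpow := H487.exists_powers_embedding hσ.1 hσ.2.1 U
  obtain ⟨f, hf⟩ := H487.HasSchurMultiplier.exists_surj hB
    (σ.subgroupComap_surjective_of_surjective U hσ.1) (H487.central_subgroupComap hσ.2.1 U)
  let _ : CommGroup (H487.Mult (σ.subgroupComap U)) :=
    H487.commGroupOfLeCenter (inf_le_left.trans (H487.central_subgroupComap hσ.2.1 U))
  -- the embedding of the `m`-th powers
  have hmem : ∀ a : (powMonoidHom U.index : A →* A).range,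
      ∃ b : H487.Mult (σ.subgroupComap U), ((b : (U.comap σ : Subgroup Γ)) : Γ) = (e.symm (a : A) : Γ) := by
    rintro ⟨_, ⟨a, rfl⟩⟩
    have ha : ((e.symm a : σ.ker) : Γ) ∈ H487.Mult σ := ⟨(e.symm a).2, hσ.2.2 (e.symm a).2⟩
    obtain ⟨b, hb, hb2⟩ := hpow _ ha
    refine ⟨⟨b, hb⟩, ?_⟩
    change (b : Γ) = ((e.symm (a ^ U.index) : σ.ker) : Γ)
    rw [hb2, map_pow]
    rfl
  choose g hg using hmem
  let i : (powMonoidHom U.index : A →* A).range →* H487.Mult (σ.subgroupComap U) :=
    { toFun := g
      map_one' := by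
        apply Subtype.ext; apply Subtype.ext
        rw [hg]; simp
      map_mul' := by
        intro x y
        apply Subtype.ext; apply Subtype.ext
        rw [hg]
        have h1 : ((g x * g y : H487.Mult (σ.subgroupComap U)) : (U.comap σ : Subgroup Γ)) =
          (g x : (U.comap σ : Subgroup Γ)) * (g y : (U.comap σ : Subgroup Γ)) := rfl
        rw [h1, Subgroup.coe_mul, Subgroup.coe_mul, map_mul, Subgroup.coe_mul, hg, hg] }
  have hi : Function.Injective i := by
    intro x y hxy
    have h1 : g x = g y := hxy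
    have h2 : (e.symm (x : A) : Γ) = (e.symm (y : A) : Γ) := by rw [← hg, ← hg, h1]
    exact Subtype.ext (e.symm.injective (Subtype.ext h2))
  exact H487.exists_subgroup_of_surjective_of_injective f hf i hi

end Cfsg.Agent.S3954
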