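import Cfsg.Statements.S3956
import Cfsg.Agent.H487.SchurCover
import Cfsg.Agent.H487.IndRep
import Mathlib.GroupTheory.FiniteAbelian.Duality
import Mathlib.RingTheory.RootsOfUnity.AlgebraicallyClosed
import Mathlib.Analysis.Complex.Polynomial.Basic

set_option autoImplicit false
universe u v
open Cfsg

namespace Cfsg.Agent.S3956

/-- A stem extension along which all projective representations lift is a Schur cover. -/
theorem isCover {Q : Type u} [Group Q] [Finite Q] {Γ : Type v} [Group Γ] (σ : Γ →* Q)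
    (hσ : Cfsg.IsStemExtension σ)
    (hlift : ∀ (n : ℕ) (γ : Q →* (GL (Fin n) ℂ ⧸ Subgroup.center (GL (Fin n) ℂ))),
      ∃ ρ : Γ →* GL (Fin n) ℂ,
        (QuotientGroup.mk' (Subgroup.center (GL (Fin n) ℂ))).comp ρ = γ.comp σ) :
    H487.IsCover σ := by
  have hV := H487.isVersal_pr Q
  obtain ⟨β, hβ⟩ := hV.lift_id hσ.1 hσ.2.1
  obtain ⟨S, hSn, hS, -, hSinf, hker, hf, hstem, hne⟩ :=
    hV.exists_cover (H487.pr Q).ker le_rfl le_sup_left
  have hmap : (H487.Mult (H487.pr Q)).map β = H487.Mult σ :=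
    H487.map_ker_inf_commutator hV.surj hσ.2.1 hβ
  rw [H487.mult_of_isStemExtension hσ] at hmap
  let g : H487.MM Q →* σ.ker := (β.comp (H487.Mult (H487.pr Q)).subtype).codRestrict σ.ker (by
    intro x
    rw [← hmap]
    exact ⟨x.1, x.2, rfl⟩)
  have hg : Function.Surjective g := by
    rintro ⟨y, hy⟩
    have hy' := hy
    rw [← hmap] at hy'
    obtain ⟨x, hx, rfl⟩ := hy'
    exact ⟨⟨x, hx⟩, rfl⟩
  have hinj : Function.Injective g := by
    rw [injective_iff_map_eq_one]
    rintro ⟨x, hx⟩ hgx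
    have hβx : β x = 1 := congrArg Subtype.val hgx
    by_contra hne1
    have hx1 : x ≠ 1 := fun h => hne1 (Subtype.ext h)
    have hyk : ((x : H487.EE Q ⧸ S)) ∈ (QuotientGroup.lift S (H487.pr Q) hS).ker := hx.1
    have hy1 : ((x : H487.EE Q ⧸ S)) ≠ 1 := by
      intro h
      rw [QuotientGroup.eq_one_iff] at h
      have : x ∈ S ⊓ _root_.commutator (H487.EE Q) := ⟨h, hx.2⟩
      rw [hSinf] at this
      exact hx1 this
    let _ : CommGroup (QuotientGroup.lift S (H487.pr Q) hS).ker :=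
      H487.commGroupOfLeCenter hstem.2.1
    let y : (QuotientGroup.lift S (H487.pr Q) hS).ker := ⟨_, hyk⟩
    have hyne : y ≠ 1 := fun h => hy1 (congrArg Subtype.val h)
    have : NeZero (Monoid.exponent (QuotientGroup.lift S (H487.pr Q) hS).ker) :=
      ⟨Monoid.exponent_ne_zero_of_finite⟩
    have : NeZero ((Monoid.exponent (QuotientGroup.lift S (H487.pr Q) hS).ker : ℕ) : ℂ) :=
      ⟨by exact_mod_cast NeZero.ne (Monoid.exponent (QuotientGroup.lift S (H487.pr Q) hS).ker)⟩
    obtain ⟨χ, hχ⟩ := CommGroup.exists_apply_ne_one_of_hasEnoughRootsOfUnity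
      (QuotientGroup.lift S (H487.pr Q) hS).ker ℂ hyne
    obtain ⟨n, ρ₀, hρ1, hρ2⟩ := H487.exists_matrix_rep
      (QuotientGroup.lift S (H487.pr Q) hS).ker χ hstem.2.1
    have hle : (QuotientGroup.lift S (H487.pr Q) hS).ker ≤
        ((QuotientGroup.mk' (Subgroup.center (GL (Fin n) ℂ))).comp ρ₀).ker := by
      intro z hz
      exact (QuotientGroup.eq_one_iff _).2 (hρ1 z hz)
    let e := QuotientGroup.quotientKerEquivOfSurjective _ hstem.1
    let γ : Q →* (GL (Fin n) ℂ ⧸ Subgroup.center (GL (Fin n) ℂ)) :=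
      (QuotientGroup.lift _ ((QuotientGroup.mk' (Subgroup.center (GL (Fin n) ℂ))).comp ρ₀)
        hle).comp e.symm.toMonoidHom
    have hγ : ∀ w : H487.EE Q ⧸ S, γ (QuotientGroup.lift S (H487.pr Q) hS w) =
        QuotientGroup.mk' (Subgroup.center (GL (Fin n) ℂ)) (ρ₀ w) := by
      intro w
      have he : e.symm (QuotientGroup.lift S (H487.pr Q) hS w) =
          ((w : H487.EE Q ⧸ S) :
            (H487.EE Q ⧸ S) ⧸ (QuotientGroup.lift S (H487.pr Q) hS).ker) := by
        rw [MulEquiv.symm_apply_eq]; rfl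
      change QuotientGroup.lift _ _ hle (e.symm (QuotientGroup.lift S (H487.pr Q) hS w)) = _
      rw [he]; rfl
    obtain ⟨ρ, hρ⟩ := hlift n γ
    have hρ' : ∀ w, QuotientGroup.mk' (Subgroup.center (GL (Fin n) ℂ)) (ρ w) = γ (σ w) :=
      fun w => DFunLike.congr_fun hρ w
    have hβ' : ∀ w, σ (β w) = H487.pr Q w := fun w => DFunLike.congr_fun hβ w
    have hagree := H487.eqOn_commutator_of_central
      (τ := QuotientGroup.mk' (Subgroup.center (GL (Fin n) ℂ)))
      (by rw [QuotientGroup.ker_mk']) (φ := ρ.comp β) (ψ := ρ₀.comp (QuotientGroup.mk' S)) (by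
        apply MonoidHom.ext
        intro w
        change QuotientGroup.mk' (Subgroup.center (GL (Fin n) ℂ)) (ρ (β w)) =
          QuotientGroup.mk' (Subgroup.center (GL (Fin n) ℂ)) (ρ₀ (w : H487.EE Q ⧸ S))
        rw [hρ', hβ', ← hγ]
        rfl)
    have h1 := hagree x hx.2
    have h2 : ρ₀ (y : H487.EE Q ⧸ S) = 1 := by
      have : ρ₀ (y : H487.EE Q ⧸ S) = ρ (β x) := h1.symm
      rw [this, hβx, map_one]
    exact hχ (hρ2 y h2)
  exact ⟨hσ, ⟨MulEquiv.ofBijective g ⟨hinj, hg⟩⟩⟩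

/-- Let `σ : Γ →* Q` be a finite stem extension of the finite group `Q` such that every homomorphism from `Q` to the quotient of `GL n ℂ` by its centre, for every `n`, lifts along `σ` to a homomorphism `Γ →* GL n ℂ`. Then `σ` is a Schur covering group of `Q`: for every finite stem extension `τ : Δ →* Q` with `Δ` in the same universe as `Q`, the kernel of `τ` is a homomorphic image of the kernel of `σ`. -/
theorem result {Q : Type u} [Group Q] [Finite Q] {Γ : Type v} [Group Γ] [Finite Γ] (σ : Γ →* Q) (hσ : Cfsg.IsStemExtension σ) (hlift : ∀ (n : ℕ) (γ : Q →* (GL (Fin n) ℂ ⧸ Subgroup.center (GL (Fin n) ℂ))), ∃ ρ : Γ →* GL (Fin n) ℂ, (QuotientGroup.mk' (Subgroup.center (GL (Fin n) ℂ))).comp ρ = γ.comp σ) (Δ : Type u) [Group Δ] [Finite Δ] (τ : Δ →* Q) (hτ : Cfsg.IsStemExtension τ) : ∃ π : σ.ker →* τ.ker, Function.Surjective π := by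
  obtain ⟨e⟩ := (isCover σ hσ hlift).iso
  obtain ⟨f, hf⟩ := (H487.isVersal_pr Q).exists_surj_ker hτ
  exact ⟨f.comp e.symm.toMonoidHom, hf.comp e.symm.surjective⟩

end Cfsg.Agent.S3956
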