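import Cfsg.Statements.S3961
import Cfsg.Agent.H487.SchurPerfect

set_option autoImplicit false
universe u v
open Cfsg

namespace Cfsg.Agent.S3961

/-- Let `π : G →* Q` be a surjective homomorphism with central kernel from a finite perfect group `G` (a perfect cover of `Q`). Then `π` is universal, in the sense that every surjective homomorphism `ξ : X →* Q` with central kernel from a group `X` in the universe of `G` admits a homomorphism `η : G →* X` with `ξ ∘ η = π`, if and only if `G` has trivial Schur multiplier. -/
theorem result {G : Type u} {Q : Type v} [Group G] [Group Q] [Finite G] (hG : Group.IsPerfect G) (π : G →* Q) (hπ : Function.Surjective π) (hker : π.ker ≤ Subgroup.center G) : (∀ (X : Type u) [Group X] (ξ : X →* Q), Function.Surjective ξ → ξ.ker ≤ Subgroup.center X → ∃ η : G →* X, ξ.comp η = π) ↔ Cfsg.HasCyclicSchurMultiplier G 1 := by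
  constructor
  · intro h
    rw [H487.hasCyclicSchurMultiplier_one_iff]
    have hU := H487.isPerfect_UU hG
    obtain ⟨η, hη⟩ := h (H487.UU G) (π.comp (H487.prU G)) (hπ.comp (H487.prU_surjective hG))
      (H487.ker_comp_le_center hU (H487.prU_ker_central G) hker)
    have h1 : (H487.prU G).comp η = MonoidHom.id G :=
      H487.hom_unique_of_perfect hG hker (by rw [← MonoidHom.comp_assoc, hη]; rfl)
    have hinj := H487.injective_of_section hU (H487.prU_ker_central G) h1
    rw [eq_bot_iff]
    intro x hx
    have h2 : (⟨x, hx.2⟩ : H487.UU G) = 1 := by
      apply hinj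
      rw [map_one]
      exact hx.1
    exact congrArg Subtype.val h2
  · intro hM X _ ξ hs hc
    exact H487.exists_lift_of_trivial hG hM π hs hc

end Cfsg.Agent.S3961
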