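import Cfsg.Statements.S3964
import Cfsg.Agent.H489.Dihedral

set_option autoImplicit false
open Cfsg

namespace Cfsg.Agent.S3964

/-- For odd `n` the dihedral group of order `2 n` has trivial Schur multiplier. -/
theorem result (n : ℕ) (hn : Odd n) : Cfsg.HasCyclicSchurMultiplier (DihedralGroup n) 1 := by
  have hn0 : 0 < n := hn.pos
  haveI : NeZero n := ⟨hn0.ne'⟩
  refine ⟨⟨DihedralGroup n, inferInstance, inferInstance, MonoidHom.id _, ⟨fun x => ⟨x, rfl⟩, ?_, ?_⟩, ?_⟩, ?_⟩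
  · rw [show (MonoidHom.id (DihedralGroup n)).ker = ⊥ from (MonoidHom.ker_eq_bot_iff _).mpr (fun _ _ h => h)]
    exact bot_le
  · rw [show (MonoidHom.id (DihedralGroup n)).ker = ⊥ from (MonoidHom.ker_eq_bot_iff _).mpr (fun _ _ h => h)]
    exact bot_le
  · rw [show (MonoidHom.id (DihedralGroup n)).ker = ⊥ from (MonoidHom.ker_eq_bot_iff _).mpr (fun _ _ h => h)]
    haveI : Unique (Multiplicative (ZMod 1)) := (inferInstance : Unique (ZMod 1))
    exact ⟨MulEquiv.ofUnique⟩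
  · intro Γ _ _ σ hσ
    obtain ⟨hcyc, hcard⟩ := Cfsg.Agent.H489.dihedral_upper n hn0 σ hσ
    apply Cfsg.Agent.H489.exists_surj_of_isCyclic
    rwa [show Nat.gcd n 2 = 1 from (Nat.coprime_two_right (n := n)).mpr hn] at hcard

end Cfsg.Agent.S3964
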