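import Cfsg.Statements.S3965
import Cfsg.Agent.H489.Dihedral
import Cfsg.Agent.S3966

set_option autoImplicit false
open Cfsg

namespace Cfsg.Agent.S3965

/-- For even `n ≥ 2` the dihedral group of order `2 n` has Schur multiplier cyclic of order `2`. -/
theorem result (n : ℕ) [NeZero n] (hn : Even n) : Cfsg.HasCyclicSchurMultiplier (DihedralGroup n) 2 := by
  have hn0 : 0 < n := Nat.pos_of_ne_zero (NeZero.ne n)
  constructor
  · obtain ⟨σ, hσ, hcard⟩ := Cfsg.Agent.S3966.result n hn
    refine ⟨QuaternionGroup n, inferInstance, inferInstance, σ, hσ, ?_⟩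
    haveI : Fact (Nat.Prime 2) := ⟨Nat.prime_two⟩
    haveI : IsCyclic σ.ker := isCyclic_of_prime_card hcard
    have e := zmodCyclicMulEquiv (G := σ.ker) inferInstance
    rw [hcard] at e
    exact ⟨e.symm⟩
  · intro Γ _ _ σ hσ
    obtain ⟨hcyc, hcard⟩ := Cfsg.Agent.H489.dihedral_upper n hn0 σ hσ
    apply Cfsg.Agent.H489.exists_surj_of_isCyclic
    rwa [show Nat.gcd n 2 = 2 from Nat.gcd_eq_right hn.two_dvd] at hcard

end Cfsg.Agent.S3965
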