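import Cfsg.Statements.S3967
import Cfsg.Agent.H489.MetaGroup

set_option autoImplicit false
open Cfsg
open scoped commutatorElement

namespace Cfsg.Agent.S3967

open Cfsg.Agent.H489 Subgroup

/-- A lift of a unit. -/
theorem exists_coprime_lift (m₁ k r₁ : ℕ) (hm : 0 < m₁) (hk : 0 < k) (hr : Nat.Coprime r₁ m₁) :
    ∃ u : ℕ, Nat.Coprime u (m₁ * k) ∧ u ≡ r₁ [MOD m₁] := by
  have : NeZero (m₁ * k) := ⟨(Nat.mul_pos hm hk).ne'⟩
  obtain ⟨v, hv⟩ := ZMod.unitsMap_surjective (m := m₁ * k) (dvd_mul_right m₁ k) (ZMod.unitOfCoprime r₁ hr)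
  refine ⟨(v : ZMod (m₁ * k)).val, ZMod.val_coe_unit_coprime v, ?_⟩
  rw [← ZMod.natCast_eq_natCast_iff]
  have h1 := congrArg Units.val hv
  rw [ZMod.coe_unitOfCoprime] at h1
  rw [← h1, ZMod.unitsMap_val]
  exact ZMod.natCast_val _

/-- Numerical data. -/
theorem numbers (m n r l : ℕ) (hm : 0 < m) (hn : 0 < n) (hr : 0 < r) (hrn : r ^ n ≡ 1 [MOD m]) :
    ∃ d m₁ r₁ h : ℕ, 0 < d ∧ 0 < m₁ ∧ 0 < h ∧ m = d * m₁ ∧ r = 1 + d * r₁ ∧ Nat.Coprime r₁ m₁ ∧
      Nat.gcd m (r - 1) = d ∧ m * l / Nat.gcd m (r - 1) = m₁ * l ∧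
      Nat.gcd m (∑ i ∈ Finset.range n, r ^ i) = m₁ * h ∧
      Nat.gcd m (r - 1) * Nat.gcd m (∑ i ∈ Finset.range n, r ^ i) / m = h := by
  obtain ⟨q, rfl⟩ : ∃ q, r = q + 1 := ⟨r - 1, by omega⟩
  simp only [Nat.add_sub_cancel]
  obtain ⟨d, hd⟩ : ∃ d, Nat.gcd m q = d := ⟨_, rfl⟩
  have hd0 : 0 < d := hd ▸ Nat.gcd_pos_of_pos_left _ hm
  obtain ⟨m₁, hm₁⟩ : d ∣ m := hd ▸ Nat.gcd_dvd_left m q
  obtain ⟨r₁, hr₁⟩ : d ∣ q := hd ▸ Nat.gcd_dvd_right m q
  have hm0 : 0 < m₁ := by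
    rcases Nat.eq_zero_or_pos m₁ with rfl | h
    · omega
    · exact h
  have hcop : Nat.Coprime r₁ m₁ := by
    rw [Nat.coprime_comm]
    have h1 : d * Nat.gcd m₁ r₁ = d * 1 := by
      rw [← Nat.gcd_mul_left, ← hm₁, ← hr₁, hd, mul_one]
    exact Nat.eq_of_mul_eq_mul_left hd0 h1
  obtain ⟨s, hs⟩ : ∃ s, ∑ i ∈ Finset.range n, (q + 1) ^ i = s := ⟨_, rfl⟩
  rw [hs]
  have hgeom : q * s + 1 = (q + 1) ^ n := by
    rw [← hs]
    rw [mul_comm]
    exact geom_sum_mul_add q n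
  have hm₁s : m₁ ∣ s := by
    have h1 : m ∣ q * s := by
      have h2 : q * s + 1 ≡ 0 + 1 [MOD m] := by rw [hgeom, zero_add]; exact hrn
      exact (Nat.modEq_zero_iff_dvd).mp (Nat.ModEq.add_right_cancel' 1 h2)
    rw [hm₁, hr₁, mul_assoc] at h1
    have h3 := Nat.dvd_of_mul_dvd_mul_left hd0 h1
    exact hcop.symm.dvd_of_dvd_mul_left h3
  obtain ⟨h, hh⟩ : m₁ ∣ Nat.gcd m s := Nat.dvd_gcd (hm₁ ▸ dvd_mul_left _ _) hm₁s
  have hh0 : 0 < h := by
    rcases Nat.eq_zero_or_pos h with rfl | h'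
    · rw [mul_zero] at hh
      have := Nat.gcd_pos_of_pos_left s hm
      omega
    · exact h'
  refine ⟨d, m₁, r₁, h, hd0, hm0, hh0, hm₁, ?_, hcop, hd, ?_, hh, ?_⟩
  · rw [hr₁, add_comm]
  · rw [hd, hm₁, mul_assoc, Nat.mul_div_cancel_left _ hd0]
  · rw [hd, hh]
    conv_lhs => rw [← mul_assoc, ← hm₁]
    exact Nat.mul_div_cancel_left _ hm

/-- Let `m, n ≥ 1`, `r ≥ 1` with `r ^ n ≡ 1 (mod m)`, and `l` a natural number; put `d = gcd(m, r - 1)`, `t = m l / d` and `h = d · gcd(m, 1 + r + ⋯ + r^(n-1)) / m`. The group presented by generators `a, b` and relations `a ^ m = 1`, `b ^ n = a ^ t`, `b a b⁻¹ = a ^ r` (a metacyclic group of order `m n`) has Schur multiplier cyclic of order `gcd(l, h)`. -/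
theorem result (m n r l : ℕ) (hm : 0 < m) (hn : 0 < n) (hr : 0 < r) (hrn : r ^ n ≡ 1 [MOD m]) : Cfsg.HasCyclicSchurMultiplier (PresentedGroup ({FreeGroup.of true ^ m, (FreeGroup.of false) ^ n * (FreeGroup.of true ^ (m * l / Nat.gcd m (r - 1)))⁻¹, FreeGroup.of false * FreeGroup.of true * (FreeGroup.of false)⁻¹ * (FreeGroup.of true ^ r)⁻¹} : Set (FreeGroup Bool))) (Nat.gcd l (Nat.gcd m (r - 1) * Nat.gcd m (∑ i ∈ Finset.range n, r ^ i) / m)) := by
  obtain ⟨d, m₁, r₁, h, hd0, hm0, hh0, hmd, hrd, hcop, hgd, ht, hg, hh⟩ := numbers m n r l hm hn hr hrn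
  rw [hh, ht]
  change Cfsg.HasCyclicSchurMultiplier (MG m n r (m₁ * l)) (Nat.gcd l h)
  obtain ⟨s, hs⟩ : ∃ s, ∑ i ∈ Finset.range n, r ^ i = s := ⟨_, rfl⟩
  rw [hs] at hg
  obtain ⟨k, hk⟩ : ∃ k, Nat.gcd l h = k := ⟨_, rfl⟩
  rw [hk]
  have hk0 : 0 < k := hk ▸ Nat.gcd_pos_of_pos_right _ hh0
  have hkl : k ∣ l := hk ▸ Nat.gcd_dvd_left l h
  have hkh : k ∣ h := hk ▸ Nat.gcd_dvd_right l h
  have hmk_m : m₁ * k ∣ m := (Nat.mul_dvd_mul_left m₁ hkh).trans (hg ▸ Nat.gcd_dvd_left m s)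
  have hmk_s : m₁ * k ∣ s := (Nat.mul_dvd_mul_left m₁ hkh).trans (hg ▸ Nat.gcd_dvd_right m s)
  have hkd : k ∣ d := by
    rw [hmd, mul_comm d m₁] at hmk_m
    exact Nat.dvd_of_mul_dvd_mul_left hm0 hmk_m
  constructor
  · -- existence
    obtain ⟨u, hu, hur⟩ := exists_coprime_lift m₁ k r₁ hm0 hk0 hcop
    have hrr : 1 + d * u ≡ r [MOD m] := by
      rw [hrd, hmd]
      exact (Nat.ModEq.mul_left' d hur).add_left 1
    have hs' : m₁ * k ∣ ∑ i ∈ Finset.range n, (1 + d * u) ^ i := by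
      have h1 : ∑ i ∈ Finset.range n, (1 + d * u) ^ i ≡ ∑ i ∈ Finset.range n, r ^ i [MOD m] := by
        have h0 := (ZMod.natCast_eq_natCast_iff _ _ _).mpr hrr
        rw [← ZMod.natCast_eq_natCast_iff, Nat.cast_sum, Nat.cast_sum]
        apply Finset.sum_congr rfl
        intro i _
        rw [Nat.cast_pow, Nat.cast_pow, h0]
      have h2 := h1.of_dvd hmk_m
      rw [hs] at h2
      exact (Nat.modEq_zero_iff_dvd).mp (h2.trans ((Nat.modEq_zero_iff_dvd).mpr hmk_s))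
    have hrn' : (1 + d * u) ^ n ≡ 1 [MOD (m * k)] := by
      rw [add_comm 1 (d * u), ← geom_sum_mul_add (d * u) n]
      have h1 : (∑ i ∈ Finset.range n, (d * u + 1) ^ i) * (d * u) ≡ 0 [MOD (m * k)] := by
        rw [Nat.modEq_zero_iff_dvd, hmd, add_comm (d * u) 1]
        obtain ⟨w, hw⟩ := hs'
        rw [hw]
        exact ⟨w * u, by ring⟩
      simpa using h1.add_right 1
    have hrt' : (1 + d * u) * (m₁ * l) ≡ m₁ * l [MOD (m * k)] := by
      have h1 : d * u * (m₁ * l) ≡ 0 [MOD (m * k)] := by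
        rw [Nat.modEq_zero_iff_dvd, hmd]
        obtain ⟨w, hw⟩ := hkl
        rw [hw]
        exact ⟨w * u, by ring⟩
      have h2 := h1.add_left (m₁ * l)
      rw [add_zero] at h2
      have h3 : (1 + d * u) * (m₁ * l) = m₁ * l + d * u * (m₁ * l) := by ring
      rw [h3]
      exact h2
    have hordx : orderOf (xg (m * k) n (1 + d * u) (m₁ * l)) = m * k :=
      orderOf_xg (Nat.mul_pos hm hk0) hn hrn' hrt'
    have hxm : ∀ j : ℕ, m * k ∣ j → xg (m * k) n (1 + d * u) (m₁ * l) ^ j = 1 := by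
      intro j hj
      rw [← orderOf_dvd_iff_pow_eq_one, hordx]
      exact hj
    have hcen : xg (m * k) n (1 + d * u) (m₁ * l) ^ m ∈ center (MG (m * k) n (1 + d * u) (m₁ * l)) := by
      have h1 : closure {xg (m * k) n (1 + d * u) (m₁ * l), yg (m * k) n (1 + d * u) (m₁ * l)} ≤
          centralizer {xg (m * k) n (1 + d * u) (m₁ * l) ^ m} := by
        rw [closure_le]
        rintro g (rfl | rfl)
        · rw [SetLike.mem_coe, mem_centralizer_singleton_iff]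
          exact ((Commute.refl _).pow_right m).eq
        · rw [SetLike.mem_coe, mem_centralizer_singleton_iff, ← mul_inv_eq_iff_eq_mul, ← conj_pow, yxy,
            ← pow_mul, add_mul, one_mul, pow_add, hxm (d * u * m), mul_one]
          obtain ⟨w, hw⟩ := hkd
          exact ⟨w * u, by rw [hw]; ring⟩
      rw [closure_xy] at h1
      rw [mem_center_iff]
      intro g
      exact (mem_centralizer_singleton_iff.mp (h1 (mem_top g)))
    obtain ⟨f, hfx, hfy⟩ := exists_lift (m * k) n (1 + d * u) (m₁ * l) (xg m n r (m₁ * l)) (yg m n r (m₁ * l))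
      (by rw [pow_mul, xg_pow, one_pow]) (yg_pow m n r (m₁ * l)) (by
        rw [yxy]
        exact (pow_eq_pow_iff_modEq.mpr (hrr.of_dvd (orderOf_dvd_of_pow_eq_one (xg_pow m n r (m₁ * l))))).symm)
    have hker := ker_eq hrr hcen f hfx hfy
    have hcard : Nat.card f.ker = k := by
      rw [hker, Nat.card_zpowers, orderOf_pow_of_dvd hm.ne' (by rw [hordx]; exact dvd_mul_right m k), hordx,
        Nat.mul_div_cancel_left _ hm]
    refine ⟨MG (m * k) n (1 + d * u) (m₁ * l), inferInstance, finite_MG (Nat.mul_pos hm hk0) hn, f,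
      ⟨?_, ?_, ?_⟩, ?_⟩
    · rw [← MonoidHom.range_eq_top, eq_top_iff, ← closure_xy, closure_le]
      rintro g (rfl | rfl)
      · exact ⟨_, hfx⟩
      · exact ⟨_, hfy⟩
    · rw [hker, zpowers_le]
      exact hcen
    · rw [hker, zpowers_le]
      have hc : ⁅yg (m * k) n (1 + d * u) (m₁ * l), xg (m * k) n (1 + d * u) (m₁ * l)⁆
          = xg (m * k) n (1 + d * u) (m₁ * l) ^ (d * u) := by
        rw [commutatorElement_def, yxy, add_comm 1, pow_succ, mul_inv_cancel_right]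
      have hc' : xg (m * k) n (1 + d * u) (m₁ * l) ^ (d * u) ∈ commutator (MG (m * k) n (1 + d * u) (m₁ * l)) := by
        rw [← hc]
        exact commutator_mem_commutator (mem_top _) (mem_top _)
      have hd : xg (m * k) n (1 + d * u) (m₁ * l) ^ d ∈ zpowers (xg (m * k) n (1 + d * u) (m₁ * l) ^ (d * u)) := by
        have hdv : orderOf (xg (m * k) n (1 + d * u) (m₁ * l) ^ d) ∣ m₁ * k := by
          apply orderOf_dvd_of_pow_eq_one
          rw [← pow_mul]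
          apply hxm
          rw [hmd, mul_assoc]
        obtain ⟨j, hj⟩ := exists_pow_eq_self_of_coprime
          (Nat.Coprime.coprime_dvd_right hdv hu)
        rw [pow_mul]
        exact ⟨j, by simpa using hj⟩
      have hpm : xg (m * k) n (1 + d * u) (m₁ * l) ^ m = (xg (m * k) n (1 + d * u) (m₁ * l) ^ d) ^ m₁ := by
        rw [← pow_mul, ← hmd]
      rw [hpm]
      exact pow_mem ((zpowers_le.mpr hc') hd) _
    · have hcyc : IsCyclic f.ker := by rw [hker]; infer_instance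
      have e := zmodCyclicMulEquiv (G := f.ker) inferInstance
      rw [hcard] at e
      exact ⟨e.symm⟩
  · intro Γ _ _ σ hσ
    obtain ⟨hcyc, h1, h2, h3⟩ := upper σ hσ (xg m n r (m₁ * l)) (yg m n r (m₁ * l)) (closure_xy _ _ _ _)
      m n r (m₁ * l) hr (xg_pow _ _ _ _) (yg_pow _ _ _ _) (yxy _ _ _ _)
    apply exists_surj_of_isCyclic
    have hordx : orderOf (xg m n r (m₁ * l)) = m := by
      apply orderOf_xg hm hn hrn
      rw [hrd, hmd]
      have h3 : (1 + d * r₁) * (m₁ * l) = m₁ * l + d * m₁ * (r₁ * l) := by ring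
      rw [h3]
      exact Nat.modEq_of_dvd (by simp)
    have hord : orderOf ⁅yg m n r (m₁ * l), xg m n r (m₁ * l)⁆ = m₁ := by
      have hc : ⁅yg m n r (m₁ * l), xg m n r (m₁ * l)⁆ = xg m n r (m₁ * l) ^ (d * r₁) := by
        have hg' : ∀ g : MG m n r (m₁ * l), g ^ r * g⁻¹ = g ^ (d * r₁) := by
          intro g
          rw [mul_inv_eq_iff_eq_mul, ← pow_succ]
          congr 1
          rw [hrd, add_comm]
        rw [commutatorElement_def, yxy, hg']
      have hfin := finite_MG (m := m) (n := n) (r := r) (t := m₁ * l) hm hn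
      have hgcd : Nat.gcd m (d * r₁) = d := by
        have hr1 : r - 1 = d * r₁ := by rw [hrd, Nat.add_sub_cancel_left]
        rw [← hr1]
        exact hgd
      rw [hc, orderOf_pow, hordx, hgcd, hmd, Nat.mul_div_cancel_left _ hd0]
    rw [hord] at h1 h2 h3
    rw [hs] at h3
    have h4 : Nat.card σ.ker ∣ l := by
      rw [mul_comm] at h2
      exact Nat.dvd_of_mul_dvd_mul_left hm0 h2
    have h5 : Nat.card σ.ker ∣ h := by
      have h6 := Nat.dvd_gcd h1 h3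
      rw [hg, mul_comm] at h6
      exact Nat.dvd_of_mul_dvd_mul_left hm0 h6
    rw [← hk]
    exact Nat.dvd_gcd h4 h5

end Cfsg.Agent.S3967
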