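import Cfsg.Statements.S3970
import Cfsg.Agent.H490.BurnsideRank
import Cfsg.Agent.Transfer.NormalPComplement

set_option autoImplicit false
open Cfsg

namespace Cfsg.Agent.S3970

/-- Sylow subgroups of a normal subgroup of index prime to `s` are Sylow subgroups of the group. -/
theorem exists_sylow_map {G : Type*} [Group G] [Finite G] (K : Subgroup G) {s : ℕ} [Fact s.Prime]
    (hs : ¬ s ∣ K.index) (S : Sylow s K) :
    ∃ P : Sylow s G, (P : Subgroup G) = (S : Subgroup K).map K.subtype := by
  refine ⟨(S.2.map K.subtype).toSylow ?_, rfl⟩
  rw [Subgroup.index_map_subtype]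
  intro h
  rcases (Nat.Prime.dvd_mul Fact.out).mp h with h | h
  · exact S.not_dvd_index h
  · exact hs h

theorem main (n : ℕ) : ∀ {G : Type*} [Group G] [Finite G], Nat.card G = n →
    (∀ p : ℕ, p.Prime → p ∣ Nat.card G → (∃ q : ℕ, q.Prime ∧ q ∣ Nat.card G ∧ p < q) →
      ∀ P : Sylow p G, IsMulCommutative (P : Subgroup G) ∧ Group.rank (P : Subgroup G) ≤ 2) →
    ¬ 12 ∣ Nat.card G → Group.IsSolvable G := by
  induction n using Nat.strong_induction_on with
  | _ n ih =>
  intro G _ _ hn h h12
  by_cases h1 : Nat.card G = 1
  · haveI : Subsingleton G := (Nat.card_eq_one_iff_unique.mp h1).1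
    infer_instance
  set p := (Nat.card G).minFac with hpdef
  have hp : p.Prime := Nat.minFac_prime h1
  haveI : Fact p.Prime := ⟨hp⟩
  have hpG : p ∣ Nat.card G := Nat.minFac_dvd _
  by_cases hq : ∃ q : ℕ, q.Prime ∧ q ∣ Nat.card G ∧ p < q
  · -- a normal `p`-complement
    let P : Sylow p G := default
    obtain ⟨hab, hrk⟩ := h p hp hpG hq P
    have hc : Cfsg.HasNormalPComplement p G := by
      refine Cfsg.Agent.H490.BurnsideRank.hasNormalPComplement P hab ?_
      intro r hr hrG j hj1 hjd hj
      have hpr : p ≤ r := Nat.minFac_le_of_dvd hr.two_le hrG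
      have hj2 : j ≤ 2 := hjd.trans hrk
      have hp2 := hp.two_le
      interval_cases j
      · rw [pow_one] at hj
        have := Nat.le_of_dvd (by omega) hj
        omega
      · have h3 : p ^ 2 - 1 = (p + 1) * (p - 1) := by
          have := Nat.sq_sub_sq p 1
          simpa using this
        rw [h3] at hj
        rcases (Nat.Prime.dvd_mul hr).mp hj with h4 | h4
        · have h5 := Nat.le_of_dvd (by omega) h4
          have hrp : r ≠ p := by
            intro hrp
            rw [hrp] at h4
            have h6 : p ∣ 1 := (Nat.dvd_add_right (dvd_refl p)).mp h4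
            exact hp.one_lt.ne' (Nat.dvd_one.mp h6)
          have hr1 : r = p + 1 := by omega
          -- consecutive primes
          have hp2' : p = 2 := by
            by_contra hne
            have o1 : Odd p := hp.odd_of_ne_two hne
            have o2 : Odd r := hr.odd_of_ne_two (by omega)
            rw [hr1] at o2
            exact (Nat.not_even_iff_odd.mpr o2) (Odd.add_one o1)
          have hr3 : r = 3 := by omega
          apply h12
          have h4G : 4 ∣ Nat.card G := by
            by_contra h4n
            have hcard : Nat.card P = 2 := by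
              obtain ⟨k, hk⟩ := IsPGroup.iff_card.mp P.2
              have hPG : Nat.card P ∣ Nat.card G := Subgroup.card_subgroup_dvd_card _
              replace hk : Nat.card P = 2 ^ k := hk.trans (by rw [hp2'])
              have hk1 : k < 2 := by
                by_contra hk2
                apply h4n
                refine Dvd.dvd.trans ?_ hPG
                rw [hk]
                exact pow_dvd_pow 2 (show 2 ≤ k by omega)
              interval_cases k
              · exfalso
                have h7 : (P : Subgroup G).index = Nat.card G := by
                  have := Subgroup.card_mul_index (P : Subgroup G)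
                  rw [hk, pow_zero, one_mul] at this
                  exact this
                apply P.not_dvd_index
                rw [h7]
                exact hpG
              · rw [hk, pow_one]
            have hcyc : IsCyclic P := isCyclic_of_prime_card (p := 2) hcard
            obtain ⟨g, hg⟩ := hcyc.exists_generator
            have h8 : Group.rank (P : Subgroup G) ≤ 1 := by
              have h9 : Subgroup.closure (({g} : Finset (P : Subgroup G)) : Set (P : Subgroup G)) = ⊤ := by
                rw [Finset.coe_singleton, ← Subgroup.zpowers_eq_closure]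
                exact (Subgroup.eq_top_iff' _).mpr hg
              have := Group.rank_le h9
              simpa using this
            omega
          have h3G : 3 ∣ Nat.card G := hr3 ▸ hrG
          exact Nat.Coprime.mul_dvd_of_dvd_of_dvd (by norm_num : Nat.Coprime 4 3) h4G h3G
        · have := Nat.le_of_dvd (by omega) h4
          omega
    obtain ⟨K, hK, hK1, hK2⟩ :=
      Cfsg.Agent.Transfer.NormalPComplement.hasNormalPComplement_iff.mp hc
    obtain ⟨k, hk⟩ := IsPGroup.iff_card.mp hK2
    rw [← Subgroup.index_eq_card] at hk
    have hlt : Nat.card K < n := by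
      rw [← hn]
      refine lt_of_le_of_ne (Subgroup.card_le_card_group K) ?_
      intro h5
      rw [h5] at hK1
      exact hp.one_lt.ne' (Nat.eq_one_of_dvd_coprimes hK1 hpG (dvd_refl p))
    have hKG : Nat.card K ∣ Nat.card G := Subgroup.card_subgroup_dvd_card K
    have hKs : Group.IsSolvable K := by
      refine ih (Nat.card K) hlt rfl ?_ (fun h6 => h12 (h6.trans hKG))
      intro s hs hsK hs2 S
      haveI : Fact s.Prime := ⟨hs⟩
      have hsp : s ≠ p := by
        rintro rfl
        exact hs.one_lt.ne' (Nat.eq_one_of_dvd_coprimes hK1 hsK (dvd_refl _))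
      have hsi : ¬ s ∣ K.index := by
        rw [hk]
        intro h7
        exact hsp ((Nat.prime_dvd_prime_iff_eq hs hp).mp (hs.dvd_of_dvd_pow h7))
      obtain ⟨Q, hQ⟩ := exists_sylow_map K hsi S
      obtain ⟨q, hq1, hq2, hq3⟩ := hs2
      obtain ⟨ha, hb⟩ := h s hs (hsK.trans hKG) ⟨q, hq1, hq2.trans hKG, hq3⟩ Q
      have e : (S : Subgroup K) ≃* (Q : Subgroup G) := by
        rw [hQ]
        exact (S : Subgroup K).equivMapOfInjective K.subtype K.subtype_injective
      refine ⟨⟨⟨fun a b => e.injective ?_⟩⟩, ?_⟩
      · rw [map_mul, map_mul]
        exact ha.is_comm.comm _ _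
      · exact (Group.rank_le_of_surjective e.symm.toMonoidHom e.symm.surjective).trans hb
    haveI := hKs
    have hQs : Group.IsSolvable (G ⧸ K) := by
      haveI := hK2.isNilpotent
      infer_instance
    exact (Group.isSolvable_iff_subgroup_quotient K).mpr ⟨hKs, hQs⟩
  · -- a `p`-group
    have hpg : IsPGroup p G := by
      rw [IsPGroup.iff_card]
      refine ⟨(Nat.card G).factorization p, ?_⟩
      refine (Nat.eq_pow_of_factorization_eq_single (Nat.card_pos.ne') ?_)
      ext q
      by_cases hqp : q = p
      · subst hqp; simp
      · rw [Finsupp.single_eq_of_ne (by exact hqp)]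
        by_contra h9
        have hqm : q ∈ (Nat.card G).primeFactors := by
          rw [← Nat.support_factorization]
          exact Finsupp.mem_support_iff.mpr h9
        have hqP := Nat.prime_of_mem_primeFactors hqm
        have hqd := Nat.dvd_of_mem_primeFactors hqm
        apply hq
        refine ⟨q, hqP, hqd, lt_of_le_of_ne (Nat.minFac_le_of_dvd hqP.two_le hqd) (Ne.symm hqp)⟩
    haveI := hpg.isNilpotent
    infer_instance

/-- Let `G` be a finite group such that for every prime `p` dividing its order, other than the largest such prime, the Sylow `p`-subgroups are abelian and generated by at most two elements, and suppose `12` does not divide the order of `G`. Then `G` is solvable. In particular a group of cube-free order not divisible by `12` is solvable. -/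
theorem result {G : Type*} [Group G] [Finite G] (h : ∀ p : ℕ, p.Prime → p ∣ Nat.card G → (∃ q : ℕ, q.Prime ∧ q ∣ Nat.card G ∧ p < q) → ∀ P : Sylow p G, IsMulCommutative (P : Subgroup G) ∧ Group.rank (P : Subgroup G) ≤ 2) (h12 : ¬ 12 ∣ Nat.card G) : Group.IsSolvable G := by
  exact main _ rfl h h12

end Cfsg.Agent.S3970
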