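import Cfsg.Statements.S3973
import Mathlib

set_option autoImplicit false
open Cfsg

namespace Cfsg.Agent.S3973

/-- the map to the free abelian group -/
noncomputable def ab (n : ℕ) : FreeGroup (Fin n) →* Multiplicative (Fin n → ℤ) :=
  FreeGroup.lift (fun i => Multiplicative.ofAdd (Pi.single i 1))

/-- the relation matrix -/
noncomputable def Phi (n : ℕ) (rels : Finset (FreeGroup (Fin n))) :
    (rels → ℤ) →ₗ[ℤ] (Fin n → ℤ) :=
  Fintype.linearCombination ℤ (fun r : rels => Multiplicative.toAdd (ab n r))

theorem le_finrank_range (n : ℕ) (rels : Finset (FreeGroup (Fin n)))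
    [Finite (PresentedGroup (rels : Set (FreeGroup (Fin n))))] :
    n ≤ Module.finrank ℤ (LinearMap.range (Phi n rels)) := by
  classical
  let q : Multiplicative (Fin n → ℤ) →* Multiplicative ((Fin n → ℤ) ⧸ LinearMap.range (Phi n rels)) :=
    AddMonoidHom.toMultiplicative (LinearMap.range (Phi n rels)).mkQ.toAddMonoidHom
  have hq : ∀ x : FreeGroup (Fin n), q (ab n x) =
      FreeGroup.lift (fun i => q (Multiplicative.ofAdd (Pi.single i 1))) x := by
    intro x
    have : q.comp (ab n) = FreeGroup.lift (fun i => q (Multiplicative.ofAdd (Pi.single i 1))) := by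
      ext i
      simp [ab]
    exact DFunLike.congr_fun this x
  have hr : ∀ r ∈ (rels : Set (FreeGroup (Fin n))),
      FreeGroup.lift (fun i => q (Multiplicative.ofAdd (Pi.single i 1))) r = 1 := by
    intro r hr
    rw [← hq]
    change Multiplicative.ofAdd ((LinearMap.range (Phi n rels)).mkQ (Multiplicative.toAdd (ab n r))) = 1
    rw [ofAdd_eq_one]
    rw [Submodule.mkQ_apply, Submodule.Quotient.mk_eq_zero]
    refine ⟨Pi.single ⟨r, hr⟩ 1, ?_⟩
    rw [Phi, Fintype.linearCombination_apply_single, one_smul]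
  let g := PresentedGroup.toGroup hr
  have hg : Function.Surjective g := by
    intro y
    obtain ⟨v, hv⟩ := Submodule.mkQ_surjective (LinearMap.range (Phi n rels)) (Multiplicative.toAdd y)
    have hab : Function.Surjective (ab n) := by
      rw [← MonoidHom.range_eq_top, eq_top_iff]
      intro w _
      have h1 : w = ∏ i, (Multiplicative.ofAdd (Pi.single i (1 : ℤ) : Fin n → ℤ)) ^ (Multiplicative.toAdd w i) := by
        apply Multiplicative.toAdd.injective
        rw [toAdd_prod]
        simp only [toAdd_zpow, toAdd_ofAdd]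
        exact (pi_eq_sum_univ' (Multiplicative.toAdd w)).trans (by simp)
      rw [h1]
      refine Subgroup.prod_mem _ fun i _ => Subgroup.zpow_mem _ ?_ _
      exact ⟨FreeGroup.of i, by simp [ab]⟩
    obtain ⟨x, hx⟩ := hab (Multiplicative.ofAdd v)
    refine ⟨PresentedGroup.mk _ x, ?_⟩
    change FreeGroup.lift (fun i => q (Multiplicative.ofAdd (Pi.single i 1))) x = y
    rw [← hq, hx]
    change Multiplicative.ofAdd ((LinearMap.range (Phi n rels)).mkQ v) = y
    rw [hv, ofAdd_toAdd]
  haveI : Finite (Multiplicative ((Fin n → ℤ) ⧸ LinearMap.range (Phi n rels))) :=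
    Finite.of_surjective g hg
  haveI : Finite ((Fin n → ℤ) ⧸ LinearMap.range (Phi n rels)) :=
    Finite.of_injective Multiplicative.ofAdd Multiplicative.ofAdd.injective
  have h1 := (Submodule.finiteQuotient_iff (LinearMap.range (Phi n rels))).mp inferInstance
  rw [h1, Module.finrank_fin_fun]

theorem finrank_ker_le (n : ℕ) (rels : Finset (FreeGroup (Fin n)))
    [Finite (PresentedGroup (rels : Set (FreeGroup (Fin n))))] :
    Module.finrank ℤ (LinearMap.ker (Phi n rels)) ≤ rels.card - n := by
  have h1 := Submodule.finrank_quotient_add_finrank (LinearMap.ker (Phi n rels))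
  rw [Module.finrank_fintype_fun_eq_card, Fintype.card_coe,
    (Phi n rels).quotKerEquivRange.finrank_eq] at h1
  have h2 := le_finrank_range n rels
  omega

/-- The rank of the kernel of a central extension, when it is generated as stated. -/
theorem rank_le_of_surj {V : Type*} [AddCommGroup V] {A : Type*} [CommGroup A] [Group.FG A]
    [Module.Free ℤ V] [Module.Finite ℤ V]
    (ψ : V →ₗ[ℤ] Additive A) (hψ : Function.Surjective ψ) :
    Group.rank A ≤ Module.finrank ℤ V := by
  classical
  let b := Module.finBasis ℤ V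
  let S : Finset A := Finset.univ.image (fun i => Additive.toMul (ψ (b i)))
  have hS : Subgroup.closure (S : Set A) = ⊤ := by
    rw [Subgroup.eq_top_iff']
    intro y
    obtain ⟨v, hv⟩ := hψ (Additive.ofMul y)
    have h1 : y = ∏ i, (Additive.toMul (ψ (b i))) ^ (b.repr v i) := by
      have h2 : Additive.ofMul y = ∑ i, (b.repr v i) • ψ (b i) := by
        rw [← hv]
        conv_lhs => rw [← b.sum_repr v]
        rw [map_sum]
        simp
      apply Additive.ofMul.injective
      rw [h2, ofMul_prod]
      rfl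
    rw [h1]
    refine Subgroup.prod_mem _ fun i _ => Subgroup.zpow_mem _ ?_ _
    exact Subgroup.subset_closure (Finset.mem_coe.mpr (Finset.mem_image_of_mem _ (Finset.mem_univ i)))
  calc Group.rank A ≤ S.card := Group.rank_le hS
    _ ≤ (Finset.univ : Finset (Fin (Module.finrank ℤ V))).card := Finset.card_image_le
    _ = Module.finrank ℤ V := by rw [Finset.card_univ, Fintype.card_fin]

open scoped commutatorElement in
theorem commutator_le_map {F Γ : Type*} [Group F] [Group Γ] (f : F →* Γ)
    (h : ∀ a : Γ, ∃ x : F, a * (f x)⁻¹ ∈ Subgroup.center Γ) :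
    commutator Γ ≤ (commutator F).map f := by
  rw [commutator_def, Subgroup.commutator_le]
  intro a _ b _
  obtain ⟨x, ha⟩ := h a
  obtain ⟨y, hb⟩ := h b
  refine ⟨⁅x, y⁆, Subgroup.commutator_mem_commutator (Subgroup.mem_top x) (Subgroup.mem_top y), ?_⟩
  rw [map_commutatorElement]
  have ha' : a = (a * (f x)⁻¹) * f x := by group
  have hb' : b = (b * (f y)⁻¹) * f y := by group
  set c := a * (f x)⁻¹ with hc
  set d := b * (f y)⁻¹ with hd
  rw [ha', hb', commutatorElement_def, commutatorElement_def]
  have hc1 : ∀ g : Γ, g * c = c * g := fun g => Subgroup.mem_center_iff.mp ha g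
  have hd1 : ∀ g : Γ, g * d = d * g := fun g => Subgroup.mem_center_iff.mp hb g
  symm
  calc c * f x * (d * f y) * (c * f x)⁻¹ * (d * f y)⁻¹
      = c * (f x * d) * f y * (f x)⁻¹ * (c⁻¹ * (f y)⁻¹) * d⁻¹ := by group
    _ = c * (d * f x) * f y * (f x)⁻¹ * ((f y)⁻¹ * c⁻¹) * d⁻¹ := by
        rw [hd1 (f x)]
        have : c⁻¹ * (f y)⁻¹ = (f y)⁻¹ * c⁻¹ := by
          rw [← mul_inv_rev, ← mul_inv_rev, hc1]
        rw [this]
    _ = (c * d) * (f x * f y * (f x)⁻¹ * (f y)⁻¹) * c⁻¹ * d⁻¹ := by group
    _ = (f x * f y * (f x)⁻¹ * (f y)⁻¹) * (c * d) * c⁻¹ * d⁻¹ := by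
        rw [← Subgroup.mem_center_iff.mp (mul_mem ha hb)]
    _ = (f x * f y * (f x)⁻¹ * (f y)⁻¹) * (d * c) * c⁻¹ * d⁻¹ := by rw [← hc1 d, hc1 d]
    _ = f x * f y * (f x)⁻¹ * (f y)⁻¹ := by group

/-- If a finite group is presented by `n` generators and a finite set of `r` relators, then its Schur multiplier can be generated by `r - n` elements. In particular a finite group with a presentation having as many relators as generators has trivial Schur multiplier. -/
theorem result (n : ℕ) (rels : Finset (FreeGroup (Fin n))) [Finite (PresentedGroup (rels : Set (FreeGroup (Fin n))))] {A : Type*} [CommGroup A] [Finite A] (hA : Cfsg.HasSchurMultiplier (PresentedGroup (rels : Set (FreeGroup (Fin n)))) A) : Group.rank A ≤ rels.card - n := by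
  classical
  obtain ⟨⟨Γ, _, _, σ, ⟨hsurj, hcen, hcomm⟩, ⟨e⟩⟩, -⟩ := hA
  choose s hs using hsurj
  let f : FreeGroup (Fin n) →* Γ := FreeGroup.lift (fun i => s (PresentedGroup.of i))
  have hf : ∀ x, σ (f x) = PresentedGroup.mk (rels : Set (FreeGroup (Fin n))) x := by
    intro x
    have : σ.comp f = PresentedGroup.mk (rels : Set (FreeGroup (Fin n))) := by
      ext i
      simp only [f, MonoidHom.comp_apply, FreeGroup.lift_apply_of, hs]
      rfl
    exact DFunLike.congr_fun this x
  have hker : ∀ x, x ∈ Subgroup.normalClosure (rels : Set (FreeGroup (Fin n))) ↔ f x ∈ σ.ker := by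
    intro x
    rw [MonoidHom.mem_ker, hf, PresentedGroup.mk_eq_one_iff]
  have hcom : commutator Γ ≤ (commutator (FreeGroup (Fin n))).map f := by
    apply commutator_le_map
    intro a
    obtain ⟨x, hx⟩ := PresentedGroup.mk_surjective _ (σ a)
    refine ⟨x, hcen ?_⟩
    rw [MonoidHom.mem_ker, map_mul, map_inv, hf, hx, mul_inv_cancel]
  -- the map on relators
  have hr : ∀ r : rels, f r ∈ σ.ker := fun r => (hker r).mp (Subgroup.subset_normalClosure r.2)
  let ψ : (rels → ℤ) →ₗ[ℤ] Additive A :=
    Fintype.linearCombination ℤ (fun r : rels => Additive.ofMul (e ⟨f r, hr r⟩))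
  have key : ∀ x, x ∈ Subgroup.normalClosure (rels : Set (FreeGroup (Fin n))) → ∃ (h : f x ∈ σ.ker) (c : rels → ℤ),
      Phi n rels c = Multiplicative.toAdd (ab n x) ∧ ψ c = Additive.ofMul (e ⟨f x, h⟩) := by
    intro x hx
    rw [Subgroup.normalClosure] at hx
    induction hx using Subgroup.closure_induction with
    | mem x hx =>
      rw [Group.mem_conjugatesOfSet_iff] at hx
      obtain ⟨r, hrR, hxr⟩ := hx
      obtain ⟨g, hg⟩ := isConj_iff.mp hxr
      have h1 : f x = f r := by
        rw [← hg, map_mul, map_mul, map_inv]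
        have := Subgroup.mem_center_iff.mp (hcen (hr ⟨r, hrR⟩)) (f g)
        rw [this, mul_inv_cancel_right]
      have h2 : ab n x = ab n r := by
        rw [← hg, map_mul, map_mul, map_inv, mul_comm (ab n g), mul_inv_cancel_right]
      refine ⟨by rw [h1]; exact hr ⟨r, hrR⟩, Pi.single ⟨r, hrR⟩ 1, ?_, ?_⟩
      · rw [Phi, Fintype.linearCombination_apply_single, one_smul, h2]
      · simp only [ψ]
        rw [Fintype.linearCombination_apply_single, one_smul]
        congr 2
        exact Subtype.ext h1.symm
    | one =>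
      refine ⟨by rw [map_one]; exact one_mem _, 0, ?_, ?_⟩
      · rw [map_zero, map_one]; rfl
      · rw [map_zero]
        have : (⟨f 1, by rw [map_one]; exact one_mem _⟩ : σ.ker) = 1 := Subtype.ext (map_one f)
        rw [this, map_one]; rfl
    | mul x y _ _ hx hy =>
      obtain ⟨h1, c1, h2, h3⟩ := hx
      obtain ⟨k1, c2, k2, k3⟩ := hy
      refine ⟨by rw [map_mul]; exact mul_mem h1 k1, c1 + c2, ?_, ?_⟩
      · rw [map_add, h2, k2, map_mul, toAdd_mul]
      · rw [map_add, h3, k3, ← ofMul_mul, ← map_mul]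
        congr 2
        exact Subtype.ext (map_mul f x y).symm
    | inv x _ hx =>
      obtain ⟨h1, c1, h2, h3⟩ := hx
      refine ⟨by rw [map_inv]; exact inv_mem h1, -c1, ?_, ?_⟩
      · rw [map_neg, h2, map_inv, toAdd_inv]
      · rw [map_neg, h3, ← ofMul_inv, ← map_inv]
        congr 2
        exact Subtype.ext (map_inv f x).symm
  -- surjectivity on the kernel
  have hsur : Function.Surjective (ψ.domRestrict (LinearMap.ker (Phi n rels))) := by
    intro y
    obtain ⟨x, hx, hxk⟩ := hcom (hcomm (e.symm (Additive.toMul y)).2)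
    have hxR : x ∈ Subgroup.normalClosure (rels : Set (FreeGroup (Fin n))) := by
      rw [hker, hxk]; exact (e.symm (Additive.toMul y)).2
    obtain ⟨h, c, hc1, hc2⟩ := key x hxR
    have hab : ab n x = 1 := by
      have h1 : commutator (FreeGroup (Fin n)) ≤ (ab n).ker := Abelianization.commutator_subset_ker _
      exact h1 hx
    refine ⟨⟨c, ?_⟩, ?_⟩
    · rw [LinearMap.mem_ker, hc1, hab]; rfl
    · change ψ c = y
      rw [hc2]
      have : (⟨f x, h⟩ : σ.ker) = e.symm (Additive.toMul y) := Subtype.ext hxk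
      rw [this, e.apply_symm_apply]
      rfl
  exact (rank_le_of_surj _ hsur).trans (finrank_ker_le n rels)

end Cfsg.Agent.S3973
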