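import Cfsg.Statements.S3980
import Cfsg.Agent.H492.SchurProd

set_option autoImplicit false
universe u v w
open Cfsg Cfsg.Agent.H492 Cfsg.Agent.H487

namespace Cfsg.Agent.S3980

/-- The product of two stem extensions. -/
theorem isStemExtension_prodMap {Q₁ : Type u} {Q₂ : Type v} [Group Q₁] [Group Q₂]
    {Γ₁ : Type u} {Γ₂ : Type v} [Group Γ₁] [Group Γ₂] {σ₁ : Γ₁ →* Q₁} {σ₂ : Γ₂ →* Q₂}
    (h₁ : Cfsg.IsStemExtension σ₁) (h₂ : Cfsg.IsStemExtension σ₂) :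
    Cfsg.IsStemExtension (MonoidHom.prodMap σ₁ σ₂) := by
  refine ⟨h₁.1.prodMap h₂.1, ?_, ?_⟩
  · rw [MonoidHom.ker_prodMap]
    rintro ⟨x, y⟩ ⟨hx, hy⟩
    rw [Subgroup.mem_center_iff]
    rintro ⟨a, b⟩
    exact Prod.ext (Subgroup.mem_center_iff.1 (h₁.2.1 hx) a) (Subgroup.mem_center_iff.1 (h₂.2.1 hy) b)
  · rw [MonoidHom.ker_prodMap, _root_.commutator_def, ← Subgroup.top_prod_top,
      Subgroup.commutator_prod_prod, ← _root_.commutator_def, ← _root_.commutator_def]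
    exact Subgroup.prod_mono h₁.2.2 h₂.2.2

/-- Let `Q₁` and `Q₂` be finite groups whose commutator quotients have coprime orders, with Schur multipliers `A` and `B`. Then the Schur multiplier of `Q₁ × Q₂` is isomorphic to `A × B`. -/
theorem result {Q₁ : Type u} {Q₂ : Type v} [Group Q₁] [Group Q₂] [Finite Q₁] [Finite Q₂] {A B : Type w} [CommGroup A] [CommGroup B] (hA : Cfsg.HasSchurMultiplier Q₁ A) (hB : Cfsg.HasSchurMultiplier Q₂ B) (hcop : Nat.Coprime (Nat.card (Abelianization Q₁)) (Nat.card (Abelianization Q₂))) : Cfsg.HasSchurMultiplier (Q₁ × Q₂) (A × B) := by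
  refine ⟨?_, ?_⟩
  · obtain ⟨⟨Γ₁, _, _, σ₁, hσ₁, ⟨e₁⟩⟩, -⟩ := hA
    obtain ⟨⟨Γ₂, _, _, σ₂, hσ₂, ⟨e₂⟩⟩, -⟩ := hB
    refine ⟨Γ₁ × Γ₂, inferInstance, inferInstance, MonoidHom.prodMap σ₁ σ₂,
      isStemExtension_prodMap hσ₁ hσ₂, ?_⟩
    rw [MonoidHom.ker_prodMap]
    exact ⟨(Subgroup.prodEquiv σ₁.ker σ₂.ker).trans (MulEquiv.prodCongr e₁ e₂)⟩
  · intro Γ _ _ σ hσ
    obtain ⟨f, hf⟩ := HasSchurMultiplier.exists_surj hA (proj₁_surjective hσ.1)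
      (central_proj₁ hσ.2.1)
    obtain ⟨g, hg⟩ := HasSchurMultiplier.exists_surj hB (proj₂_surjective hσ.1)
      (central_proj₂ hσ.2.1)
    have hcomm : ∀ a ∈ pre₁ σ, ∀ b ∈ pre₂ σ, a * b = b * a :=
      fun a ha b hb => comm_of_coprime hσ.1 hσ.2.1 hcop ha hb
    let f' : A →* Γ := (pre₁ σ).subtype.comp ((Mult (proj₁ σ)).subtype.comp f)
    let g' : B →* Γ := (pre₂ σ).subtype.comp ((Mult (proj₂ σ)).subtype.comp g)
    have hf' : ∀ a, f' a ∈ σ.ker := fun a => mem_ker_proj₁.1 (f a).2.1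
    have hg' : ∀ b, g' b ∈ σ.ker := fun b => mem_ker_proj₂.1 (g b).2.1
    let m : A × B →* Γ := MonoidHom.noncommCoprod f' g'
      (fun a b => hcomm _ (SetLike.coe_mem _) _ (SetLike.coe_mem _))
    have hm : ∀ x, m x ∈ σ.ker := fun x => σ.ker.mul_mem (hf' x.1) (hg' x.2)
    refine ⟨m.codRestrict σ.ker hm, ?_⟩
    rintro ⟨z, hz⟩
    obtain ⟨a, ha, b, hb, rfl⟩ := mem_commutator_of_coprime hσ.1 hcomm (hσ.2.2 hz)
    have h1 := hz
    rw [MonoidHom.mem_ker, map_mul] at h1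
    have hak : (a : Γ) ∈ σ.ker := by
      rw [MonoidHom.mem_ker]
      ext
      · have h2 : (σ a).1 * (σ b).1 = 1 := congrArg Prod.fst h1
        rw [mem_pre₂.1 b.2, mul_one] at h2
        exact h2
      · exact mem_pre₁.1 a.2
    have hbk : (b : Γ) ∈ σ.ker := by
      have := σ.ker.mul_mem (σ.ker.inv_mem hak) hz
      simpa using this
    obtain ⟨a', ha'⟩ := hf ⟨a, mem_ker_proj₁.2 hak, ha⟩
    obtain ⟨b', hb'⟩ := hg ⟨b, mem_ker_proj₂.2 hbk, hb⟩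
    refine ⟨(a', b'), ?_⟩
    apply Subtype.ext
    change ((f a' : pre₁ σ) : Γ) * ((g b' : pre₂ σ) : Γ) = a * b
    rw [ha', hb']

end Cfsg.Agent.S3980
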