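import Cfsg.Statements.S3992
import Cfsg.Agent.H494.EppoStruct

set_option autoImplicit false
set_option linter.style.haveILetI false
open Cfsg

namespace Cfsg.Agent.S3992

/-- Let G be a finite non-solvable group in which every element has prime-power order, and let R be its largest solvable normal subgroup. Then R is a p-group for some prime p; G/R has a non-abelian simple normal subgroup contained in every nontrivial normal subgroup of G/R (its unique minimal normal subgroup); and the order of every solvable subgroup of G has at most two prime divisors. -/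
theorem result {G : Type*} [Group G] [Finite G] (hns : ¬ Group.IsSolvable G) (hpp : ∀ g : G, g ≠ 1 → IsPrimePow (orderOf g))
    (R : Subgroup G) [R.Normal] (hRs : Group.IsSolvable ↥R) (hRmax : ∀ N : Subgroup G, N.Normal → Group.IsSolvable ↥N → N ≤ R) :
    (∃ p : ℕ, p.Prime ∧ IsPGroup p ↥R) ∧
      (∃ M : Subgroup (G ⧸ R), M.Normal ∧ IsSimpleGroup ↥M ∧ ¬ IsMulCommutative ↥M ∧
        ∀ N : Subgroup (G ⧸ R), N.Normal → N ≠ ⊥ → M ≤ N) ∧
      ∀ H : Subgroup G, Group.IsSolvable ↥H → (Nat.card ↥H).primeFactors.card ≤ 2 := by
  have h : ∀ g : G, IsPrimePow (orderOf g) ∨ g = 1 := by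
    intro g
    by_cases hg : g = 1
    · exact Or.inr hg
    · exact Or.inl (hpp g hg)
  refine ⟨Cfsg.Agent.H494.EppoStruct.isPGroup_of_solvable_normal hns h R hRs, ?_, ?_⟩
  · haveI : Nontrivial (G ⧸ R) := by
      by_contra hn
      rw [not_nontrivial_iff_subsingleton] at hn
      apply hns
      exact solvable_of_ker_le_range R.subtype (QuotientGroup.mk' R) (by simp)
    refine Cfsg.Agent.H494.EppoStruct.exists_simple_min
      (Cfsg.Agent.S1475.quotient_orders R h) (fun q hq => ?_)
    haveI : Fact q.Prime := ⟨hq⟩
    haveI := (Cfsg.Agent.Lib.Cores.pCore_isPGroup (G := G ⧸ R) q).isNilpotent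
    set K := (pCore q (G ⧸ R)).comap (QuotientGroup.mk' R) with hK
    have hKs : Group.IsSolvable ↥K := by
      have hKR : R ≤ K := by
        intro r hr
        rw [hK, Subgroup.mem_comap, QuotientGroup.mk'_apply,
          (QuotientGroup.eq_one_iff r).mpr hr]
        exact one_mem _
      let f : K →* pCore q (G ⧸ R) :=
        ((QuotientGroup.mk' R).comp K.subtype).codRestrict _ (fun x => x.2)
      refine solvable_of_ker_le_range (Subgroup.inclusion hKR) f ?_
      rintro ⟨x, hx⟩ hx'
      have h1 : ((QuotientGroup.mk' R) x) = 1 := congrArg Subtype.val hx'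
      rw [QuotientGroup.mk'_apply, QuotientGroup.eq_one_iff] at h1
      exact ⟨⟨x, h1⟩, rfl⟩
    have h2 := hRmax K inferInstance hKs
    rw [eq_bot_iff]
    intro x hx
    obtain ⟨g, rfl⟩ := QuotientGroup.mk_surjective x
    rw [Subgroup.mem_bot, QuotientGroup.eq_one_iff]
    exact h2 hx
  · intro H hH
    refine Cfsg.Agent.S1475.result (G := H) (fun g => ?_)
    rcases h (g : G) with h1 | h1
    · left; rwa [Subgroup.orderOf_coe] at h1
    · right; exact Subtype.ext h1

end Cfsg.Agent.S3992
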