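import Cfsg.Statements.S3994
import Cfsg.Agent.H418.Frob
import Cfsg.Agent.H494.MultCount

set_option autoImplicit false
open Cfsg

namespace Cfsg.Agent.S3994

/-- Let G be a finite group and n a positive integer. The number of elements of G whose order is divisible by n is either 0 or divisible by the largest divisor of the order of G that is coprime to n. -/
theorem result {G : Type*} [Group G] [Finite G] (n : ℕ) (hn : 0 < n) :
    Nat.card {g : G // n ∣ orderOf g} = 0 ∨
      (Nat.card G / Nat.gcd (Nat.card G) (n ^ Nat.card G)) ∣ Nat.card {g : G // n ∣ orderOf g} := by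
  right
  have hN : Nat.card G ≠ 0 := Nat.card_pos.ne'
  have hcop := Cfsg.Agent.H494.MultCount.coprime_part hN hn.ne'
  refine Cfsg.Agent.H494.MultCount.dvd_card_of_frobenius
    (fun H m hm => Cfsg.Agent.H418.Frob.frobenius_dvd m hm) n
    (Nat.gcd (Nat.card G) (n ^ Nat.card G)) _ (Nat.mul_div_cancel' (Nat.gcd_dvd_left _ _)) ?_ hcop
  exact Nat.Coprime.coprime_dvd_left (Nat.gcd_dvd_right _ _) (Nat.Coprime.pow_left _ hcop.symm)

end Cfsg.Agent.S3994
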