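import Cfsg.Statements.S3996
import Cfsg.Agent.H495.ThreeSizes
import Cfsg.Agent.H495.NotFour
import Cfsg.Agent.SolvableStructure.HallConverse

set_option autoImplicit false
open Cfsg

namespace Cfsg.Agent.S3996

/-- A finite group in which the numbers of elements of each order that occurs (the numbers #{g : o(g) = m}, m ranging over the element orders) take exactly three different values is solvable. -/
theorem result {G : Type*} [Group G] [Finite G] (h : (((fun m : ℕ => Nat.card {g : G // orderOf g = m}) '' Set.range (orderOf : G → ℕ))).ncard = 3) : Group.IsSolvable G := by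
  obtain ⟨a, b, H⟩ := Cfsg.Agent.H495.ThreeSizes.exists_hyp h
  by_cases h4 : 4 ∣ Nat.card G
  · exact Cfsg.Agent.SolvableStructure.HallConverse.isSolvable_of_no_three_primes
      (Cfsg.Agent.H495.ThreeSizes.card_primeFactors_le_two H h4)
  · exact Cfsg.Agent.H495.NotFour.isSolvable_of_not_four_dvd h4

end Cfsg.Agent.S3996
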