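import Cfsg.Statements.S3999
import Cfsg.Agent.H495.Frob

set_option autoImplicit false
open Cfsg

namespace Cfsg.Agent.S3999

/-- Let F be a finite Frobenius group (it has a Frobenius complement) and G a finite group with the same order type as F (for every m the same number of elements of order m). Then G is a Frobenius group; moreover G is solvable if and only if F is. -/
theorem result {F G : Type*} [Group F] [Finite F] [Group G] [Finite G] (hF : (∃ C : Subgroup F, Cfsg.IsFrobeniusComplement C)) (hT : (∀ m : ℕ, Nat.card {g : F // orderOf g = m} = Nat.card {h : G // orderOf h = m})) :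
    (∃ C : Subgroup G, Cfsg.IsFrobeniusComplement C) ∧ (Group.IsSolvable G ↔ Group.IsSolvable F) := by
  obtain ⟨C, hC⟩ := hF
  obtain ⟨e, he⟩ := Cfsg.Agent.H495.OrderType.exists_equiv hT
  obtain ⟨K, -, D, -, hKn, hKnil, hKC, hcop, hx, -, -, -, -, -, hD⟩ :=
    Cfsg.Agent.H495.Frob.exists_complement he C hC
  refine ⟨⟨D, hD⟩, ?_, ?_⟩
  · intro hG
    exact Cfsg.Agent.H495.Frob.solvable_of_equiv he hC hKn hKnil hKC hcop hx hG
  · intro hFs
    have he' : ∀ g, orderOf (e.symm g) = orderOf g := by
      intro g
      rw [← he (e.symm g), Equiv.apply_symm_apply]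
    obtain ⟨K', -, -, -, hKn', hKnil', hKC', hcop', hx', -, -, -, -, -, -⟩ :=
      Cfsg.Agent.H495.Frob.exists_complement he' D hD
    exact Cfsg.Agent.H495.Frob.solvable_of_equiv he' hD hKn' hKnil' hKC' hcop' hx' hFs

end Cfsg.Agent.S3999
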