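import Cfsg.Statements.S4000
import Cfsg.Agent.S0000
import Cfsg.Agent.S0205
import Cfsg.Agent.OrdDiv.Table
import Cfsg.Agent.H702.TwoFrobMain

set_option autoImplicit false
open Cfsg

namespace Cfsg.Agent.S4000

/-- A 2-Frobenius group is a finite group E with normal subgroups H < K such that K is a Frobenius group with kernel H and E/H is a Frobenius group with kernel K/H. If a finite group G has the same order type as a 2-Frobenius group E (for every m the same number of elements of order m), then G is a 2-Frobenius group. -/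
theorem result {E G : Type*} [Group E] [Finite E] [Group G] [Finite G] (hE : (∃ (H K : Subgroup E) (_ : H.Normal), K.Normal ∧ H < K ∧
      (∃ C : Subgroup ↥K, Cfsg.IsFrobeniusComplement C ∧ Cfsg.frobeniusKernel C = (H.subgroupOf K : Set ↥K)) ∧
      (∃ C : Subgroup (E ⧸ H), Cfsg.IsFrobeniusComplement C ∧ Cfsg.frobeniusKernel C = (K.map (QuotientGroup.mk' H) : Set (E ⧸ H))))) (hT : (∀ m : ℕ, Nat.card {g : E // orderOf g = m} = Nat.card {h : G // orderOf h = m})) :
    (∃ (H K : Subgroup G) (_ : H.Normal), K.Normal ∧ H < K ∧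
      (∃ C : Subgroup ↥K, Cfsg.IsFrobeniusComplement C ∧ Cfsg.frobeniusKernel C = (H.subgroupOf K : Set ↥K)) ∧
      (∃ C : Subgroup (G ⧸ H), Cfsg.IsFrobeniusComplement C ∧ Cfsg.frobeniusKernel C = (K.map (QuotientGroup.mk' H) : Set (G ⧸ H)))) := by
  exact H702.TF.main OrdDiv.table (fun S _ _ _ => S0000.result) (fun S _ _ h => S0205.result h) hE hT

end Cfsg.Agent.S4000
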