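import Cfsg.Statements.S4004
import Cfsg.Agent.H496.FrobExp

set_option autoImplicit false
open Cfsg

namespace Cfsg.Agent.S4004

open Cfsg.Agent.H496.ThreeSizes

/-- Let G be a finite group of odd order in which the numbers of elements of each order that occurs (the numbers #{g : o(g) = m}, m ranging over the element orders of G) take exactly three different values. Then the order of G has at most two prime divisors; and if it has exactly two, then every Sylow subgroup of G for a prime dividing its order has prime exponent, G is a Frobenius group, and some Frobenius complement of G has prime order. -/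
theorem result {G : Type*} [Group G] [Finite G] (hodd : Odd (Nat.card G)) (h : (((fun m : ℕ => Nat.card {g : G // orderOf g = m}) '' Set.range (orderOf : G → ℕ))).ncard = 3) :
    (Nat.card G).primeFactors.card ≤ 2 ∧
      ((Nat.card G).primeFactors.card = 2 →
        (∀ (p : ℕ) [Fact p.Prime] (P : Sylow p G), p ∣ Nat.card G → Monoid.exponent ↥(P : Subgroup G) = p) ∧
        ∃ C : Subgroup G, Cfsg.IsFrobeniusComplement C ∧ (Nat.card ↥C).Prime) := by
  set T : Set ℕ := (fun m : ℕ => Nat.card {g : G // orderOf g = m}) '' Set.range (orderOf : G → ℕ)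
    with hT
  have h1T : (1 : ℕ) ∈ T := ⟨1, ⟨1, orderOf_one⟩, cnt_one⟩
  obtain ⟨a, b, hab, hab'⟩ : ∃ a b : ℕ, a ≠ b ∧ T \ {1} = {a, b} := by
    have h1 : (T \ {1}).ncard = 2 := by
      rw [Set.ncard_sdiff_singleton_of_mem h1T, h]
    exact Set.ncard_eq_two.mp h1
  have hval : ∀ m, m ≠ 1 → cnt G m ≠ 0 → cnt G m = a ∨ cnt G m = b := by
    intro m hm hm0
    obtain ⟨g, hg⟩ := (cnt_pos_iff m).mp (Nat.pos_of_ne_zero hm0)
    have h2 : cnt G m ∈ T := ⟨m, ⟨g, hg⟩, rfl⟩
    have h3 : cnt G m ≠ 1 := by
      intro h3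
      have h4 : Odd m := by
        rw [← hg]
        exact Odd.of_dvd_nat hodd (orderOf_dvd_natCard g)
      have h5 : 0 < m := hg ▸ orderOf_pos g
      have h6 : 2 < m := by
        obtain ⟨k, hk⟩ := h4
        omega
      have h7 := (even_iff_two_dvd.mp (Nat.totient_even h6)).trans (totient_dvd_cnt (G := G) m)
      rw [h3] at h7
      omega
    have h4 : cnt G m ∈ T \ {1} := ⟨h2, h3⟩
    rw [hab'] at h4
    exact h4
  have h2 : ∀ r : ℕ, r ∣ Nat.card G → r ≠ 2 := by
    rintro r h rfl
    exact (Nat.not_even_iff_odd.mpr hodd) (even_iff_two_dvd.mpr h)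
  refine ⟨claim_three hodd hab hval, fun hc => ?_⟩
  obtain ⟨p, q, hpq, hpf⟩ := Finset.card_eq_two.mp hc
  have hpm : p ∈ (Nat.card G).primeFactors := by rw [hpf]; simp
  have hqm : q ∈ (Nat.card G).primeFactors := by rw [hpf]; simp
  rw [Nat.mem_primeFactors] at hpm hqm
  obtain ⟨hp, hpG, hG0⟩ := hpm
  obtain ⟨hq, hqG, -⟩ := hqm
  have hprimes : ∀ r : ℕ, r.Prime → r ∣ Nat.card G → r = p ∨ r = q := by
    intro r hr hrG
    have h3 : r ∈ (Nat.card G).primeFactors := Nat.mem_primeFactors.mpr ⟨hr, hrG, hG0⟩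
    rw [hpf] at h3
    simpa using h3
  have hpq0 := claim_four hodd hab hval hp hq hpq hpG hqG
  have hne := claim_two hodd hab hval hp hq hpq hpG hqG
  have hnopq : ∀ g : G, orderOf g ≠ p * q := by
    intro g hg
    have := (cnt_pos_iff (p * q)).mpr ⟨g, hg⟩
    omega
  -- no elements of order `r ^ 2`
  have hsq : ∀ r s : ℕ, r.Prime → s.Prime → r ≠ s → r ∣ Nat.card G → s ∣ Nat.card G →
      (∀ g : G, orderOf g ≠ r * s) → cnt G r ≠ cnt G s →
      (∀ m, m ≠ 1 → cnt G m ≠ 0 → cnt G m = cnt G r ∨ cnt G m = cnt G s) →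
      ∀ g : G, orderOf g ≠ r ^ 2 := by
    intro r s hr hs hrs hrG hsG hno hne hv g hg
    have : Fact s.Prime := ⟨hs⟩
    have h3 : cnt G (r ^ 2) ≠ 0 := ((cnt_pos_iff (r ^ 2)).mpr ⟨g, hg⟩).ne'
    have hr2 : r ^ 2 ≠ 1 := by
      have := Nat.one_lt_pow (n := 2) (by norm_num) hr.one_lt
      omega
    have hdr : r ∣ cnt G (r ^ 2) := by
      refine dvd_trans ?_ (totient_dvd_cnt (G := G) (r ^ 2))
      rw [Nat.totient_prime_pow_succ hr]
      simp
    have hds : s ∣ cnt G (r ^ 2) := by
      by_contra hnd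
      obtain ⟨S⟩ : Nonempty (Sylow s G) := inferInstance
      obtain ⟨y, hy1, hy2⟩ := exists_centralized S.isPGroup' hnd
      have hSd : s ∣ Nat.card (S : Subgroup G) := by
        rw [S.card_eq_multiplicity]
        exact dvd_pow_self s (hs.factorization_pos_of_dvd Nat.card_pos.ne' hsG).ne'
      obtain ⟨x, hx⟩ := exists_prime_orderOf_dvd_card' s hSd
      have hxy0 : Commute y (x : G) := (hy2 x x.2).symm
      have hxy : Commute (y ^ r) (x : G) := hxy0.pow_left r
      have hyr : orderOf (y ^ r) = r := by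
        rw [orderOf_pow_of_dvd hr.ne_zero (by rw [hy1]; exact dvd_pow_self r two_ne_zero), hy1,
          pow_two]
        exact Nat.mul_div_cancel _ hr.pos
      apply hno (y ^ r * (x : G))
      rw [hxy.orderOf_mul_eq_mul_orderOf_of_coprime, hyr, Subgroup.orderOf_coe, hx]
      rw [hyr, Subgroup.orderOf_coe, hx]
      exact (Nat.coprime_primes hr hs).mpr hrs
    have key : ∀ t : ℕ, t.Prime → t ∣ Nat.card G → ¬ t ∣ cnt G t := by
      intro t ht htG hd
      have h4 := cast_one (G := G) ht htG
      rw [(ZMod.natCast_eq_zero_iff _ _).mpr hd] at h4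
      exact one_ne_zero_zmod ht (by linear_combination h4)
    rcases hv _ hr2 h3 with h4 | h4
    · rw [h4] at hdr
      exact key r hr hrG hdr
    · rw [h4] at hds
      exact key s hs hsG hds
  have hv' : ∀ m, m ≠ 1 → cnt G m ≠ 0 → cnt G m = cnt G p ∨ cnt G m = cnt G q := by
    intro m hm hm0
    have h3 := hval m hm hm0
    have h4 := hval p hp.one_lt.ne' (cnt_prime_pos hp hpG).ne'
    have h5 := hval q hq.one_lt.ne' (cnt_prime_pos hq hqG).ne'
    rcases h3 with h3 | h3 <;> rcases h4 with h4 | h4 <;> rcases h5 with h5 | h5 <;> omega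
  have hp2 : ∀ g : G, orderOf g ≠ p ^ 2 := hsq p q hp hq hpq hpG hqG hnopq hne hv'
  have hq2 : ∀ g : G, orderOf g ≠ q ^ 2 := hsq q p hq hp hpq.symm hqG hpG
    (fun g hg => hnopq g (by rw [hg, mul_comm])) hne.symm (fun m hm hm0 => (hv' m hm hm0).symm)
  have hcases := Cfsg.Agent.H496.FrobExp.orderOf_cases hp hq hpq hprimes hnopq hp2 hq2
  constructor
  · intro r hr P hrG
    have hrp : r.Prime := hr.out
    have hexp : Monoid.exponent (P : Subgroup G) ∣ r := by
      apply Monoid.exponent_dvd_of_forall_pow_eq_one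
      intro g
      by_cases hg : g = 1
      · rw [hg, one_pow]
      · have hg' : (g : G) ≠ 1 := fun h => hg (Subtype.ext h)
        obtain ⟨k, hk⟩ := IsPGroup.iff_orderOf.mp P.isPGroup' g
        have h3 : orderOf g = r := by
          have h4 : (orderOf g).Prime := by
            rw [← Subgroup.orderOf_coe]
            rcases hcases g hg' with h | h
            · rw [h]; exact hp
            · rw [h]; exact hq
          have h5 : orderOf g ∣ r := h4.dvd_of_dvd_pow (by rw [← hk])
          exact (Nat.prime_dvd_prime_iff_eq h4 hrp).mp h5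
        exact orderOf_dvd_iff_pow_eq_one.mp (by rw [h3])
    rcases (Nat.dvd_prime hrp).mp hexp with h3 | h3
    · exfalso
      have hSd : r ∣ Nat.card (P : Subgroup G) := by
        rw [P.card_eq_multiplicity]
        exact dvd_pow_self r (hrp.factorization_pos_of_dvd Nat.card_pos.ne' hrG).ne'
      obtain ⟨x, hx⟩ := exists_prime_orderOf_dvd_card' r hSd
      have h4 := Monoid.order_dvd_exponent x
      rw [h3, hx] at h4
      exact hrp.one_lt.ne' (Nat.dvd_one.mp h4)
    · exact h3
  · -- solvable
    have hcard : Nat.card G = p ^ (Nat.card G).factorization p * q ^ (Nat.card G).factorization q := by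
      conv_lhs => rw [← Nat.prod_factorization_pow_eq_self hG0]
      rw [Finsupp.prod, Nat.support_factorization, hpf, Finset.prod_pair hpq]
    have hsol : Group.IsSolvable G := Cfsg.Agent.S0144.result p q _ _ hp hq hcard
    have hnt : Nontrivial G := by
      rw [← Finite.one_lt_card_iff_nontrivial]
      exact lt_of_lt_of_le hp.one_lt (Nat.le_of_dvd Nat.card_pos hpG)
    obtain ⟨r, V, hr, hVn, hVne, hVab, hVr⟩ :=
      Cfsg.Agent.Solvable.HallAux.exists_normal_elementary (G := G)
    have hrG : r ∣ Nat.card G := by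
      obtain ⟨v, hv, hv1⟩ := V.bot_or_exists_ne_one.resolve_left hVne
      have : Fact r.Prime := ⟨hr⟩
      rw [← orderOf_eq_prime (hVr v hv) hv1]
      exact orderOf_dvd_natCard v
    rcases hprimes r hr hrG with rfl | rfl
    · exact Cfsg.Agent.H496.FrobExp.exists_complement hp hq hpq (h2 q hqG) hprimes hqG hnopq hp2 hq2
        V hVn hVne hVab hVr
    · exact Cfsg.Agent.H496.FrobExp.exists_complement hq hp hpq.symm (h2 p hpG)
        (fun s hs hsG => (hprimes s hs hsG).symm) hpG (fun g hg => hnopq g (by rw [hg, mul_comm]))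
        hq2 hp2 V hVn hVne hVab hVr

end Cfsg.Agent.S4004
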