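import Cfsg.Statements.S4005
import Cfsg.Agent.H497.Basic

set_option autoImplicit false
open Cfsg

namespace Cfsg.Agent.S4005

open Subgroup Cfsg.Agent.H497

/-- Sylow `p` fixed-point-freely acting etc.: elements of a `p`-subgroup have order `1` or `p`
when all element orders are at most `3`. -/
theorem pow_eq_one {G : Type*} [Group G] [Finite G] (hle : ∀ g : G, orderOf g ≤ 3) {p : ℕ}
    (hp : p.Prime) {P : Subgroup G} (hP : IsPGroup p P) {a : G} (ha : a ∈ P) : a ^ p = 1 := by
  have : Fact p.Prime := ⟨hp⟩
  obtain ⟨k, hk⟩ := hP.exists_orderOf_eq_pow ⟨a, ha⟩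
  rw [← Subgroup.orderOf_coe] at hk
  have hk' : orderOf a = p ^ k := hk
  have h3 := hle a
  rw [hk'] at h3
  have h2 := hp.two_le
  have hk1 : k ≤ 1 := by
    by_contra hcon
    push Not at hcon
    have : p ^ 2 ≤ p ^ k := Nat.pow_le_pow_right hp.pos hcon
    nlinarith
  apply orderOf_dvd_iff_pow_eq_one.mp
  rw [hk']
  calc p ^ k ∣ p ^ 1 := pow_dvd_pow p hk1
    _ = p := pow_one p

/-- A finite group whose set of element orders is exactly {1, 2, 3} has either a normal elementary abelian 3-subgroup of index 2 or a normal elementary abelian 2-subgroup of index 3. -/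
theorem result {G : Type*} [Group G] [Finite G] (h : Set.range (orderOf : G → ℕ) = {k : ℕ | 1 ≤ k ∧ k ≤ 3}) :
    (∃ N : Subgroup G, N.Normal ∧ Cfsg.IsElementaryAbelian 3 N ∧ N.index = 2) ∨
      (∃ N : Subgroup G, N.Normal ∧ Cfsg.IsElementaryAbelian 2 N ∧ N.index = 3) := by
  have hle : ∀ g : G, orderOf g ≤ 3 := by
    intro g
    have : orderOf g ∈ Set.range (orderOf : G → ℕ) := ⟨g, rfl⟩
    rw [h] at this
    exact this.2
  obtain ⟨g2, hg2⟩ : ∃ g : G, orderOf g = 2 := by
    have : (2 : ℕ) ∈ Set.range (orderOf : G → ℕ) := by rw [h]; exact ⟨by norm_num, by norm_num⟩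
    exact this
  obtain ⟨g3, hg3⟩ : ∃ g : G, orderOf g = 3 := by
    have : (3 : ℕ) ∈ Set.range (orderOf : G → ℕ) := by rw [h]; exact ⟨by norm_num, by norm_num⟩
    exact this
  have p2 : Nat.Prime 2 := Nat.prime_two
  have p3 : Nat.Prime 3 := Nat.prime_three
  have f2 : Fact (Nat.Prime 2) := ⟨p2⟩
  have f3 : Fact (Nat.Prime 3) := ⟨p3⟩
  have hprimes : ∀ r : ℕ, r.Prime → r ∣ Nat.card G → r = 2 ∨ r = 3 := by
    intro r hr hd
    have : Fact r.Prime := ⟨hr⟩
    obtain ⟨g, hg⟩ := exists_prime_orderOf_dvd_card' r hd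
    have := hle g
    rw [hg] at this
    have := hr.two_le
    omega
  have hsol : Group.IsSolvable G := isSolvable_of_two_primes p2 p3 (by norm_num) hprimes
  obtain ⟨a, b, hab⟩ := exists_card_eq (p := 2) (q := 3) (by norm_num) hprimes
  have hnt : Nontrivial G := by
    refine ⟨⟨g2, 1, ?_⟩⟩
    rintro rfl
    rw [orderOf_one] at hg2
    omega
  have hno : ∀ g : G, orderOf g ≠ 2 * 3 := by
    intro g hg
    have := hle g
    omega
  have hno' : ∀ g : G, orderOf g ≠ 3 * 2 := by
    intro g hg
    have := hle g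
    omega
  obtain ⟨T⟩ : Nonempty (Sylow 2 G) := inferInstance
  obtain ⟨Q⟩ : Nonempty (Sylow 3 G) := inferInstance
  have hcardT : Nat.card T = 2 ^ a := by
    rw [T.card_eq_multiplicity, hab, Nat.factorization_mul (by positivity) (by positivity),
      p2.factorization_pow, p3.factorization_pow]
    simp
  have hcardQ : Nat.card Q = 3 ^ b := by
    rw [Q.card_eq_multiplicity, hab, Nat.factorization_mul (by positivity) (by positivity),
      p2.factorization_pow, p3.factorization_pow]
    simp
  have hTQ : Nat.card (T : Subgroup G) * Nat.card (Q : Subgroup G) = Nat.card G := by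
    rw [hab]
    exact congrArg₂ (· * ·) hcardT hcardQ
  have hTcomm : ∀ S : Sylow 2 G, IsMulCommutative (S : Subgroup G) := by
    intro S
    have hsq : ∀ x : (S : Subgroup G), x ^ 2 = 1 := fun x =>
      Subtype.ext (pow_eq_one hle p2 S.2 x.2)
    refine ⟨⟨fun x y => ?_⟩⟩
    have h1 := hsq (x * y)
    have h2 := hsq x
    have h3 := hsq y
    rw [pow_two] at h1 h2 h3
    have e1 : x⁻¹ = x := inv_eq_of_mul_eq_one_left h2
    have e2 : y⁻¹ = y := inv_eq_of_mul_eq_one_left h3
    have e3 : (x * y)⁻¹ = x * y := inv_eq_of_mul_eq_one_left h1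
    rw [mul_inv_rev, e1, e2] at e3
    exact e3.symm
  obtain ⟨p, V, hp, hVn, hVp, hVc, hV⟩ := Cfsg.Agent.Lib.SolvableNormalP.exists_normal_pSubgroup G
  have hTdvd : 2 ∣ Nat.card G := by rw [← hg2]; exact orderOf_dvd_natCard g2
  have hQdvd : 3 ∣ Nat.card G := by rw [← hg3]; exact orderOf_dvd_natCard g3
  have hnorm : ∀ A : Subgroup G, A ≤ normalizer (V : Set G) := by
    intro A
    rw [normalizer_eq_top (H := V)]
    exact le_top
  have hpd : p ∣ Nat.card G := by
    have : Fact p.Prime := ⟨hp⟩
    have : Nontrivial V := (nontrivial_iff_ne_bot V).2 hV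
    obtain ⟨n, hn, hc⟩ := (IsPGroup.nontrivial_iff_card hVp).mp this
    have h1 := Subgroup.card_subgroup_dvd_card V
    rw [hc] at h1
    exact (dvd_pow_self p hn.ne').trans h1
  rcases hprimes p hp hpd with rfl | rfl
  · -- `V` is a 2-group
    right
    have hQ : Nat.card Q ∣ 3 := card_dvd_of_fpf p3 hVc hV (hnorm _)
      (inf_centralizer_eq_bot p3 p2 (by norm_num) hno' Q.2 hVp)
      (fun x hx => pow_eq_one hle p3 Q.2 hx)
    have hidx : (T : Subgroup G).index = 3 := by
      have h1 := (T : Subgroup G).card_mul_index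
      rw [← hTQ] at h1
      have h2 : (T : Subgroup G).index = Nat.card (Q : Subgroup G) :=
        Nat.eq_of_mul_eq_mul_left Nat.card_pos h1
      rw [h2]
      rcases (Nat.dvd_prime p3).mp hQ with h3 | h3
      · exfalso
        rw [← h2] at h3
        have h4 : 3 ∣ Nat.card T := by
          have := (T : Subgroup G).card_mul_index
          rw [h3, mul_one] at this
          rw [← this] at hQdvd
          exact hQdvd
        rw [hcardT] at h4
        have := (Nat.prime_dvd_prime_iff_eq p3 p2).mp (p3.dvd_of_dvd_pow h4)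
        omega
      · exact h3
    by_cases hTn : (T : Subgroup G).Normal
    · refine ⟨T, hTn, ⟨hTcomm T, fun x hx => pow_eq_one hle p2 T.2 hx⟩, hidx⟩
    · exfalso
      -- another Sylow subgroup
      have hex : ∃ S : Sylow 2 G, S ≠ T := by
        by_contra hcon
        push Not at hcon
        apply hTn
        have : Subsingleton (Sylow 2 G) := ⟨fun A B => (hcon A).trans (hcon B).symm⟩
        exact Sylow.normal_of_subsingleton T
      obtain ⟨S, hS⟩ := hex
      have hVT : V ≤ (T : Subgroup G) := hVp.le_sylow_of_normal T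
      have hVS : V ≤ (S : Subgroup G) := hVp.le_sylow_of_normal S
      have hcT : (T : Subgroup G) ≤ centralizer (V : Set G) := by
        intro t ht
        rw [mem_centralizer_iff]
        intro v hv
        exact congrArg Subtype.val ((hTcomm T).is_comm.comm ⟨v, hVT hv⟩ ⟨t, ht⟩)
      have hcS : (S : Subgroup G) ≤ centralizer (V : Set G) := by
        intro t ht
        rw [mem_centralizer_iff]
        intro v hv
        exact congrArg Subtype.val ((hTcomm S).is_comm.comm ⟨v, hVS hv⟩ ⟨t, ht⟩)
      have htop : centralizer (V : Set G) = ⊤ := by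
        have h1 : (centralizer (V : Set G)).index ∣ 3 := by
          rw [← hidx]; exact index_dvd_of_le hcT
        rcases (Nat.dvd_prime p3).mp h1 with h2 | h2
        · exact index_eq_one.mp h2
        · exfalso
          apply hS
          have hTC : (T : Subgroup G) = centralizer (V : Set G) := by
            apply Subgroup.eq_of_le_of_card_ge hcT
            have h3 := (centralizer (V : Set G)).card_mul_index
            have h4 := (T : Subgroup G).card_mul_index
            rw [h2] at h3
            rw [hidx] at h4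
            omega
          have hle' : (S : Subgroup G) ≤ T := by rw [hTC]; exact hcS
          have h5 : (S : Subgroup G) = T := by
            apply Subgroup.eq_of_le_of_card_ge hle'
            exact (Nat.card_congr (S.equiv T).toEquiv).ge
          exact Sylow.ext h5
      obtain ⟨⟨v, hv⟩, hv1'⟩ := Subgroup.ne_bot_iff_exists_ne_one.mp hV
      have hv1 : v ≠ 1 := fun h0 => hv1' (Subtype.ext h0)
      have hg : g3 ∈ centralizer (V : Set G) := by rw [htop]; exact mem_top _
      rw [mem_centralizer_iff] at hg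
      have hcom : Commute g3 v := (hg v hv).symm
      exact hv1 (eq_one_of_commute p3 p2 (by norm_num) hno' hcom (by rw [hg3]) hVp hv)
  · -- `V` is a 3-group
    left
    have hT : Nat.card T ∣ 2 := card_dvd_of_fpf p2 hVc hV (hnorm _)
      (inf_centralizer_eq_bot p2 p3 (by norm_num) hno T.2 hVp)
      (fun x hx => pow_eq_one hle p2 T.2 hx)
    have hidx : (Q : Subgroup G).index = 2 := by
      have h1 := (Q : Subgroup G).card_mul_index
      rw [← hTQ, mul_comm (Nat.card (T : Subgroup G))] at h1
      have h2 : (Q : Subgroup G).index = Nat.card (T : Subgroup G) :=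
        Nat.eq_of_mul_eq_mul_left Nat.card_pos h1
      rw [h2]
      rcases (Nat.dvd_prime p2).mp hT with h3 | h3
      · exfalso
        rw [← h2] at h3
        have h4 : 2 ∣ Nat.card Q := by
          have := (Q : Subgroup G).card_mul_index
          rw [h3, mul_one] at this
          rw [← this] at hTdvd
          exact hTdvd
        rw [hcardQ] at h4
        have := (Nat.prime_dvd_prime_iff_eq p2 p3).mp (p2.dvd_of_dvd_pow h4)
        omega
      · exact h3
    have hQn : (Q : Subgroup G).Normal := Subgroup.normal_of_index_eq_two hidx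
    have hg2Q : g2 ∉ (Q : Subgroup G) := by
      intro hmem
      have h1 := pow_eq_one hle p3 Q.2 hmem
      have h2 := orderOf_dvd_of_pow_eq_one h1
      rw [hg2] at h2
      omega
    have hg2sq : g2 * g2 = 1 := by
      have := pow_orderOf_eq_one g2
      rwa [hg2, pow_two] at this
    have hinv : ∀ x ∈ (Q : Subgroup G), g2 * x * g2 * x = 1 := by
      intro x hx
      have h1 : g2 * x ∉ (Q : Subgroup G) := by
        intro hmem
        exact hg2Q ((Subgroup.mul_mem_cancel_right _ hx).mp hmem)
      have hsq : (g2 * x) * (g2 * x) ∈ (Q : Subgroup G) :=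
        Subgroup.mul_self_mem_of_index_two hidx (g2 * x)
      have h2 : orderOf (g2 * x) = 1 ∨ orderOf (g2 * x) = 2 ∨ orderOf (g2 * x) = 3 := by
        have h3 := hle (g2 * x)
        have h4 := orderOf_pos (g2 * x)
        omega
      rcases h2 with h3 | h3 | h3
      · exfalso
        rw [orderOf_eq_one_iff] at h3
        rw [h3] at h1
        exact h1 (one_mem _)
      · have := pow_orderOf_eq_one (g2 * x)
        rw [h3, pow_two] at this
        rw [← this]; group
      · exfalso
        apply h1
        have h4 := pow_orderOf_eq_one (g2 * x)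
        rw [h3, pow_succ, pow_two] at h4
        have h5 : g2 * x = ((g2 * x) * (g2 * x))⁻¹ := eq_inv_of_mul_eq_one_right h4
        rw [h5]
        exact inv_mem hsq
    have hinv' : ∀ x ∈ (Q : Subgroup G), g2 * x * g2 = x⁻¹ := by
      intro x hx
      exact eq_inv_of_mul_eq_one_left (hinv x hx)
    refine ⟨Q, hQn, ⟨?_, fun x hx => pow_eq_one hle p3 Q.2 hx⟩, hidx⟩
    refine ⟨⟨fun x y => Subtype.ext ?_⟩⟩
    show (x : G) * y = y * x
    have h1 := hinv' _ ((Q : Subgroup G).mul_mem (inv_mem x.2) (inv_mem y.2))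
    have h2 := hinv' _ (inv_mem x.2)
    have h3 := hinv' _ (inv_mem y.2)
    rw [inv_inv] at h2 h3
    have h4 : g2 * ((x : G)⁻¹ * (y : G)⁻¹) * g2 = (g2 * (x : G)⁻¹ * g2) * (g2 * (y : G)⁻¹ * g2) := by
      have : g2 * (x : G)⁻¹ * g2 * (g2 * (y : G)⁻¹ * g2) =
        g2 * (x : G)⁻¹ * (g2 * g2) * (y : G)⁻¹ * g2 := by group
      rw [this, hg2sq]; group
    rw [h4, h2, h3, mul_inv_rev, inv_inv, inv_inv] at h1
    exact h1

end Cfsg.Agent.S4005
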