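import Cfsg.Statements.S4006
import Cfsg.Agent.H497.TwoQ
import Cfsg.Agent.OddCyclic.FpfThree

set_option autoImplicit false
open Cfsg

namespace Cfsg.Agent.S4006

open Subgroup Cfsg.Agent.H497
open scoped commutatorElement

/-- `p`-elements have order dividing `4` (`p = 2`) or `3` (`p = 3`). -/
theorem pow_four {G : Type*} [Group G] (hle : ∀ g : G, orderOf g ≤ 4) {P : Subgroup G}
    (hP : IsPGroup 2 P) {a : G} (ha : a ∈ P) : a ^ 4 = 1 := by
  have : Fact (Nat.Prime 2) := ⟨Nat.prime_two⟩
  obtain ⟨k, hk⟩ := hP.exists_orderOf_eq_pow ⟨a, ha⟩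
  rw [← Subgroup.orderOf_coe] at hk
  have hk' : orderOf a = 2 ^ k := hk
  have h3 := hle a
  rw [hk'] at h3
  have hk1 : k ≤ 2 := by
    by_contra hcon
    push Not at hcon
    have : 2 ^ 3 ≤ 2 ^ k := Nat.pow_le_pow_right (by norm_num) hcon
    omega
  apply orderOf_dvd_iff_pow_eq_one.mp
  rw [hk']
  calc 2 ^ k ∣ 2 ^ 2 := pow_dvd_pow 2 hk1
    _ = 4 := by norm_num

theorem pow_three' {G : Type*} [Group G] (hle : ∀ g : G, orderOf g ≤ 4) {P : Subgroup G}
    (hP : IsPGroup 3 P) {a : G} (ha : a ∈ P) : a ^ 3 = 1 := by
  have : Fact (Nat.Prime 3) := ⟨Nat.prime_three⟩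
  obtain ⟨k, hk⟩ := hP.exists_orderOf_eq_pow ⟨a, ha⟩
  rw [← Subgroup.orderOf_coe] at hk
  have hk' : orderOf a = 3 ^ k := hk
  have h3 := hle a
  rw [hk'] at h3
  have hk1 : k ≤ 1 := by
    by_contra hcon
    push Not at hcon
    have : 3 ^ 2 ≤ 3 ^ k := Nat.pow_le_pow_right (by norm_num) hcon
    omega
  apply orderOf_dvd_iff_pow_eq_one.mp
  rw [hk']
  calc 3 ^ k ∣ 3 ^ 1 := pow_dvd_pow 3 hk1
    _ = 3 := by norm_num

/-- A finite group whose set of element orders is exactly {1, 2, 3, 4} has a normal subgroup N such that either N is a 2-group of exponent 4 and nilpotency class at most 2 with G/N of order 3, or N is an elementary abelian 2-group with G/N isomorphic to the symmetric group of degree 3, or N is an elementary abelian 3-group with G/N cyclic of order 4 or quaternion of order 8. -/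
theorem result {G : Type*} [Group G] [Finite G] (h : Set.range (orderOf : G → ℕ) = {k : ℕ | 1 ≤ k ∧ k ≤ 4}) :
    ∃ (N : Subgroup G) (_ : N.Normal),
      (IsPGroup 2 ↥N ∧ Monoid.exponent ↥N = 4 ∧ Group.nilpotencyClass ↥N ≤ 2 ∧ N.index = 3) ∨
      (Cfsg.IsElementaryAbelian 2 N ∧ Nonempty (G ⧸ N ≃* Equiv.Perm (Fin 3))) ∨
      (Cfsg.IsElementaryAbelian 3 N ∧ ((IsCyclic (G ⧸ N) ∧ N.index = 4) ∨ Nonempty (G ⧸ N ≃* QuaternionGroup 2))) := by
  have hle : ∀ g : G, orderOf g ≤ 4 := by
    intro g
    have : orderOf g ∈ Set.range (orderOf : G → ℕ) := ⟨g, rfl⟩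
    rw [h] at this
    exact this.2
  obtain ⟨g3, hg3⟩ : ∃ g : G, orderOf g = 3 := by
    have : (3 : ℕ) ∈ Set.range (orderOf : G → ℕ) := by rw [h]; exact ⟨by norm_num, by norm_num⟩
    exact this
  obtain ⟨g4, hg4⟩ : ∃ g : G, orderOf g = 4 := by
    have : (4 : ℕ) ∈ Set.range (orderOf : G → ℕ) := by rw [h]; exact ⟨by norm_num, by norm_num⟩
    exact this
  have p2 : Nat.Prime 2 := Nat.prime_two
  have p3 : Nat.Prime 3 := Nat.prime_three
  have f2 : Fact (Nat.Prime 2) := ⟨p2⟩
  have f3 : Fact (Nat.Prime 3) := ⟨p3⟩
  have hprimes : ∀ r : ℕ, r.Prime → r ∣ Nat.card G → r = 2 ∨ r = 3 := by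
    intro r hr hd
    have : Fact r.Prime := ⟨hr⟩
    obtain ⟨g, hg⟩ := exists_prime_orderOf_dvd_card' r hd
    have := hle g
    rw [hg] at this
    have := hr.two_le
    have : r ≠ 4 := by
      rintro rfl
      exact absurd hr (by norm_num)
    omega
  have hsol : Group.IsSolvable G := isSolvable_of_two_primes p2 p3 (by norm_num) hprimes
  have hnt : Nontrivial G := by
    refine ⟨⟨g3, 1, ?_⟩⟩
    rintro rfl
    rw [orderOf_one] at hg3
    omega
  have hno : ∀ g : G, orderOf g ≠ 2 * 3 := by
    intro g hg
    have := hle g
    omega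
  have hno' : ∀ g : G, orderOf g ≠ 3 * 2 := by
    intro g hg
    have := hle g
    omega
  have h2dvd : 2 ∣ Nat.card G := by
    have := orderOf_dvd_natCard g4
    rw [hg4] at this
    exact (by norm_num : 2 ∣ 4).trans this
  have h3dvd : 3 ∣ Nat.card G := by rw [← hg3]; exact orderOf_dvd_natCard g3
  -- a Sylow 2-subgroup containing `g4`
  have hg4p : IsPGroup 2 (zpowers g4) := by
    apply IsPGroup.of_card_dvd_pow (n := 2)
    rw [Nat.card_zpowers, hg4]; norm_num
  obtain ⟨T, hTg4⟩ := hg4p.exists_le_sylow
  rw [zpowers_le] at hTg4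
  obtain ⟨Q⟩ : Nonempty (Sylow 3 G) := inferInstance
  obtain ⟨p, V, hp, hVn, hVp, hVc, hV⟩ := Cfsg.Agent.Lib.SolvableNormalP.exists_normal_pSubgroup G
  have hnorm : ∀ A : Subgroup G, A ≤ normalizer (V : Set G) := by
    intro A
    rw [normalizer_eq_top (H := V)]
    exact le_top
  have hpd : p ∣ Nat.card G := by
    have : Fact p.Prime := ⟨hp⟩
    have : Nontrivial V := (nontrivial_iff_ne_bot V).2 hV
    obtain ⟨n, hn, hc⟩ := (IsPGroup.nontrivial_iff_card hVp).mp this
    have h1 := Subgroup.card_subgroup_dvd_card V
    rw [hc] at h1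
    exact (dvd_pow_self p hn.ne').trans h1
  rcases hprimes p hp hpd with rfl | rfl
  · -- `V` is a 2-group
    have hQ : Nat.card Q ∣ 3 := card_dvd_of_fpf p3 hVc hV (hnorm _)
      (inf_centralizer_eq_bot p3 p2 (by norm_num) hno' Q.2 hVp)
      (fun x hx => pow_three' hle Q.2 hx)
    have hQ3 : Nat.card Q = 3 := by
      rcases (Nat.dvd_prime p3).mp hQ with h3 | h3
      · exfalso
        have h4 := Q.dvd_card_of_dvd_card h3dvd
        rw [h3] at h4
        omega
      · exact h3
    have hTidx : (T : Subgroup G).index = 3 := by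
      obtain ⟨a, b, hab⟩ := exists_card_eq (p := 2) (q := 3) (by norm_num) hprimes
      have hcardT : Nat.card (T : Subgroup G) = 2 ^ a := by
        have := T.card_eq_multiplicity
        rw [hab, Nat.factorization_mul (by positivity) (by positivity),
          p2.factorization_pow, p3.factorization_pow] at this
        simpa using this
      have hcardQ : Nat.card (Q : Subgroup G) = 3 ^ b := by
        have := Q.card_eq_multiplicity
        rw [hab, Nat.factorization_mul (by positivity) (by positivity),
          p2.factorization_pow, p3.factorization_pow] at this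
        simpa using this
      have h1 := (T : Subgroup G).card_mul_index
      rw [hab, hcardT] at h1
      have h2 := Nat.eq_of_mul_eq_mul_left (by positivity) h1
      rw [h2, ← hcardQ]
      exact hQ3
    by_cases hTn : (T : Subgroup G).Normal
    · -- the first alternative
      refine ⟨T, hTn, Or.inl ⟨T.2, ?_, ?_, hTidx⟩⟩
      · apply Nat.dvd_antisymm
        · apply Monoid.exponent_dvd_of_forall_pow_eq_one
          intro g
          exact Subtype.ext (pow_four hle T.2 g.2)
        · have h1 := Monoid.order_dvd_exponent (⟨g4, hTg4⟩ : (T : Subgroup G))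
          rw [← Subgroup.orderOf_coe] at h1
          rwa [hg4] at h1
      · have hx3 : g3 ^ 3 = 1 := by rw [← hg3]; exact pow_orderOf_eq_one g3
        have hxn : g3 ∈ normalizer ((T : Subgroup G) : Set G) := by
          rw [normalizer_eq_top (H := (T : Subgroup G))]; exact mem_top _
        have hfix : ∀ u ∈ (T : Subgroup G), g3 * u = u * g3 → u = 1 := fun u hu hc =>
          eq_one_of_commute p3 p2 (by norm_num) hno' (a := g3) (b := u) hc (by rw [hg3]) T.2 hu
        have hfpf := Cfsg.Agent.OddCyclic.FpfThree.fpf3 (Q := (T : Subgroup G)) hxn hx3 hfix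
        have hnil : Group.IsNilpotent (T : Subgroup G) := T.2.isNilpotent
        rw [← Subgroup.lowerCentralSeries_eq_bot_iff_nilpotencyClass_le]
        rw [eq_bot_iff]
        show ⁅⁅(⊤ : Subgroup (T : Subgroup G)), ⊤⁆, (⊤ : Subgroup (T : Subgroup G))⁆ ≤ ⊥
        rw [le_bot_iff, commutator_eq_bot_iff_le_centralizer, commutator_le]
        intro x _ y _
        rw [mem_centralizer_iff]
        intro z _
        have := Cfsg.Agent.OddCyclic.FpfThree.class_two hfpf T.2 x y z
        exact (commutatorElement_eq_one_iff_mul_comm.mp this).symm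
    · -- the second alternative
      set K := (T : Subgroup G).normalCore with hK
      have hKT : K ≤ (T : Subgroup G) := normalCore_le _
      have hKn : K.Normal := inferInstance
      have hKp : IsPGroup 2 K := T.2.to_le hKT
      refine ⟨K, hKn, Or.inr (Or.inl ⟨?_, ?_⟩)⟩
      · -- elementary abelian
        obtain ⟨f, hf⟩ : ∃ f : Q, orderOf f = 3 := by
          have := exists_prime_orderOf_dvd_card' (G := Q) 3 (by rw [hQ3])
          exact this
        have hQz : (Q : Subgroup G) = zpowers (f : G) := by
          have h1 : zpowers (f : G) ≤ Q := by rw [zpowers_le]; exact f.2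
          symm
          apply Subgroup.eq_of_le_of_card_ge h1
          rw [Nat.card_zpowers]
          have : orderOf (f : G) = 3 := by rw [Subgroup.orderOf_coe]; exact hf
          rw [this]
          exact hQ3.le
        have hfo : orderOf (f : G) = 3 := by rw [Subgroup.orderOf_coe]; exact hf
        have hf3 : (f : G) ^ 3 = 1 := orderOf_dvd_iff_pow_eq_one.mp hfo.dvd
        -- an element of `N(Q)` outside `C(Q)`
        have hex : ∃ n ∈ normalizer ((Q : Subgroup G) : Set G),
            n ∉ centralizer ((Q : Subgroup G) : Set G) := by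
          by_contra hcon
          push Not at hcon
          apply hTn
          have hcomp := MonoidHom.ker_transferSylow_isComplement' Q hcon
          set L := (MonoidHom.transferSylow Q hcon).ker with hL
          have hLc : Nat.card L * 3 = Nat.card G := by
            have := hcomp.card_mul_card
            rwa [show Nat.card ((Q : Subgroup G)) = 3 from hQ3] at this
          have hTc : Nat.card (T : Subgroup G) * 3 = Nat.card G := by
            rw [← hTidx]; exact card_mul_index _
          have hLT : Nat.card L = Nat.card (T : Subgroup G) := by omega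
          have hLp : IsPGroup 2 L := by
            obtain ⟨n, hn⟩ := IsPGroup.iff_card.mp T.2
            exact IsPGroup.of_card (n := n) (by rw [hLT]; exact hn)
          have hLn : L.Normal := MonoidHom.normal_ker _
          have h1 : L ≤ (T : Subgroup G) := hLp.le_sylow_of_normal T
          have h2 : L = (T : Subgroup G) := Subgroup.eq_of_le_of_card_ge h1 hLT.ge
          rw [← h2]
          exact hLn
        obtain ⟨t, htN, htC⟩ := hex
        have htfC : ¬ Commute t (f : G) := by
          intro hc
          apply htC
          rw [hQz]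
          rw [mem_centralizer_iff]
          rintro _ ⟨k, rfl⟩
          exact ((hc.zpow_right k).eq).symm
        have htf : t * f * t⁻¹ = (f : G)⁻¹ := by
          have h1 : t * f * t⁻¹ ∈ (Q : Subgroup G) := (mem_normalizer_iff.mp htN f).mp f.2
          rw [hQz, mem_zpowers_iff] at h1
          obtain ⟨k, hk⟩ := h1
          have h2 : (f : G) ^ k = (f : G) ^ (k % 3) := by
            rw [← zpow_mod_orderOf, hfo]; rfl
          rw [h2] at hk
          have h3 : k % 3 = 0 ∨ k % 3 = 1 ∨ k % 3 = 2 := by omega
          rcases h3 with h3 | h3 | h3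
          · exfalso
            rw [h3, zpow_zero] at hk
            have h4 : (f : G) = 1 := by
              calc (f : G) = t⁻¹ * (t * f * t⁻¹) * t := by group
                _ = 1 := by rw [← hk]; group
            rw [h4, orderOf_one] at hfo
            omega
          · exfalso
            rw [h3, zpow_one] at hk
            exact htfC (mul_inv_eq_iff_eq_mul.mp hk.symm)
          · rw [h3] at hk
            rw [← hk]
            have : (f : G) ^ (2 : ℤ) = (f : G) ^ 2 := by norm_cast
            rw [this]
            apply eq_inv_of_mul_eq_one_left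
            rw [← pow_succ, hf3]
        have ht2f : Commute (t * t) (f : G) := by
          have e : (t * t) * f * (t * t)⁻¹ = f := by
            calc (t * t) * f * (t * t)⁻¹ = t * (t * f * t⁻¹) * t⁻¹ := by group
              _ = t * (f : G)⁻¹ * t⁻¹ := by rw [htf]
              _ = (t * f * t⁻¹)⁻¹ := by group
              _ = f := by rw [htf, inv_inv]
          exact mul_inv_eq_iff_eq_mul.mp e
        have ht2 : t * t = 1 := by
          have ho : orderOf t = 1 ∨ orderOf t = 2 ∨ orderOf t = 3 ∨ orderOf t = 4 := by
            have h1 := hle t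
            have h2 := orderOf_pos t
            omega
          rcases ho with ho | ho | ho | ho
          · exfalso
            rw [orderOf_eq_one_iff] at ho
            apply htfC
            rw [ho]
            exact Commute.one_left _
          · rw [← pow_two, ← ho]; exact pow_orderOf_eq_one t
          · exfalso
            apply htfC
            have h1 : t = (t * t) * (t * t) := by
              have := pow_orderOf_eq_one t
              rw [ho, pow_succ, pow_two] at this
              calc t = (t * t * t) * t := by rw [this, one_mul]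
                _ = _ := by group
            rw [h1]
            exact ht2f.mul_left ht2f
          · exfalso
            have h1 : orderOf (t * t) = 2 := by
              rw [← pow_two, orderOf_pow_of_dvd (by norm_num) (by rw [ho]; norm_num), ho]
            have h2 : (f : G) = 1 := by
              apply eq_one_of_commute p2 p3 (by norm_num) hno ht2f (by rw [h1]) Q.2 f.2
            rw [h2, orderOf_one] at hfo
            omega
        have hfpf : ∀ r ∈ K, (f : G) * r = r * f → r = 1 := fun u hu hc =>
          eq_one_of_commute p3 p2 (by norm_num) hno' (a := (f : G)) (b := u) hc (by rw [hfo])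
            hKp hu
        have htp : IsPGroup 2 (zpowers t) := by
          apply IsPGroup.of_card_dvd_pow (n := 1)
          rw [Nat.card_zpowers, pow_one]
          apply orderOf_dvd_of_pow_eq_one
          rw [pow_two, ht2]
        have hKtp : IsPGroup 2 (K ⊔ zpowers t : Subgroup G) := IsPGroup.to_sup_of_normal_left hKp htp
        have hfour : ∀ r ∈ K, (t * r) ^ 4 = 1 := by
          intro r hr
          exact pow_four hle hKtp (mul_mem (mem_sup_right (mem_zpowers t)) (mem_sup_left hr))
        have hyp := DihedralTwo.Hyp.of (p := 3) hKn inferInstance hKp p3 (by norm_num) hf3 ht2 htf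
          hfpf hfour
        refine ⟨⟨⟨fun x y => Subtype.ext (hyp.comm x x.2 y y.2)⟩⟩, ?_⟩
        intro a ha
        rw [pow_two]
        exact hyp.sq_eq_one a ha
      · -- the quotient
        have hker : K = (MulAction.toPermHom G (G ⧸ (T : Subgroup G))).ker := normalCore_eq_ker _
        have hcardP : Nat.card (Equiv.Perm (G ⧸ (T : Subgroup G))) = 6 := by
          rw [Nat.card_perm, ← Subgroup.index_eq_card, hTidx]; rfl
        have hKi : K.index ∣ 6 := by
          rw [hker, index_ker, ← hcardP]
          exact Subgroup.card_subgroup_dvd_card _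
        have hKi3 : 3 ∣ K.index := by
          rw [← hTidx]; exact index_dvd_of_le hKT
        have hKi3' : K.index ≠ 3 := by
          intro h3
          apply hTn
          have : K = (T : Subgroup G) := by
            apply Subgroup.eq_of_le_of_card_ge hKT
            have h1 := K.card_mul_index
            have h2 := (T : Subgroup G).card_mul_index
            rw [h3] at h1
            rw [hTidx] at h2
            omega
          rw [← this]
          exact hKn
        have hKi6 : K.index = 6 := by
          have h1 : K.index ≤ 6 := Nat.le_of_dvd (by norm_num) hKi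
          obtain ⟨m, hm⟩ := hKi3
          have : K.index ≠ 0 := Subgroup.index_ne_zero_of_finite
          omega
        have hrange : (MulAction.toPermHom G (G ⧸ (T : Subgroup G))).range = ⊤ := by
          apply Subgroup.eq_top_of_card_eq
          rw [hcardP, ← index_ker, ← hker, hKi6]
        have e1 : G ⧸ K ≃* G ⧸ (MulAction.toPermHom G (G ⧸ (T : Subgroup G))).ker :=
          QuotientGroup.quotientMulEquivOfEq hker
        have e2 : G ⧸ (MulAction.toPermHom G (G ⧸ (T : Subgroup G))).ker ≃*
            Equiv.Perm (G ⧸ (T : Subgroup G)) :=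
          QuotientGroup.quotientKerEquivOfSurjective _ (MonoidHom.range_eq_top.mp hrange)
        have hcard3 : Nat.card (G ⧸ (T : Subgroup G)) = 3 := by
          rw [← Subgroup.index_eq_card]; exact hTidx
        have e3 : (G ⧸ (T : Subgroup G)) ≃ Fin 3 := Finite.equivFinOfCardEq hcard3
        exact ⟨(e1.trans e2).trans e3.permCongrHom⟩
  · -- `V` is a 3-group
    have hM : pCore 3 G ≠ ⊥ := by
      intro h0
      apply hV
      have := Cfsg.Agent.Lib.Cores.le_pCore hVn hVp
      rw [h0] at this
      exact le_bot_iff.mp this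
    have hMn : (pCore 3 G).Normal := Cfsg.Agent.Lib.Cores.pCore_normal 3
    have hMp : IsPGroup 3 (pCore 3 G) := Cfsg.Agent.Lib.Cores.pCore_isPGroup 3
    have hcomm := core_comm (G := G) p3 (by norm_num) h2dvd hno
    have hQM := isPGroup_quotient p3 (by norm_num) hprimes h2dvd hno hM Q
    obtain ⟨e⟩ := sylow_equiv_quotient p3 (by norm_num) hprimes (pCore 3 G) Q hQM T
    have hU := uniqueP_two p3 (by norm_num) hno hVn hVp hV T.2
    refine ⟨pCore 3 G, hMn, Or.inr (Or.inr ⟨⟨⟨⟨fun x y => Subtype.ext (hcomm x x.2 y y.2)⟩⟩,
      fun a ha => pow_three' hle hMp ha⟩, ?_⟩)⟩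
    rcases Cfsg.Agent.Solvable.UniqueOrderP.cyclic_or_quaternion T.2 hU with hc | ⟨-, m, hm, ⟨e'⟩⟩
    · left
      refine ⟨(MulEquiv.isCyclic e).mp hc, ?_⟩
      rw [Subgroup.index_eq_card, ← Nat.card_congr e.toEquiv]
      obtain ⟨g, hg⟩ := hc.exists_generator
      have h1 : orderOf g = Nat.card T := orderOf_eq_card_of_forall_mem_zpowers hg
      have h2 : orderOf (g : G) ≤ 4 := hle g
      rw [Subgroup.orderOf_coe, h1] at h2
      have h3 : 4 ∣ Nat.card T := by
        have := orderOf_dvd_natCard (⟨g4, hTg4⟩ : T)
        rw [← Subgroup.orderOf_coe] at this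
        rwa [hg4] at this
      exact le_antisymm h2 (Nat.le_of_dvd Nat.card_pos h3)
    · right
      have hm1 : m = 1 := by
        have h1 : orderOf (QuaternionGroup.a 1 : QuaternionGroup (2 ^ m)) = 2 * 2 ^ m :=
          QuaternionGroup.orderOf_a_one
        have h2 : orderOf (e'.symm (QuaternionGroup.a 1)) = 2 * 2 ^ m := by
          exact (MulEquiv.orderOf_eq e'.symm _).trans h1
        have h3 : orderOf ((e'.symm (QuaternionGroup.a 1) : T) : G) ≤ 4 := hle _
        rw [Subgroup.orderOf_coe, h2] at h3
        by_contra hne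
        have h4 : 2 ≤ m := by omega
        have h5 : 2 ^ 2 ≤ 2 ^ m := Nat.pow_le_pow_right (by norm_num) h4
        omega
      subst hm1
      exact ⟨e.symm.trans e'⟩

end Cfsg.Agent.S4006
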