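import Cfsg.Statements.S4007
import Cfsg.Agent.H497.SixOne
import Cfsg.Agent.H497.SixTwo
import Cfsg.Agent.H497.SixThree

set_option autoImplicit false
open Cfsg

namespace Cfsg.Agent.S4007

/-- A finite group G whose set of element orders is exactly {1, 2, 3, 4, 5, 6} satisfies one of: G has a normal elementary abelian 5-subgroup with quotient isomorphic to the dicyclic group of order 12 or to SL(2, 3); G has a normal elementary abelian 2-subgroup with quotient isomorphic to the alternating group of degree 5; G is isomorphic to the symmetric group of degree 5 or of degree 6. -/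
theorem result {G : Type*} [Group G] [Finite G] (h : Set.range (orderOf : G → ℕ) = {k : ℕ | 1 ≤ k ∧ k ≤ 6}) :
    (∃ (N : Subgroup G) (_ : N.Normal), Cfsg.IsElementaryAbelian 5 N ∧
        (Nonempty (G ⧸ N ≃* QuaternionGroup 3) ∨ Nonempty (G ⧸ N ≃* Matrix.SpecialLinearGroup (Fin 2) (ZMod 3)))) ∨
      (∃ (N : Subgroup G) (_ : N.Normal), Cfsg.IsElementaryAbelian 2 N ∧ Nonempty (G ⧸ N ≃* ↥(alternatingGroup (Fin 5)))) ∨
      Nonempty (G ≃* Equiv.Perm (Fin 5)) ∨ Nonempty (G ≃* Equiv.Perm (Fin 6)) := by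
  have hle : ∀ g : G, orderOf g ≤ 6 := by
    intro g
    have h1 : orderOf g ∈ Set.range (orderOf : G → ℕ) := ⟨g, rfl⟩
    rw [h] at h1
    exact h1.2
  have hex : ∀ k : ℕ, 1 ≤ k → k ≤ 6 → ∃ g : G, orderOf g = k := by
    intro k h1 h2
    have h3 : k ∈ Set.range (orderOf : G → ℕ) := by
      rw [h]
      exact ⟨h1, h2⟩
    exact h3
  have h5 : 5 ∣ Nat.card G := by
    obtain ⟨g, hg⟩ := hex 5 (by norm_num) (by norm_num)
    rw [← hg]
    exact orderOf_dvd_natCard g
  have h3 : 3 ∣ Nat.card G := by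
    obtain ⟨g, hg⟩ := hex 3 (by norm_num) (by norm_num)
    rw [← hg]
    exact orderOf_dvd_natCard g
  have h4 := hex 4 (by norm_num) (by norm_num)
  have h6 := hex 6 (by norm_num) (by norm_num)
  by_cases h5c : Cfsg.pCore 5 G = ⊥
  · have hNn : (Cfsg.pPrimeCore 5 G).Normal := Cfsg.Agent.Lib.Cores.pPrimeCore_normal 5
    have hN5 := Cfsg.Agent.Lib.Cores.pPrimeCore_coprime (G := G) 5
    by_cases hX5 : Cfsg.pCore 5 (G ⧸ Cfsg.pPrimeCore 5 G) = ⊥
    · right
      apply Cfsg.Agent.H497.Six.case_three hle h6 h5 (Cfsg.pPrimeCore 5 G) hN5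
      exact Cfsg.Agent.H497.Six.radTriv_of hX5
        (Cfsg.Agent.Lib.Cores.pPrimeCore_quotient_pPrimeCore 5)
    · exfalso
      refine Cfsg.Agent.H497.Six.case_two hle h3 h4 (Cfsg.pPrimeCore 5 G) hN5 ?_ hX5
      intro h0
      apply hX5
      have e : G ⧸ Cfsg.pPrimeCore 5 G ≃* G :=
        (QuotientGroup.quotientMulEquivOfEq h0).trans QuotientGroup.quotientBot
      have h1 := Cfsg.Agent.Lib.Cores.map_equiv_pCore e.symm 5
      rw [h5c, Subgroup.map_bot] at h1
      exact h1.symm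
  · left
    exact Cfsg.Agent.H497.Six.case_one hle h3 h4 h5c

end Cfsg.Agent.S4007
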