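import Cfsg.Statements.S4203
import Cfsg.Agent.S0144
import Cfsg.Agent.SmallSimple.RelSylow

set_option autoImplicit false
open Cfsg

namespace Cfsg.Agent.S4203

universe u

/-- numbers all of whose prime factors are at most three -/
theorem exists_two_three {n : ℕ} (hn : n ≠ 0) (h : ∀ q : ℕ, q.Prime → q ∣ n → q ≤ 3) :
    ∃ a b : ℕ, n = 2 ^ a * 3 ^ b := by
  refine ⟨n.factorization 2, n.factorization 3, ?_⟩
  have h1 : n.primeFactors ⊆ {2, 3} := by
    intro q hq
    have hq' := Nat.prime_of_mem_primeFactors hq
    have := h q hq' (Nat.dvd_of_mem_primeFactors hq)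
    have h2 := hq'.two_le
    have : q = 2 ∨ q = 3 := by omega
    simpa using this
  conv_lhs => rw [← Nat.prod_factorization_pow_eq_self hn]
  rw [Finsupp.prod_of_support_subset _ (s := {2, 3}) (by simpa using h1) _ (by simp)]
  rw [Finset.prod_pair (by norm_num)]

theorem main (n : ℕ) : ∀ {G : Type u} [Group G] [Finite G]
    (_ : ∀ M : Subgroup G, IsCoatom M → ∃ p : ℕ, p.Prime ∧ (M.index = p ∨ M.index = p ^ 2))
    (_ : Nat.card G = n), Group.IsSolvable G := by
  induction n using Nat.strong_induction_on with
  | _ n ih =>
    intro G _ _ h hn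
    rcases subsingleton_or_nontrivial G with hG | hG
    · infer_instance
    have hcard1 : Nat.card G ≠ 1 := by
      have := Finite.one_lt_card (α := G)
      omega
    have hne : (Nat.card G).primeFactors.Nonempty := by
      rw [Nat.nonempty_primeFactors]
      exact Finite.one_lt_card
    set p := (Nat.card G).primeFactors.max' hne with hp
    have hpm : p ∈ (Nat.card G).primeFactors := Finset.max'_mem _ hne
    have hpp : p.Prime := Nat.prime_of_mem_primeFactors hpm
    have hmax : ∀ q : ℕ, q.Prime → q ∣ Nat.card G → q ≤ p := fun q hq hd =>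
      Finset.le_max' _ _ (Nat.mem_primeFactors.2 ⟨hq, hd, Nat.card_pos.ne'⟩)
    have : Fact p.Prime := ⟨hpp⟩
    obtain ⟨P⟩ : Nonempty (Sylow p G) := inferInstance
    have hPne : (P : Subgroup G) ≠ ⊥ := P.ne_bot_of_dvd_card (Nat.dvd_of_mem_primeFactors hpm)
    by_cases hN : Subgroup.normalizer ((P : Subgroup G) : Set G) = ⊤
    · have hPn : (P : Subgroup G).Normal := Subgroup.normalizer_eq_top_iff.1 hN
      have h1 : Group.IsSolvable (P : Subgroup G) := by
        have : Group.IsNilpotent (P : Subgroup G) := P.isPGroup'.isNilpotent
        infer_instance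
      have h2 : Nat.card (G ⧸ (P : Subgroup G)) < n := by
        rw [← hn, ← Subgroup.card_mul_index (P : Subgroup G), ← Subgroup.index_eq_card]
        have hIpos : 0 < (P : Subgroup G).index := Nat.pos_of_ne_zero (Subgroup.index_ne_zero_of_finite)
        refine lt_mul_of_one_lt_left hIpos ?_
        have h3 : Nat.card (P : Subgroup G) ≠ 1 := fun h => hPne (Subgroup.eq_bot_of_card_eq _ h)
        have h4 : 0 < Nat.card (P : Subgroup G) := Nat.card_pos
        omega
      refine (Group.isSolvable_iff_subgroup_quotient (P : Subgroup G)).2 ⟨h1, ih _ h2 ?_ rfl⟩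
      intro M hM
      have h5 := Subgroup.isCoatom_comap_of_surjective (QuotientGroup.mk'_surjective (P : Subgroup G)) hM
      have h6 := h _ h5
      rwa [Subgroup.index_comap_of_surjective _ (QuotientGroup.mk'_surjective (P : Subgroup G))] at h6
    · obtain ⟨M, hM, hNM⟩ := (eq_top_or_exists_le_coatom _).resolve_left hN
      have hPM : (P : Subgroup G) ≤ M := Subgroup.le_normalizer.trans hNM
      have h1 : M.index ≡ 1 [MOD p] := by
        have e1 := SmallSimple.RelSylow.relIndex_modEq_one P M hPM
        have e2 := SmallSimple.RelSylow.relIndex_modEq_one P ⊤ le_top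
        rw [Subgroup.relIndex_top_right, ← Subgroup.relIndex_mul_index hNM] at e2
        have e3 := (e1.mul_right M.index).symm.trans e2
        rwa [one_mul] at e3
      obtain ⟨q, hq, hidx⟩ := h M hM
      have hqd : q ∣ Nat.card G := by
        refine dvd_trans ?_ M.index_dvd_card
        rcases hidx with h2 | h2
        · rw [h2]
        · rw [h2]; exact dvd_pow_self q two_ne_zero
      have hqp : q ≤ p := hmax q hq hqd
      have hq2 := hq.two_le
      have hp2 := hpp.two_le
      rcases hidx with h2 | h2
      · rw [h2] at h1
        exfalso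
        have h3 : p ∣ q - 1 := (Nat.modEq_iff_dvd' (by omega)).1 h1.symm
        have h4 := Nat.le_of_dvd (by omega) h3
        omega
      · rw [h2] at h1
        have h3 : p ∣ q ^ 2 - 1 := (Nat.modEq_iff_dvd' (Nat.one_le_pow _ _ (by omega))).1 h1.symm
        have h4 : q ^ 2 - 1 = (q + 1) * (q - 1) := by
          have := Nat.sq_sub_sq q 1
          simpa using this
        rw [h4] at h3
        have h5 : p ∣ q + 1 := by
          rcases hpp.dvd_mul.1 h3 with h5 | h5
          · exact h5
          · have h6 := Nat.le_of_dvd (by omega) h5
            omega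
        have h6 : q ≠ p := by
          rintro hqp'
          rw [hqp'] at h5
          have h7 : p ∣ 1 := (Nat.dvd_add_right (dvd_refl p)).1 h5
          have h8 := Nat.le_of_dvd (by omega) h7
          omega
        have h7 := Nat.le_of_dvd (by omega) h5
        have h8 : p = q + 1 := by omega
        have h9 : q = 2 := by
          by_contra hne2
          have ho := hq.eq_two_or_odd'.resolve_left hne2
          have ho' := hpp.eq_two_or_odd'.resolve_left (by omega)
          rw [h8] at ho'
          rcases ho with ⟨k, hk⟩
          rcases ho' with ⟨l, hl⟩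
          omega
        have h10 : p = 3 := by omega
        obtain ⟨a, b, hab⟩ := exists_two_three (Nat.card_pos (α := G)).ne' (by
          intro r hr hrd
          have := hmax r hr hrd
          omega)
        exact Cfsg.Agent.S0144.result 2 3 a b Nat.prime_two Nat.prime_three hab


/-- A finite group in which every maximal subgroup has index a prime or the square of a prime is solvable. -/
theorem result {G : Type*} [Group G] [Finite G] (h : ∀ M : Subgroup G, IsCoatom M → ∃ p : ℕ, p.Prime ∧ (M.index = p ∨ M.index = p ^ 2)) : Group.IsSolvable G :=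
  main (Nat.card G) h rfl

end Cfsg.Agent.S4203
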