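import Cfsg.Statements.S4204
import Cfsg.Agent.Lib.Cores

set_option autoImplicit false
open Cfsg

namespace Cfsg.Agent.S4204

/-- If `H` and `K` are normal subgroups of a finite group with `H` nilpotent of class at most `c` and `K` nilpotent of class at most `d` (the terms with index `c`, respectively `d`, of their lower central series are trivial, indices starting at `0`), then `HK` is nilpotent of class at most `c + d`. -/
theorem result {G : Type*} [Group G] [Finite G] (H K : Subgroup G) [H.Normal] [K.Normal] (c d : ℕ) (hH : H.lowerCentralSeries c = ⊥) (hK : K.lowerCentralSeries d = ⊥) : (H ⊔ K).lowerCentralSeries (c + d) = ⊥ := by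
  rw [eq_bot_iff]
  refine (Cfsg.Agent.Lib.Cores.lowerCentralSeries_sup_le H K (c + d)).trans ?_
  refine iSup_le fun i => ?_
  by_cases hi : c + 1 ≤ (i : ℕ)
  · refine inf_le_left.trans ?_
    obtain ⟨m, hm⟩ := Nat.exists_eq_add_of_le hi
    have h1 : (i : ℕ) = (c + m) + 1 := by omega
    rw [h1, Cfsg.Agent.Lib.Cores.lcs_succ, ← hH]
    exact H.lowerCentralSeries_antitone (Nat.le_add_right _ _)
  · refine inf_le_right.trans ?_
    have h2 : d + 1 ≤ c + d + 1 - (i : ℕ) := by omega
    obtain ⟨m, hm⟩ := Nat.exists_eq_add_of_le h2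
    have h1 : c + d + 1 - (i : ℕ) = (d + m) + 1 := by omega
    rw [h1, Cfsg.Agent.Lib.Cores.lcs_succ, ← hK]
    exact K.lowerCentralSeries_antitone (Nat.le_add_right _ _)

end Cfsg.Agent.S4204
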