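import Cfsg.Statements.S4205

set_option autoImplicit false
open Cfsg

namespace Cfsg.Agent.S4205

theorem step {G : Type*} [Group G] (n : ℕ) (H : Subgroup G) :
    Subgroup.upperCentralSeries G n ≤
      (fun K : Subgroup G => Subgroup.normalizer (K : Set G))^[n] H := by
  induction n with
  | zero => simp
  | succ n ih =>
    rw [Function.iterate_succ_apply']
    set K := (fun K : Subgroup G => Subgroup.normalizer (K : Set G))^[n] H
    intro x hx
    rw [Subgroup.mem_upperCentralSeries_succ_iff] at hx
    rw [Subgroup.mem_normalizer_iff]
    intro y
    constructor
    · intro hy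
      have h1 : x * y * x⁻¹ * y⁻¹ ∈ K := ih (hx y)
      have h2 := K.mul_mem h1 hy
      simpa using h2
    · intro hy
      have h1 : x * y * x⁻¹ * y⁻¹ ∈ K := ih (hx y)
      have h2 := K.mul_mem (K.inv_mem h1) hy
      simpa [mul_assoc] using h2

/-- In a finite group whose upper central series reaches the whole group at step `c` (nilpotent of class at most `c`), starting from any subgroup and taking normalizers `c` times reaches the whole group. -/
theorem result {G : Type*} [Group G] [Finite G] (c : ℕ) (hG : Subgroup.upperCentralSeries G c = ⊤) (H : Subgroup G) : (fun K : Subgroup G => Subgroup.normalizer (K : Set G))^[c] H = ⊤ := by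
  rw [eq_top_iff, ← hG]
  exact step c H

end Cfsg.Agent.S4205
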