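import Cfsg.Statements.S4217
import Cfsg.Agent.S0051

set_option autoImplicit false
open Cfsg

namespace Cfsg.Agent.S4217

/-- The elements of an abelian normal subgroup killed by `m`. -/
def tor {G : Type*} [Group G] (A : Subgroup G) (hA : IsMulCommutative A) (m : ℕ) : Subgroup G where
  carrier := {x | x ∈ A ∧ x ^ m = 1}
  mul_mem' := by
    rintro a b ⟨ha, ha'⟩ ⟨hb, hb'⟩
    refine ⟨A.mul_mem ha hb, ?_⟩
    have hc : Commute a b := by
      have := hA.is_comm.comm (⟨a, ha⟩ : A) ⟨b, hb⟩
      exact congrArg Subtype.val this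
    rw [hc.mul_pow, ha', hb', one_mul]
  one_mem' := ⟨A.one_mem, one_pow _⟩
  inv_mem' := by
    rintro a ⟨ha, ha'⟩
    exact ⟨A.inv_mem ha, by rw [inv_pow, ha', inv_one]⟩

theorem mem_tor {G : Type*} [Group G] {A : Subgroup G} {hA : IsMulCommutative A} {m : ℕ} {x : G} :
    x ∈ tor A hA m ↔ x ∈ A ∧ x ^ m = 1 := Iff.rfl

theorem tor_normal {G : Type*} [Group G] (A : Subgroup G) [A.Normal] (hA : IsMulCommutative A)
    (m : ℕ) : (tor A hA m).Normal := by
  constructor
  rintro x ⟨hx, hx'⟩ g
  refine ⟨Subgroup.Normal.conj_mem inferInstance x hx g, ?_⟩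
  rw [conj_pow, hx', mul_one, mul_inv_cancel]

/-- the `p`-part of a complement -/
theorem key {G : Type*} [Group G] [Finite G] (A : Subgroup G) [A.Normal]
    (hA : IsMulCommutative A) {p : ℕ} (hp : p.Prime) (U K : Subgroup G) (hU : ¬ p ∣ U.index)
    (hK : K ⊓ A = ⊥) (hKU : K ⊔ A = U) :
    ∃ H : Subgroup G, H.index = p ^ (Nat.card A).factorization p ∧
      ¬ p ∣ Nat.card (H ⊓ A : Subgroup G) := by
  have hpf : Fact p.Prime := ⟨hp⟩
  have hA0 : Nat.card A ≠ 0 := Nat.card_pos.ne'
  set a := p ^ (Nat.card A).factorization p with ha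
  set m := Nat.card A / a with hm
  have ham : a * m = Nat.card A := Nat.ordProj_mul_ordCompl_eq_self _ _
  have hpm : ¬ p ∣ m := Nat.not_dvd_ordCompl hp hA0
  set B := tor A hA m with hB
  have hBn : B.Normal := tor_normal A hA m
  have hBA : B ≤ A := fun x hx => hx.1
  -- the order of `B` is prime to `p`
  have hpB : ¬ p ∣ Nat.card B := by
    intro h
    obtain ⟨x, hx⟩ := exists_prime_orderOf_dvd_card' p h
    have h1 : (x : G) ^ m = 1 := x.2.2
    have h2 : x ^ m = 1 := Subtype.ext h1
    have := orderOf_dvd_of_pow_eq_one h2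
    rw [hx] at this
    exact hpm this
  let π : G →* G ⧸ B := QuotientGroup.mk' B
  have hπs : Function.Surjective π := QuotientGroup.mk'_surjective B
  have hker : π.ker = B := QuotientGroup.ker_mk' B
  -- `A / B` is a `p`-group of order `a`
  have hAbp : IsPGroup p (A.map π) := by
    rintro ⟨_, x, hx, rfl⟩
    refine ⟨(Nat.card A).factorization p, Subtype.ext ?_⟩
    show π x ^ a = 1
    rw [← map_pow]
    have h3 : x ^ a ∈ B := by
      refine ⟨A.pow_mem hx a, ?_⟩
      rw [← pow_mul, ham]
      have : (⟨x, hx⟩ : A) ^ Nat.card A = 1 := pow_card_eq_one'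
      exact congrArg Subtype.val this
    exact (QuotientGroup.eq_one_iff _).2 h3
  have hcardA : Nat.card (A.map π) * Nat.card B = Nat.card A := by
    have h4 := Subgroup.card_mul_index (B.subgroupOf A)
    have h5 : Nat.card (B.subgroupOf A) = Nat.card B :=
      Nat.card_congr (Subgroup.subgroupOfEquivOfLe hBA).toEquiv
    have h6 : (B.subgroupOf A).index = Nat.card (A.map π) := by
      have h7 : B.relIndex A = Nat.card (A.map π) := by
        have h7' := Subgroup.relIndex_ker A π
        rw [hker] at h7'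
        exact h7'
      exact h7
    rw [h5, h6] at h4
    rw [mul_comm]; exact h4
  have hcA : Nat.card (A.map π) = a := by
    obtain ⟨k, hk⟩ := IsPGroup.iff_card.1 hAbp
    have h8 : a ∣ Nat.card (A.map π) := by
      have h9 : a ∣ Nat.card (A.map π) * Nat.card B := by rw [hcardA]; exact ⟨m, ham.symm⟩
      have h10 : Nat.Coprime a (Nat.card B) :=
        Nat.Coprime.pow_left _ ((Nat.Prime.coprime_iff_not_dvd hp).2 hpB)
      exact h10.dvd_of_dvd_mul_right h9
    have h11 : Nat.card (A.map π) ∣ a := by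
      have h12 : Nat.card (A.map π) ∣ a * m := by rw [ham, ← hcardA]; exact dvd_mul_right _ _
      have h13 : Nat.Coprime (Nat.card (A.map π)) m := by
        rw [hk]
        exact Nat.Coprime.pow_left _ ((Nat.Prime.coprime_iff_not_dvd hp).2 hpm)
      exact h13.dvd_of_dvd_mul_right h12
    exact Nat.dvd_antisymm h11 h8
  have hAbn : (A.map π).Normal := Subgroup.Normal.map inferInstance π hπs
  have hAbc : IsMulCommutative (A.map π) := by
    refine ⟨⟨?_⟩⟩
    rintro ⟨_, x, hx, rfl⟩ ⟨_, y, hy, rfl⟩
    apply Subtype.ext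
    show π x * π y = π y * π x
    have h14 : x * y = y * x := congrArg Subtype.val (hA.is_comm.comm (⟨x, hx⟩ : A) ⟨y, hy⟩)
    rw [← map_mul, ← map_mul, h14]
  have hAU : A ≤ U := by rw [← hKU]; exact le_sup_right
  have hUidx : (U.map π).index = U.index := by
    exact Subgroup.index_map_eq _ hπs (by rw [hker]; exact hBA.trans hAU)
  obtain ⟨H, hH⟩ := Cfsg.Agent.S0051.result (A.map π) (U.map π) (Subgroup.map_mono hAU)
    (by
      rw [hcA, hUidx]
      exact Nat.Coprime.pow_left _ ((Nat.Prime.coprime_iff_not_dvd hp).2 hU))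
    (K.map π) (Subgroup.map_mono (by rw [← hKU]; exact le_sup_left))
    (by
      rw [eq_bot_iff]
      rintro _ ⟨⟨k, hk, rfl⟩, ⟨x, hx, hxk⟩⟩
      have h15 : k⁻¹ * x ∈ B := by
        rw [← QuotientGroup.eq]
        exact hxk.symm
      have h16 : k ∈ A := by
        have := A.mul_mem hx (A.inv_mem (hBA h15))
        simpa using this
      have h17 : k ∈ K ⊓ A := ⟨hk, h16⟩
      rw [hK] at h17
      rw [Subgroup.mem_bot.1 h17, map_one]
      exact Subgroup.one_mem _)
    (by rw [← Subgroup.map_sup, sup_comm, hKU])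
  refine ⟨H.comap π, ?_, ?_⟩
  · rw [Subgroup.index_comap_of_surjective _ hπs, ← hcA]
    exact hH.index_eq_card
  · have hle : H.comap π ⊓ A ≤ B := by
      rintro x ⟨hx1, hx2⟩
      have h18 : π x ∈ A.map π ⊓ H := ⟨⟨x, hx2, rfl⟩, hx1⟩
      rw [disjoint_iff.1 hH.disjoint] at h18
      exact (QuotientGroup.eq_one_iff x).1 (Subgroup.mem_bot.1 h18)
    intro h
    exact hpB (h.trans (Subgroup.card_dvd_of_le hle))

/-- Let `A` be an abelian normal subgroup of the finite group `G`. Then `A` has a complement in `G` if and only if, for every prime `p` dividing the index of `A`, there are a Sylow `p`-subgroup `S` of `G/A` and a subgroup `K` of `G` with `K ∩ A = 1` and `KA` equal to the preimage of `S` (that is, `A` has a complement in the preimage of a Sylow `p`-subgroup of `G/A`). -/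
theorem result {G : Type*} [Group G] [Finite G] (A : Subgroup G) [A.Normal] (hA : IsMulCommutative A) : (∃ K : Subgroup G, K.IsComplement' A) ↔ ∀ p : ℕ, p.Prime → p ∣ A.index → ∃ (S : Sylow p (G ⧸ A)) (K : Subgroup G), K ⊓ A = ⊥ ∧ K ⊔ A = (S : Subgroup (G ⧸ A)).comap (QuotientGroup.mk' A) := by
  constructor
  · rintro ⟨K, hK⟩ p hp hpd
    have hpf : Fact p.Prime := ⟨hp⟩
    obtain ⟨S⟩ : Nonempty (Sylow p (G ⧸ A)) := inferInstance
    refine ⟨S, K ⊓ (S : Subgroup (G ⧸ A)).comap (QuotientGroup.mk' A), ?_, ?_⟩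
    · rw [eq_bot_iff]
      refine (inf_le_inf_right A inf_le_left).trans ?_
      rw [disjoint_iff.1 hK.disjoint]
    · have hAS : A ≤ (S : Subgroup (G ⧸ A)).comap (QuotientGroup.mk' A) := by
        intro x hx
        rw [Subgroup.mem_comap, QuotientGroup.mk'_apply, (QuotientGroup.eq_one_iff x).2 hx]
        exact Subgroup.one_mem _
      apply le_antisymm
      · exact sup_le inf_le_right hAS
      · intro x hx
        have h1 : x ∈ (K ⊔ A : Subgroup G) := by rw [hK.sup_eq_top]; trivial
        obtain ⟨k, hk, b, hb, rfl⟩ := Subgroup.mem_sup_of_normal_right.1 h1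
        refine Subgroup.mul_mem_sup ⟨hk, ?_⟩ hb
        have h2 := Subgroup.mul_mem _ hx (Subgroup.inv_mem _ (hAS hb))
        rw [mul_inv_cancel_right] at h2
        exact h2
  · intro h
    have hA0 : Nat.card A ≠ 0 := Nat.card_pos.ne'
    have h1 : ∀ p : ℕ, p.Prime → ∃ H : Subgroup G,
        H.index = p ^ (Nat.card A).factorization p ∧ ¬ p ∣ Nat.card (H ⊓ A : Subgroup G) := by
      intro p hp
      by_cases hpd : p ∣ A.index
      · obtain ⟨S, K, hK, hKS⟩ := h p hp hpd
        have hpf : Fact p.Prime := ⟨hp⟩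
        refine key A hA hp _ K ?_ hK hKS
        rw [Subgroup.index_comap_of_surjective _ (QuotientGroup.mk'_surjective A)]
        exact S.not_dvd_index
      · exact key A hA hp A ⊥ hpd (by simp) (by simp)
    let Hf : (Nat.card A).primeFactors → Subgroup G := fun p =>
      Classical.choose (h1 p (Nat.prime_of_mem_primeFactors p.2))
    have hHf : ∀ p : (Nat.card A).primeFactors,
        (Hf p).index = (p : ℕ) ^ (Nat.card A).factorization p ∧
          ¬ (p : ℕ) ∣ Nat.card (Hf p ⊓ A : Subgroup G) := fun p =>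
      Classical.choose_spec (h1 p (Nat.prime_of_mem_primeFactors p.2))
    let L : Subgroup G := ⨅ p, Hf p
    have hprod : ∏ p : (Nat.card A).primeFactors, (Hf p).index = Nat.card A := by
      rw [Finset.prod_congr rfl (fun p _ => (hHf p).1)]
      rw [Finset.prod_coe_sort (Nat.card A).primeFactors
        (fun p => p ^ (Nat.card A).factorization p)]
      exact Nat.factorization_prod_pow_eq_self hA0
    have hLA : L ⊓ A = ⊥ := by
      rw [← Subgroup.card_eq_one]
      by_contra hne
      obtain ⟨q, hq, hqd⟩ := Nat.exists_prime_and_dvd hne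
      have hqA : q ∣ Nat.card A := hqd.trans (Subgroup.card_dvd_of_le inf_le_right)
      have hqm : q ∈ (Nat.card A).primeFactors := Nat.mem_primeFactors.2 ⟨hq, hqA, hA0⟩
      refine (hHf ⟨q, hqm⟩).2 (hqd.trans (Subgroup.card_dvd_of_le ?_))
      exact inf_le_inf_right _ (iInf_le _ _)
    have hLi : L.index = Nat.card A := by
      apply le_antisymm
      · rw [← hprod]
        exact Subgroup.index_iInf_le Hf
      · refine Nat.le_of_dvd (Nat.pos_of_ne_zero Subgroup.index_ne_zero_of_finite) ?_
        rw [← hprod]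
        refine Finset.prod_dvd_of_isRelPrime ?_ ?_
        · intro p _ q _ hpq
          rw [Function.onFun, (hHf p).1, (hHf q).1, ← Nat.coprime_iff_isRelPrime]
          refine Nat.Coprime.pow _ _ ?_
          rw [Nat.coprime_primes (Nat.prime_of_mem_primeFactors p.2)
            (Nat.prime_of_mem_primeFactors q.2)]
          intro h2
          exact hpq (Subtype.ext h2)
        · intro p _
          exact Subgroup.index_dvd_of_le (iInf_le _ _)
    refine ⟨L, ?_⟩
    apply Subgroup.isComplement'_of_card_mul_and_disjoint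
    · rw [← hLi]; exact L.card_mul_index
    · rw [disjoint_iff]; exact hLA

end Cfsg.Agent.S4217
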