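import Cfsg.Statements.S4220
import Cfsg.Agent.H544.MillerE
import Cfsg.Agent.S0415
import Cfsg.Agent.S0416
import Cfsg.Agent.S0417

set_option autoImplicit false
open Cfsg

namespace Cfsg.Agent.S4220

open Cfsg.Agent.H544.MillerB Cfsg.Agent.H544.MillerC Cfsg.Agent.H544.MillerD
  Cfsg.Agent.H544.MillerE

/-- Let `n = kp + r` with `p` prime, `1 ≤ k < p` and `r > k`, excluding the case `k = 1, r = 2`. Then a permutation group of degree `n` that is `(r + 1)`-fold transitive contains the alternating group. -/
theorem result {α : Type*} [Fintype α] [DecidableEq α] (G : Subgroup (Equiv.Perm α)) {k p r : ℕ} (hp : p.Prime) (hn : Fintype.card α = k * p + r) (hk : 1 ≤ k) (hpk : k < p) (hrk : k < r) (hex : ¬ (k = 1 ∧ r = 2)) (hG : MulAction.IsMultiplyPretransitive G α (r + 1)) : alternatingGroup α ≤ G := by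
  have hr : 3 ≤ r := by omega
  have hkp : 1 ≤ k * p := Nat.mul_pos hk hp.pos
  -- if `n ≤ r + 3` the group is `(n-2)`-transitive
  have hsmall : Fintype.card α ≤ r + 3 → alternatingGroup α ≤ G := by
    intro hle
    apply IsMultiplyPretransitive.alternatingGroup_le
    rw [Nat.card_eq_fintype_card]
    exact mono (by omega) (by omega) hG
  rcases lt_or_ge p 5 with hp5 | hp5
  · have hp23 : p = 2 ∨ p = 3 := by
      have := hp.two_le
      have h4 : p ≠ 4 := by rintro rfl; exact absurd hp (by norm_num)
      omega
    rcases hp23 with rfl | rfl
    · have : k = 1 := by omega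
      subst this
      exact hsmall (by omega)
    · have hk12 : k = 1 ∨ k = 2 := by omega
      rcases hk12 with rfl | rfl
      · exact hsmall (by omega)
      · by_cases hsh : ∃ x : Fin (r + 1) ↪ α, MulAction.stabilizer G x ≠ ⊥
        · obtain ⟨x, hx⟩ := hsh
          obtain ⟨⟨⟨g, hg⟩, hgx⟩, hne'⟩ := Subgroup.ne_bot_iff_exists_ne_one.mp hx
          have hne : g ≠ 1 := fun h' => hne' (Subtype.ext (Subtype.ext h'))
          have hfix : ∀ i, g (x i) = x i := by
            intro i
            have := DFunLike.congr_fun hgx i
            exact this
          have hsupp : g.support.card < 2 * (r + 1) - 2 := by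
            have h1 : Disjoint g.support (Finset.univ.map x) := by
              rw [Finset.disjoint_left]
              intro y hy hy'
              rw [Finset.mem_map] at hy'
              obtain ⟨i, _, rfl⟩ := hy'
              exact (Equiv.Perm.mem_support.mp hy) (hfix i)
            have h2 : (g.support ∪ Finset.univ.map x).card ≤ Fintype.card α :=
              Finset.card_le_univ _
            rw [Finset.card_union_of_disjoint h1, Finset.card_map, Finset.card_univ,
              Fintype.card_fin] at h2
            omega
          exact (Cfsg.Agent.S0711.result G (k := r + 1) (by omega) (by omega) hG g hg hne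
            hsupp).2
        · exfalso
          push Not at hsh
          rcases (show r = 3 ∨ r = 4 ∨ 5 ≤ r by omega) with rfl | rfl | h5
          · have := Cfsg.Agent.S0415.result G (by omega) hsh
            omega
          · have := Cfsg.Agent.S0416.result G (by omega) hsh
            omega
          · have := Cfsg.Agent.S0417.result G (r + 1) (by omega) (by omega) hsh
            omega
  · -- the main case
    obtain ⟨x0⟩ : Nonempty (Fin r ↪ α) := by
      rw [Function.Embedding.nonempty_iff_card_le, Fintype.card_fin]
      omega
    obtain ⟨P, hPG, hS, hsurj⟩ := exists_setup G hp hn hk hpk hG x0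
    have hcard : Set.ncard (Set.range x0) = r := by
      rw [← Set.image_univ, Set.ncard_image_of_injective _ x0.injective, Set.ncard_univ,
        Nat.card_fin]
    have hcardc : Set.ncard (Set.range x0)ᶜ = k * p := by
      have h2 := Set.ncard_add_ncard_compl (Set.range x0)
      rw [hcard, Nat.card_eq_fintype_card, hn] at h2
      omega
    have C : Ctx G P (Set.range x0) p k r :=
      { hp := hp
        S := hS
        PG := hPG
        card := hcard
        cardc := hcardc
        surj := by
          intro σ
          let e : Fin r ≃ Set.range x0 := Equiv.ofInjective x0 x0.injective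
          obtain ⟨n, hnG, hnP, hnx⟩ := hsurj ((e.trans σ).trans e.symm)
          refine ⟨n, ⟨hnG, hnP⟩, ?_⟩
          intro x
          obtain ⟨i, rfl⟩ := e.surjective x
          have h1 : ((e i : Set.range x0) : α) = x0 i := rfl
          have h2 : (σ (e i) : α) = x0 (e.symm (σ (e i))) := by
            have h3 : ∀ y : Set.range x0, (y : α) = x0 (e.symm y) := by
              intro y
              obtain ⟨j, rfl⟩ := e.surjective y
              rw [Equiv.symm_apply_apply]; rfl
            exact h3 _
          rw [h1, hnx i, h2]
          rfl
        hG := hG
        hr := hr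
        hk := hk
        hrk := hrk
        hp5 := hp5 }
    exact main5 C

end Cfsg.Agent.S4220
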