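import Cfsg.Statements.S4221
import Cfsg.Agent.H544.HallG
import Cfsg.Agent.S0415

set_option autoImplicit false
open Cfsg

namespace Cfsg.Agent.S4221

open Equiv Equiv.Perm MulAction Cfsg.Agent.H544.HallA

theorem eq_alt {α : Type*} [Fintype α] [DecidableEq α] {G : Subgroup (Equiv.Perm α)}
    (h6 : 6 ≤ Fintype.card α) (H : Hyp G) (hA : alternatingGroup α ≤ G) :
    G = alternatingGroup α := by
  apply le_antisymm _ hA
  intro g hg
  by_contra hne
  -- a transposition is in `G`
  obtain ⟨w, x, hwx⟩ : ∃ w x : α, w ≠ x := by
    have : 1 < Fintype.card α := by omega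
    exact Fintype.one_lt_card_iff.mp this
  have hs : swap w x ∈ G := by
    have h1 : swap w x * g⁻¹ ∈ alternatingGroup α := by
      rw [Equiv.Perm.mem_alternatingGroup] at hne ⊢
      have h2 := (Int.units_eq_one_or (Equiv.Perm.sign g)).resolve_left hne
      rw [map_mul, map_inv, sign_swap hwx, h2]
      rfl
    have h2 := mul_mem (hA h1) hg
    rwa [inv_mul_cancel_right] at h2
  have h3 := H.support_ge hs (swap_mul_self w x) (by
    intro h
    have : swap w x w = w := by rw [h]; rfl
    rw [swap_apply_left] at this
    exact hwx this.symm)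
  rw [card_support_swap hwx] at h3
  omega

/-- Let `G` be a `4`-fold transitive permutation group on a finite set of `n` points in which the pointwise stabilizer of some four distinct points has odd order. Then `n = 4` or `n = 5` with `G` the full symmetric group, or `n = 6` or `n = 7` with `G` the alternating group, or `n = 11` and `G` has order `7920`. -/
theorem result {α : Type*} [Fintype α] [DecidableEq α] (G : Subgroup (Equiv.Perm α)) (hG : MulAction.IsMultiplyPretransitive G α 4) (x : Fin 4 ↪ α) (hodd : Odd (Nat.card (MulAction.stabilizer G x))) : ((Fintype.card α = 4 ∨ Fintype.card α = 5) ∧ G = ⊤) ∨ ((Fintype.card α = 6 ∨ Fintype.card α = 7) ∧ G = alternatingGroup α) ∨ (Fintype.card α = 11 ∧ Nat.card G = 7920) := by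
  have H := Hyp.mk' G hG x hodd
  have h4 : 4 ≤ Fintype.card α := by
    have := Fintype.card_le_of_embedding x
    rwa [Fintype.card_fin] at this
  have hcases : Fintype.card α = 4 ∨ Fintype.card α = 5 ∨ Fintype.card α = 6 ∨
      Fintype.card α = 7 ∨ 8 ≤ Fintype.card α := by omega
  rcases hcases with h | h | h | h | h
  · left
    refine ⟨Or.inl h, ?_⟩
    apply Equiv.Perm.eq_top_of_isMultiplyPretransitive
    rw [Nat.card_eq_fintype_card, h]
    exact MulAction.isMultiplyPretransitive_of_le (by omega : 4 - 1 ≤ 4)
      (by rw [Nat.card_eq_fintype_card, h])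
  · left
    refine ⟨Or.inr h, ?_⟩
    apply Equiv.Perm.eq_top_of_isMultiplyPretransitive
    rw [Nat.card_eq_fintype_card, h]
    exact hG
  · right; left
    refine ⟨Or.inl h, eq_alt (by omega) H ?_⟩
    apply IsMultiplyPretransitive.alternatingGroup_le
    rw [Nat.card_eq_fintype_card, h]
    exact hG
  · right; left
    refine ⟨Or.inr h, eq_alt (by omega) H ?_⟩
    by_contra hA
    have hsharp : ∀ y : Fin 4 ↪ α, MulAction.stabilizer G y = ⊥ := by
      intro y
      rw [Subgroup.eq_bot_iff_forall]
      intro g hg
      by_contra hg1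
      apply hA
      have hg1' : (g : Perm α) ≠ 1 := fun h => hg1 (Subtype.ext h)
      refine (Cfsg.Agent.S0711.result G (k := 4) (by omega) (by omega) hG g g.2 hg1' ?_).2
      have h1 : Finset.univ.map y ⊆ (g : Perm α).supportᶜ := by
        intro z hz
        rw [Finset.mem_map] at hz
        obtain ⟨i, _, rfl⟩ := hz
        rw [Finset.mem_compl, Equiv.Perm.notMem_support]
        rw [mem_stabilizer_iff] at hg
        exact congrArg (fun f : Fin 4 ↪ α => f i) hg
      have h2 := Finset.card_le_card h1
      rw [Finset.card_map, Finset.card_univ, Fintype.card_fin, Finset.card_compl, h] at h2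
      omega
    have := Cfsg.Agent.S0415.result G h4 hsharp
    omega
  · right; right
    exact Cfsg.Agent.H544.HallB.main H h

end Cfsg.Agent.S4221
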