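import Cfsg.Statements.S4282
import Cfsg.Agent.H557.HHCrit

set_option autoImplicit false
open Cfsg

namespace Cfsg.Agent.S4282

/-- A critical case behind the Hall–Higman theorem. Let p ≠ q be primes and G a finite group generated by a normal q-subgroup Q and a cyclic p-subgroup generated by x, such that the centralizer of every non-identity element of that cyclic subgroup is its product with the centre of G. Let K be an algebraically closed field of characteristic p and ρ a faithful representation of G on a nonzero finite-dimensional K-space whose restriction to Q is irreducible. If s is the least exponent with (ρ(x) − 1)^s = 0, then |⟨x⟩| − 1 ≤ s ≤ |⟨x⟩|; and if s = |⟨x⟩| − 1 then |⟨x⟩| − 1 is a power of q and Q is non-abelian. -/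
theorem result {G : Type*} [Group G] [Finite G] (p q : ℕ) [Fact p.Prime] [Fact q.Prime] (hpq : p ≠ q) (Q : Subgroup G) [Q.Normal] (hQ : IsPGroup q Q) (x : G) (hx : IsPGroup p (Subgroup.zpowers x)) (hgen : Q ⊔ Subgroup.zpowers x = ⊤) (hC : ∀ y ∈ Subgroup.zpowers x, y ≠ 1 → Subgroup.centralizer ({y} : Set G) = Subgroup.zpowers x ⊔ Subgroup.center G) {K : Type*} [Field K] [IsAlgClosed K] [CharP K p] {V : Type*} [AddCommGroup V] [Module K V] [FiniteDimensional K V] [Nontrivial V] (ρ : Representation K G V) (hfaith : Function.Injective ρ) (hirr : ∀ W : Submodule K V, (∀ g ∈ Q, Submodule.map (ρ g) W ≤ W) → W = ⊥ ∨ W = ⊤) (s : ℕ) (hs : (ρ x - 1) ^ s = 0) (hmin : ∀ k < s, (ρ x - 1) ^ k ≠ 0) : Nat.card (Subgroup.zpowers x) - 1 ≤ s ∧ s ≤ Nat.card (Subgroup.zpowers x) ∧ (s = Nat.card (Subgroup.zpowers x) - 1 → (∃ b : ℕ, Nat.card (Subgroup.zpowers x) - 1 = q ^ b) ∧ ¬ IsMulCommutative Q) := by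
  classical
  have hpp : p.Prime := Fact.out
  have hqq : q.Prime := Fact.out
  obtain ⟨n, hn⟩ := (IsPGroup.iff_card).1 hx
  have hcardx : orderOf x = p ^ n := by rw [← Nat.card_zpowers, hn]
  rw [hn]
  -- `s ≤ p ^ n`
  have hxp : (ρ x - 1) ^ (p ^ n) = 0 := by
    have : CharP (Module.End K V) p := charP_of_injective_algebraMap (algebraMap K (Module.End K V)).injective p
    rw [sub_pow_char_pow_of_commute _ _ (Commute.one_right _), one_pow, ← map_pow, ← hcardx, pow_orderOf_eq_one,
      map_one, sub_self]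
  have hle : s ≤ p ^ n := by
    by_contra hcon
    exact hmin _ (not_le.1 hcon) hxp
  rcases Nat.eq_zero_or_pos n with hn0 | hn1
  · subst hn0
    rw [pow_zero] at hle ⊢
    refine ⟨by simp, hle, fun h0 => ?_⟩
    exfalso
    have h1 : s = 0 := by simpa using h0
    rw [h1, pow_zero] at hs
    exact one_ne_zero hs
  -- the data for the decomposition
  have hx1 : x ≠ 1 := by
    rintro rfl
    rw [orderOf_one] at hcardx
    exact absurd hcardx.symm (Nat.one_lt_pow hn1.ne' hpp.one_lt).ne'
  let _ : Fintype Q := Fintype.ofFinite Q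
  let ρQ : Q →* Module.End K V := (ρ : G →* Module.End K V).comp Q.subtype
  have hirr' : Cfsg.Agent.PLocal.HHBLinear.IsIrr ρQ := by
    intro S hS
    refine hirr S fun g hg => ?_
    rintro _ ⟨w, hw, rfl⟩
    exact hS ⟨g, hg⟩ w hw
  obtain ⟨a, ha⟩ := IsPGroup.iff_card.1 hQ
  have hcard : (Fintype.card Q : K) ≠ 0 := by
    rw [← Nat.card_eq_fintype_card, ha]
    intro h0
    rw [CharP.cast_eq_zero_iff K p] at h0
    exact hpq ((Nat.prime_dvd_prime_iff_eq hpp hqq).1 (hpp.dvd_of_dvd_pow h0))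
  let σ : MulAut Q := MulAut.conjNormal x
  have hσ : ∀ (i : ℕ) (u : Q), (((σ ^ i) u : Q) : G) = x ^ i * u * (x ^ i)⁻¹ := by
    intro i u
    have h1 : σ ^ i = MulAut.conjNormal (x ^ i) := (map_pow _ _ _).symm
    rw [h1, MulAut.conjNormal_apply]
  let Y : (Module.End K V)ˣ := ⟨ρ x, ρ x⁻¹, by rw [← map_mul, mul_inv_cancel, map_one],
    by rw [← map_mul, inv_mul_cancel, map_one]⟩
  have hYval : (Y : Module.End K V) = ρ x := rfl
  have hY : ∀ h, (Y : Module.End K V) * ρQ h = ρQ (σ h) * Y := by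
    intro h
    show ρ x * ρ (h : G) = ρ ((σ h : Q) : G) * ρ x
    have h1 := hσ 1 h
    rw [pow_one, pow_one] at h1
    rw [h1, ← map_mul, ← map_mul]
    congr 1
    group
  have hN : 0 < p ^ n := pow_pos hpp.pos n
  have hσN : σ ^ (p ^ n) = 1 := by
    ext u
    rw [hσ, ← hcardx, pow_orderOf_eq_one]
    simp
  have hfix : ∀ u : Q, MulAction.period σ u = p ^ n ∨ (σ u = u ∧ ∃ c : K, ρQ u = c • 1) := by
    intro u
    by_cases hper : MulAction.period σ u = p ^ n
    · exact Or.inl hper
    right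
    set m := MulAction.period σ u with hm
    have hmd : m ∣ p ^ n := by
      rw [hm, ← MulAction.pow_smul_eq_iff_period_dvd, hσN, one_smul]
    have hmlt : m < p ^ n := lt_of_le_of_ne (Nat.le_of_dvd hN hmd) hper
    have hmpos : 0 < m := Nat.pos_of_dvd_of_pos hmd hN
    have hfixm : (σ ^ m) • u = u := by
      rw [MulAction.pow_smul_eq_iff_period_dvd]
    have hcomm : x ^ m * (u : G) * (x ^ m)⁻¹ = u := by
      rw [← hσ]
      exact congrArg Subtype.val hfixm
    have hxm : x ^ m ≠ 1 := by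
      intro h
      have h1 := orderOf_dvd_of_pow_eq_one h
      rw [hcardx] at h1
      exact absurd (Nat.le_of_dvd hmpos h1) (not_le.2 hmlt)
    have hu1 : (u : G) ∈ Subgroup.centralizer ({x ^ m} : Set G) := by
      rw [Subgroup.mem_centralizer_singleton_iff]
      exact (mul_inv_eq_iff_eq_mul.1 hcomm).symm
    rw [hC _ (Subgroup.npow_mem_zpowers x m) hxm] at hu1
    obtain ⟨y, hy, z, hz, hyz⟩ := Subgroup.mem_sup_of_normal_right.1 hu1
    have hz' := Subgroup.mem_center_iff.1 hz
    -- the order of `u` is prime to `p`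
    have hyc : y ∈ Subgroup.center G := by
      have hcop : Nat.Coprime (q ^ a) (orderOf y) := by
        obtain ⟨k, hk⟩ := (Nat.dvd_prime_pow hpp).1 (hcardx ▸ orderOf_dvd_of_mem_zpowers hy)
        rw [hk.2]
        exact Nat.Coprime.pow _ _ ((Nat.coprime_primes hqq hpp).2 hpq.symm)
      have h1 : y ^ (q ^ a) ∈ Subgroup.center G := by
        have h2 : (y * z) ^ (q ^ a) = 1 := by
          rw [hyz, ← Subgroup.coe_pow, ← ha, pow_card_eq_one', Subgroup.coe_one]
        rw [(show Commute y z from hz' y).mul_pow] at h2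
        rw [eq_inv_of_mul_eq_one_left h2]
        exact Subgroup.inv_mem _ (Subgroup.pow_mem _ hz _)
      have h3 : y ∈ Subgroup.zpowers (y ^ (q ^ a)) := by
        obtain ⟨k, hk⟩ := exists_pow_eq_self_of_coprime hcop
        have h4 := Subgroup.npow_mem_zpowers (y ^ (q ^ a)) k
        rwa [hk] at h4
      exact (Subgroup.zpowers_le.2 h1) h3
    have huc : (u : G) ∈ Subgroup.center G := hyz ▸ Subgroup.mul_mem _ hyc hz
    have huc' := Subgroup.mem_center_iff.1 huc
    refine ⟨?_, ?_⟩
    · apply Subtype.ext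
      have h1 := hσ 1 u
      rw [pow_one, pow_one] at h1
      rw [h1, huc' x, mul_inv_cancel_right]
    · refine Cfsg.Agent.PLocal.HHBLinear.schur hirr' _ fun h => ?_
      show ρ (u : G) * ρ (h : G) = ρ (h : G) * ρ (u : G)
      rw [← map_mul, ← map_mul, huc' h]
  have hD := Cfsg.Agent.H557.HHCrit.decomp (ρ := ρQ) hirr' hcard hY hN hσN hfix
  have hY1 : (Y : Module.End K V) - 1 ≠ 0 := by
    intro h
    apply hx1
    apply hfaith
    rw [map_one]
    exact sub_eq_zero.1 h
  have hlow := Cfsg.Agent.PLocal.HHBJordan.pow_ne_zero_of_decomp p n hn1 hD hY1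
  have hp2 : 2 ≤ p ^ n := Nat.one_lt_pow hn1.ne' hpp.one_lt
  have hge : p ^ n - 1 ≤ s := by
    by_contra hcon
    apply hlow
    obtain ⟨k, hk⟩ : ∃ k, p ^ n - 2 = s + k := ⟨p ^ n - 2 - s, by omega⟩
    rw [hYval, hk, pow_add, hs, zero_mul]
  refine ⟨hge, hle, fun hs1 => ?_⟩
  rw [hs1] at hs
  have hdim := Cfsg.Agent.PLocal.HHBJordan.finrank_eq_of_decomp p n hn1 hD hY1 hs
  refine ⟨?_, fun hcommQ => ?_⟩
  · obtain ⟨b, hb⟩ := Cfsg.Agent.H557.HHCrit.finrank_pow hQ ρQ hirr'
    exact ⟨b, by rw [← hdim, hb]⟩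
  · -- an abelian group acts by scalars
    have hsc : ∀ u : Q, ∃ c : K, ρQ u = c • 1 := fun u =>
      Cfsg.Agent.PLocal.HHBLinear.schur hirr' _ fun h => by
        rw [← map_mul, ← map_mul, hcommQ.is_comm.comm u h]
    obtain ⟨v, hv⟩ := exists_ne (0 : V)
    have htop : Submodule.span K {v} = ⊤ := by
      refine (hirr' (Submodule.span K {v}) fun h w hw => ?_).resolve_left fun h => hv ?_
      · obtain ⟨c, hc⟩ := hsc h
        rw [hc, LinearMap.smul_apply, Module.End.one_apply]
        exact Submodule.smul_mem _ _ hw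
      · exact Submodule.span_singleton_eq_bot.1 h
    have h1 : Module.finrank K V = 1 := by
      rw [← finrank_top K V, ← htop, finrank_span_singleton hv]
    rw [hdim] at h1
    rw [h1, pow_one] at hs
    exact hY1 hs

end Cfsg.Agent.S4282
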