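import Cfsg.Statements.S4284
import Cfsg.Agent.H558.CsFinal

set_option autoImplicit false
open Cfsg

namespace Cfsg.Agent.S4284

open Cfsg.Agent.H558.Cs Subgroup in
theorem exists_cs {G : Type*} [Group G] [Finite G] (m n : ℕ) (hm : 1 < m) (hn : 1 < n)
    (hcop : m.Coprime n) (h : Set.range (fun x : G => (Subgroup.centralizer ({x} : Set G)).index) =
      ({1, m, m * n} : Set ℕ)) : ∃ p a : ℕ, p.Prime ∧ m = p ^ a ∧ CS G p a n := by
  have hind : ∀ x : G, x ∉ center G → (CG x).index = m ∨ (CG x).index = m * n := by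
    intro x hx
    have h1 : (CG x).index ∈ ({1, m, m * n} : Set ℕ) := h ▸ ⟨x, rfl⟩
    rcases h1 with h1 | h1 | h1
    · exfalso
      apply hx
      rw [Subgroup.index_eq_one] at h1
      exact CG_eq_top_iff.1 h1
    · exact Or.inl h1
    · exact Or.inr h1
  obtain ⟨x1, hx1⟩ : ∃ x : G, (CG x).index = m := by
    have : m ∈ Set.range (fun x : G => (Subgroup.centralizer ({x} : Set G)).index) := by
      rw [h]; simp
    exact this
  obtain ⟨x2, hx2⟩ : ∃ x : G, (CG x).index = m * n := by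
    have : m * n ∈ Set.range (fun x : G => (Subgroup.centralizer ({x} : Set G)).index) := by
      rw [h]; simp
    exact this
  have hbase : ∀ p : ℕ, p.Prime → p ∣ m → Base G p (m.factorization p) := by
    intro p hp hpm
    have hpn : ¬ p ∣ n := by
      intro hd
      have := Nat.dvd_gcd hpm hd
      rw [hcop] at this
      exact hp.one_lt.ne' (Nat.dvd_one.1 this)
    refine ⟨(hp.dvd_iff_one_le_factorization (by omega)).1 hpm, ?_, x1, ?_⟩
    · intro x hx
      rcases hind x hx with h1 | h1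
      · rw [h1]
      · rw [h1, Nat.factorization_mul (by omega) (by omega), Finsupp.add_apply,
          Nat.factorization_eq_zero_of_not_dvd hpn, add_zero]
    · intro hc
      rw [index_one_of_mem hc] at hx1
      omega
  obtain ⟨p, hp, hpm⟩ := Nat.exists_prime_and_dvd (show m ≠ 1 by omega)
  have huniq : ∀ {q : ℕ}, q.Prime → q ∣ m → q = p := by
    intro q hq hqm
    by_contra hqp
    haveI : Fact p.Prime := ⟨hp⟩
    haveI : Fact q.Prime := ⟨hq⟩
    exact Base.no_two hqp (hbase q hq hqm) (hbase p hp hpm)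
  have hpow := Nat.eq_prime_pow_of_unique_prime_dvd (show m ≠ 0 by omega) huniq
  set a := m.primeFactorsList.length with ha
  refine ⟨p, a, hp, hpow, ⟨?_, hn, ?_, ?_, ⟨x1, hx1.trans hpow⟩, ⟨x2, ?_⟩⟩⟩
  · rcases Nat.eq_zero_or_pos a with h0 | h0
    · rw [h0, pow_zero] at hpow; omega
    · exact h0
  · intro hd
    have := Nat.dvd_gcd hpm hd
    rw [hcop] at this
    exact hp.one_lt.ne' (Nat.dvd_one.1 this)
  · intro x hx
    rw [← hpow]; exact hind x hx
  · rw [← hpow]; exact hx2

open Cfsg.Agent.H558.Cs Subgroup in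
theorem card_comm {G : Type*} [Group G] [Finite G] {p a n : ℕ} [hp : Fact p.Prime] {y : G}
    {A H : Subgroup G} (F : Fin1 G p a n y A H) (P : Sylow p G) :
    Nat.card (commutator (P : Subgroup G)) = p := by
  obtain ⟨t, htP, htA⟩ := F.exists_t P
  have htp : PEl p t := PEl.of_mem P.2 htP
  have hAP : A ≤ (P : Subgroup G) := F.A_le P
  haveI := F.normal_A
  haveI : (A.subgroupOf (P : Subgroup G)).Normal := inferInstance
  have hcard : Nat.card (A.subgroupOf (P : Subgroup G)) = Nat.card A :=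
    Nat.card_congr (subgroupOfEquivOfLe hAP).toEquiv
  have htop : A.subgroupOf (P : Subgroup G) ⊔ zpowers (⟨t, htP⟩ : (P : Subgroup G)) = ⊤ := by
    apply eq_top_of_card_eq
    set S := A.subgroupOf (P : Subgroup G) ⊔ zpowers (⟨t, htP⟩ : (P : Subgroup G)) with hS
    have h1 : Nat.card (A.subgroupOf (P : Subgroup G)) ∣ Nat.card S := card_dvd_of_le le_sup_left
    rw [hcard] at h1
    have h2 : Nat.card S ∣ Nat.card A * p := by
      rw [← F.card_P P]; exact card_subgroup_dvd_card S
    obtain ⟨k, hk⟩ := h1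
    rw [hk] at h2
    have h3 : k ∣ p := Nat.dvd_of_mul_dvd_mul_left Nat.card_pos h2
    rcases (Nat.dvd_prime hp.out).1 h3 with h4 | h4
    · exfalso
      rw [h4, mul_one] at hk
      have h5 : A.subgroupOf (P : Subgroup G) = S :=
        eq_of_le_of_card_ge le_sup_left (by rw [hk, hcard])
      have h6 : (⟨t, htP⟩ : (P : Subgroup G)) ∈ S := mem_sup_right (mem_zpowers _)
      rw [← h5, mem_subgroupOf] at h6
      exact htA h6
    · rw [hk, h4, F.card_P P]
  have h1 := card_commutator (A.subgroupOf (P : Subgroup G)) (by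
    intro u hu w hw
    exact Subtype.ext (F.comm_A u (mem_subgroupOf.1 hu) w (mem_subgroupOf.1 hw)))
    (⟨t, htP⟩ : (P : Subgroup G)) htop
  have h2 : Nat.card (A.subgroupOf (P : Subgroup G) ⊓ CG (⟨t, htP⟩ : (P : Subgroup G)) :
      Subgroup (P : Subgroup G)) = Nat.card (A ⊓ CG t : Subgroup G) := by
    have h3 : (A.subgroupOf (P : Subgroup G) ⊓ CG (⟨t, htP⟩ : (P : Subgroup G))).map
        (P : Subgroup G).subtype = A ⊓ CG t := by
      ext g
      constructor
      · rintro ⟨z, ⟨hz1, hz2⟩, rfl⟩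
        exact ⟨mem_subgroupOf.1 hz1, mem_CG.2 (congrArg Subtype.val (mem_CG.1 hz2))⟩
      · rintro ⟨hg1, hg2⟩
        exact ⟨⟨g, hAP hg1⟩, ⟨mem_subgroupOf.2 hg1, mem_CG.2 (Subtype.ext (mem_CG.1 hg2))⟩, rfl⟩
    rw [← h3]
    exact Nat.card_congr (Subgroup.equivMapOfInjective _ _ (P : Subgroup G).subtype_injective).toEquiv
  rw [hcard, F.card_A_inf htp htA, h2] at h1
  exact (Nat.eq_of_mul_eq_mul_left Nat.card_pos h1).symm

/-- Let G be a finite group with no nontrivial abelian direct factor whose conjugacy class sizes are exactly 1, m and m·n with m, n > 1 coprime. Then m is a prime p dividing n − 1; the elements whose class has size 1 or p form an abelian normal subgroup of index p; G has a normal p-complement; and the commutator subgroup of a Sylow p-subgroup of G has order p. -/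
theorem result {G : Type*} [Group G] [Finite G] (hnodf : ∀ A B : Subgroup G, A.Normal → B.Normal → A ⊓ B = ⊥ → A ⊔ B = ⊤ → IsMulCommutative A → A = ⊥) (m n : ℕ) (hm : 1 < m) (hn : 1 < n) (hcop : m.Coprime n) (h : Set.range (fun x : G => (Subgroup.centralizer ({x} : Set G)).index) = ({1, m, m * n} : Set ℕ)) : m.Prime ∧ m ∣ n - 1 ∧ (∃ M : Subgroup G, M.Normal ∧ (M : Set G) = {x : G | (Subgroup.centralizer ({x} : Set G)).index = 1 ∨ (Subgroup.centralizer ({x} : Set G)).index = m} ∧ M.index = m ∧ IsMulCommutative M) ∧ (∃ N : Subgroup G, N.Normal ∧ (Nat.card N).Coprime m ∧ ∃ a : ℕ, N.index = m ^ a) ∧ ∀ P : Sylow m G, Nat.card (commutator (P : Subgroup G)) = m := by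
  obtain ⟨p, a, hp, hmp, hcs⟩ := exists_cs m n hm hn hcop h
  haveI : Fact p.Prime := ⟨hp⟩
  obtain ⟨y, hy, hyi⟩ := hcs.exists_type1
  obtain ⟨A, H, hD⟩ := hcs.base.exists_dec (hcs.not_center1 hyi) hy
  have F : Cfsg.Agent.H558.Cs.Fin1 G p a n y A H := ⟨hcs, hy, hyi, hD⟩
  have ha := F.a_eq_one
  have hmp' : m = p := by rw [hmp, ha, pow_one]
  subst hmp'
  refine ⟨hp, F.dvd_sub, ⟨Subgroup.centralizer ({y} : Set G), F.normal_M, ?_, ?_, ?_⟩,
    ⟨H, F.normal_H, ?_, F.index_H⟩, card_comm F⟩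
  · have h1 := F.coe_M
    rw [ha, pow_one] at h1
    exact h1
  · have h1 := F.idx
    rw [ha, pow_one] at h1
    exact h1
  · exact ⟨⟨fun u w => Subtype.ext (F.comm_M u u.2 w w.2)⟩⟩
  · exact ((Nat.Prime.coprime_iff_not_dvd hp).2 hD.cop).symm

end Cfsg.Agent.S4284
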