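import Cfsg.Statements.S4300
import Mathlib

set_option autoImplicit false
open Cfsg

namespace Cfsg.Agent.S4300

/-- Let G act faithfully and primitively on a set X, and suppose the stabilizer of some point is a simple group. Then either G is simple, or G has a normal subgroup, neither trivial nor the whole group, that acts regularly on X (transitively with trivial point stabilizers). -/
theorem result {G : Type*} [Group G] {X : Type*} [MulAction G X] [FaithfulSMul G X]
    (hprim : MulAction.IsPreprimitive G X) (x : X) (hsimple : IsSimpleGroup (MulAction.stabilizer G x)) :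
    IsSimpleGroup G ∨ ∃ N : Subgroup G, N.Normal ∧ N ≠ ⊥ ∧ N ≠ ⊤ ∧
      MulAction.IsPretransitive N X ∧ ∀ y : X, MulAction.stabilizer N y = ⊥ := by
  by_cases hG : IsSimpleGroup G
  · exact Or.inl hG
  right
  have hnt : Nontrivial G := by
    obtain ⟨a, b, hab⟩ := hsimple.toNontrivial
    exact ⟨a, b, fun h => hab (Subtype.ext h)⟩
  obtain ⟨N, hN, hNb, hNt⟩ : ∃ N : Subgroup G, N.Normal ∧ N ≠ ⊥ ∧ N ≠ ⊤ := by
    by_contra hcon
    push Not at hcon
    exact hG ⟨fun N hN => or_iff_not_imp_left.2 (fun hNb => hcon N hN hNb)⟩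
  have htr : MulAction.IsPretransitive N X := by
    apply MulAction.IsQuasiPreprimitive.isPretransitive_of_normal (G := G)
    intro hfix
    apply hNb
    rw [eq_bot_iff]
    intro g hg
    rw [Subgroup.mem_bot]
    apply FaithfulSMul.eq_of_smul_eq_smul (α := X)
    intro a
    have ha : a ∈ MulAction.fixedPoints N X := by rw [hfix]; trivial
    rw [one_smul]
    exact ha ⟨g, hg⟩
  -- `N` meets the stabilizer trivially
  have hbot : N.subgroupOf (MulAction.stabilizer G x) = ⊥ := by
    rcases hsimple.eq_bot_or_eq_top_of_normal (N.subgroupOf (MulAction.stabilizer G x))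
      inferInstance with h | h
    · exact h
    · exfalso
      apply hNt
      rw [Subgroup.subgroupOf_eq_top] at h
      rw [eq_top_iff]
      intro g _
      obtain ⟨n, hn⟩ := MulAction.exists_smul_eq N x (g • x)
      have h1 : (n : G)⁻¹ * g ∈ MulAction.stabilizer G x := by
        rw [MulAction.mem_stabilizer_iff, mul_smul, inv_smul_eq_iff]
        exact hn.symm
      have h2 := N.mul_mem n.2 (h h1)
      rwa [mul_inv_cancel_left] at h2
  refine ⟨N, hN, hNb, hNt, htr, fun y => ?_⟩
  rw [eq_bot_iff]
  intro n hn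
  obtain ⟨m, hm⟩ := MulAction.exists_smul_eq N y x
  have h1 : (m * n * m⁻¹ : G) ∈ MulAction.stabilizer G x := by
    rw [MulAction.mem_stabilizer_iff, ← hm]
    have h2 : (n : G) • y = y := hn
    have h3 : m • y = (m : G) • y := rfl
    have h4 : (m⁻¹ : N) • (m : G) • y = y := inv_smul_smul m y
    rw [h3, mul_smul, mul_smul]
    have h5 : ((m⁻¹ : N) : G) • (m : G) • y = y := h4
    rw [h5, h2]
  have h2 : (⟨(m * n * m⁻¹ : G), h1⟩ : MulAction.stabilizer G x) ∈ N.subgroupOf (MulAction.stabilizer G x) := by
    rw [Subgroup.mem_subgroupOf]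
    exact (m * n * m⁻¹).2
  rw [hbot, Subgroup.mem_bot] at h2
  have h3' : ((m * n * m⁻¹ : N) : G) = 1 :=
    congrArg (fun z : MulAction.stabilizer G x => (z : G)) h2
  have h3 : m * n * m⁻¹ = 1 := Subtype.ext h3'
  rw [conj_eq_one_iff] at h3
  rw [Subgroup.mem_bot]
  exact h3

end Cfsg.Agent.S4300
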