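import Cfsg.Statements.S4301
import Mathlib

set_option autoImplicit false
open Cfsg

namespace Cfsg.Agent.S4301

/-- An embedding of `Fin k` (`k ≥ 2`) can be chosen with prescribed first two values. -/
theorem exists_embedding {X : Type*} {k : ℕ} (hk : 2 ≤ k) (e : Fin k ↪ X) {u v : X} (huv : u ≠ v) :
    ∃ a : Fin k ↪ X, a ⟨0, by omega⟩ = u ∧ a ⟨1, by omega⟩ = v := by
  classical
  let σ : Equiv.Perm X := Equiv.swap (e ⟨0, by omega⟩) u
  have h0 : σ (e ⟨0, by omega⟩) = u := Equiv.swap_apply_left _ _
  have h1 : σ (e ⟨1, by omega⟩) ≠ u := by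
    intro h
    have h2 := e.injective (σ.injective (h.trans h0.symm))
    simp at h2
  let τ : Equiv.Perm X := Equiv.swap (σ (e ⟨1, by omega⟩)) v
  refine ⟨e.trans (σ.toEmbedding.trans τ.toEmbedding), ?_, ?_⟩
  · show τ (σ (e _)) = u
    rw [h0]
    exact Equiv.swap_apply_of_ne_of_ne h1.symm huv
  · show τ (σ (e _)) = v
    exact Equiv.swap_apply_left _ _

/-- One-point extension of a multiply transitive group. Let X be a set and G a group of permutations of Option X (the set X with one extra point ∗ = none) all of whose elements fix ∗, such that G is k-transitive on the points of X for some k ≥ 2, X having at least k points. Suppose a permutation h of Option X and an element g of G satisfy: h interchanges ∗ with a point x of X and fixes a point y of X; g interchanges x and y; (g h)³ and h² lie in G; and for every f in G fixing x, the product h f h lies in G and fixes x. Then an element of the group generated by G and h fixes ∗ exactly when it lies in G, and that group acts (k+1)-transitively on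 Option X. -/
theorem result {X : Type*} (G : Subgroup (Equiv.Perm (Option X))) (hfix : ∀ f ∈ G, f none = none)
    (k : ℕ) (hk : 2 ≤ k) (hkX : Nonempty (Fin k ↪ X))
    (htrans : ∀ a b : Fin k ↪ X, ∃ f ∈ G, ∀ i, f (some (a i)) = some (b i))
    (h g : Equiv.Perm (Option X)) (hg : g ∈ G) (x y : X)
    (h1 : h none = some x) (h2 : h (some x) = none) (h3 : h (some y) = some y)
    (h4 : g (some x) = some y) (h5 : g (some y) = some x)
    (h6 : (g * h) ^ 3 ∈ G) (h7 : h ^ 2 ∈ G)
    (h8 : ∀ f ∈ G, f (some x) = some x → h * f * h ∈ G ∧ (h * f * h) (some x) = some x) :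
    (∀ f ∈ Subgroup.closure ((G : Set (Equiv.Perm (Option X))) ∪ {h}), f none = none ↔ f ∈ G) ∧
      MulAction.IsMultiplyPretransitive (Subgroup.closure ((G : Set (Equiv.Perm (Option X))) ∪ {h})) (Option X) (k + 1) := by
  have hxy : x ≠ y := by
    rintro rfl
    rw [h2] at h3
    cases h3
  obtain ⟨e⟩ := hkX
  -- 2-transitivity
  have htwo : ∀ u v u' v' : X, u ≠ v → u' ≠ v' →
      ∃ f ∈ G, f (some u) = some u' ∧ f (some v) = some v' := by
    intro u v u' v' huv huv'
    obtain ⟨a, ha0, ha1⟩ := exists_embedding hk e huv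
    obtain ⟨b, hb0, hb1⟩ := exists_embedding hk e huv'
    obtain ⟨f, hf, hfab⟩ := htrans a b
    refine ⟨f, hf, ?_, ?_⟩
    · rw [← ha0, ← hb0]; exact hfab _
    · rw [← ha1, ← hb1]; exact hfab _
  -- `h a h` for `a ∈ G`
  let P : Equiv.Perm (Option X) → Prop := fun f => f ∈ G ∨ ∃ a ∈ G, ∃ b ∈ G, f = a * h * b
  have hPl : ∀ a ∈ G, ∀ f, P f → P (a * f) := by
    rintro a ha f (hf | ⟨b, hb, c, hc, rfl⟩)
    · exact Or.inl (G.mul_mem ha hf)
    · exact Or.inr ⟨a * b, G.mul_mem ha hb, c, hc, by group⟩
  have hPr : ∀ a ∈ G, ∀ f, P f → P (f * a) := by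
    rintro a ha f (hf | ⟨b, hb, c, hc, rfl⟩)
    · exact Or.inl (G.mul_mem hf ha)
    · exact Or.inr ⟨b, hb, c * a, G.mul_mem hc ha, by group⟩
  have hkey : ∀ a ∈ G, P (h * a * h) := by
    intro a ha
    by_cases hax : a (some x) = some x
    · exact Or.inl (h8 a ha hax).1
    · obtain ⟨z, hz⟩ : ∃ z, a (some x) = some z := by
        rcases hz : a (some x) with _ | z
        · exfalso
          have := a.injective (hz.trans (hfix a ha).symm)
          cases this
        · exact ⟨z, rfl⟩
      have hzx : x ≠ z := by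
        rintro rfl
        exact hax hz
      obtain ⟨c, hc, hcx, hcy⟩ := htwo x y x z hxy hzx
      set d := g⁻¹ * c⁻¹ * a with hd
      have hdG : d ∈ G := G.mul_mem (G.mul_mem (G.inv_mem hg) (G.inv_mem hc)) ha
      have hdx : d (some x) = some x := by
        rw [hd, Equiv.Perm.mul_apply, Equiv.Perm.mul_apply, hz, Equiv.Perm.inv_eq_iff_eq, h4,
          Equiv.Perm.inv_eq_iff_eq, hcy]
      have hC := (h8 c hc hcx).1
      have hD := (h8 d hdG hdx).1
      have hh : h * a * h = ((h * c * h) * (h ^ 2)⁻¹ * g⁻¹ * (g * h) ^ 3 * (h ^ 2)⁻¹) * h *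
          (g⁻¹ * (h ^ 2)⁻¹ * (h * d * h)) := by
        rw [hd]
        simp only [pow_succ, pow_zero, one_mul]
        group
      right
      exact ⟨_, G.mul_mem (G.mul_mem (G.mul_mem (G.mul_mem hC (G.inv_mem h7)) (G.inv_mem hg)) h6)
        (G.inv_mem h7), _, G.mul_mem (G.mul_mem (G.inv_mem hg) (G.inv_mem h7)) hD, hh⟩
  let M : Subgroup (Equiv.Perm (Option X)) :=
    { carrier := {f | P f}
      one_mem' := Or.inl G.one_mem
      mul_mem' := by
        rintro f f' (hf | ⟨a, ha, b, hb, rfl⟩) hf'
        · exact hPl f hf f' hf'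
        · rcases hf' with hf' | ⟨a', ha', b', hb', rfl⟩
          · exact hPr f' hf' _ (Or.inr ⟨a, ha, b, hb, rfl⟩)
          · have := hPr b' hb' _ (hPl a ha _ (hkey (b * a') (G.mul_mem hb ha')))
            have e : a * h * b * (a' * h * b') = a * (h * (b * a') * h) * b' := by group
            show P _
            rw [e]
            exact this
      inv_mem' := by
        rintro f (hf | ⟨a, ha, b, hb, rfl⟩)
        · exact Or.inl (G.inv_mem hf)
        · refine Or.inr ⟨b⁻¹ * (h ^ 2)⁻¹, G.mul_mem (G.inv_mem hb) (G.inv_mem h7), a⁻¹, G.inv_mem ha, ?_⟩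
          group }
  have hle : Subgroup.closure ((G : Set (Equiv.Perm (Option X))) ∪ {h}) ≤ M := by
    rw [Subgroup.closure_le]
    rintro f (hf | hf)
    · exact Or.inl hf
    · rw [Set.mem_singleton_iff] at hf
      subst hf
      exact Or.inr ⟨1, G.one_mem, 1, G.one_mem, by group⟩
  have hGle : G ≤ Subgroup.closure ((G : Set (Equiv.Perm (Option X))) ∪ {h}) := fun f hf =>
    Subgroup.subset_closure (Or.inl hf)
  have hhC : h ∈ Subgroup.closure ((G : Set (Equiv.Perm (Option X))) ∪ {h}) :=
    Subgroup.subset_closure (Or.inr rfl)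
  refine ⟨?_, ?_⟩
  · intro f hf
    refine ⟨fun hfn => ?_, fun hf => hfix f hf⟩
    rcases hle hf with hf | ⟨a, ha, b, hb, rfl⟩
    · exact hf
    · exfalso
      rw [Equiv.Perm.mul_apply, Equiv.Perm.mul_apply, hfix b hb, h1] at hfn
      have := a.injective (hfn.trans (hfix a ha).symm)
      cases this
  · set C := Subgroup.closure ((G : Set (Equiv.Perm (Option X))) ∪ {h}) with hC
    -- moving the first point to `none`
    have hmove : ∀ u : Fin (k + 1) ↪ Option X, ∃ m ∈ C, ∃ a : Fin k ↪ X, m (u 0) = none ∧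
        ∀ i : Fin k, m (u i.succ) = some (a i) := by
      intro u
      obtain ⟨m, hm, hm0⟩ : ∃ m ∈ C, m (u 0) = none := by
        rcases hu : u 0 with _ | w
        · exact ⟨1, C.one_mem, rfl⟩
        · obtain ⟨w', hw'⟩ : ∃ w' : X, w ≠ w' := by
            by_cases hwx : w = x
            · exact ⟨y, by rw [hwx]; exact hxy⟩
            · exact ⟨x, hwx⟩
          obtain ⟨f, hf, hfw, -⟩ := htwo w w' x y hw' hxy
          refine ⟨h * f, C.mul_mem hhC (hGle hf), ?_⟩
          rw [Equiv.Perm.mul_apply, hfw, h2]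
      have hsome : ∀ i : Fin k, ∃ z : X, m (u i.succ) = some z := by
        intro i
        rcases hz : m (u i.succ) with _ | z
        · exfalso
          have := u.injective (m.injective (hz.trans hm0.symm))
          exact Fin.succ_ne_zero i this
        · exact ⟨z, rfl⟩
      choose a ha using hsome
      refine ⟨m, hm, ⟨a, ?_⟩, hm0, ha⟩
      intro i j hij
      have h9 : m (u i.succ) = m (u j.succ) := by rw [ha, ha, hij]
      exact Fin.succ_injective _ (u.injective (m.injective h9))
    refine ⟨fun u v => ?_⟩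
    obtain ⟨m, hm, a, hm0, hma⟩ := hmove u
    obtain ⟨m', hm', b, hm0', hmb⟩ := hmove v
    obtain ⟨f, hf, hfab⟩ := htrans a b
    refine ⟨⟨m'⁻¹ * f * m, C.mul_mem (C.mul_mem (C.inv_mem hm') (hGle hf)) hm⟩, ?_⟩
    ext1 i
    show (m'⁻¹ * f * m) (u i) = v i
    rw [Equiv.Perm.mul_apply, Equiv.Perm.mul_apply, Equiv.Perm.inv_eq_iff_eq]
    refine Fin.cases ?_ (fun i => ?_) i
    · rw [hm0, hfix f hf, hm0']
    · rw [hma, hfab, hmb]

end Cfsg.Agent.S4301
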