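import Cfsg.Statements.S4302
import Mathlib
import Cfsg.Agent.H561.FFAbelianBridge
import Cfsg.Agent.Transfer.ThompsonFactor
import Cfsg.Agent.LieClassical.SLTwoTwo
import Cfsg.Agent.Lib.MinNormal
import Cfsg.Agent.S0044
import Cfsg.Agent.S0617

set_option autoImplicit false
open Cfsg

namespace Cfsg.Agent.S4302

open Subgroup
open scoped commutatorElement

/-- an element of odd order which centralises `Ω₁(T)` centralises the abelian 2-group `T` -/
theorem odd_centralizes {G : Type*} [Group G] [Finite G] {T : Subgroup G}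
    (hcomm : ∀ x ∈ T, ∀ y ∈ T, x * y = y * x) {g : G} (hodd : Odd (orderOf g))
    (hg : ∀ t ∈ T, g * t * g⁻¹ ∈ T) (hA : ∀ t ∈ T, t * t = 1 → g * t = t * g) (k : ℕ) :
    ∀ t ∈ T, t ^ 2 ^ k = 1 → g * t = t * g := by
  induction k with
  | zero =>
    intro t ht h
    rw [pow_zero, pow_one] at h
    rw [h, mul_one, one_mul]
  | succ k ih =>
    intro t ht h
    have h1 : g * (t * t) = (t * t) * g := by
      apply ih _ (mul_mem ht ht)
      rw [← pow_two, ← pow_mul, ← pow_succ']
      exact h
    set a := g * t * g⁻¹ * t⁻¹ with ha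
    have haT : a ∈ T := mul_mem (hg t ht) (inv_mem ht)
    have h2 : a * a = 1 := by
      have e1 := hcomm (t⁻¹) (inv_mem ht) (g * t * g⁻¹) (hg t ht)
      calc a * a = g * t * g⁻¹ * (t⁻¹ * (g * t * g⁻¹)) * t⁻¹ := by rw [ha]; group
        _ = g * (t * t) * g⁻¹ * (t * t)⁻¹ := by rw [e1]; group
        _ = 1 := by rw [h1]; group
    have h3 : g * a = a * g := hA a haT h2
    -- `g t g⁻¹ = a t`, so `g^n t g^-n = a^n t`
    have h4 : ∀ n : ℕ, g ^ n * t = a ^ n * t * g ^ n := by
      intro n
      induction n with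
      | zero => simp
      | succ n ihn =>
        have h5 : g * t = a * t * g := by rw [ha]; group
        have h6 : g * a ^ n = a ^ n * g := ((show Commute g a from h3).pow_right n).eq
        calc g ^ (n + 1) * t = g * (g ^ n * t) := by rw [pow_succ']; group
          _ = (g * a ^ n) * t * g ^ n := by rw [ihn]; group
          _ = a ^ n * (g * t) * g ^ n := by rw [h6]; group
          _ = a ^ n * (a * t * g) * g ^ n := by rw [h5]
          _ = a ^ (n + 1) * t * g ^ (n + 1) := by rw [pow_succ, pow_succ' g n]; group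
    have h5 := h4 (orderOf g)
    rw [pow_orderOf_eq_one, one_mul, mul_one] at h5
    have h6 : a ^ orderOf g = 1 := by
      exact (right_eq_mul.1 h5)
    obtain ⟨m, hm⟩ := hodd
    have h7 : a = 1 := by
      rw [hm, pow_succ, pow_mul, pow_two, h2, one_pow, one_mul] at h6
      exact h6
    have h8 : g * t = a * t * g := by rw [ha]; group
    rw [h8, h7, one_mul]

theorem exists_iso {Γ : Type*} [Group Γ] [Finite Γ] {V H : Subgroup Γ} (h : Cfsg.Agent.H561.FFAbelian.Sit V H)
    {K : Subgroup Γ} (hKH : K ≤ H) (hHK : H ≤ normalizer (K : Set Γ)) (hK1 : K ≠ ⊥)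
    (hgen : K = ⨆ A : {A : Subgroup Γ // A ≤ K ∧ Cfsg.IsBestOffenderOn 2 V A}, (A : Subgroup Γ)) :
    ∃ n : ℕ, 1 ≤ n ∧ Nonempty (K ≃* (Fin n → Equiv.Perm (Fin 3))) := by
  classical
  have hKf : K ⊓ Subgroup.centralizer (V : Set Γ) = ⊥ :=
    le_bot_iff.1 (h.hf ▸ inf_le_inf_right _ hKH)
  obtain ⟨-, h1, h2, h3, -⟩ := S0617.result V K h.hV (hKH.trans h.hHV) hKf (h.centralizer_le hKH hHK) hgen hK1
  set ι := {E : Subgroup Γ // ∃ A : Subgroup Γ, A ≤ K ∧ Cfsg.IsBestOffenderOn 2 V A ∧ ⁅V, A⁆ ≠ ⊥ ∧
    (∀ B : Subgroup Γ, B ≤ A → Cfsg.IsBestOffenderOn 2 V B → ⁅V, B⁆ ≠ ⊥ → B = A) ∧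
    E = ⁅((Cfsg.pPrimeCore 2 ↥K).map K.subtype), A⁆ ⊔ A} with hι
  have hle : ∀ E : ι, (E : Subgroup Γ) ≤ K := by
    intro E
    exact (le_iSup (fun E : ι => (E : Subgroup Γ)) E).trans h3.le
  have hcomm : Pairwise fun E F : ι => ∀ x y : Γ, x ∈ (E : Subgroup Γ) → y ∈ (F : Subgroup Γ) → Commute x y := by
    intro E F hEF x y hx hy
    have hd : Disjoint (E : Subgroup Γ) (F : Subgroup Γ) := h2.pairwiseDisjoint hEF
    have h4 : x * y * x⁻¹ * y⁻¹ ∈ (E : Subgroup Γ) ⊓ (F : Subgroup Γ) := by
      refine ⟨?_, ?_⟩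
      · have h5 := (mem_normalizer_iff.1 ((h1 E).1 (hle F hy)) x⁻¹).1 (E.1.inv_mem hx)
        have h6 := E.1.mul_mem hx h5
        have e : x * y * x⁻¹ * y⁻¹ = x * (y * x⁻¹ * y⁻¹) := by group
        rw [e]
        exact h6
      · exact F.1.mul_mem ((mem_normalizer_iff.1 ((h1 F).1 (hle E hx)) y).1 hy) (F.1.inv_mem hy)
    rw [hd.eq_bot, mem_bot] at h4
    show x * y = y * x
    calc x * y = (x * y * x⁻¹ * y⁻¹) * (y * x) := by group
      _ = y * x := by rw [h4, one_mul]
  obtain ⟨e1⟩ := Cfsg.Agent.Lib.MinNormal.mulEquiv_pi_of_iSupIndep (fun E : ι => (E : Subgroup Γ)) hcomm h2 h3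
  have hS : Nonempty (Matrix.SpecialLinearGroup (Fin 2) (ZMod 2) ≃* Equiv.Perm (Fin 3)) :=
    ⟨MulEquiv.ofBijective LieClassical.SLTwoTwo.hom LieClassical.SLTwoTwo.hom_bijective⟩
  obtain ⟨eS⟩ := hS
  have e2 : ∀ E : ι, Nonempty ((E : Subgroup Γ) ≃* Equiv.Perm (Fin 3)) := fun E =>
    ⟨(h1 E).2.1.some.trans eS⟩
  let e3 : ∀ E : ι, (E : Subgroup Γ) ≃* Equiv.Perm (Fin 3) := fun E => (e2 E).some
  have hfin : Finite ι := inferInstance
  obtain ⟨n, ⟨e4⟩⟩ := Finite.exists_equiv_fin ι
  refine ⟨n, ?_, ⟨e1.trans ((MulEquiv.piCongrRight fun E => e3 E).trans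
    (MulEquiv.arrowCongr e4 (MulEquiv.refl _)))⟩⟩
  rw [Nat.one_le_iff_ne_zero]
  rintro rfl
  have : IsEmpty ι := e4.isEmpty
  exact hK1 (h3.symm.trans (iSup_of_empty _))

/-- Part one: the Frattini argument. -/
theorem part_one {X : Type*} [Group X] [Finite X] (T : Sylow 2 X) (C : Subgroup X) :
    C ⊔ normalClosure (Cfsg.thompsonSubgroupAOf (T : Subgroup X) : Set X) ⊔
      normalizer (Cfsg.thompsonSubgroupAOf (T : Subgroup X) : Set X) = ⊤ := by
  set J := Cfsg.thompsonSubgroupAOf (T : Subgroup X) with hJ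
  set Y := normalClosure (J : Set X) with hY
  have hJT : J ≤ (T : Subgroup X) := PLocal.ThompsonJA.thompsonSubgroupAOf_le _
  have hJY : J ≤ Y := le_normalClosure
  have h1 := Lib.SylowNormalInf.normalizer_inf_sup_eq_top T Y
  have h2 : Cfsg.thompsonSubgroupAOf ((T : Subgroup X) ⊓ Y) = J :=
    PLocal.ThompsonJA.thompsonSubgroupAOf_eq_of_le (le_inf hJT hJY) inf_le_left
  have h3 : normalizer (((T : Subgroup X) ⊓ Y : Subgroup X) : Set X) ≤ normalizer (J : Set X) := by
    have h4 := PLocal.ThompsonJA.normalizer_le_normalizer_thompsonSubgroupAOf ((T : Subgroup X) ⊓ Y)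
    rwa [h2] at h4
  rw [eq_top_iff, ← h1]
  exact sup_le (h3.trans le_sup_right) (le_sup_right.trans le_sup_left)

theorem pCore_quotient_congr {X : Type*} [Group X] {N M : Subgroup X} [N.Normal] [M.Normal] (h : N = M)
    (hN : Cfsg.pCore 2 (X ⧸ N) = ⊥) : Cfsg.pCore 2 (X ⧸ M) = ⊥ := by
  subst h
  exact hN

/-- Part two. -/
theorem part_two {X : Type*} [Group X] [Finite X]
    [Group.IsSolvable X] (hF : Cfsg.fittingSubgroup X = Cfsg.pCore 2 X) (T : Sylow 2 X)
    (Z C Y : Subgroup X) [hCn0 : C.Normal] (hZ : Z = (T : Subgroup X) ⊓ centralizer ((T : Subgroup X) : Set X))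
    (hC : C = (centralizer (Z : Set X)).normalCore)
    (hY : Y = normalClosure (Cfsg.thompsonSubgroupAOf (T : Subgroup X) : Set X)) :
    Y ≤ C ∨ ∃ n : ℕ, 1 ≤ n ∧ Nonempty (↥Y ⧸ C.subgroupOf Y ≃* (Fin n → Equiv.Perm (Fin 3))) := by
  classical
  set Q := Cfsg.pCore 2 X with hQ
  have hQn : Q.Normal := Lib.Cores.pCore_normal 2
  have hCQ : centralizer (Q : Set X) ≤ Q := by
    have := S0044.result (G := X)
    rwa [hF] at this
  have hQT : Q ≤ (T : Subgroup X) := Lib.Cores.pCore_le_sylow T
  set V := normalClosure (Z : Set X) with hV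
  have hVn : V.Normal := normalClosure_normal
  have hZV : Z ≤ V := le_normalClosure
  -- `V ≤ Z(Q)`
  have hZQ : Z ≤ Q ⊓ centralizer (Q : Set X) := by
    have h1 : Z ≤ centralizer (Q : Set X) := by
      rw [hZ]
      exact inf_le_right.trans (centralizer_le (SetLike.coe_subset_coe.2 hQT))
    exact le_inf (h1.trans hCQ) h1
  have hZQn : (Q ⊓ centralizer (Q : Set X)).Normal := inferInstance
  have hVQ : V ≤ Q ⊓ centralizer (Q : Set X) := normalClosure_le_normal (SetLike.coe_subset_coe.2 hZQ)
  have hVc : ∀ x ∈ V, ∀ y ∈ V, x * y = y * x := fun x hx y hy =>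
    mem_centralizer_iff.1 (hVQ hy).2 x (hVQ hx).1
  have hVp : IsPGroup 2 V := (Lib.Cores.pCore_isPGroup (G := X) 2).to_le (hVQ.trans inf_le_left)
  have hVT : V ≤ (T : Subgroup X) := (hVQ.trans inf_le_left).trans hQT
  -- `C = C_X(V)`
  have hCV : C = centralizer (V : Set X) := by
    have hCn : C.Normal := by rw [hC]; exact normalCore_normal _
    apply le_antisymm
    · have h1 : Z ≤ centralizer (C : Set X) := by
        rw [le_centralizer_iff, hC]
        exact normalCore_le _
      have h2 : V ≤ centralizer (C : Set X) := normalClosure_le_normal (SetLike.coe_subset_coe.2 h1)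
      rwa [le_centralizer_iff] at h2
    · rw [hC]
      exact normal_le_normalCore.2 (centralizer_le (SetLike.coe_subset_coe.2 hZV))
  have hcore : Cfsg.pCore 2 (X ⧸ centralizer (V : Set X)) = ⊥ :=
    Transfer.ThompsonFactor.pCore_quotient_centralizer_eq_bot T (Z : Set X) (by
      intro z hz x hx
      have hz' : z ∈ Z := hz
      rw [hZ] at hz'
      exact mem_centralizer_iff.1 hz'.2 x hx)
  -- `U = Ω₁(V)`
  let U : Subgroup X :=
    { carrier := {x | x ∈ V ∧ x * x = 1}
      one_mem' := ⟨one_mem _, one_mul 1⟩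
      mul_mem' := by
        rintro x y ⟨hx, hx'⟩ ⟨hy, hy'⟩
        refine ⟨mul_mem hx hy, ?_⟩
        calc x * y * (x * y) = x * (y * x) * y := by group
          _ = x * (x * y) * y := by rw [hVc x hx y hy]
          _ = (x * x) * (y * y) := by group
          _ = 1 := by rw [hx', hy', one_mul]
      inv_mem' := by
        rintro x ⟨hx, hx'⟩
        refine ⟨inv_mem hx, ?_⟩
        rw [← mul_inv_rev, hx', inv_one] }
  have hUV : U ≤ V := fun x hx => hx.1
  have hUn : U.Normal := by
    constructor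
    rintro x ⟨hx, hx'⟩ g
    refine ⟨hVn.conj_mem x hx g, ?_⟩
    calc g * x * g⁻¹ * (g * x * g⁻¹) = g * (x * x) * g⁻¹ := by group
      _ = 1 := by rw [hx']; group
  have hU : Cfsg.IsElementaryAbelian 2 U := by
    rw [PLocal.ThompsonJ.isElementaryAbelian_iff]
    exact ⟨fun x hx y hy => hVc x hx.1 y hy.1, fun x hx => by rw [pow_two]; exact hx.2⟩
  -- `C_X(U) = C_X(V)`
  have hCU : centralizer (U : Set X) = centralizer (V : Set X) := by
    apply le_antisymm
    · have h1 : (centralizer (U : Set X)).map (QuotientGroup.mk' (centralizer (V : Set X))) ≤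
          Cfsg.pCore 2 (X ⧸ centralizer (V : Set X)) := by
        apply Lib.Cores.le_pCore
        · exact Normal.map inferInstance _ (QuotientGroup.mk'_surjective _)
        · rintro ⟨_, ⟨x, hx, rfl⟩⟩
          obtain ⟨k, m, hm, hkm⟩ := Nat.exists_eq_two_pow_mul_odd (n := orderOf x) (orderOf_pos x).ne'
          refine ⟨k, Subtype.ext ?_⟩
          show QuotientGroup.mk' (centralizer (V : Set X)) x ^ 2 ^ k = 1
          rw [← map_pow, QuotientGroup.mk'_apply, QuotientGroup.eq_one_iff]
          have hodd : Odd (orderOf (x ^ 2 ^ k)) := by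
            rw [orderOf_pow' _ (by positivity), hkm, Nat.gcd_eq_right (Dvd.intro _ rfl),
              Nat.mul_div_cancel_left _ (by positivity)]
            exact hm
          have hxU : x ^ 2 ^ k ∈ centralizer (U : Set X) := pow_mem hx _
          rw [mem_centralizer_iff]
          intro v hv
          obtain ⟨r, hr⟩ := hVp ⟨v, hv⟩
          have hr' : v ^ 2 ^ r = 1 := congrArg Subtype.val hr
          exact (odd_centralizes hVc hodd (fun t ht => hVn.conj_mem t ht _)
            (fun t ht ht2 => (mem_centralizer_iff.1 hxU t ⟨ht, ht2⟩).symm) r v hv hr').symm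
      rw [hcore, le_bot_iff, Subgroup.map_eq_bot_iff, QuotientGroup.ker_mk'] at h1
      exact h1
    · exact centralizer_le (SetLike.coe_subset_coe.2 hUV)
  obtain ⟨Γ, hΓ, hΓfin, f, j, hcompat, hker, -⟩ := PLocal.FFBridge.exists_data U hUn
  have hcore' : Cfsg.pCore 2 (X ⧸ centralizer (U : Set X)) = ⊥ := pCore_quotient_congr hCU.symm hcore
  have hsit := Cfsg.Agent.H561.FFAbelian.sit_of_compat U hUn hU hcore' hcompat hker
  by_cases hYC : Y ≤ C
  · exact Or.inl hYC
  right
  have hYn : Y.Normal := by rw [hY]; exact normalClosure_normal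
  have hkerf : f.ker = C := by
    ext x
    rw [hCV, ← hCU]
    exact hker x
  -- offenders
  have hoff : ∀ A ∈ PLocal.ThompsonJA.maxAbelianIn (T : Subgroup X),
      Cfsg.IsBestOffenderOn 2 j.range (A.map f) := by
    intro A hA
    have h1 := Cfsg.Agent.H561.FFAbelian.ineq_of_max hA (hUV.trans hVT)
      (fun x hx y hy => hVc x hx.1 y hy.1)
    have h2 := Cfsg.Agent.H561.FFAbelian.ineq_map hcompat h1
    have hAc := (PLocal.ThompsonJA.isMulCommutative_iff _).1
      (PLocal.ThompsonJA.isMulCommutative_map f hA.2.1)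
    have h3 := hsit.sq_eq_one _ (A.map f) rfl (map_le_range f A)
      ((T.isPGroup'.to_le hA.1).map f) hAc h2
    refine ⟨h2, ?_, ?_⟩
    · have : ⁅A.map f, A.map f⁆ = ⊥ := by
        rw [commutator_eq_bot_iff_le_centralizer]
        intro a ha
        rw [mem_centralizer_iff]
        exact fun b hb => hAc b hb a ha
      rw [this]
      exact bot_le
    · intro a ha
      rw [pow_two, h3 a ha]
      exact one_mem _
  obtain ⟨n, hn, ⟨e⟩⟩ := exists_iso hsit (K := Y.map f) (map_le_range f Y) (by
      rintro _ ⟨k, rfl⟩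
      rw [Subgroup.mem_normalizer_iff_map_conj_eq]
      have e1 : (MulAut.conj (f k) : Γ →* Γ).comp f = f.comp (MulAut.conj k : X →* X) := by
        ext x
        simp
      rw [Subgroup.map_map, e1, ← Subgroup.map_map]
      congr 1
      exact Subgroup.mem_normalizer_iff_map_conj_eq.1
        ((Subgroup.normalizer_eq_top_iff.2 hYn) ▸ Subgroup.mem_top k)) (by
      intro h1
      apply hYC
      rw [← hkerf]
      exact (Subgroup.map_eq_bot_iff _).1 h1) (by
      apply le_antisymm
      · have h1 : Y ≤ (⨆ A : {A : Subgroup Γ // A ≤ Y.map f ∧ Cfsg.IsBestOffenderOn 2 j.range A},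
            (A : Subgroup Γ)).comap f := by
          conv_lhs => rw [hY]
          rw [normalClosure, closure_le]
          intro y hy
          rw [Group.mem_conjugatesOfSet_iff] at hy
          obtain ⟨x, hx, hxy⟩ := hy
          obtain ⟨g, rfl⟩ := isConj_iff.1 hxy
          -- `x ∈ J(T)`
          have hJ : Cfsg.thompsonSubgroupAOf (T : Subgroup X) ≤
              (⨆ A : {A : Subgroup Γ // A ≤ Y.map f ∧ Cfsg.IsBestOffenderOn 2 j.range A},
                (A : Subgroup Γ)).comap (f.comp (MulAut.conj g).toMonoidHom) := by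
            rw [PLocal.ThompsonJA.thompsonSubgroupAOf_eq_sSup]
            refine sSup_le ?_
            intro A hA
            rw [← map_le_iff_le_comap]
            have e1 : A.map (f.comp (MulAut.conj g).toMonoidHom) =
                (A.map f).map (MulAut.conj (f g)).toMonoidHom := by
              rw [map_map]
              congr 1
              ext x
              simp
            have e2 : (A.map f).map (MulAut.conj (f g)).toMonoidHom ≤ Y.map f := by
              rw [← e1, ← map_map]
              apply map_mono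
              rintro _ ⟨a, ha, rfl⟩
              refine hYn.conj_mem a ?_ g
              rw [hY]
              exact le_normalClosure (PLocal.ThompsonJA.le_thompsonSubgroupAOf hA ha)
            have e3 : Cfsg.IsBestOffenderOn 2 j.range ((A.map f).map (MulAut.conj (f g)).toMonoidHom) :=
              PLocal.FFMin.isBestOffenderOn_map_conj (hsit.hHV ⟨g, rfl⟩) (hoff A hA)
            rw [e1]
            exact le_iSup (fun A : {A : Subgroup Γ // A ≤ Y.map f ∧ Cfsg.IsBestOffenderOn 2 j.range A} =>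
              (A : Subgroup Γ)) ⟨_, e2, e3⟩
          exact hJ hx
        rw [map_le_iff_le_comap]
        exact h1
      · exact iSup_le fun A => A.2.1)
  refine ⟨n, hn, ⟨?_⟩⟩
  let φ : Y →* Γ := f.comp Y.subtype
  have hφker : C.subgroupOf Y = φ.ker := by
    ext x
    rw [mem_subgroupOf, ← hkerf]
    rfl
  have hφrange : φ.range = Y.map f := by
    rw [MonoidHom.range_comp, range_subtype]
  exact ((QuotientGroup.quotientMulEquivOfEq hφker).trans
    ((QuotientGroup.quotientKerEquivRange φ).trans (MulEquiv.subgroupCongr hφrange))).trans e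

/-- Let `X` be a finite solvable group whose Fitting subgroup is a 2-group (equivalently `F(X) = O₂(X)`), `T` a Sylow 2-subgroup of `X`, `J(T)` the subgroup generated by the abelian subgroups of `T` of largest order, `C` the largest normal subgroup of `X` centralizing the centre `Z(T)`, and `Y` the normal closure of `J(T)` in `X`. Then `X = C · Y · N_X(J(T))`, and either `Y ≤ C`, or `CY/C` is isomorphic to a direct product of at least one copy of the symmetric group of degree 3. -/
theorem result {X : Type*} [Group X] [Finite X]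
    [Group.IsSolvable X] (hF : Cfsg.fittingSubgroup X = Cfsg.pCore 2 X) (T : Sylow 2 X) :
    ((Subgroup.centralizer (((T : Subgroup X) ⊓ Subgroup.centralizer ((T : Subgroup X) : Set X) : Subgroup X) : Set X)).normalCore
        ⊔ Subgroup.normalClosure (Cfsg.thompsonSubgroupAOf (T : Subgroup X) : Set X)
        ⊔ Subgroup.normalizer (Cfsg.thompsonSubgroupAOf (T : Subgroup X) : Set X) = ⊤) ∧
    (Subgroup.normalClosure (Cfsg.thompsonSubgroupAOf (T : Subgroup X) : Set X)
        ≤ (Subgroup.centralizer (((T : Subgroup X) ⊓ Subgroup.centralizer ((T : Subgroup X) : Set X) : Subgroup X) : Set X)).normalCore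
      ∨ ∃ n : ℕ, 1 ≤ n ∧
        Nonempty (↥(Subgroup.normalClosure (Cfsg.thompsonSubgroupAOf (T : Subgroup X) : Set X)) ⧸
            ((Subgroup.centralizer (((T : Subgroup X) ⊓ Subgroup.centralizer ((T : Subgroup X) : Set X) : Subgroup X) : Set X)).normalCore).subgroupOf
              (Subgroup.normalClosure (Cfsg.thompsonSubgroupAOf (T : Subgroup X) : Set X))
          ≃* (Fin n → Equiv.Perm (Fin 3)))) :=
  ⟨part_one T _, part_two hF T _ _ _ rfl rfl rfl⟩

end Cfsg.Agent.S4302
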