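import Cfsg.Statements.S4305
import Cfsg.Agent.H562.FpfS3

set_option autoImplicit false
open Cfsg

namespace Cfsg.Agent.S4305

/-- Let the symmetric group of degree 3 act by automorphisms on a finite solvable group `G` of order prime to 6, so that only the identity of `G` is fixed by all of it. Then the derived subgroup of `G` is nilpotent. -/
theorem result {G : Type*} [Group G] [Finite G] [Group.IsSolvable G]
    [MulDistribMulAction (Equiv.Perm (Fin 3)) G] (hcop : (Nat.card G).Coprime 6)
    (hfpf : ∀ g : G, (∀ a : Equiv.Perm (Fin 3), a • g = g) → g = 1) :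
    Group.IsNilpotent ↥(commutator G) := by
  have h2G : ¬ 2 ∣ Nat.card G := by
    rw [← Nat.prime_two.coprime_iff_not_dvd]
    exact (hcop.coprime_dvd_right (by norm_num)).symm
  have h3G : ¬ 3 ∣ Nat.card G := by
    rw [← Nat.prime_three.coprime_iff_not_dvd]
    exact (hcop.coprime_dvd_right (by norm_num)).symm
  have hA : Nat.card (Equiv.Perm (Fin 3)) = 3 * 2 := by
    rw [Nat.card_eq_fintype_card, Fintype.card_perm, Fintype.card_fin]
    rfl
  have hAna : ¬ IsMulCommutative (Equiv.Perm (Fin 3)) := by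
    intro h
    have h1 := h.is_comm.comm (Equiv.swap (0 : Fin 3) 1) (Equiv.swap (1 : Fin 3) 2)
    exact absurd h1 (by decide)
  obtain ⟨F, H, hF, hH, hFn, hdvd, htop, hne⟩ := Cfsg.Agent.H562.FpfFinal.exists_FH Nat.prime_three
    Nat.prime_two (by norm_num) hA hAna
  have hyp := Cfsg.Agent.H562.FpfFinal.hyp Nat.prime_three Nat.prime_two hF hH hFn hdvd htop h3G h2G hfpf
  have hs : Group.IsSolvable (Cfsg.Agent.H562.FpfFinal.Gs G (Equiv.Perm (Fin 3))) :=
    Group.isSolvable_of_surjective
      (f := (Cfsg.Agent.H562.FpfFinal.eG (G := G) (A := Equiv.Perm (Fin 3))).toMonoidHom)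
      (Cfsg.Agent.H562.FpfFinal.eG (G := G) (A := Equiv.Perm (Fin 3))).surjective
  have hinj : Function.Injective (SemidirectProduct.inr :
      Equiv.Perm (Fin 3) →* Cfsg.Agent.H562.FpfFinal.Sd G (Equiv.Perm (Fin 3))) :=
    SemidirectProduct.inr_injective
  have hcomm := Cfsg.Agent.H562.FpfS3.comm_quot hyp
    ((Nat.card_congr (F.equivMapOfInjective _ hinj).toEquiv.symm).trans hF)
    ((Nat.card_congr (H.equivMapOfInjective _ hinj).toEquiv.symm).trans hH)
    (by
      intro hle
      apply hne
      intro u hu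
      rw [Subgroup.mem_centralizer_iff]
      intro v hv
      have h3 := Subgroup.mem_centralizer_iff.1 (hle ⟨u, hu, rfl⟩) _ ⟨v, hv, rfl⟩
      rw [← map_mul, ← map_mul] at h3
      exact hinj h3)
  have hcommG : ∀ a b : G ⧸ fittingSubgroup G, a * b = b * a := by
    intro a b
    have hn1 : (fittingSubgroup G).Normal := Cfsg.Agent.Lib.Cores.fittingSubgroup_normal
    apply (QuotientGroup.congr (fittingSubgroup G)
      (fittingSubgroup (Cfsg.Agent.H562.FpfFinal.Gs G (Equiv.Perm (Fin 3))))
      (Cfsg.Agent.H562.FpfFinal.eG (G := G) (A := Equiv.Perm (Fin 3)))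
      (Cfsg.Agent.Lib.Cores.map_equiv_fittingSubgroup _)).injective
    rw [map_mul, map_mul]
    exact hcomm _ _
  have hle : commutator G ≤ fittingSubgroup G := by
    rw [← Subgroup.Normal.quotient_commutative_iff_commutator_le]
    exact ⟨⟨hcommG⟩⟩
  have hnil : Group.IsNilpotent (fittingSubgroup G) := Cfsg.Agent.Lib.Cores.fittingSubgroup_isNilpotent
  exact Group.nilpotent_of_mulEquiv (Subgroup.subgroupOfEquivOfLe hle)

end Cfsg.Agent.S4305
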