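import Cfsg.Statements.S4306
import Cfsg.Agent.H562.FpfFinal

set_option autoImplicit false
open Cfsg

namespace Cfsg.Agent.S4306

/-- Let `A` be a non-abelian group of order `pq` with `p, q` distinct primes, acting by automorphisms on a finite solvable group `G` of order prime to `pq`, so that only the identity of `G` is fixed by all of `A`. Then `G` has Fitting height at most 2: there is a normal nilpotent subgroup `F` of `G` with `G/F` nilpotent. -/
theorem result {G A : Type*} [Group G] [Finite G]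
    [Group.IsSolvable G] [Group A] [Finite A] [MulDistribMulAction A G] (p q : ℕ) (hp : p.Prime) (hq : q.Prime) (hpq : p ≠ q)
    (hA : Nat.card A = p * q) (hAna : ¬ IsMulCommutative A) (hcop : (Nat.card G).Coprime (p * q))
    (hfpf : ∀ g : G, (∀ a : A, a • g = g) → g = 1) :
    ∃ F : Subgroup G, ∃ hF : F.Normal, Group.IsNilpotent ↥F ∧ Group.IsNilpotent (G ⧸ F) := by
  obtain ⟨f, e, hf, he, hef, hA', hfG, heG⟩ : ∃ f e : ℕ, f.Prime ∧ e.Prime ∧ e < f ∧ Nat.card A = f * e ∧
      ¬ f ∣ Nat.card G ∧ ¬ e ∣ Nat.card G := by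
    have hpG : ¬ p ∣ Nat.card G := by
      rw [← hp.coprime_iff_not_dvd]
      exact (hcop.coprime_dvd_right (dvd_mul_right p q)).symm
    have hqG : ¬ q ∣ Nat.card G := by
      rw [← hq.coprime_iff_not_dvd]
      exact (hcop.coprime_dvd_right (dvd_mul_left q p)).symm
    rcases lt_or_gt_of_ne hpq with h | h
    · exact ⟨q, p, hq, hp, h, by rw [hA, mul_comm], hqG, hpG⟩
    · exact ⟨p, q, hp, hq, h, hA, hpG, hqG⟩
  obtain ⟨F, H, hF, hH, hFn, hdvd, htop, _⟩ := Cfsg.Agent.H562.FpfFinal.exists_FH hf he hef hA' hAna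
  exact ⟨fittingSubgroup G, Cfsg.Agent.Lib.Cores.fittingSubgroup_normal,
    Cfsg.Agent.Lib.Cores.fittingSubgroup_isNilpotent,
    Cfsg.Agent.H562.FpfFinal.nilpotent_quot hf he hF hH hFn hdvd htop hfG heG hfpf⟩

end Cfsg.Agent.S4306
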