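import Cfsg.Statements.S4314

set_option autoImplicit false
open Cfsg

namespace Cfsg.Agent.S4314

section
variable {G : Type*} [Group G]

/-- centralizer of one element -/
abbrev C (x : G) : Subgroup G := Subgroup.centralizer ({x} : Set G)

theorem mem_C {x y : G} : y ∈ C x ↔ x * y = y * x := by
  rw [Subgroup.mem_centralizer_singleton_iff]
  exact eq_comm

theorem C_eq_top_iff {x : G} : C x = ⊤ ↔ x ∈ Subgroup.center G := by
  constructor
  · intro h
    rw [Subgroup.mem_center_iff]
    intro g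
    have : g ∈ C x := by rw [h]; exact Subgroup.mem_top g
    rw [mem_C] at this
    exact this.symm
  · intro h
    rw [Subgroup.mem_center_iff] at h
    rw [eq_top_iff]
    intro g _
    rw [mem_C]
    exact (h g).symm

theorem center_le_C (x : G) : Subgroup.center G ≤ C x := by
  intro z hz
  rw [mem_C]
  rw [Subgroup.mem_center_iff] at hz
  exact hz x

theorem C_le_of_mem_zpowers {x y : G} (h : y ∈ Subgroup.zpowers x) : C x ≤ C y := by
  intro g hg
  rw [mem_C] at hg ⊢
  obtain ⟨k, rfl⟩ := h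
  have : Commute x g := hg
  exact this.zpow_left k

/-- primary decomposition of an element -/
theorem exists_primary [Finite G] (w : G) (s : ℕ) (hs : s.Prime) :
    ∃ a b : G, a ∈ Subgroup.zpowers w ∧ b ∈ Subgroup.zpowers w ∧ w = a * b ∧
      (∃ k, orderOf a = s ^ k) ∧ s.Coprime (orderOf b) := by
  have hw : orderOf w ≠ 0 := (orderOf_pos w).ne'
  obtain ⟨k, m, hm, hkm⟩ := Nat.exists_eq_pow_mul_and_not_dvd hw s hs.ne_one
  have hcop : (s ^ k).Coprime m := (Nat.Prime.coprime_iff_not_dvd hs |>.mpr hm).pow_left k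
  have hbez : ((s ^ k : ℕ) : ℤ) * Nat.gcdA (s ^ k) m + (m : ℤ) * Nat.gcdB (s ^ k) m = 1 := by
    have := Nat.gcd_eq_gcd_ab (s ^ k) m
    rw [hcop] at this
    exact_mod_cast this.symm
  refine ⟨w ^ ((m : ℤ) * Nat.gcdB (s ^ k) m), w ^ (((s ^ k : ℕ) : ℤ) * Nat.gcdA (s ^ k) m),
    ⟨_, rfl⟩, ⟨_, rfl⟩, ?_, ?_, ?_⟩
  · rw [← zpow_add, add_comm, hbez, zpow_one]
  · have : orderOf (w ^ ((m : ℤ) * Nat.gcdB (s ^ k) m)) ∣ s ^ k := by
      rw [orderOf_dvd_iff_pow_eq_one, ← zpow_natCast, ← zpow_mul]
      have : (m : ℤ) * Nat.gcdB (s ^ k) m * ((s ^ k : ℕ) : ℤ) = ((orderOf w : ℕ) : ℤ) * Nat.gcdB (s ^ k) m := by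
        rw [hkm]; push_cast; ring
      rw [this, zpow_mul, zpow_natCast, pow_orderOf_eq_one, one_zpow]
    obtain ⟨j, _, hj⟩ := (Nat.dvd_prime_pow hs).mp this
    exact ⟨j, hj⟩
  · have : orderOf (w ^ (((s ^ k : ℕ) : ℤ) * Nat.gcdA (s ^ k) m)) ∣ m := by
      rw [orderOf_dvd_iff_pow_eq_one, ← zpow_natCast, ← zpow_mul]
      have : ((s ^ k : ℕ) : ℤ) * Nat.gcdA (s ^ k) m * (m : ℤ) = ((orderOf w : ℕ) : ℤ) * Nat.gcdA (s ^ k) m := by
        rw [hkm]; push_cast; ring
      rw [this, zpow_mul, zpow_natCast, pow_orderOf_eq_one, one_zpow]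
    exact Nat.Coprime.coprime_dvd_right this ((Nat.Prime.coprime_iff_not_dvd hs).mpr hm)

variable [Finite G]
  (h : ∀ x : G, (Subgroup.centralizer ({x} : Set G)).index = 1 ∨ ((Subgroup.centralizer ({x} : Set G)).index).Prime)

include h

theorem prime_index {x : G} (hx : C x ≠ ⊤) : (C x).index.Prime := by
  rcases h x with h1 | h1
  · exact absurd (Subgroup.index_eq_one.mp h1) hx
  · exact h1

theorem eq_of_le {x y : G} (hle : C x ≤ C y) (hy : C y ≠ ⊤) : C x = C y := by
  have hx : C x ≠ ⊤ := by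
    intro hx
    rw [hx] at hle
    exact hy (top_le_iff.mp hle)
  have h1 := prime_index h hx
  have h2 := prime_index h hy
  have h3 := Subgroup.relIndex_mul_index hle
  rw [← h3] at h1
  have h4 : (C x).relIndex (C y) = 1 := by
    rcases Nat.prime_mul_iff.mp h1 with ⟨_, h5⟩ | ⟨_, h5⟩
    · exact absurd h5 h2.ne_one
    · exact h5
  exact le_antisymm hle (Subgroup.relIndex_eq_one.mp h4)

theorem le_of_coprime {x y : G} (hx : C x ≠ ⊤) (hy : y ∈ C x)
    (hc : (orderOf x).Coprime (orderOf y)) : C x ≤ C y := by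
  have hcomm : Commute x y := mem_C.mp hy
  have hle : ∀ {u v : G}, Commute u v → (orderOf u).Coprime (orderOf v) → C (u * v) ≤ C u := by
    intro u v huv hc
    apply C_le_of_mem_zpowers
    have hbez : ((orderOf u : ℕ) : ℤ) * Nat.gcdA (orderOf u) (orderOf v) +
        ((orderOf v : ℕ) : ℤ) * Nat.gcdB (orderOf u) (orderOf v) = 1 := by
      have := Nat.gcd_eq_gcd_ab (orderOf u) (orderOf v)
      rw [hc] at this
      exact_mod_cast this.symm
    refine ⟨((orderOf v : ℕ) : ℤ) * Nat.gcdB (orderOf u) (orderOf v), ?_⟩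
    show (u * v) ^ _ = u
    rw [huv.mul_zpow]
    have e1 : v ^ (((orderOf v : ℕ) : ℤ) * Nat.gcdB (orderOf u) (orderOf v)) = 1 := by
      rw [zpow_mul, zpow_natCast, pow_orderOf_eq_one, one_zpow]
    have e2 : u ^ (((orderOf v : ℕ) : ℤ) * Nat.gcdB (orderOf u) (orderOf v)) = u := by
      have : ((orderOf v : ℕ) : ℤ) * Nat.gcdB (orderOf u) (orderOf v) =
          1 - ((orderOf u : ℕ) : ℤ) * Nat.gcdA (orderOf u) (orderOf v) := by linarith
      rw [this, zpow_sub, zpow_mul, zpow_natCast, pow_orderOf_eq_one, one_zpow]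
      simp
    rw [e1, e2, mul_one]
  have h1 : C (x * y) ≤ C x := hle hcomm hc
  have h2 : C (x * y) ≤ C y := by
    rw [hcomm.eq]
    exact hle hcomm.symm hc.symm
  have h3 : C (x * y) = C x := eq_of_le h h1 hx
  rw [← h3]
  exact h2

theorem all_normal (hn : ∀ x : G, (C x).Normal) : Subgroup.upperCentralSeries G 2 = ⊤ := by
  rw [eq_top_iff]
  intro x _
  rw [Subgroup.mem_upperCentralSeries_succ_iff]
  intro y
  rw [Subgroup.upperCentralSeries_one, Subgroup.mem_center_iff]
  intro z
  have hN := hn z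
  have : x * y * x⁻¹ * y⁻¹ ∈ C z := by
    rcases h z with h1 | h1
    · rw [Subgroup.index_eq_one] at h1
      show _ ∈ Subgroup.centralizer ({z} : Set G)
      rw [h1]
      exact Subgroup.mem_top _
    · have hc : Nat.card (G ⧸ C z) = (C z).index := rfl
      have : Fact (C z).index.Prime := ⟨h1⟩
      have hcy : IsCyclic (G ⧸ C z) := isCyclic_of_prime_card (p := (C z).index) hc
      have hcomm : ∀ a b : G ⧸ C z, a * b = b * a := by
        let _ := hcy.commGroup
        intro a b
        exact mul_comm a b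
      rw [← QuotientGroup.eq_one_iff]
      have := hcomm (x : G ⧸ C z) (y : G ⧸ C z)
      rw [QuotientGroup.mk_mul, QuotientGroup.mk_mul, QuotientGroup.mk_mul, this]
      rw [QuotientGroup.mk_inv, QuotientGroup.mk_inv, mul_inv_cancel_right, mul_inv_cancel]
  exact (mem_C.mp this)


omit [Finite G] in
omit h in
theorem coatom_of_prime_index {M : Subgroup G} (hM : M.index.Prime) : IsCoatom M := by
  refine ⟨fun h1 => ?_, fun K hK => ?_⟩
  · rw [h1, Subgroup.index_top] at hM
    exact Nat.not_prime_one hM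
  · have h3 := Subgroup.relIndex_mul_index hK.le
    rw [← h3] at hM
    rcases Nat.prime_mul_iff.mp hM with ⟨_, h5⟩ | ⟨_, h5⟩
    · exact Subgroup.index_eq_one.mp h5
    · exact absurd (Subgroup.relIndex_eq_one.mp h5) (not_le_of_gt hK)

omit h in
theorem normal_of_prime_pow {M : Subgroup G} (hM : M.index.Prime) {s k : ℕ} (hs : s.Prime)
    (hZ : (Subgroup.center G).index = s ^ k) : M.Normal := by
  have hco := coatom_of_prime_index hM
  have : Fact s.Prime := ⟨hs⟩
  have h1 : IsPGroup s (G ⧸ Subgroup.center G) := IsPGroup.iff_card.mpr ⟨k, hZ⟩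
  have h2 : Group.IsNilpotent (G ⧸ Subgroup.center G) := h1.isNilpotent
  have h3 : Group.IsNilpotent G := Group.of_quotient_center_nilpotent h2
  exact Subgroup.NormalizerCondition.normal_of_coatom M
    (Group.normalizerCondition_of_isNilpotent) hco

/-- every noncentral element has the centralizer of a primary element -/
theorem exists_primary_same (x : G) (hx : C x ≠ ⊤) :
    ∃ (s : ℕ) (x' : G), s.Prime ∧ (∃ k, orderOf x' = s ^ k) ∧ C x' = C x := by
  induction hn : orderOf x using Nat.strong_induction_on generalizing x with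
  | _ n ih =>
    by_cases h1 : orderOf x = 1
    · rw [orderOf_eq_one_iff] at h1
      exfalso
      apply hx
      rw [C_eq_top_iff, h1]
      exact one_mem _
    · have hs := Nat.minFac_prime h1
      obtain ⟨a, b, ha, hb, hw, hka, hcb⟩ := exists_primary x _ hs
      by_cases haZ : C a = ⊤
      · have hbC : C b = C x := by
          apply le_antisymm
          · intro g hg
            rw [mem_C] at hg ⊢
            have h2 : g ∈ C a := by rw [haZ]; exact Subgroup.mem_top g
            rw [mem_C] at h2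
            rw [hw, mul_assoc, hg, ← mul_assoc, h2, mul_assoc]
          · exact C_le_of_mem_zpowers hb
        have hlt : orderOf b < n := by
          have hd : orderOf b ∣ orderOf x := orderOf_dvd_of_mem_zpowers hb
          rw [← hn]
          apply lt_of_le_of_ne (Nat.le_of_dvd (orderOf_pos x) hd)
          intro he
          rw [he] at hcb
          exact ((Nat.Prime.coprime_iff_not_dvd hs).mp hcb) (Nat.minFac_dvd _)
        obtain ⟨s, x', h3, h4, h5⟩ := ih _ hlt b (by rw [hbC]; exact hx) rfl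
        exact ⟨s, x', h3, h4, h5.trans hbC⟩
      · exact ⟨_, a, hs, hka, (eq_of_le h (C_le_of_mem_zpowers ha) haZ).symm⟩

theorem abelian_or_central {x : G} (hx : C x ≠ ⊤) {s k : ℕ} (hs : s.Prime) (hk : orderOf x = s ^ k) :
    (∀ u ∈ C x, ∀ v ∈ C x, u * v = v * u) ∨
      (∀ y ∈ C x, s.Coprime (orderOf y) → y ∈ Subgroup.center G) := by
  by_contra hcon
  push Not at hcon
  obtain ⟨⟨u, hu, v, hv, huv⟩, y, hy, hys, hyZ⟩ := hcon
  have h1 : C x ≤ C y := le_of_coprime h hx hy (by rw [hk]; exact hys.pow_left k)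
  have hyt : C y ≠ ⊤ := fun h2 => hyZ (C_eq_top_iff.mp h2)
  have h2 : C x = C y := eq_of_le h h1 hyt
  obtain ⟨a, b, ha, hb, hw, ⟨j, hja⟩, hcb⟩ := exists_primary u s hs
  have haM : a ∈ C x := (Subgroup.zpowers_le.mpr hu) ha
  have hbM : b ∈ C x := (Subgroup.zpowers_le.mpr hu) hb
  have h3 : C x ≤ C b := le_of_coprime h hx hbM (by rw [hk]; exact hcb.pow_left k)
  have h4 : C y ≤ C a := le_of_coprime h hyt (by rw [← h2]; exact haM)
    (by rw [hja]; exact (hys.pow_left j).symm)
  have h5 := mem_C.mp (h3 hv)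
  have h6 := mem_C.mp (h4 (h2 ▸ hv))
  apply huv
  rw [hw, mul_assoc, h5, ← mul_assoc, h6, mul_assoc]

omit h in
theorem relIndex_pow {x : G} {s : ℕ} (hs : s.Prime)
    (hc : ∀ y ∈ C x, s.Coprime (orderOf y) → y ∈ Subgroup.center G) :
    ∃ a, (Subgroup.center G).relIndex (C x) = s ^ a := by
  have : Fact s.Prime := ⟨hs⟩
  have : IsPGroup s (↥(C x) ⧸ (Subgroup.center G).subgroupOf (C x)) := by
    intro g
    obtain ⟨⟨w, hw⟩, rfl⟩ := QuotientGroup.mk_surjective g
    obtain ⟨a, b, ha, hb, hwab, ⟨j, hja⟩, hcb⟩ := exists_primary w s hs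
    refine ⟨j, ?_⟩
    rw [← QuotientGroup.mk_pow, QuotientGroup.eq_one_iff, Subgroup.mem_subgroupOf]
    show w ^ s ^ j ∈ Subgroup.center G
    have hbM : b ∈ C x := (Subgroup.zpowers_le.mpr hw) hb
    have hbZ := hc b hbM hcb
    have hab : Commute a b := by
      obtain ⟨i, rfl⟩ := ha
      obtain ⟨l, rfl⟩ := hb
      exact (Commute.refl w).zpow_zpow i l
    rw [hwab, hab.mul_pow, ← hja, pow_orderOf_eq_one, one_mul]
    exact pow_mem hbZ _
  exact IsPGroup.iff_card.mp this

/-- a non-normal centralizer is abelian -/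
theorem abelian_of_not_normal {x : G} (hn : ¬ (C x).Normal) :
    ∀ u ∈ C x, ∀ v ∈ C x, u * v = v * u := by
  have hx : C x ≠ ⊤ := fun h1 => hn (by rw [h1]; infer_instance)
  obtain ⟨s, x', hs, ⟨k, hk⟩, hxx⟩ := exists_primary_same h x hx
  rw [← hxx] at hn hx ⊢
  clear hxx x
  rename' x' => x
  rcases abelian_or_central h hx hs hk with hab | hc
  · exact hab
  obtain ⟨a, ha⟩ := relIndex_pow hs hc
  have hp := prime_index h hx
  have hZi := Subgroup.relIndex_mul_index (center_le_C x)
  rw [ha] at hZi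
  obtain ⟨p, hpdef⟩ : ∃ p, p = (C x).index := ⟨_, rfl⟩
  rw [← hpdef] at hp hZi
  have hps : p ≠ s := by
    rintro rfl
    apply hn
    refine normal_of_prime_pow (by rw [← hpdef]; exact hp) hs (k := a + 1) ?_
    rw [← hZi, pow_succ]
  have : Fact p.Prime := ⟨hp⟩
  -- a noncentral `p`-element
  obtain ⟨y, hyZ, j, hyj⟩ : ∃ y : G, y ∉ Subgroup.center G ∧ ∃ j, orderOf y = p ^ j := by
    by_contra hcon
    push Not at hcon
    obtain ⟨P⟩ : Nonempty (Sylow p G) := inferInstance
    have hPZ : (P : Subgroup G) ≤ Subgroup.center G := by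
      intro y hy
      by_contra hyZ
      obtain ⟨j, hj⟩ := IsPGroup.iff_orderOf.mp P.2 ⟨y, hy⟩
      rw [Subgroup.orderOf_mk] at hj
      exact hcon y hyZ j hj
    have h1 := Subgroup.relIndex_mul_index hPZ
    have h2 : ¬ p ∣ (P : Subgroup G).index := P.not_dvd_index
    apply h2
    rw [← h1, ← hZi]
    exact Dvd.intro_left ((P : Subgroup G).relIndex (Subgroup.center G) * s ^ a) (by ring)
  have hyt : C y ≠ ⊤ := fun h2 => hyZ (C_eq_top_iff.mp h2)
  have hxy : x ∉ C y := by
    intro hxy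
    have hyx : y ∈ C x := by
      rw [mem_C] at hxy ⊢
      exact hxy.symm
    apply hyZ
    apply hc y hyx
    rw [hyj]
    exact ((Nat.coprime_primes hs hp).mpr hps.symm).pow_right j
  -- M ∩ N is centralized by N
  have hMN : ∀ w, w ∈ C x → w ∈ C y → C y ≤ C w := by
    intro w hwx hwy
    obtain ⟨a, b, ha, hb, hw, ⟨j', hja⟩, hcb⟩ := exists_primary w s hs
    have hbM : b ∈ C x := (Subgroup.zpowers_le.mpr hwx) hb
    have haN : a ∈ C y := (Subgroup.zpowers_le.mpr hwy) ha
    have hbZ := hc b hbM hcb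
    have h4 : C y ≤ C a := le_of_coprime h hyt haN
      (by rw [hja, hyj]; exact ((Nat.coprime_primes hp hs).mpr hps).pow _ _)
    intro g hg
    have h6 := mem_C.mp (h4 hg)
    rw [mem_C]
    rw [Subgroup.mem_center_iff] at hbZ
    rw [hw, mul_assoc, ← hbZ g, ← mul_assoc, h6, mul_assoc]
  -- index of C y is s
  have hNp := prime_index h hyt
  have hNs : (C y).index = s := by
    have h1 := Subgroup.relIndex_mul_index (center_le_C y)
    rw [← hZi] at h1
    have h2 : p ∣ (Subgroup.center G).relIndex (C y) := by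
      have h3 : orderOf ((⟨y, mem_C.mpr rfl⟩ : C y) : ↥(C y) ⧸ (Subgroup.center G).subgroupOf (C y)) ∣
          (Subgroup.center G).relIndex (C y) := orderOf_dvd_natCard _
      refine dvd_trans ?_ h3
      have h4 : orderOf ((⟨y, mem_C.mpr rfl⟩ : C y) : ↥(C y) ⧸ (Subgroup.center G).subgroupOf (C y)) ∣ p ^ j := by
        rw [orderOf_dvd_iff_pow_eq_one, ← QuotientGroup.mk_pow, QuotientGroup.eq_one_iff,
          Subgroup.mem_subgroupOf]
        show y ^ p ^ j ∈ Subgroup.center G
        rw [← hyj, pow_orderOf_eq_one]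
        exact one_mem _
      obtain ⟨i, _, hi⟩ := (Nat.dvd_prime_pow hp).mp h4
      rw [hi]
      rcases Nat.eq_zero_or_pos i with rfl | hi0
      · exfalso
        rw [pow_zero, orderOf_eq_one_iff, QuotientGroup.eq_one_iff, Subgroup.mem_subgroupOf] at hi
        exact hyZ hi
      · exact dvd_pow_self p hi0.ne'
    obtain ⟨t, ht⟩ := h2
    rw [ht] at h1
    have h5 : t * (C y).index = s ^ a := by
      have : p * (t * (C y).index) = p * s ^ a := by rw [← mul_assoc, h1, mul_comm]
      exact Nat.eq_of_mul_eq_mul_left hp.pos this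
    have h6 : (C y).index ∣ s ^ a := ⟨t, by rw [← h5, mul_comm]⟩
    exact (Nat.prime_dvd_prime_iff_eq hNp hs).mp (hNp.dvd_of_dvd_pow h6)
  -- index of M ∩ N in M is s
  have hI : (C y ⊓ C x).relIndex (C x) = s := by
    rw [Subgroup.inf_relIndex_right]
    have h1 : (C y).relIndex (C x) ≤ s := by
      rw [← hNs]
      rw [← Subgroup.relIndex_top_right (C y)]
      exact Subgroup.relIndex_le_of_le_right le_top
        (by rw [Subgroup.relIndex_top_right, hNs]; exact hs.ne_zero)
    have h2 : (C y).relIndex (C x) ∣ s ^ a := by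
      rw [← ha]
      exact Subgroup.relIndex_dvd_of_le_left _ (center_le_C y)
    obtain ⟨i, _, hi⟩ := (Nat.dvd_prime_pow hs).mp h2
    rcases Nat.eq_zero_or_pos i with rfl | hi0
    · exfalso
      rw [pow_zero, Subgroup.relIndex_eq_one] at hi
      exact hxy (hi (mem_C.mpr rfl))
    · rw [hi] at h1 ⊢
      apply le_antisymm h1
      exact Nat.le_of_dvd (pow_pos hs.pos i) (dvd_pow_self s hi0.ne')
  -- M = (M ∩ N)⟨x⟩
  have hL : ∀ K : Subgroup G, C y ⊓ C x ≤ K → x ∈ K → C x ≤ K := by
    intro K hK hxK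
    have h1 : C y ⊓ C x ≤ K ⊓ C x := le_inf hK inf_le_right
    have h2 := Subgroup.relIndex_mul_relIndex (C y ⊓ C x) (K ⊓ C x) (C x) h1 inf_le_right
    rw [hI] at h2
    have h3 : (C y ⊓ C x).relIndex (K ⊓ C x) ≠ 1 := by
      intro h4
      rw [Subgroup.relIndex_eq_one] at h4
      exact hxy (h4 ⟨hxK, mem_C.mpr rfl⟩).1
    have h4 : (K ⊓ C x).relIndex (C x) = 1 := by
      rw [← h2] at hs
      rcases Nat.prime_mul_iff.mp hs with ⟨_, h5⟩ | ⟨_, h5⟩
      · exact h5
      · exact absurd h5 h3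
    rw [Subgroup.relIndex_eq_one] at h4
    exact h4.trans inf_le_left
  have h7 : ∀ w ∈ C y ⊓ C x, C x ≤ C w := by
    intro w hw
    apply hL
    · intro v hv
      exact hMN w hw.2 hw.1 hv.1
    · have := mem_C.mp hw.2
      rw [mem_C]
      exact this.symm
  have h8 : ∀ u ∈ C x, C x ≤ C u := by
    intro u hu
    apply hL
    · intro v hv
      have := mem_C.mp (h7 v hv hu)
      rw [mem_C]
      exact this.symm
    · have := mem_C.mp hu
      rw [mem_C]
      exact this.symm
  intro u hu v hv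
  exact mem_C.mp (h8 u hu hv)

omit h in
/-- an element of `G` without fixed points on `G ⧸ M`, for `M` of prime index -/
theorem exists_derangement {M : Subgroup G} (hM : M.index.Prime) :
    ∃ n : G, ∀ g : G, g⁻¹ * n * g ∉ M := by
  obtain ⟨p, hp⟩ : ∃ p, p = M.index := ⟨_, rfl⟩
  have hcard : Nat.card (G ⧸ M) = p := hp.symm
  rw [← hp] at hM
  have : Fact p.Prime := ⟨hM⟩
  obtain ⟨P⟩ : Nonempty (Sylow p G) := inferInstance
  by_contra hcon
  push Not at hcon
  -- every p-element acts trivially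
  have h1 : ∀ y ∈ (P : Subgroup G), ∀ g : G, y • (g : G ⧸ M) = (g : G ⧸ M) := by
    intro y hy
    have h2 : IsPGroup p (Subgroup.zpowers y) := P.2.to_le (Subgroup.zpowers_le.mpr hy)
    have h3 := h2.card_modEq_card_fixedPoints (α := G ⧸ M)
    obtain ⟨g0, hg0⟩ := hcon y
    have h4 : (g0 : G ⧸ M) ∈ MulAction.fixedPoints (Subgroup.zpowers y) (G ⧸ M) := by
      rintro ⟨w, k, rfl⟩
      show (y ^ k) • (g0 : G ⧸ M) = (g0 : G ⧸ M)
      have h5 : y • (g0 : G ⧸ M) = (g0 : G ⧸ M) := by
        show ((y * g0 : G) : G ⧸ M) = _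
        rw [eq_comm, QuotientGroup.eq]
        rw [← mul_assoc]
        exact hg0
      exact MulAction.mem_stabilizer_iff.mp
        (zpow_mem (MulAction.mem_stabilizer_iff.mpr h5 : y ∈ MulAction.stabilizer G (g0 : G ⧸ M)) k)
    have h6 : Nat.card (MulAction.fixedPoints (Subgroup.zpowers y) (G ⧸ M)) = p := by
      rw [hcard] at h3
      have h7 : p ∣ Nat.card (MulAction.fixedPoints (Subgroup.zpowers y) (G ⧸ M)) :=
        (Nat.modEq_zero_iff_dvd).mp (h3.symm.trans (Nat.modEq_zero_iff_dvd.mpr dvd_rfl))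
      have h8 : Nat.card (MulAction.fixedPoints (Subgroup.zpowers y) (G ⧸ M)) ≤ p := by
        rw [← hcard]
        exact Nat.card_le_card_of_injective _ Subtype.val_injective
      have h9 : 0 < Nat.card (MulAction.fixedPoints (Subgroup.zpowers y) (G ⧸ M)) :=
        Nat.card_pos_iff.mpr ⟨⟨⟨_, h4⟩⟩, inferInstance⟩
      exact le_antisymm h8 (Nat.le_of_dvd h9 h7)
    intro g
    have h7 : MulAction.fixedPoints (Subgroup.zpowers y) (G ⧸ M) = Set.univ := by
      apply Set.eq_of_subset_of_ncard_le (Set.subset_univ _)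
      rw [Set.ncard_univ, hcard, ← Nat.card_coe_set_eq, h6]
    have h8 : (g : G ⧸ M) ∈ MulAction.fixedPoints (Subgroup.zpowers y) (G ⧸ M) := by
      rw [h7]; trivial
    exact h8 ⟨y, Subgroup.mem_zpowers y⟩
  have h2 : (P : Subgroup G) ≤ M := by
    intro y hy
    have h3 := h1 y hy 1
    have h4 : ((y * 1 : G) : G ⧸ M) = ((1 : G) : G ⧸ M) := h3
    rw [eq_comm, QuotientGroup.eq] at h4
    simpa using h4
  have h3 : M.index ∣ (P : Subgroup G).index := Subgroup.index_dvd_of_le h2
  rw [← hp] at h3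
  exact P.not_dvd_index h3

/-- the final step -/
theorem final {x : G} (hn : ¬ (C x).Normal) :
      ∃ p q : ℕ, p.Prime ∧ q.Prime ∧ p ≠ q ∧ Nat.card (G ⧸ Subgroup.center G) = p * q ∧ ¬ IsMulCommutative (G ⧸ Subgroup.center G) := by
  have hab := abelian_of_not_normal h hn
  have hx : C x ≠ ⊤ := fun h1 => hn (by rw [h1]; infer_instance)
  have hp := prime_index h hx
  obtain ⟨n, hnd⟩ := exists_derangement hp
  have hnx : C n ≠ ⊤ := by
    intro h1
    rw [C_eq_top_iff] at h1
    apply hnd 1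
    simpa using center_le_C x h1
  have hr := prime_index h hnx
  have hfree : ∀ w ∈ C n, ∀ g : G, g⁻¹ * w * g ∈ C x → w ∈ Subgroup.center G := by
    intro w hw g hg
    by_contra hwZ
    have h1 : C x ≤ C (g⁻¹ * w * g) := by
      intro u hu
      exact mem_C.mpr (hab _ hg _ hu)
    have h2 : C (g⁻¹ * w * g) ≠ ⊤ := by
      intro h3
      rw [C_eq_top_iff] at h3
      apply hwZ
      have h4 := (Subgroup.instNormalCenter (G := G)).conj_mem _ h3 g
      have h5 : g * (g⁻¹ * w * g) * g⁻¹ = w := by group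
      rwa [h5] at h4
    have h3 := eq_of_le h h1 h2
    apply hnd g
    rw [h3, mem_C]
    have h4 := mem_C.mp hw
    calc g⁻¹ * w * g * (g⁻¹ * n * g) = g⁻¹ * (w * n) * g := by group
      _ = g⁻¹ * (n * w) * g := by rw [h4]
      _ = g⁻¹ * n * g * (g⁻¹ * w * g) := by group
  -- the action of C n on the cosets of C x is semiregular modulo the center
  have hc : (Subgroup.center G).relIndex (C n) ∣ (C x).index := by
    have hst : ∀ ω : G ⧸ C x, MulAction.stabilizer (C n) ω = (Subgroup.center G).subgroupOf (C n) := by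
      intro ω
      obtain ⟨g, rfl⟩ := QuotientGroup.mk_surjective ω
      ext ⟨w, hw⟩
      rw [MulAction.mem_stabilizer_iff, Subgroup.mem_subgroupOf]
      show ((w * g : G) : G ⧸ C x) = (g : G ⧸ C x) ↔ w ∈ Subgroup.center G
      rw [eq_comm, QuotientGroup.eq, ← mul_assoc]
      constructor
      · intro h1
        exact hfree w hw g h1
      · intro h1
        rw [Subgroup.mem_center_iff] at h1
        rw [mul_assoc, ← h1 g, ← mul_assoc, inv_mul_cancel, one_mul]
        exact center_le_C x (Subgroup.mem_center_iff.mpr h1)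
    have h1 : Nat.card (G ⧸ C x) = Nat.card (Quotient (MulAction.orbitRel (C n) (G ⧸ C x))) *
        (Subgroup.center G).relIndex (C n) := by
      have hfin : Fintype (Quotient (MulAction.orbitRel (C n) (G ⧸ C x))) := Fintype.ofFinite _
      rw [Nat.card_congr (MulAction.selfEquivSigmaOrbitsQuotientStabilizer (C n) (G ⧸ C x))]
      have : ∀ ω : MulAction.orbitRel.Quotient (C n) (G ⧸ C x),
          Nat.card (↥(C n) ⧸ MulAction.stabilizer (C n) ω.out) = (Subgroup.center G).relIndex (C n) := by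
        intro ω
        rw [hst]
        rfl
      rw [Nat.card_sigma]
      rw [Finset.sum_congr rfl (fun ω _ => this ω)]
      rw [Finset.sum_const, Finset.card_univ, smul_eq_mul, Nat.card_eq_fintype_card]
    exact ⟨_, by rw [mul_comm]; exact h1⟩
  have hc1 : (Subgroup.center G).relIndex (C n) ≠ 1 := by
    intro h1
    rw [Subgroup.relIndex_eq_one] at h1
    exact hnx (C_eq_top_iff.mpr (h1 (mem_C.mpr rfl)))
  have hc2 : (Subgroup.center G).relIndex (C n) = (C x).index :=
    ((Nat.dvd_prime hp).mp hc).resolve_left hc1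
  have hidx := Subgroup.relIndex_mul_index (center_le_C n)
  rw [hc2] at hidx
  refine ⟨(C x).index, (C n).index, hp, hr, ?_, ?_, ?_⟩
  · intro h1
    apply hn
    apply normal_of_prime_pow hp hp (k := 2)
    rw [← hidx, ← h1]
    ring
  · exact hidx.symm
  · intro hcomm
    apply hn
    constructor
    intro m hm g
    have h1 : ((g * m * g⁻¹ : G) : G ⧸ Subgroup.center G) = (m : G ⧸ Subgroup.center G) := by
      rw [QuotientGroup.mk_mul, QuotientGroup.mk_mul, QuotientGroup.mk_inv,
        hcomm.is_comm.comm (g : G ⧸ Subgroup.center G) m, mul_inv_cancel_right]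
    rw [eq_comm, QuotientGroup.eq] at h1
    have h2 := center_le_C x h1
    have h3 := mul_mem hm h2
    rwa [mul_inv_cancel_left] at h3

end

/-- Let `G` be a finite group every conjugacy class of which has size 1 or a prime. Then either `G` is nilpotent of class at most 2, or `G/Z(G)` is a non-abelian group of order `pq` for distinct primes `p, q` (a Frobenius group of order `pq`). -/
theorem result {G : Type*} [Group G] [Finite G]
    (h : ∀ x : G, (Subgroup.centralizer ({x} : Set G)).index = 1 ∨ ((Subgroup.centralizer ({x} : Set G)).index).Prime) :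
    Subgroup.upperCentralSeries G 2 = ⊤ ∨
      ∃ p q : ℕ, p.Prime ∧ q.Prime ∧ p ≠ q ∧ Nat.card (G ⧸ Subgroup.center G) = p * q ∧ ¬ IsMulCommutative (G ⧸ Subgroup.center G) := by
  by_cases hn : ∀ x : G, (C x).Normal
  · exact Or.inl (all_normal h hn)
  · push Not at hn
    obtain ⟨x, hx⟩ := hn
    exact Or.inr (final h hx)

end Cfsg.Agent.S4314
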