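import Cfsg.Statements.S4316
import Cfsg.Agent.H565.RankThree
import Cfsg.Agent.H565.Semi
-- import your own Cfsg.Agent.* helpers here

set_option autoImplicit false
universe u
open Cfsg

namespace Cfsg.Agent.S4316

open Cfsg.Agent.H565 Cfsg.Agent.H565.Semi

/-- There is a function `f` of two natural-number arguments with the following property. Let `q` be a prime and `A` an elementary abelian group of order `q³` acting by automorphisms on a finite group `G` of order prime to `q`, and suppose that for every non-identity `a ∈ A` the derived subgroup of the fixed-point subgroup `C_G(a)` has order at most `m`. Then the derived subgroup of `G` has order at most `f(q, m)`. -/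
theorem result :
    ∃ f : ℕ → ℕ → ℕ, ∀ (q m : ℕ) (A G : Type u) [Group A] [Finite A] [Group G] [Finite G] [MulDistribMulAction A G],
      q.Prime → Nat.card A = q ^ 3 → (∀ a b : A, a * b = b * a) → (∀ a : A, a ^ q = 1) → ¬ q ∣ Nat.card G →
      (∀ a : A, a ≠ 1 → Nat.card ↥(commutator ↥(FixedPoints.subgroup (Subgroup.zpowers a) G)) ≤ m) →
      Nat.card ↥(commutator G) ≤ f q m := by
  choose F hF using fun k : ℕ => PrimePow.exists_bound.{u} k
  refine ⟨fun q m => F ((m ^ q ^ 3) ^ 2 ^ q ^ 3), ?_⟩
  intro q m A G _ _ _ _ _ hq hA hab hexp hcop hm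
  have hcardA : Nat.card (iA A G).range = q ^ 3 := by
    rw [← hA]
    exact Nat.card_congr ((iA A G).ofInjective iA_injective).toEquiv.symm
  have hcardG : Nat.card (iG A G).range = Nat.card G :=
    Nat.card_congr ((iG A G).ofInjective iG_injective).toEquiv.symm
  have hAexp : ∀ a ∈ (iA A G).range, a ^ q = 1 := by
    rintro _ ⟨a, rfl⟩
    rw [← map_pow, hexp, map_one]
  have hAab : ∀ a ∈ (iA A G).range, ∀ b ∈ (iA A G).range, a * b = b * a := by
    rintro _ ⟨a, rfl⟩ _ ⟨b, rfl⟩
    rw [← map_mul, hab, map_mul]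
  have hAel : Cfsg.IsElementaryAbelian q (iA A G).range :=
    ⟨⟨⟨fun a b => Subtype.ext (hAab a.1 a.2 b.1 b.2)⟩⟩, hAexp⟩
  rw [card_commutator_congr ((iG A G).ofInjective iG_injective)]
  apply hF ((m ^ q ^ 3) ^ 2 ^ q ^ 3)
  apply RankThree.index_le_of_primePow hq (iA A G).range (iG A G).range range_iA_le_normalizer hcardA hAel hAab hAexp
    (by rw [hcardG]; exact hcop)
  rintro _ ⟨a, rfl⟩ ha1
  have ha : a ≠ 1 := fun h => ha1 (by rw [h, map_one])
  rw [← card_commutator_congr (fixEquiv a)]
  exact hm a ha

end Cfsg.Agent.S4316
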