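import Cfsg.Statements.S4323
import Cfsg.Agent.S4319
-- import your own Cfsg.Agent.* helpers here

set_option autoImplicit false
open Cfsg

namespace Cfsg.Agent.S4323

/-- Let `q` be a prime and `A` a non-cyclic group of order `q²` acting by automorphisms on a finite group `G` of order prime to `q`, such that the fixed-point subgroup `C_G(a)` is abelian for every non-identity `a ∈ A`. Then `G` is solvable. -/
theorem result {A G : Type*} [Group A] [Finite A]
    [Group G] [Finite G] [MulDistribMulAction A G] (q : ℕ) (hq : q.Prime) (hA : Nat.card A = q ^ 2) (hnc : ¬ IsCyclic A)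
    (hcop : ¬ q ∣ Nat.card G) (h : ∀ a : A, a ≠ 1 → IsMulCommutative ↥(FixedPoints.subgroup (Subgroup.zpowers a) G)) :
    Group.IsSolvable G := by
  have _ := hnc
  have hc : (Nat.card G).Coprime (Nat.card A) := by
    rw [hA]
    exact (((Nat.Prime.coprime_iff_not_dvd hq).2 hcop).pow_left 2).symm
  have h1 : 1 < Nat.card A := by rw [hA]; exact Nat.one_lt_pow two_ne_zero hq.one_lt
  have : Nontrivial A := Finite.one_lt_card_iff_nontrivial.1 h1
  obtain ⟨a, ha⟩ := exists_ne (1 : A)
  have h2 := h a ha
  refine Cfsg.Agent.S4319.result hc (Or.inl ?_)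
  have h3 : ∀ x y : ↥(FixedPoints.subgroup A G), x * y = y * x := by
    rintro ⟨x, hx⟩ ⟨y, hy⟩
    have hx' : x ∈ FixedPoints.subgroup (Subgroup.zpowers a) G := fun m => hx m.1
    have hy' : y ∈ FixedPoints.subgroup (Subgroup.zpowers a) G := fun m => hy m.1
    have h4 := h2.is_comm.comm (⟨x, hx'⟩ : ↥(FixedPoints.subgroup (Subgroup.zpowers a) G)) ⟨y, hy'⟩
    exact Subtype.ext (show x * y = y * x from congrArg Subtype.val h4)
  let i1 : CommGroup ↥(FixedPoints.subgroup A G) := { (inferInstance : Group _) with mul_comm := h3 }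
  exact CommGroup.isNilpotent

end Cfsg.Agent.S4323
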