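import Cfsg.Statements.S4421

set_option autoImplicit false
open Cfsg

namespace Cfsg.Agent.S4421

theorem map_conj_mul {G : Type*} [Group G] (A : Subgroup G) (a b : G) :
    A.map (MulAut.conj (a * b)).toMonoidHom =
      (A.map (MulAut.conj b).toMonoidHom).map (MulAut.conj a).toMonoidHom := by
  rw [Subgroup.map_map]
  congr 1
  ext x
  simp

theorem map_conj_one {G : Type*} [Group G] (A : Subgroup G) :
    A.map (MulAut.conj (1 : G)).toMonoidHom = A := by
  ext x
  simp [Subgroup.mem_map]

theorem mem_normalizer_iff_map {G : Type*} [Group G] (A : Subgroup G) (a : G) :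
    a ∈ Subgroup.normalizer (A : Set G) ↔ A.map (MulAut.conj a).toMonoidHom = A := by
  rw [Subgroup.mem_normalizer_iff]
  constructor
  · intro h
    ext x
    simp only [Subgroup.mem_map, MulEquiv.coe_toMonoidHom, MulAut.conj_apply]
    constructor
    · rintro ⟨y, hy, rfl⟩
      exact (h y).1 hy
    · intro hx
      refine ⟨a⁻¹ * x * a, ?_, by group⟩
      apply (h _).2
      have : a * (a⁻¹ * x * a) * a⁻¹ = x := by group
      rwa [this]
  · intro h x
    constructor
    · intro hx
      have h1 : (MulAut.conj a).toMonoidHom x ∈ A.map (MulAut.conj a).toMonoidHom := ⟨x, hx, rfl⟩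
      rw [h] at h1
      simpa using h1
    · intro hx
      have h1 : a * x * a⁻¹ ∈ A.map (MulAut.conj a).toMonoidHom := by rw [h]; exact hx
      obtain ⟨y, hy, hyx⟩ := h1
      simp only [MulEquiv.coe_toMonoidHom, MulAut.conj_apply] at hyx
      have : y = x := by
        have := congrArg (fun z => a⁻¹ * z * a) hyx
        simpa [mul_assoc] using this
      rwa [← this]

/-- A factorization of a normalizer from two-step control of fusion. Let `G` be a finite group and `A ≤ S ≤ H` subgroups of `G` such that: (i) `S` controls the `G`-fusion of `A` in the sense that every `G`-conjugate of `A` lying in `S` is an `S`-conjugate of `A`; (ii) `H` controls the `G`-fusion of `S` in the same sense; (iii) every conjugate of `S` by an element of the normalizer of `A` lies in `H`. Then `N_G(A) = N_H(A) · (N_G(S) ∩ N_G(A))`: every element of the normalizer of `A` is a product of an element of `H` normalizing `A` and an element normalizing both `S` and `A`. -/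
theorem result {G : Type*} [Group G] [Finite G] (A S H : Subgroup G)
    (hAS : A ≤ S) (hSH : S ≤ H)
    (h1 : ∀ g : G, A.map (MulAut.conj g).toMonoidHom ≤ S → ∃ s ∈ S, A.map (MulAut.conj g).toMonoidHom = A.map (MulAut.conj s).toMonoidHom)
    (h2 : ∀ g : G, S.map (MulAut.conj g).toMonoidHom ≤ H → ∃ y ∈ H, S.map (MulAut.conj g).toMonoidHom = S.map (MulAut.conj y).toMonoidHom)
    (h3 : ∀ x ∈ Subgroup.normalizer (A : Set G), S.map (MulAut.conj x).toMonoidHom ≤ H) :
    ∀ x ∈ Subgroup.normalizer (A : Set G), ∃ y ∈ H ⊓ Subgroup.normalizer (A : Set G),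
      ∃ z ∈ Subgroup.normalizer (S : Set G) ⊓ Subgroup.normalizer (A : Set G), x = y * z := by
  intro x hx
  obtain ⟨y, hyH, hy⟩ := h2 x (h3 x hx)
  have hxA := (mem_normalizer_iff_map A x).1 hx
  -- n = y⁻¹ x normalises S
  have hn : S.map (MulAut.conj (y⁻¹ * x)).toMonoidHom = S := by
    rw [map_conj_mul, hy, ← map_conj_mul, inv_mul_cancel, map_conj_one]
  have hA' : A.map (MulAut.conj (y⁻¹ * x)).toMonoidHom ≤ S := by
    calc A.map (MulAut.conj (y⁻¹ * x)).toMonoidHom ≤ S.map (MulAut.conj (y⁻¹ * x)).toMonoidHom :=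
          Subgroup.map_mono hAS
      _ = S := hn
  obtain ⟨s, hsS, hs⟩ := h1 _ hA'
  have hA'' : A.map (MulAut.conj (y⁻¹ * x)).toMonoidHom = A.map (MulAut.conj y⁻¹).toMonoidHom := by
    rw [map_conj_mul, hxA]
  have hys : A.map (MulAut.conj (y * s)).toMonoidHom = A := by
    rw [map_conj_mul, ← hs, hA'', ← map_conj_mul, mul_inv_cancel, map_conj_one]
  have hysN : y * s ∈ Subgroup.normalizer (A : Set G) := (mem_normalizer_iff_map A _).2 hys
  refine ⟨y * s, ⟨H.mul_mem hyH (hSH hsS), hysN⟩, (y * s)⁻¹ * x, ⟨?_, ?_⟩, by group⟩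
  · have h : (y * s)⁻¹ * x = s⁻¹ * (y⁻¹ * x) := by group
    rw [h]
    refine Subgroup.mul_mem _ (Subgroup.inv_mem _ ?_) ((mem_normalizer_iff_map S _).2 hn)
    exact Subgroup.le_normalizer hsS
  · exact Subgroup.mul_mem _ (Subgroup.inv_mem _ hysN) hx

end Cfsg.Agent.S4421
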