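import Cfsg.Statements.S4425
import Cfsg.Agent.H589.Tilde

set_option autoImplicit false
open Cfsg

namespace Cfsg.Agent.S4425

open Cfsg.Agent.Blocks.Local Cfsg.Agent.Blocks.Blau Cfsg.Agent.Characters Cfsg.Agent.H589.Tilde


/-- Let χ be an irreducible character of the finite group G, p a prime, p^a the p-part of the order of G and p^b the p-part of the degree χ(1). Let χ̃ be the class function equal to p^a · χ on p-regular elements and zero on p-singular elements. Then p^(−b) · χ̃ is a generalized character of G, while p^(−(b+1)) · χ̃ is not. -/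
theorem result {G : Type*} [Group G] [Finite G] (p : ℕ) [Fact p.Prime] (χ : Cfsg.IrrCharacter G) : Cfsg.IsGeneralizedCharacter G (fun x : G => if p ∣ orderOf x then (0 : ℂ) else ((p ^ ((Nat.card G).factorization p - (Cfsg.charDegree (χ : G → ℂ)).factorization p) : ℕ) : ℂ) * (χ : G → ℂ) x) ∧ ¬ Cfsg.IsGeneralizedCharacter G (fun x : G => if p ∣ orderOf x then (0 : ℂ) else ((p ^ (Nat.card G).factorization p : ℕ) : ℂ) / ((p ^ ((Cfsg.charDegree (χ : G → ℂ)).factorization p + 1) : ℕ) : ℂ) * (χ : G → ℂ) x) := by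
  classical
  have := Fintype.ofFinite G
  have := Cfsg.Agent.Characters.Core.finite_irr (G := G)
  have := Fintype.ofFinite (IrrCharacter G)
  have hp : p.Prime := Fact.out
  have hχc := Core.isIrr_isCharacter χ.2
  have hle : (Cfsg.charDegree (χ : G → ℂ)).factorization p ≤ (Nat.card G).factorization p := by
    have hdvd : Cfsg.charDegree (χ : G → ℂ) ∣ Nat.card G := charDegree_dvd χ
    exact (Nat.factorization_le_iff_dvd (charDegree_pos χ).ne' Nat.card_pos.ne').2 hdvd p
  have hp0 : ∀ k : ℕ, ((p ^ k : ℕ) : ℂ) ≠ 0 := fun k => by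
    exact_mod_cast (pow_pos hp.pos _).ne'
  constructor
  · rw [Core.isGeneralizedCharacter_iff]
    choose k hk using fun ψ => dvd_coef_left p χ ψ
    refine ⟨k, ?_⟩
    have h := tilde_eq_sum p χ
    rw [tilde_def] at h
    funext x
    have hx := congrFun h x
    rw [Finset.sum_apply] at hx ⊢
    have h1 : ∑ ψ : IrrCharacter G, (k ψ • (ψ : G → ℂ)) x =
        ((p ^ (Cfsg.charDegree (χ : G → ℂ)).factorization p : ℕ) : ℂ)⁻¹ *
          ∑ ψ : IrrCharacter G, ((coef p χ ψ : ℂ) • (ψ : G → ℂ)) x := by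
      rw [Finset.mul_sum]
      refine Finset.sum_congr rfl fun ψ _ => ?_
      rw [hk ψ, Pi.smul_apply, Pi.smul_apply, zsmul_eq_mul, smul_eq_mul]
      have := hp0 ((Cfsg.charDegree (χ : G → ℂ)).factorization p)
      push_cast at this ⊢
      field_simp
    rw [h1, ← hx]
    by_cases hd : p ∣ orderOf x
    · simp only [if_pos hd, mul_zero]
    · simp only [if_neg hd]
      have e : ((p ^ (Nat.card G).factorization p : ℕ) : ℂ) =
          ((p ^ (Cfsg.charDegree (χ : G → ℂ)).factorization p : ℕ) : ℂ) *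
          ((p ^ ((Nat.card G).factorization p -
            (Cfsg.charDegree (χ : G → ℂ)).factorization p) : ℕ) : ℂ) := by
        rw [← Nat.cast_mul, ← pow_add, Nat.add_sub_cancel' hle]
      rw [e]
      have := hp0 ((Cfsg.charDegree (χ : G → ℂ)).factorization p)
      field_simp
  · rintro ⟨φ, ψ, hφ, hψ, h⟩
    obtain ⟨P⟩ : Nonempty (Sylow p G) := inferInstance
    obtain ⟨m, hm⟩ := exists_sum_subgroup_eq (P : Subgroup G) hφ
    obtain ⟨n, hn⟩ := exists_sum_subgroup_eq (P : Subgroup G) hψ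
    have hP : ((Nat.card (P : Subgroup G) : ℕ) : ℂ) =
        ((p ^ (Nat.card G).factorization p : ℕ) : ℂ) := by
      rw [P.card_eq_multiplicity]
    have h1 : ∑ x : P, (φ - ψ) (x : G) =
        ((p ^ (Nat.card G).factorization p : ℕ) : ℂ) * ((m : ℂ) - n) := by
      simp only [Pi.sub_apply, Finset.sum_sub_distrib]
      have hm' : ∑ x : P, φ (x : G) = (Nat.card (P : Subgroup G) : ℂ) * m := hm
      have hn' : ∑ x : P, ψ (x : G) = (Nat.card (P : Subgroup G) : ℂ) * n := hn
      rw [hm', hn', ← hP]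
      ring
    rw [← h] at h1
    have h2 := sum_sylow_regPart P (fun x => ((p ^ (Nat.card G).factorization p : ℕ) : ℂ) /
      ((p ^ ((Cfsg.charDegree (χ : G → ℂ)).factorization p + 1) : ℕ) : ℂ) * (χ : G → ℂ) x)
    unfold regPart at h2
    rw [h2, charDegree_spec hχc] at h1
    have h3 : (charDegree (χ : G → ℂ) : ℂ) =
        ((p ^ ((Cfsg.charDegree (χ : G → ℂ)).factorization p + 1) : ℕ) : ℂ) * ((m : ℂ) - n) := by
      have e1 := hp0 ((Nat.card G).factorization p)
      have e2 := hp0 ((Cfsg.charDegree (χ : G → ℂ)).factorization p + 1)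
      rw [div_mul_eq_mul_div, div_eq_iff e2] at h1
      have h4 : ((p ^ (Nat.card G).factorization p : ℕ) : ℂ) * (charDegree (χ : G → ℂ) : ℂ) =
        ((p ^ (Nat.card G).factorization p : ℕ) : ℂ) *
        (((p ^ ((Cfsg.charDegree (χ : G → ℂ)).factorization p + 1) : ℕ) : ℂ) * ((m : ℂ) - n)) := by
        rw [h1]; ring
      exact mul_left_cancel₀ e1 h4
    have h5 : ((charDegree (χ : G → ℂ) : ℕ) : ℤ) =
        ((p ^ ((Cfsg.charDegree (χ : G → ℂ)).factorization p + 1) : ℕ) : ℤ) * ((m : ℤ) - n) := by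
      exact_mod_cast h3
    have h6 : p ^ ((Cfsg.charDegree (χ : G → ℂ)).factorization p + 1) ∣ charDegree (χ : G → ℂ) := by
      have : ((p ^ ((Cfsg.charDegree (χ : G → ℂ)).factorization p + 1) : ℕ) : ℤ) ∣
          ((charDegree (χ : G → ℂ) : ℕ) : ℤ) := ⟨_, h5⟩
      exact_mod_cast this
    rw [hp.pow_dvd_iff_le_factorization (charDegree_pos χ).ne'] at h6
    omega

end Cfsg.Agent.S4425
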