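import Cfsg.Statements.S4427
import Cfsg.Agent.S3719
import Cfsg.Agent.H589.ThreeSimple
import Cfsg.Agent.SolvableStructure.HallConverse
import Cfsg.Agent.S0243
import Cfsg.Agent.S0280

set_option autoImplicit false
open Cfsg

namespace Cfsg.Agent.S4427

open Cfsg.Agent.H589.RegCount Cfsg.Agent.H589.ThreeSimple


/-- Let G be a finite group of order p^a · q^b · r^c with p, q, r distinct primes, and suppose that G has exactly q^b · r^c elements of order not divisible by p. Then G has a normal p-complement: a normal subgroup of order q^b · r^c. -/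
theorem result {G : Type*} [Group G] [Finite G] (p q r a b c : ℕ) (hp : p.Prime) (hq : q.Prime) (hr : r.Prime) (hpq : p ≠ q) (hpr : p ≠ r) (hqr : q ≠ r) (hG : Nat.card G = p ^ a * q ^ b * r ^ c) (hcount : Nat.card {g : G // ¬ p ∣ orderOf g} = q ^ b * r ^ c) : ∃ N : Subgroup G, N.Normal ∧ Nat.card N = q ^ b * r ^ c := by
  have : Fact p.Prime := ⟨hp⟩
  have hnd : ¬ p ∣ q ^ b * r ^ c := by
    intro h
    rcases hp.dvd_mul.1 h with h | h
    · exact hpq ((Nat.prime_dvd_prime_iff_eq hp hq).1 (hp.dvd_of_dvd_pow h))
    · exact hpr ((Nat.prime_dvd_prime_iff_eq hp hr).1 (hp.dvd_of_dvd_pow h))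
  have hpp : pp p (Nat.card G) = q ^ b * r ^ c :=
    pp_eq (a := a) hp (by rw [hG, mul_assoc]) hnd
  suffices hsuff : ∃ H : Subgroup G, H.Normal ∧ Nat.card H = pp p (Nat.card G) by
    obtain ⟨H, hH, hHc⟩ := hsuff
    exact ⟨H, hH, by rw [hHc, hpp]⟩
  refine exists_normal (p := p) (fun n => n ∣ p ^ a * q ^ b * r ^ c)
    (fun x y hxy hy => hxy.trans hy) ?_ _ G rfl (dvd_of_eq hG) (by rw [hpp]; exact hcount)
  · intro S _ _ _ hna hdvd hdiv
    apply cnt_ne hp hdvd
    have hncomm : ¬ IsMulCommutative S := by
      rintro ⟨⟨h⟩⟩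
      obtain ⟨x, y, hxy⟩ := hna
      exact hxy (h x y)
    have hsub : (Nat.card S).primeFactors ⊆ {p, q, r} := by
      intro x hx
      have hx1 := Nat.prime_of_mem_primeFactors hx
      have hx2 := (Nat.dvd_of_mem_primeFactors hx).trans hdiv
      rw [Finset.mem_insert, Finset.mem_insert, Finset.mem_singleton]
      rcases hx1.dvd_mul.1 hx2 with h | h
      · rcases hx1.dvd_mul.1 h with h | h
        · exact Or.inl ((Nat.prime_dvd_prime_iff_eq hx1 hp).1 (hx1.dvd_of_dvd_pow h))
        · exact Or.inr (Or.inl ((Nat.prime_dvd_prime_iff_eq hx1 hq).1 (hx1.dvd_of_dvd_pow h)))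
      · exact Or.inr (Or.inr ((Nat.prime_dvd_prime_iff_eq hx1 hr).1 (hx1.dvd_of_dvd_pow h)))
    have h3 : (Nat.card S).primeFactors.card = 3 := by
      apply le_antisymm
      · exact (Finset.card_le_card hsub).trans Finset.card_le_three
      · by_contra hlt
        have hsolv : Group.IsSolvable S :=
          Cfsg.Agent.SolvableStructure.HallConverse.isSolvable_of_no_three_primes (by omega)
        exact hncomm ⟨⟨fun x y => (IsSimpleGroup.comm_iff_isSolvable.2 hsolv) x y⟩⟩
    rcases Cfsg.Agent.S3719.result hncomm h3 with ⟨⟨e⟩⟩ | ⟨⟨e⟩⟩ | ⟨F, _, _, hF, ⟨e⟩⟩ |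
      ⟨F, _, _, hF, ⟨e⟩⟩ | ⟨F, _, _, hF, ⟨e⟩⟩ | ⟨F, _, _, hF, ⟨e⟩⟩
    · left
      rw [Nat.card_congr e.toEquiv, nat_card_alternatingGroup]
      simp [Nat.factorial]
    · right; right; left
      rw [Nat.card_congr e.toEquiv, nat_card_alternatingGroup]
      simp [Nat.factorial]
    · rw [Nat.card_congr e.toEquiv]
      rcases hF with h | h | h
      · right; left
        have h1 := Cfsg.Agent.S0243.result h 2 le_rfl
        rw [Fin.prod_univ_two] at h1
        norm_num at h1
        omega
      · right; right; right; left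
        have h1 := Cfsg.Agent.S0243.result h 2 le_rfl
        rw [Fin.prod_univ_two] at h1
        norm_num at h1
        omega
      · right; right; right; right; left
        have h1 := Cfsg.Agent.S0243.result h 2 le_rfl
        rw [Fin.prod_univ_two] at h1
        norm_num at h1
        omega
    · right; right; right; right; right; left
      rw [Nat.card_congr e.toEquiv]
      have h1 := Cfsg.Agent.S0243.result hF 3 (by norm_num)
      rw [Fin.prod_univ_three] at h1
      norm_num at h1
      omega
    · right; right; right; right; right; right; left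
      rw [Nat.card_congr e.toEquiv]
      have h1 := Cfsg.Agent.S0280.result (F := F) (q := 3) (by rw [hF]; norm_num) 3 (by norm_num)
      norm_num [Finset.prod_range_succ, Nat.even_iff] at h1
      omega
    · right; right; right; right; right; right; right
      rw [Nat.card_congr e.toEquiv]
      have h1 := Cfsg.Agent.S0280.result (F := F) (q := 2) (by rw [hF]; norm_num) 4 (by norm_num)
      norm_num [Finset.prod_range_succ, Nat.even_iff] at h1
      omega

end Cfsg.Agent.S4427
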