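import Cfsg.Statements.S4428
-- import your own Cfsg.Agent.* helpers here
import Cfsg.Agent.H590.Subsection

set_option autoImplicit false
open Cfsg

namespace Cfsg.Agent.S4428

/-- Let χ be an irreducible character of height zero in the p-block B of the finite group G (relative to a maximal ideal M of the algebraic integers containing p). Let x be a p-element of G with centralizer C, and let b be a block of C that induces B. Form the class function ϑ(c) = χ(x c) on C and its b-part (the sum over ψ ∈ b of the inner product of ϑ with ψ, times ψ). Then the b-part of ϑ does not vanish identically on the p-regular elements of C. (Compare the second main Theorem, which gives vanishing when b does not induce B.) -/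
theorem result {G : Type*} [Group G] [Finite G] (p : ℕ) [Fact p.Prime] (M : Ideal Cfsg.AlgInt) (hM : Cfsg.IsPModular p M) (B : Set (Cfsg.IrrCharacter G)) (hB : Cfsg.IsPBlock M B) (χ : Cfsg.IrrCharacter G) (hχ : χ ∈ B) (h0 : Cfsg.blockHeight p B (χ : G → ℂ) = 0) (x : G) (hx : ∃ k : ℕ, orderOf x = p ^ k) (b : Set (Cfsg.IrrCharacter (Subgroup.centralizer ({x} : Set G)))) (hb : Cfsg.IsInducedBlock M (Subgroup.centralizer ({x} : Set G)) b B) : ∃ y : Subgroup.centralizer ({x} : Set G), ¬ p ∣ orderOf y ∧ Cfsg.blockPart b (fun c : Subgroup.centralizer ({x} : Set G) => (χ : G → ℂ) (x * (c : G))) y ≠ 0 := by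
  classical
  have := Fintype.ofFinite G
  have := Fintype.ofFinite (Subgroup.centralizer ({x} : Set G))
  have hMp : M.IsPrime := Cfsg.Agent.Blocks.Local.isPrime_of_isPModular hM
  obtain ⟨ψ, hψ⟩ := Cfsg.Agent.Blocks.Basic.isPBlock_nonempty hb.1
  have hxC : ∀ y ∈ Subgroup.centralizer ({x} : Set G), x * y = y * x := by
    intro y hy
    exact (Subgroup.mem_centralizer_singleton_iff.1 hy).symm
  have h1 := Cfsg.Agent.H590.Subsection.sum_reg_translate_ne_zero hM χ hχ h0 x hx
    (Subgroup.centralizer ({x} : Set G)) hxC hb hψ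
  have hϑ : IsClassFunction (Subgroup.centralizer ({x} : Set G))
      (fun c : Subgroup.centralizer ({x} : Set G) => (χ : G → ℂ) (x * (c : G))) := by
    intro g h
    have e := Cfsg.Agent.Blocks.Basic.irr_conj χ.2 (x * (g : G)) (h : G)
    simp only
    rw [← e]
    have h3 := hxC h h.2
    simp only [Subgroup.coe_mul, Subgroup.coe_inv]
    rw [← mul_assoc, ← mul_assoc, h3]
    simp [mul_assoc]
  rw [← Cfsg.Agent.H590.Subsection.sum_reg_blockPart hM hb.1 hϑ hψ] at h1
  obtain ⟨y, -, hy⟩ := Finset.exists_ne_zero_of_sum_ne_zero h1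
  refine ⟨y, ?_, ?_⟩
  · intro hd
    rw [if_pos hd, zero_mul] at hy
    exact hy rfl
  · intro h
    rw [h] at hy
    simp at hy

end Cfsg.Agent.S4428
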