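import Cfsg.Statements.S4429
-- import your own Cfsg.Agent.* helpers here
import Cfsg.Agent.H590.MElevenDeg

set_option autoImplicit false
open Cfsg

namespace Cfsg.Agent.S4429

/-- Let G be a simple group of order 7920. Then G has exactly ten irreducible complex characters, and their degrees, listed with multiplicity, are 1, 10, 10, 10, 11, 16, 16, 44, 45, 55: for every natural number n, the number of irreducible characters of degree n is 1 if n ∈ {1, 11, 44, 45, 55}, 3 if n = 10, 2 if n = 16, and 0 otherwise. -/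
theorem result {G : Type*} [Group G] [Finite G] [IsSimpleGroup G] (hG : Nat.card G = 7920) : Nat.card (Cfsg.IrrCharacter G) = 10 ∧ ∀ n : ℕ, Nat.card {χ : Cfsg.IrrCharacter G // Cfsg.charDegree (χ : G → ℂ) = n} = (if n = 1 ∨ n = 11 ∨ n = 44 ∨ n = 45 ∨ n = 55 then 1 else if n = 10 then 3 else if n = 16 then 2 else 0) := by
  classical
  obtain ⟨e, he⟩ := Cfsg.Agent.H590.MElevenDeg.exists_equiv (G := G) ⟨inferInstance, hG⟩
  refine ⟨by rw [← Nat.card_congr e, Nat.card_fin], fun n => ?_⟩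
  have hdeg : ∀ i, Cfsg.charDegree (e i : G → ℂ) = Cfsg.Agent.H590.MElevenDeg.deg10 i := by
    intro i
    unfold charDegree
    rw [he]
    simp
  have h1 : Nat.card {χ : Cfsg.IrrCharacter G // Cfsg.charDegree (χ : G → ℂ) = n} =
      Nat.card {i : Fin 10 // Cfsg.Agent.H590.MElevenDeg.deg10 i = n} := by
    refine Nat.card_congr (Equiv.subtypeEquiv e fun i => ?_).symm
    rw [hdeg]
  rw [h1, Nat.card_eq_fintype_card, Fintype.card_subtype]
  have h2 : (Finset.univ.filter fun i : Fin 10 => Cfsg.Agent.H590.MElevenDeg.deg10 i = n).card =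
      (if n = 1 then 1 else 0) + (if n = 10 then 3 else 0) + (if n = 45 then 1 else 0) +
        (if n = 16 then 2 else 0) + (if n = 11 then 1 else 0) + (if n = 44 then 1 else 0) +
        (if n = 55 then 1 else 0) := by
    rw [Finset.card_filter, Fin.sum_univ_succ, Fin.sum_univ_succ, Fin.sum_univ_succ,
      Fin.sum_univ_succ, Fin.sum_univ_succ, Fin.sum_univ_succ, Fin.sum_univ_succ,
      Fin.sum_univ_succ, Fin.sum_univ_succ, Fin.sum_univ_succ, Fin.sum_univ_zero]
    have d0 : Cfsg.Agent.H590.MElevenDeg.deg10 0 = 1 := rfl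
    have d1 : Cfsg.Agent.H590.MElevenDeg.deg10 1 = 10 := rfl
    have d2 : Cfsg.Agent.H590.MElevenDeg.deg10 2 = 10 := rfl
    have d3 : Cfsg.Agent.H590.MElevenDeg.deg10 3 = 10 := rfl
    have d4 : Cfsg.Agent.H590.MElevenDeg.deg10 4 = 45 := rfl
    have d5 : Cfsg.Agent.H590.MElevenDeg.deg10 5 = 16 := rfl
    have d6 : Cfsg.Agent.H590.MElevenDeg.deg10 6 = 16 := rfl
    have d7 : Cfsg.Agent.H590.MElevenDeg.deg10 7 = 11 := rfl
    have d8 : Cfsg.Agent.H590.MElevenDeg.deg10 8 = 44 := rfl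
    have d9 : Cfsg.Agent.H590.MElevenDeg.deg10 9 = 55 := rfl
    show (if Cfsg.Agent.H590.MElevenDeg.deg10 0 = n then 1 else 0) +
      ((if Cfsg.Agent.H590.MElevenDeg.deg10 1 = n then 1 else 0) +
      ((if Cfsg.Agent.H590.MElevenDeg.deg10 2 = n then 1 else 0) +
      ((if Cfsg.Agent.H590.MElevenDeg.deg10 3 = n then 1 else 0) +
      ((if Cfsg.Agent.H590.MElevenDeg.deg10 4 = n then 1 else 0) +
      ((if Cfsg.Agent.H590.MElevenDeg.deg10 5 = n then 1 else 0) +
      ((if Cfsg.Agent.H590.MElevenDeg.deg10 6 = n then 1 else 0) +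
      ((if Cfsg.Agent.H590.MElevenDeg.deg10 7 = n then 1 else 0) +
      ((if Cfsg.Agent.H590.MElevenDeg.deg10 8 = n then 1 else 0) +
      ((if Cfsg.Agent.H590.MElevenDeg.deg10 9 = n then 1 else 0) + 0))))))))) = _
    rw [d0, d1, d2, d3, d4, d5, d6, d7, d8, d9]
    simp only [eq_comm (b := n)]
    split_ifs <;> omega
  rw [h2]
  split_ifs <;> omega

end Cfsg.Agent.S4429
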