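import Cfsg.Statements.S4433
-- import your own Cfsg.Agent.* helpers here
import Cfsg.Agent.H591.QuotDefect

set_option autoImplicit false
open Cfsg

namespace Cfsg.Agent.S4433

/-- Let N be a normal subgroup of the finite group G and write Ḡ = G/N; fix a maximal ideal M of the algebraic integers containing p. Let B̄ be a block of Ḡ contained in the block B of G, in the sense that the inflation of every member of B̄ lies in B, and let D̄ be a defect group of B̄. Then B has a defect group P whose image in Ḡ contains D̄. -/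
theorem result {G : Type*} [Group G] [Finite G] (p : ℕ) [Fact p.Prime] (M : Ideal Cfsg.AlgInt) (hM : Cfsg.IsPModular p M) (N : Subgroup G) [N.Normal] (Bbar : Set (Cfsg.IrrCharacter (G ⧸ N))) (hBbar : Cfsg.IsPBlock M Bbar) (B : Set (Cfsg.IrrCharacter G)) (hB : Cfsg.IsPBlock M B) (hsub : ∀ χ ∈ Bbar, ∀ ψ : Cfsg.IrrCharacter G, (ψ : G → ℂ) = (χ : G ⧸ N → ℂ) ∘ QuotientGroup.mk → ψ ∈ B) (Dbar : Subgroup (G ⧸ N)) (hDbar : Cfsg.IsDefectGroup p M Bbar Dbar) : ∃ P : Subgroup G, Cfsg.IsDefectGroup p M B P ∧ Dbar ≤ P.map (QuotientGroup.mk' N) := by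
  classical
  have hprime : M.IsPrime := Cfsg.Agent.Blocks.Local.isPrime_of_isPModular hM
  obtain ⟨χ, hχ⟩ := Cfsg.Agent.Blocks.Basic.isPBlock_nonempty hBbar
  obtain ⟨g, hg⟩ := Cfsg.Agent.S0906.result p M hM B hB
  obtain ⟨P, hP, -⟩ := Cfsg.Agent.Blocks.Basic.exists_isSylowCentralizer (G := G) (p := p)
    (g := g) (Q := ⊥) (IsPGroup.of_bot) bot_le
  let ψ : Cfsg.IrrCharacter G := ⟨(χ : G ⧸ N → ℂ) ∘ QuotientGroup.mk,
    Cfsg.Agent.Characters.Core.isIrr_comp (QuotientGroup.mk' N)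
      (QuotientGroup.mk'_surjective N) χ.2⟩
  obtain ⟨z, hz⟩ := Cfsg.Agent.H591.QuotDefect.exists_conj_le_map p hM N hBbar hχ
    (ψ := ψ) rfl (hsub χ hχ ψ rfl) (P := P)
    (Cfsg.Agent.Blocks.Basic.isDefectGroup_iff.2 ⟨g, hg, hP⟩) hDbar
  exact ⟨_, Cfsg.Agent.Blocks.Basic.isDefectGroup_conj
    (Cfsg.Agent.Blocks.Basic.isDefectGroup_iff.2 ⟨g, hg, hP⟩) z, hz⟩

end Cfsg.Agent.S4433
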