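import Cfsg.Statements.S4442
import Cfsg.Agent.H593.D1Lower
import Cfsg.Agent.H593.CyclicSplit2

set_option autoImplicit false
open Cfsg

namespace Cfsg.Agent.S4442
open Cfsg.Agent.H593.D1Local Cfsg.Agent.H593.D1Char Cfsg.Agent.H593.D1Sec
  Cfsg.Agent.H593.D1Gram


/-- Blocks of defect one. Let p be an odd prime and G a finite group whose Sylow p-subgroup P has order p; let C = C_G(P) and N = N_G(P), and fix a maximal ideal M of the algebraic integers containing p. Let B be a block of G with defect group P, b a block of C inducing B, and θ the member of b having P in its kernel (there is exactly one). Let T be the stabilizer of θ in N (the elements g ∈ N with θ(g c g⁻¹) = θ(c) for all c ∈ C) and e the index of C in T. Then e divides p − 1 and B contains exactly e + (p − 1)/e irreducible characters. Moreover B is the disjoint union of a set X of e characters and a set Y of (p − 1)/e characters such that, with f the index of C in N: every χ ∈ X has χ(1)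 ≡ ±(f/e)·θ(1) (mod p), there is one sign ε with ψ(1) ≡ ε f θ(1) (mod p) for all ψ ∈ Y, and all members of Y agree on the p-regular elements of G. -/
theorem result {G : Type*} [Group G] [Finite G] (p : ℕ) [Fact p.Prime] (M : Ideal Cfsg.AlgInt) (hM : Cfsg.IsPModular p M) (hodd : p ≠ 2) (P : Sylow p G) (hP : Nat.card P = p) (B : Set (Cfsg.IrrCharacter G)) (hB : Cfsg.IsPBlock M B) (hBP : Cfsg.IsDefectGroup p M B P) (b : Set (Cfsg.IrrCharacter (Subgroup.centralizer ((P : Subgroup G) : Set G)))) (hind : Cfsg.IsInducedBlock M (Subgroup.centralizer ((P : Subgroup G) : Set G)) b B) (θ : Cfsg.IrrCharacter (Subgroup.centralizer ((P : Subgroup G) : Set G))) (hθ : θ ∈ b) (hθP : ∀ x : Subgroup.centralizer ((P : Subgroup G) : Set G), (x : G) ∈ (P : Subgroup G) → (θ : Subgroup.centralizer ((P : Subgroup G) : Set G) → ℂ) x = (θ : Subgroup.centralizer ((P : Subgroup G) : Set G) → ℂ) 1) (T : Subgroup G) (hT : ∀ g : G, g ∈ T ↔ (g ∈ Subgroup.normalizer ((P : Subgroup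 G) : Set G) ∧ ∀ c c' : Subgroup.centralizer ((P : Subgroup G) : Set G), (c' : G) = g * c * g⁻¹ → (θ : Subgroup.centralizer ((P : Subgroup G) : Set G) → ℂ) c' = (θ : Subgroup.centralizer ((P : Subgroup G) : Set G) → ℂ) c)) (e f : ℕ) (he : (Subgroup.centralizer ((P : Subgroup G) : Set G)).relIndex T = e) (hf : (Subgroup.centralizer ((P : Subgroup G) : Set G)).relIndex (Subgroup.normalizer ((P : Subgroup G) : Set G)) = f) : e ∣ p - 1 ∧ Nat.card B = e + (p - 1) / e ∧ ∃ X Y : Set (Cfsg.IrrCharacter G), B = X ∪ Y ∧ Disjoint X Y ∧ Nat.card X = e ∧ Nat.card Y = (p - 1) / e ∧ (∀ χ ∈ X, (Cfsg.charDegree (χ : G → ℂ) : ℤ) ≡ ((f / e * Cfsg.charDegree (θ : Subgroup.centralizer ((P : Subgroup G) : Set G) → ℂ) : ℕ) : ℤ) [ZMOD p] ∨ (Cfsg.charDegree (χ : G → ℂ) : ℤ) ≡ -((f / e * Cfsg.charDegree (θ : Subgroup.centralizer ((P : Subgroup G) : Set G) → ℂ) : ℕ) : ℤ) [ZMOD p]) ∧ (∃ ε : ℤ, (ε = 1 ∨ ε = -1) ∧ ∀ ψ ∈ Y, (Cfsg.charDegree (ψ : G → ℂ) : ℤ) ≡ ε * ((f * Cfsg.charDegree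 (θ : Subgroup.centralizer ((P : Subgroup G) : Set G) → ℂ) : ℕ) : ℤ) [ZMOD p]) ∧ ∀ ψ ∈ Y, ∀ ψ' ∈ Y, ∀ g : G, ¬ p ∣ orderOf g → (ψ : G → ℂ) g = (ψ' : G → ℂ) g := by
  classical
  have hMp : M.IsPrime := hM.2.1.isPrime
  have hp : p.Prime := Fact.out
  have hp0 : (p : ℂ) ≠ 0 := Nat.cast_ne_zero.2 hp.ne_zero
  have := Fintype.ofFinite G
  have hfin := Cfsg.Agent.Characters.Core.finite_irr (G := G)
  have := Fintype.ofFinite (Cfsg.IrrCharacter G)
  have : Fintype B := Fintype.ofFinite _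
  obtain ⟨K, h⟩ := exists_loc P hP
  have := Fintype.ofFinite K
  have := Fintype.ofFinite (LL (P : Subgroup G) K)
  -- the character of `L`
  obtain ⟨θL, hθL⟩ : ∃ θL : Cfsg.IrrCharacter (LL (P : Subgroup G) K), θL = resIrr h θ := ⟨_, rfl⟩
  have hinf : infl h θL = θ := by rw [hθL]; exact eq_infl h hθP
  have hb : b = Cfsg.blockOf M (infl h θL : Subgroup.centralizer ((P : Subgroup G) : Set G) → ℂ) := by
    rw [hinf]
    exact Cfsg.Agent.Blocks.Basic.isPBlock_eq_blockOf hind.1 hθ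
  rw [hb] at hind
  have hθap : ∀ (y : (P : Subgroup G)) (l : LL (P : Subgroup G) K),
      (θ : Subgroup.centralizer ((P : Subgroup G) : Set G) → ℂ) (prodEquiv h (y, l)) =
        (θL : LL (P : Subgroup G) K → ℂ) l := by
    intro y l
    rw [← hinf, infl_apply, proj_prodEquiv]
  have hdeg1 : Cfsg.charDegree (θL : LL (P : Subgroup G) K → ℂ) =
      Cfsg.charDegree (θ : Subgroup.centralizer ((P : Subgroup G) : Set G) → ℂ) := by
    rw [Cfsg.Agent.Blocks.Basic.charDegree_def, Cfsg.Agent.Blocks.Basic.charDegree_def, ← hinf,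
      infl_apply, map_one]
  -- the inertia group
  have hTN : T ≤ Subgroup.normalizer ((P : Subgroup G) : Set G) := fun g hg => ((hT g).1 hg).1
  have hCT : Subgroup.centralizer ((P : Subgroup G) : Set G) ≤ T := by
    intro g hg
    rw [hT]
    refine ⟨centralizer_le_normalizer hg, ?_⟩
    intro c c' hcc
    have h1 : c' = (⟨g, hg⟩ : Subgroup.centralizer ((P : Subgroup G) : Set G)) * c *
        (⟨g, hg⟩ : Subgroup.centralizer ((P : Subgroup G) : Set G))⁻¹ := Subtype.ext hcc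
    rw [h1, Cfsg.Agent.Blocks.Basic.irr_conj θ.2]
  have hstab : stab h θL = T.subgroupOf K := by
    ext k
    rw [mem_stab, Subgroup.mem_subgroupOf, hT]
    constructor
    · intro hk
      refine ⟨h.le k.2, ?_⟩
      intro c c' hcc
      obtain ⟨⟨y, l⟩, rfl⟩ := (prodEquiv h).surjective c
      have h1 : c' = prodEquiv h (⟨(k : G) * y * (k : G)⁻¹, h.conj_mem k y.2⟩,
          ⟨k * l * k⁻¹, h.normal.conj_mem l l.2 k⟩) := by
        apply Subtype.ext
        rw [hcc, coe_prodEquiv, coe_prodEquiv]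
        push_cast
        group
      rw [h1, hθap, hθap, ← cj_apply h k θL l, hk]
    · rintro ⟨-, hk⟩
      apply Subtype.ext
      funext l
      rw [cj_apply]
      have h1 := hk (inc (P : Subgroup G) K l)
        (inc (P : Subgroup G) K ⟨k * l * k⁻¹, h.normal.conj_mem l l.2 k⟩) (by
          rw [coe_inc, coe_inc]
          push_cast
          rfl)
      rw [inc_eq h, inc_eq h, hθap, hθap] at h1
      exact h1
  have heL : (LL (P : Subgroup G) K).relIndex (stab h θL) = e := by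
    rw [hstab, h.relIndex_eq hCT hTN, he]
  have hfL : (LL (P : Subgroup G) K).index = f := by
    have h1 := h.relIndex_eq (T := Subgroup.normalizer ((P : Subgroup G) : Set G))
      centralizer_le_normalizer le_rfl
    have h2 : (Subgroup.normalizer ((P : Subgroup G) : Set G)).subgroupOf K = ⊤ :=
      Subgroup.subgroupOf_eq_top.2 h.le
    rw [h2, Subgroup.relIndex_top_right, hf] at h1
    exact h1
  have hepos : 0 < e := by
    rw [← heL]
    exact Nat.pos_of_ne_zero Subgroup.index_ne_zero_of_finite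
  have hLs : LL (P : Subgroup G) K ≤ stab h θL := fun l hl => cj_of_mem h ⟨l, hl⟩ θL
  have her : e * (stab h θL).index = f := by
    rw [← heL, ← hfL]
    exact Subgroup.relIndex_mul_index hLs
  have hfe : f / e = (stab h θL).index := by
    rw [← her, Nat.mul_div_cancel_left _ hepos]
  have hG : (Nat.card G).factorization p = 1 := by
    have h1 := (P.card_eq_multiplicity).symm.trans hP
    exact Nat.pow_right_injective hp.two_le (by simpa using h1)
  -- a generator of `P`
  obtain ⟨z, hzP, hz1⟩ : ∃ z ∈ (P : Subgroup G), z ≠ 1 := by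
    by_contra hcon
    push Not at hcon
    have : (P : Subgroup G) = ⊥ := (Subgroup.eq_bot_iff_forall _).2 hcon
    have h1 := h.card
    rw [this, Subgroup.card_bot] at h1
    exact hp.one_lt.ne h1
  have hz : orderOf z = p := h.mem_pow hzP hz1
  obtain ⟨Ω, hΩ1, hΩ2, Wt, a, hmul, hcard, hrows, hgram, hWt, hWt0, hdeg⟩ :=
    Cfsg.Agent.H593.D1Block3.structure_thm h hM hB hBP hind hz hzP hG
      (fun ψ hψ => Cfsg.Agent.H593.D1Lower.lower h hM hB hind hz hzP ψ hψ)
  rw [heL] at hmul hcard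
  simp only [heL] at hgram hdeg
  have hΩ : (p - 1) / e = Fintype.card Ω := by
    rw [← hmul, Nat.mul_div_cancel_left _ hepos]
  have hu1 : ∀ m : ZMod p, m ≠ 0 → Cfsg.Agent.Blocks.CyclicGroup.u z m ≠ 1 :=
    fun m hm h => hm ((Cfsg.Agent.Blocks.CyclicGroup.u_eq_one_iff hz).1 h)
  -- column relations
  have hval : ∀ (ω : Ω) (g : {g : G // ¬ p ∣ orderOf g}),
      ∑ c : B, (a c ω : ℂ) * ((c : Cfsg.IrrCharacter G) : G → ℂ) g = 0 := by
    intro ω g
    have h2 : ∀ c : B, (a c ω : ℂ) * ((c : Cfsg.IrrCharacter G) : G → ℂ) g =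
        ∑ m : ZMod p, Wt ω m * (((c : Cfsg.IrrCharacter G) : G → ℂ) g *
          (starRingEnd ℂ) (DD (θL : LL (P : Subgroup G) K → ℂ)
            ((c : Cfsg.IrrCharacter G) : G → ℂ) (Cfsg.Agent.Blocks.CyclicGroup.u z m))) := by
      intro c
      rw [hWt, Finset.sum_mul]
      exact Finset.sum_congr rfl fun m _ => by ring
    rw [Finset.sum_congr rfl fun c _ => h2 c, Finset.sum_comm]
    refine Finset.sum_eq_zero fun m _ => ?_
    rw [← Finset.mul_sum]
    by_cases hm : m = 0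
    · rw [hm, hWt0, zero_mul]
    · have huP := Cfsg.Agent.H593.D1Block.u_mem_P h hz hzP m
      rw [Cfsg.Agent.H593.D1Block.sum_block_eq h hM hB hind huP (hu1 m hm)
        (fun χ => (χ : G → ℂ) g), sum_DD, Finset.sum_eq_zero, mul_zero, mul_zero]
      intro l _
      rw [Cfsg.Agent.H593.D1Lower.card_filter_regular h huP (hu1 m hm) l g.2, Nat.cast_zero,
        mul_zero]
  have hone : ¬ p ∣ orderOf (1 : G) := by
    rw [orderOf_one]; exact hp.one_lt.ne' ∘ Nat.dvd_one.1
  obtain ⟨X, Y, εX, ε, hXY, hdis, hX, hY, h1, h2, h3, h4⟩ :=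
    Cfsg.Agent.H593.CyclicSplit.split_set B e a hgram hcard hrows
    (fun (c : Cfsg.IrrCharacter G) (g : {g : G // ¬ p ∣ orderOf g}) => (c : G → ℂ) g)
    ⟨1, hone⟩ (fun c => Cfsg.charDegree (c : G → ℂ))
    (fun c => Cfsg.Agent.Blocks.Basic.charDegree_pos c.2)
    (fun c => Cfsg.Agent.Blocks.Basic.irr_one_eq_charDegree c.2) hval
  have hpe : ((e : ℤ) * Fintype.card Ω) = p - 1 := by
    have h2 : ((e * Fintype.card Ω : ℕ) : ℤ) = ((p - 1 : ℕ) : ℤ) := by
      rw [hmul]
    rw [Nat.cast_sub hp.one_lt.le] at h2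
    push_cast at h2
    exact h2
  refine ⟨Dvd.intro _ hmul, ?_, X, Y, hXY, hdis, hX, by rw [hY, hΩ], ?_, ⟨ε, h2, ?_⟩, ?_⟩
  · rw [Nat.card_eq_fintype_card, hcard, hΩ]
  · intro χ hχ
    have hχB : χ ∈ B := by rw [hXY]; exact Or.inl hχ
    obtain ⟨h5, h6⟩ := h1 χ hχ
    obtain ⟨n, h7⟩ := hdeg ⟨χ, hχB⟩
    simp only [h6 hχB] at h7
    rw [Finset.sum_const, Finset.card_univ, nsmul_eq_mul] at h7
    have h8 : (Cfsg.charDegree (χ : G → ℂ) : ℤ) ≡
        εX χ * ((f / e * Cfsg.charDegree (θ : Subgroup.centralizer ((P : Subgroup G) : Set G) → ℂ) :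
          ℕ) : ℤ) [ZMOD p] := by
      rw [hfe, ← hdeg1]
      push_cast
      rw [h7, Int.modEq_iff_dvd]
      refine ⟨Cfsg.charDegree (θL : LL (P : Subgroup G) K → ℂ) * (stab h θL).index * εX χ - n, ?_⟩
      linear_combination ((Cfsg.charDegree (θL : LL (P : Subgroup G) K → ℂ) : ℤ) *
        (stab h θL).index * εX χ) * hpe
    rcases h5 with h5 | h5
    · left
      rw [h5, one_mul] at h8
      exact h8
    · right
      rw [h5, neg_one_mul] at h8
      exact h8
  · intro ψ hψ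
    have hψB : ψ ∈ B := by rw [hXY]; exact Or.inr hψ
    obtain ⟨n, h7⟩ := hdeg ⟨ψ, hψB⟩
    rw [h3 ψ hψ hψB] at h7
    rw [h7, ← her, ← hdeg1, Int.modEq_iff_dvd]
    push_cast
    exact ⟨-n, by ring⟩
  · intro ψ hψ ψ' hψ' g hg
    have h5 := h4 ψ hψ ⟨g, hg⟩
    have h6 := h4 ψ' hψ' ⟨g, hg⟩
    rw [← h6] at h5
    have h7 : (ε : ℂ) ≠ 0 := by
      rcases h2 with h | h <;> rw [h] <;> norm_num
    exact mul_left_cancel₀ h7 h5

end Cfsg.Agent.S4442
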