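import Cfsg.Statements.S4443
import Cfsg.Agent.H593.Robinson4

set_option autoImplicit false
open Cfsg

namespace Cfsg.Agent.S4443

/-- Let D be a normal p-subgroup of the finite group G, of order p^d, let p^a be the p-part of the order of G, and fix a Sylow p-subgroup S and a maximal ideal M of the algebraic integers containing p. Index by a finite type ι (via an injective map K) exactly the conjugacy classes of p-regular elements x of G for which D is a Sylow p-subgroup of C_G(x). For classes K_i, K_j let ω(i, j) be the number of pairs (y, z) ∈ K_i × K_j with z y⁻¹ ∈ S; this number is divisible by p^(a−d). Then the number of p-blocks of G having D as a defect group equals the rank over ℤ/pℤ of the matrix with (i, j) entry ω(i, j)/p^(a−d) reduced modulo p. -/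
theorem result {G : Type*} [Group G] [Finite G] (p : ℕ) [Fact p.Prime] (M : Ideal Cfsg.AlgInt) (hM : Cfsg.IsPModular p M) (D : Subgroup G) [D.Normal] (hD : IsPGroup p D) (S : Sylow p G) {ι : Type*} [Fintype ι] [DecidableEq ι] (K : ι → ConjClasses G) (hKinj : Function.Injective K) (hK : ∀ C : ConjClasses G, (∃ i, K i = C) ↔ ∃ x ∈ C.carrier, ¬ p ∣ orderOf x ∧ ∃ Q : Sylow p (Subgroup.centralizer ({x} : Set G)), (Q : Subgroup (Subgroup.centralizer ({x} : Set G))).map (Subgroup.centralizer ({x} : Set G)).subtype = D) : Nat.card {B : Set (Cfsg.IrrCharacter G) // Cfsg.IsPBlock M B ∧ Cfsg.IsDefectGroup p M B D} = (Matrix.of fun i j : ι => ((Nat.card {yz : G × G // yz.1 ∈ (K i).carrier ∧ yz.2 ∈ (K j).carrier ∧ yz.2 * yz.1⁻¹ ∈ (S : Subgroup G)} / p ^ ((Nat.card G).factorization p - (Nat.card D).factorization p) : ℕ) : ZMod p)).rank := by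
  classical
  have hprime := Cfsg.Agent.Blocks.Local.isPrime_of_isPModular hM
  have := Fintype.ofFinite G
  have hmk : ∀ i, ConjClasses.mk (Quotient.out (K i) : G) = K i := fun i => Quotient.out_eq (K i)
  have hcar : ∀ (i : ι) (y : G), y ∈ (K i).carrier ↔ IsConj (Quotient.out (K i) : G) y := by
    intro i y
    rw [ConjClasses.mem_carrier_iff_mk_eq, ← ConjClasses.mk_eq_mk_iff_isConj, hmk]
    exact eq_comm
  have hDmap : ∀ x : G, D.map (MulAut.conj x).toMonoidHom = D :=
    fun x => Cfsg.Agent.H593.Robinson.map_conj_normal D x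
  have hreg : ∀ i, Cfsg.Agent.Blocks.Basic.IsSylowCentralizer p (Quotient.out (K i) : G) D := by
    intro i
    obtain ⟨x, hx, -, Q, hQ⟩ := (hK (K i)).1 ⟨i, rfl⟩
    rw [hcar] at hx
    obtain ⟨c, hc⟩ := isConj_iff.1 hx.symm
    have h1 := Cfsg.Agent.Blocks.Basic.isSylowCentralizer_conj (p := p) ⟨Q, hQ.symm⟩ c
    rwa [hc, hDmap] at h1
  have hinj : ∀ i j, IsConj (Quotient.out (K i) : G) (Quotient.out (K j) : G) → i = j := by
    intro i j h
    apply hKinj
    rw [← hmk i, ← hmk j]
    exact ConjClasses.mk_eq_mk_iff_isConj.2 h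
  have hcov : ∀ g : G, ¬ p ∣ orderOf g → Cfsg.Agent.Blocks.Basic.IsSylowCentralizer p g D →
      ∃ i, IsConj (Quotient.out (K i) : G) g := by
    rintro g hg ⟨Q, hQ⟩
    obtain ⟨i, hi⟩ := (hK (ConjClasses.mk g)).2 ⟨g, ConjClasses.mem_carrier_mk, hg, Q, hQ.symm⟩
    refine ⟨i, ?_⟩
    rw [← ConjClasses.mk_eq_mk_iff_isConj, hmk, hi]
  have h := Cfsg.Agent.H593.Robinson.rank_eq hM D hD S (fun i => (Quotient.out (K i) : G)) hinj
    hreg hcov
  rw [show Nat.card {B : Set (Cfsg.IrrCharacter G) // Cfsg.IsPBlock M B ∧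
    Cfsg.IsDefectGroup p M B D} = Nat.card (Cfsg.Agent.H593.Robinson.Bl p M D) from rfl, ← h]
  congr 1
  ext i j
  simp only [Matrix.of_apply, hcar]

end Cfsg.Agent.S4443
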