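import Cfsg.Statements.S4451
import Cfsg.Agent.H595.CycFpf
import Cfsg.Agent.Blocks.Basic

set_option autoImplicit false
open Cfsg

namespace Cfsg.Agent.S4451

/-- Let the finite group Γ be generated by a normal subgroup G and a cyclic subgroup S of coprime orders such that every non-identity element of S has the same centraliser C = G ⊓ C(S) in G. Let χ be an S-invariant irreducible character of G, χ̂ its canonical extension to Γ (determinantal order coprime to the order of S), and β the irreducible character of C with χ̂(c s) = ε₀ β(c) for c ∈ C and generators s of S (ε₀ = ±1). Then there are a sign ε = ±1, which may differ from ε₀, and a linear character μ of S with μ² = 1, such that: (a) χ̂(c x) = ε β(c) μ(x) for all c ∈ C and all x ∈ S other than 1; (b) the restriction of χ to C equals |S|·ϑ + ε β for some character ϑ of C or ϑ = 0; (c) |S| divides χ(1) − ε β(1). -/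
theorem result {Γ : Type*} [Group Γ] [Fintype Γ] (G S : Subgroup Γ) [Fintype G] (hnorm : ∀ s ∈ S, ∀ g ∈ G, s * g * s⁻¹ ∈ G) (hcop : (Nat.card G).Coprime (Nat.card S)) (htop : G ⊔ S = ⊤) (hcyc : IsCyclic S) (C : Subgroup Γ) [Fintype C] (hC : C = G ⊓ Subgroup.centralizer (S : Set Γ)) (hCG : C ≤ G) (hfpf : ∀ x ∈ S, x ≠ 1 → G ⊓ Subgroup.centralizer ({x} : Set Γ) = C) (χ : Cfsg.IrrCharacter G) (hinv : (∀ s ∈ S, ∀ g g' : G, (g' : Γ) = s * g * s⁻¹ → (χ : G → ℂ) g' = (χ : G → ℂ) g)) (χh : Cfsg.IrrCharacter Γ) (hext : (∀ g : G, (χh : Γ → ℂ) g = (χ : G → ℂ) g)) (hdet : (Cfsg.detOrder (χh : Γ → ℂ)).Coprime (Nat.card S)) (β : Cfsg.IrrCharacter C) (ε₀ : ℤ) (hε₀ : ε₀ = 1 ∨ ε₀ = -1) (hβ : ∀ c : C, ∀ s : Γ, Subgroup.zpowers s = S → (χh : Γ → ℂ) ((c : Γ) * s) = (ε₀ : ℂ) * (β : C → ℂ) c) : ∃ ε : ℤ, (ε = 1 ∨ ε = -1) ∧ (∃ μ : S → ℂ, Cfsg.IsCharacter S μ ∧ μ 1 = 1 ∧ (∀ x : S, μ x * μ x = 1) ∧ ∀ c : C, ∀ x : S, x ≠ 1 → (χh : Γ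 → ℂ) ((c : Γ) * x) = (ε : ℂ) * (β : C → ℂ) c * μ x) ∧ (∃ ϑ : C → ℂ, Cfsg.IsCharacter C ϑ ∧ (fun c : C => (χ : G → ℂ) ⟨c, hCG c.2⟩) = fun c => (Nat.card S : ℂ) * ϑ c + (ε : ℂ) * (β : C → ℂ) c) ∧ (Nat.card S : ℤ) ∣ (Cfsg.charDegree (χ : G → ℂ) : ℤ) - ε * (Cfsg.charDegree (β : C → ℂ) : ℤ) := by
  classical
  have : G.Normal := Cfsg.Agent.H594.Cyclic.normal_of_top hnorm htop
  have hidx : G.index = Nat.card S := Cfsg.Agent.H594.Cyclic.index_eq hcop htop
  obtain ⟨s', hs'⟩ := hcyc.exists_generator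
  obtain ⟨s, hsS⟩ := s'
  have hs : Subgroup.zpowers s = S := by
    apply le_antisymm
    · rw [Subgroup.zpowers_le]; exact hsS
    · intro y hy
      obtain ⟨k, hk⟩ := Subgroup.mem_zpowers_iff.1 (hs' ⟨y, hy⟩)
      exact Subgroup.mem_zpowers_iff.2 ⟨k, congrArg Subtype.val hk⟩
  have hdegχ : (χ : G → ℂ) 1 = (charDegree (χ : G → ℂ) : ℂ) :=
    Cfsg.Agent.Blocks.Basic.irr_one_eq_charDegree χ.2
  have hdegβ : (β : C → ℂ) 1 = (charDegree (β : C → ℂ) : ℂ) :=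
    Cfsg.Agent.Blocks.Basic.irr_one_eq_charDegree β.2
  rcases Nat.lt_or_ge (Nat.card S) 2 with hS | hS
  · -- the trivial case
    have hS1 : Nat.card S = 1 := by
      have : 0 < Nat.card S := Nat.card_pos
      omega
    have hSbot : S = ⊥ := Subgroup.eq_bot_of_card_eq _ hS1
    refine ⟨ε₀, hε₀, ⟨1, Cfsg.Agent.Characters.Core.isCharacter_one, rfl, fun x => by simp, ?_⟩,
      ⟨0, Cfsg.Agent.Characters.Core.isCharacter_zero, ?_⟩, ?_⟩
    · intro c x hx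
      refine absurd ?_ hx
      apply Subtype.ext
      have h0 : ∀ y ∈ S, y = 1 := fun y hy => Subgroup.mem_bot.1 (hSbot ▸ hy)
      exact h0 x x.2
    · funext c
      have h1 := hβ c 1 (by rw [Subgroup.zpowers_one_eq_bot, hSbot])
      rw [mul_one] at h1
      rw [Pi.zero_apply, mul_zero, zero_add, ← h1]
      exact (hext ⟨c, hCG c.2⟩).symm
    · rw [hS1]
      exact one_dvd _
  -- the main case
  have hχres : IsIrrCharacter G (fun g : G => (χh : Γ → ℂ) g) := by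
    have : (fun g : G => (χh : Γ → ℂ) g) = (χ : G → ℂ) := funext hext
    rw [this]
    exact χ.2
  have hCS : ∀ c ∈ C, ∀ t ∈ S, c * t = t * c := by
    intro c hc t ht
    rw [hC] at hc
    exact (Subgroup.mem_centralizer_iff.1 hc.2 t ht).symm
  let φ : C × S →* Γ := MonoidHom.noncommCoprod C.subtype S.subtype (fun c t => hCS c c.2 t t.2)
  have hX : IsCharacter (C × S) ((χh : Γ → ℂ) ∘ φ) :=
    Cfsg.Agent.Characters.Core.isCharacter_comp φ (Cfsg.Agent.Characters.Core.isIrr_isCharacter χh.2)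
  let D : IrrCharacter C → S → ℂ := fun γ t =>
    classInner (fun c : C => (χh : Γ → ℂ) ((c : Γ) * t)) (γ : C → ℂ)
  have hD : ∀ γ, IsCharacter S (D γ) := fun γ =>
    Cfsg.Agent.H594.Cyclic.isCharacter_partial hX (Cfsg.Agent.Characters.Core.isIrr_isCharacter γ.2)
  -- the values on the cosets
  have hcore : ∀ x : S, x ≠ 1 → ∃ (δ : IrrCharacter C) (ε : ℤ), (ε = 1 ∨ ε = -1) ∧
      ∀ c : C, (χh : Γ → ℂ) ((c : Γ) * x) = (ε : ℂ) * (δ : C → ℂ) c := fun x hx =>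
    Cfsg.Agent.H595.CycFpf.core_x G S hcop hidx C hC χh.2 hχres hdet x.2
      (hfpf x x.2 (fun h => hx (Subtype.ext h)))
  have hDval : ∀ x : S, x ≠ 1 → ∃ (δ : IrrCharacter C) (ε : ℤ), (ε = 1 ∨ ε = -1) ∧
      (∀ c : C, (χh : Γ → ℂ) ((c : Γ) * x) = (ε : ℂ) * (δ : C → ℂ) c) ∧
      ∀ γ, D γ x = if γ = δ then (ε : ℂ) else 0 := by
    intro x hx
    obtain ⟨δ, ε, hε, h⟩ := hcore x hx
    refine ⟨δ, ε, hε, h, fun γ => ?_⟩
    have h1 : (fun c : C => (χh : Γ → ℂ) ((c : Γ) * x)) = (ε : ℂ) • (δ : C → ℂ) := funext h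
    show classInner (fun c : C => (χh : Γ → ℂ) ((c : Γ) * x)) (γ : C → ℂ) = _
    rw [h1, Cfsg.Agent.Characters.Core.classInner_smul_left]
    by_cases hγ : γ = δ
    · rw [if_pos hγ, hγ, Cfsg.Agent.Characters.Core.classInner_irr_self δ.2, mul_one]
    · rw [if_neg hγ, Cfsg.Agent.Characters.Core.classInner_irr_ne δ.2 γ.2
        (fun h => hγ (Subtype.ext h.symm)), mul_zero]
  have hD3 : ∀ γ, ∀ x : S, x ≠ 1 →
      D γ x = ((0 : ℤ) : ℂ) ∨ D γ x = ((1 : ℤ) : ℂ) ∨ D γ x = ((-1 : ℤ) : ℂ) := by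
    intro γ x hx
    obtain ⟨δ, ε, hε, -, h⟩ := hDval x hx
    rw [h γ]
    by_cases hγ : γ = δ
    · rw [if_pos hγ]
      rcases hε with rfl | rfl
      · exact Or.inr (Or.inl rfl)
      · exact Or.inr (Or.inr rfl)
    · rw [if_neg hγ]
      exact Or.inl (by simp)
  have hs1 : (⟨s, hsS⟩ : S) ≠ 1 := by
    intro h
    have h1 : s = 1 := congrArg Subtype.val h
    rw [h1, Subgroup.zpowers_one_eq_bot] at hs
    rw [← hs, Subgroup.card_bot] at hS
    omega
  have hε₀0 : (ε₀ : ℂ) ≠ 0 := by rcases hε₀ with h | h <;> rw [h] <;> norm_num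
  have hDs : D β ⟨s, hsS⟩ ≠ 0 := by
    have h1 : (fun c : C => (χh : Γ → ℂ) ((c : Γ) * s)) = (ε₀ : ℂ) • (β : C → ℂ) :=
      funext fun c => hβ c s hs
    show classInner (fun c : C => (χh : Γ → ℂ) ((c : Γ) * s)) (β : C → ℂ) ≠ 0
    rw [h1, Cfsg.Agent.Characters.Core.classInner_smul_left,
      Cfsg.Agent.Characters.Core.classInner_irr_self β.2, mul_one]
    exact hε₀0
  have hDβ : ∀ x : S, x ≠ 1 → D β x ≠ 0 := by
    intro x hx
    have hxs : x ∈ Submonoid.powers (⟨s, hsS⟩ : S) := by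
      rw [mem_powers_iff_mem_zpowers]
      exact hs' x
    obtain ⟨k, hk⟩ := hxs
    have hk' : (⟨s, hsS⟩ : S) ^ k = x := hk
    rw [← hk'] at hx ⊢
    intro h0
    exact hDs ((Cfsg.Agent.H595.CycFpf.zero_iff (hD β) (hD3 β) _ k hx).1 h0)
  have hDall : ∀ x : S, x ≠ 1 → ∃ ε : ℤ, (ε = 1 ∨ ε = -1) ∧
      (∀ c : C, (χh : Γ → ℂ) ((c : Γ) * x) = (ε : ℂ) * (β : C → ℂ) c) ∧
      ∀ γ, D γ x = if γ = β then (ε : ℂ) else 0 := by
    intro x hx
    obtain ⟨δ, ε, hε, h1, h⟩ := hDval x hx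
    have h2 : β = δ := by
      by_contra hne
      have := h β
      rw [if_neg hne] at this
      exact hDβ x hx this
    subst h2
    exact ⟨ε, hε, h1, h⟩
  have hab : ∀ x y : S, x * y = y * x := by
    intro x y
    obtain ⟨i, rfl⟩ := Subgroup.mem_zpowers_iff.1 (hs' x)
    obtain ⟨j, rfl⟩ := Subgroup.mem_zpowers_iff.1 (hs' y)
    rw [← zpow_add, ← zpow_add, add_comm]
  obtain ⟨m, ε, μ, hε, hμ1, hμt, hm⟩ := Cfsg.Agent.H595.CycForm.char_form hab hS (hD β) (by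
    intro t ht
    obtain ⟨e, he, -, h⟩ := hDall t ht
    rw [h β, if_pos rfl]
    rcases he with rfl | rfl <;> simp)
  have hεε : (ε : ℂ) * ε = 1 := by rcases hε with rfl | rfl <;> norm_num
  -- the expansion of the restriction of `χ`
  have := Cfsg.Agent.Characters.Core.finite_irr (G := C)
  have := Fintype.ofFinite (IrrCharacter C)
  have hk : ∀ γ : IrrCharacter C, ∃ k : ℕ,
      D γ 1 = (Nat.card S : ℂ) * k + if γ = β then (ε : ℂ) else 0 := by
    intro γ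
    by_cases hγ : γ = β
    · refine ⟨m, ?_⟩
      rw [if_pos hγ, hγ]
      exact hm
    · obtain ⟨k, hk⟩ := Cfsg.Agent.S0189.card_dvd_degree_of_vanishing (⊤ : Subgroup S) (D γ) (hD γ)
        (by
          intro g _ hg
          obtain ⟨e, he, -, h⟩ := hDall g hg
          rw [h γ, if_neg hγ])
      refine ⟨k, ?_⟩
      rw [if_neg hγ, add_zero, hk, Subgroup.card_top]
  choose k hk using hk
  have hχC : (fun c : C => (χ : G → ℂ) ⟨c, hCG c.2⟩) = fun c : C =>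
      (Nat.card S : ℂ) * (∑ γ : IrrCharacter C, (k γ : ℕ) • (γ : C → ℂ)) c +
        (ε : ℂ) * (β : C → ℂ) c := by
    have hcf : IsClassFunction C (fun c : C => (χ : G → ℂ) ⟨c, hCG c.2⟩) :=
      Cfsg.Agent.Characters.Core.isCharacter_isClassFunction
        (Cfsg.Agent.Characters.Core.isCharacter_comp (Subgroup.inclusion hCG)
          (Cfsg.Agent.Characters.Core.isIrr_isCharacter χ.2))
    have h1 : ∀ γ : IrrCharacter C,
        classInner (fun c : C => (χ : G → ℂ) ⟨c, hCG c.2⟩) (γ : C → ℂ) = D γ 1 := by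
      intro γ
      show _ = classInner (fun c : C => (χh : Γ → ℂ) ((c : Γ) * ((1 : S) : Γ))) (γ : C → ℂ)
      congr 1
      funext c
      rw [OneMemClass.coe_one, mul_one]
      exact (hext ⟨c, hCG c.2⟩).symm
    conv_lhs => rw [Cfsg.Agent.Characters.Core.classFunction_eq_sum hcf]
    funext c
    rw [Finset.sum_apply, Finset.sum_apply, Finset.mul_sum]
    have h2 : (ε : ℂ) * (β : C → ℂ) c = ∑ γ : IrrCharacter C,
        (if γ = β then (ε : ℂ) else 0) * (γ : C → ℂ) c := by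
      simp only [ite_mul, zero_mul, Finset.sum_ite_eq', Finset.mem_univ, if_true]
    rw [h2, ← Finset.sum_add_distrib]
    refine Finset.sum_congr rfl fun γ _ => ?_
    rw [h1, hk, Pi.smul_apply, Pi.smul_apply, smul_eq_mul, nsmul_eq_mul]
    ring
  have hϑ : IsCharacter C (∑ γ : IrrCharacter C, (k γ : ℕ) • (γ : C → ℂ)) :=
    Cfsg.Agent.Characters.Core.isCharacter_sum _ fun γ _ =>
      Cfsg.Agent.Characters.Core.isCharacter_nsmul _
        (Cfsg.Agent.Characters.Core.isIrr_isCharacter γ.2)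
  refine ⟨ε, hε, ⟨(μ : S → ℂ), Cfsg.Agent.Characters.Core.isIrr_isCharacter μ.2, hμ1, ?_, ?_⟩,
    ⟨_, hϑ, hχC⟩, ?_⟩
  · intro x
    by_cases hx : x = 1
    · rw [hx, hμ1, mul_one]
    · obtain ⟨e, he, -, h⟩ := hDall x hx
      have h1 := hμt x hx
      rw [h β, if_pos rfl] at h1
      have h2 : (e : ℂ) * e = 1 := by rcases he with rfl | rfl <;> norm_num
      calc (μ : S → ℂ) x * (μ : S → ℂ) x
          = ((ε : ℂ) * ε) * ((μ : S → ℂ) x * (μ : S → ℂ) x) := by rw [hεε, one_mul]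
        _ = ((ε : ℂ) * (μ : S → ℂ) x) * ((ε : ℂ) * (μ : S → ℂ) x) := by ring
        _ = 1 := by rw [← h1, h2]
  · intro c x hx
    obtain ⟨e, he, h0, h⟩ := hDall x hx
    have h1 := hμt x hx
    rw [h β, if_pos rfl] at h1
    rw [h0, h1]
    ring
  · obtain ⟨d, hd⟩ := Cfsg.Agent.Characters.Core.isCharacter_apply_one hϑ
    have h1 := congrFun hχC 1
    have h2 : (charDegree (χ : G → ℂ) : ℂ) = (Nat.card S : ℂ) * d +
        (ε : ℂ) * (charDegree (β : C → ℂ) : ℂ) := by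
      rw [← hdegχ, ← hdegβ, ← hd]
      exact h1
    refine ⟨d, ?_⟩
    have h3 : ((charDegree (χ : G → ℂ) : ℤ) : ℂ) =
        (((Nat.card S : ℤ) * d + ε * (charDegree (β : C → ℂ) : ℤ) : ℤ) : ℂ) := by
      push_cast
      exact h2
    have h4 : (charDegree (χ : G → ℂ) : ℤ) =
        (Nat.card S : ℤ) * d + ε * (charDegree (β : C → ℂ) : ℤ) := by exact_mod_cast h3
    rw [h4]
    ring

end Cfsg.Agent.S4451
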