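import Cfsg.Statements.S4452
import Cfsg.Agent.H595.Solv
import Cfsg.Agent.H595.Conj
import Cfsg.Agent.H595.Count

set_option autoImplicit false
open Cfsg

namespace Cfsg.Agent.S4452

open Cfsg.Agent.H595.Count Cfsg.Agent.H593.GlaubermanP

theorem isCompl_of_coprime {G : Type*} [Group G] [Finite G] (K H : Subgroup G) [K.Normal]
    (hKH : K ⊔ H = ⊤) (hcop : (Nat.card K).Coprime (Nat.card H)) : H.IsComplement' K := by
  refine Subgroup.isComplement'_of_disjoint_and_mul_eq_univ
    (Subgroup.disjoint_of_coprime_natCard hcop.symm) ?_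
  rw [← Subgroup.mul_normal, sup_comm, hKH, Subgroup.coe_top]

/-- The count for a complement of a normal Hall subgroup. -/
theorem count {G : Type*} [Group G] [Finite G] (K H : Subgroup G) [hK : K.Normal]
    (hKH : K ⊔ H = ⊤) (hcop : (Nat.card K).Coprime (Nat.card H)) :
    Nat.card {χ : Cfsg.IrrCharacter G // (Cfsg.charDegree (χ : G → ℂ)).Coprime (Nat.card H)} =
      Nat.card {θ : IrrCharacter K // CInv K (θ : K → ℂ)} * Nat.card (H →* ℂˣ) := by
  have h1 := isCompl_of_coprime K H hKH hcop
  have h2 := card_coprime K (by rw [h1.index_eq_card]; exact hcop)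
  rw [h1.index_eq_card] at h2
  rw [h2]
  congr 1
  have e := h1.QuotientMulEquiv
  exact Nat.card_congr ⟨fun l => l.comp e.symm.toMonoidHom, fun l => l.comp e.toMonoidHom,
    fun l => by ext x; simp, fun l => by ext x; simp⟩

/-- Invariance under `G = K H`. -/
theorem cinv_iff {G : Type*} [Group G] (K H : Subgroup G) [hK : K.Normal]
    (hKH : K ⊔ H = ⊤) (θ : IrrCharacter K) :
    CInv K (θ : K → ℂ) ↔ ∀ h ∈ H, ∀ n : K, (θ : K → ℂ) ⟨h * n * h⁻¹, hK.conj_mem n n.2 h⟩ =
      (θ : K → ℂ) n := by
  constructor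
  · intro h x _ n
    exact h x n
  · intro h x n
    have hx : x ∈ (K ⊔ H : Subgroup G) := by rw [hKH]; exact Subgroup.mem_top x
    have hx' : x ∈ ((K ⊔ H : Subgroup G) : Set G) := hx
    rw [Subgroup.normal_mul] at hx'
    obtain ⟨k, hk, y, hy, rfl⟩ := Set.mem_mul.1 hx'
    have h1 : (⟨k * y * n * (k * y)⁻¹, hK.conj_mem n n.2 (k * y)⟩ : K) =
        ⟨k, hk⟩ * ⟨y * n * y⁻¹, hK.conj_mem n n.2 y⟩ * ⟨k, hk⟩⁻¹ := by
      apply Subtype.ext
      show k * y * n * (k * y)⁻¹ = k * (y * n * y⁻¹) * k⁻¹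
      group
    rw [h1, Cfsg.Agent.Characters.Core.isIrr_isClassFunction θ.2, h y hy]

/-- Let the finite group G be the product of a normal subgroup K and a solvable subgroup H of coprime orders, and let N = N_G(H). Then the number of irreducible characters of G of degree coprime to the order of H equals the number of irreducible characters of N of degree coprime to the order of H. (The two sets are in fact in a canonical bijection; only the equality of their sizes is stated here.) -/
theorem result {G : Type*} [Group G] [Finite G] (K H : Subgroup G) [K.Normal] (hKH : K ⊔ H = ⊤) (hcop : (Nat.card K).Coprime (Nat.card H)) (hsolv : Group.IsSolvable H) : Nat.card {χ : Cfsg.IrrCharacter G // (Cfsg.charDegree (χ : G → ℂ)).Coprime (Nat.card H)} = Nat.card {η : Cfsg.IrrCharacter (Subgroup.normalizer (H : Set G)) // (Cfsg.charDegree (η : Subgroup.normalizer (H : Set G) → ℂ)).Coprime (Nat.card H)} := by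
  let N : Subgroup G := Subgroup.normalizer (H : Set G)
  have hHN : H ≤ N := Subgroup.le_normalizer
  let K' : Subgroup N := K.subgroupOf N
  let H' : Subgroup N := H.subgroupOf N
  have hK'n : K'.Normal := inferInstance
  have := Fintype.ofFinite G
  -- `H'` is a copy of `H`
  let eH : H' ≃* H := Subgroup.subgroupOfEquivOfLe hHN
  have hcH : Nat.card H' = Nat.card H := Nat.card_congr eH.toEquiv
  have hdisj : ∀ x, x ∈ K → x ∈ H → x = 1 := fun x hx hy =>
    (Subgroup.disjoint_def.1 (Subgroup.disjoint_of_coprime_natCard hcop)) hx hy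
  -- the embedding of `K'` in `K`
  let ι : K' →* K :=
    { toFun := fun k => ⟨((k : N) : G), k.2⟩
      map_one' := rfl
      map_mul' := fun _ _ => rfl }
  have hι : Function.Injective ι := fun a b h =>
    Subtype.ext (Subtype.ext (congrArg (fun z : K => (z : G)) h))
  have hcK' : Nat.card K' ∣ Nat.card K := Subgroup.card_dvd_of_injective ι hι
  have hcop' : (Nat.card K').Coprime (Nat.card H') := by
    rw [hcH]
    exact Nat.Coprime.coprime_dvd_left hcK' hcop
  -- elements of `K'` and `H'` commute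
  have hcomm : ∀ k : G, k ∈ K → k ∈ N → ∀ y ∈ H, y * k * y⁻¹ = k := by
    intro k hk hkN y hy
    have h1 : k⁻¹ * y * k ∈ H := by
      have := (Subgroup.mem_normalizer_iff''.1 hkN y).1 hy
      exact this
    have h2 : y * k * y⁻¹ * k⁻¹ ∈ K := mul_mem (‹K.Normal›.conj_mem k hk y) (inv_mem hk)
    have h3 : y * k * y⁻¹ * k⁻¹ ∈ H := by
      have h4 : k * y⁻¹ * k⁻¹ ∈ H := by
        have := (Subgroup.mem_normalizer_iff.1 hkN y⁻¹).1 (inv_mem hy)
        exact this
      have h5 : y * k * y⁻¹ * k⁻¹ = y * (k * y⁻¹ * k⁻¹) := by group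
      rw [h5]
      exact mul_mem hy h4
    exact mul_inv_eq_one.1 (hdisj _ h2 h3)
  have hsup : K' ⊔ H' = ⊤ := by
    rw [eq_top_iff]
    intro n _
    have hx' : (n : G) ∈ ((K ⊔ H : Subgroup G) : Set G) := by rw [hKH]; exact Set.mem_univ _
    rw [Subgroup.normal_mul] at hx'
    obtain ⟨k, hk, y, hy, hky⟩ := Set.mem_mul.1 hx'
    have hkN : k ∈ N := by
      have : k = (n : G) * y⁻¹ := by rw [← hky]; group
      rw [this]
      exact mul_mem n.2 (inv_mem (hHN hy))
    have h1 : n = (⟨k, hkN⟩ : N) * ⟨y, hHN hy⟩ := Subtype.ext hky.symm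
    rw [h1]
    refine mul_mem (Subgroup.mem_sup_left ?_) (Subgroup.mem_sup_right ?_)
    · exact hk
    · exact hy
  have hL := count K H hKH hcop
  have hR := count K' H' hsup hcop'
  rw [hcH] at hR
  rw [hL, hR]
  have hlin : Nat.card (H →* ℂˣ) = Nat.card (H' →* ℂˣ) :=
    Nat.card_congr ⟨fun l => l.comp eH.toMonoidHom, fun l => l.comp eH.symm.toMonoidHom,
      fun l => by ext x; simp, fun l => by ext x; simp⟩
  rw [hlin]
  congr 1
  -- all characters of `K'` are invariant
  have hall : ∀ θ : IrrCharacter K', CInv K' (θ : K' → ℂ) := by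
    intro θ
    rw [cinv_iff K' H' hsup]
    intro h hh n
    have h1 : (⟨h * n * h⁻¹, hK'n.conj_mem n n.2 h⟩ : K') = n :=
      Subtype.ext (Subtype.ext (hcomm _ n.2 (n : N).2 _ hh))
    rw [h1]
  have h1 : Nat.card {θ : IrrCharacter K' // CInv K' (θ : K' → ℂ)} = Nat.card (IrrCharacter K') :=
    Nat.card_congr (Equiv.subtypeUnivEquiv hall)
  rw [h1]
  have hnorm : ∀ s ∈ H, ∀ g ∈ K, s * g * s⁻¹ ∈ K := fun s _ g hg => ‹K.Normal›.conj_mem g hg s
  letI := Cfsg.Agent.H595.Conj.conjAct K H hnorm
  have h2 := Cfsg.Agent.H595.Solv.card_inv (S := H) (G := K) hsolv hcop ι hι (by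
    intro g
    rw [Cfsg.Agent.H595.Conj.fixed_iff K H hnorm g, Subgroup.mem_centralizer_iff]
    constructor
    · intro h
      have hgN : (g : G) ∈ N := by
        rw [Subgroup.mem_normalizer_iff]
        intro y
        constructor
        · intro hy
          have h3 : (g : G) * y * (g : G)⁻¹ = y := by
            rw [← h y hy, mul_assoc, mul_inv_cancel, mul_one]
          rw [h3]
          exact hy
        · intro hy
          have h3 := h _ hy
          have h4 : y = (g : G)⁻¹ * ((g : G) * y * (g : G)⁻¹) * g := by group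
          rw [h4, mul_assoc, h3, inv_mul_cancel_left]
          exact hy
      exact ⟨⟨⟨g, hgN⟩, g.2⟩, rfl⟩
    · rintro ⟨c, rfl⟩ y hy
      exact mul_inv_eq_iff_eq_mul.1 (hcomm _ c.2 (c : N).2 y hy))
  rw [← h2]
  refine Nat.card_congr (Equiv.subtypeEquivRight fun θ => ?_)
  rw [cinv_iff K H hKH θ, ← Cfsg.Agent.H595.Conj.inv_iff K H hnorm]
  constructor
  · intro h s hs g g' hg
    have h3 : g' = (⟨s * g * s⁻¹, ‹K.Normal›.conj_mem g g.2 s⟩ : K) := Subtype.ext hg
    rw [h3]
    exact h s hs g
  · intro h s hs g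
    exact h s hs g _ rfl

end Cfsg.Agent.S4452
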