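import Cfsg.Statements.S4453
import Cfsg.Agent.H596.OddMain
import Cfsg.Agent.H595.Conj
import Cfsg.Agent.Solvable.Glauberman

set_option autoImplicit false
open Cfsg

namespace Cfsg.Agent.S4453

/-- Inside a finite group Γ let S normalise the solvable subgroup G of odd order with the orders of G and S coprime, let C = G ⊓ C(S), and let L ≤ K be S-invariant normal subgroups of G with K/L abelian, G = KC and H = LC (so C ≤ H ≤ G). Then for each S-invariant irreducible character χ of G there is exactly one S-invariant irreducible character ψ of H whose multiplicity in the restriction of χ to H is odd, and χ ↦ ψ is a bijection from the S-invariant irreducible characters of G onto those of H (distinct χ give distinct ψ, and every S-invariant ψ arises). -/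
theorem result {Γ : Type*} [Group Γ] [Fintype Γ] (G S : Subgroup Γ) [Fintype G] (hnorm : ∀ s ∈ S, ∀ g ∈ G, s * g * s⁻¹ ∈ G) (hcop : (Nat.card G).Coprime (Nat.card S)) (hGsolv : Group.IsSolvable G) (hodd : Odd (Nat.card G)) (C : Subgroup Γ) [Fintype C] (hC : C = G ⊓ Subgroup.centralizer (S : Set Γ)) (hCG : C ≤ G) (K L H : Subgroup Γ) [Fintype H] (hLK : L ≤ K) (hKG : K ≤ G) (hKn : ∀ g ∈ G, ∀ k ∈ K, g * k * g⁻¹ ∈ K) (hLn : ∀ g ∈ G, ∀ l ∈ L, g * l * g⁻¹ ∈ L) (hKS : ∀ s ∈ S, ∀ k ∈ K, s * k * s⁻¹ ∈ K) (hLS : ∀ s ∈ S, ∀ l ∈ L, s * l * s⁻¹ ∈ L) (hab : ∀ a ∈ K, ∀ b ∈ K, a * b * a⁻¹ * b⁻¹ ∈ L) (hGKC : K ⊔ C = G) (hH : H = L ⊔ C) (hHG : H ≤ G) : (∀ χ : Cfsg.IrrCharacter G, (∀ s ∈ S, ∀ g g' : G, (g' : Γ) = s * g * s⁻¹ → (χ : G → ℂ) g' = (χ : G → ℂ) g) → ∃! ψ : Cfsg.IrrCharacter H, (∀ s ∈ S, ∀ g g' : H, (g' : Γ) = s * g * s⁻¹ → (ψ : H → ℂ) g' = (ψ : H → ℂ) g)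 ∧ ∃ m : ℕ, Cfsg.classInner (fun h : H => (χ : G → ℂ) ⟨h, hHG h.2⟩) (ψ : H → ℂ) = (m : ℂ) ∧ Odd m) ∧ (∀ χ χ' : Cfsg.IrrCharacter G, (∀ s ∈ S, ∀ g g' : G, (g' : Γ) = s * g * s⁻¹ → (χ : G → ℂ) g' = (χ : G → ℂ) g) → (∀ s ∈ S, ∀ g g' : G, (g' : Γ) = s * g * s⁻¹ → (χ' : G → ℂ) g' = (χ' : G → ℂ) g) → ∀ ψ : Cfsg.IrrCharacter H, (∀ s ∈ S, ∀ g g' : H, (g' : Γ) = s * g * s⁻¹ → (ψ : H → ℂ) g' = (ψ : H → ℂ) g) → ∀ m m' : ℕ, Cfsg.classInner (fun h : H => (χ : G → ℂ) ⟨h, hHG h.2⟩) (ψ : H → ℂ) = (m : ℂ) → Odd m → Cfsg.classInner (fun h : H => (χ' : G → ℂ) ⟨h, hHG h.2⟩) (ψ : H → ℂ) = (m' : ℂ) → Odd m' → χ = χ') ∧ (∀ ψ : Cfsg.IrrCharacter H, (∀ s ∈ S, ∀ g g' : H, (g' : Γ) = s * g * s⁻¹ → (ψ : H → ℂ) g' = (ψ : H → ℂ) g) → ∃ χ : Cfsg.IrrCharacter G, (∀ s ∈ S, ∀ g g' : G, (g' : Γ) = s * g * s⁻¹ → (χ : G → ℂ) g' = (χ : G → ℂ) g) ∧ ∃ m : ℕ, Cfsg.classInner (fun h : H =>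 (χ : G → ℂ) ⟨h, hHG h.2⟩) (ψ : H → ℂ) = (m : ℂ) ∧ Odd m) := by
  classical
  have hLG : L ≤ G := hLK.trans hKG
  let actG : MulDistribMulAction S G := Cfsg.Agent.H595.Conj.conjAct G S hnorm
  have hact : ∀ (s : S) (g : G), ((s • g : G) : Γ) = (s : Γ) * g * (s : Γ)⁻¹ := fun s g => rfl
  have hLn' : (L.subgroupOf G).Normal := ⟨fun l hl g => hLn g g.2 l hl⟩
  have hKn' : (K.subgroupOf G).Normal := ⟨fun k hk g => hKn g g.2 k hk⟩
  have hLS' : ∀ (s : S), ∀ l ∈ L.subgroupOf G, s • l ∈ L.subgroupOf G :=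
    fun s l hl => hLS s s.2 l hl
  have hKS' : ∀ (s : S), ∀ k ∈ K.subgroupOf G, s • k ∈ K.subgroupOf G :=
    fun s k hk => hKS s s.2 k hk
  have hCnorm : ∀ M : Subgroup Γ, (∀ g ∈ G, ∀ m ∈ M, g * m * g⁻¹ ∈ M) →
      C ≤ Subgroup.normalizer (M : Set Γ) := by
    intro M hM c hc
    rw [Subgroup.mem_normalizer_iff]
    intro m
    refine ⟨fun hm => hM c (hCG hc) m hm, fun hm => ?_⟩
    have h1 := hM c⁻¹ (G.inv_mem (hCG hc)) _ hm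
    have e1 : c⁻¹ * (c * m * c⁻¹) * c⁻¹⁻¹ = m := by group
    rwa [e1] at h1
  have hCfix : ∀ c : G, (c : Γ) ∈ C ↔ ∀ s : S, s • c = c := by
    intro c
    rw [hC, Subgroup.mem_inf]
    constructor
    · rintro ⟨-, h⟩ s
      apply Subtype.ext
      rw [hact]
      have h1 := Subgroup.mem_centralizer_iff.1 h s s.2
      rw [h1, mul_inv_cancel_right]
    · intro h
      refine ⟨c.2, ?_⟩
      rw [Subgroup.mem_centralizer_iff]
      intro s hs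
      have h1 := congrArg Subtype.val (h ⟨s, hs⟩)
      rw [hact] at h1
      exact mul_inv_eq_iff_eq_mul.1 h1
  have hCH : C ≤ H := by rw [hH]; exact le_sup_right
  have hLH : L ≤ H := by rw [hH]; exact le_sup_left
  have hfix : ∀ g : G, (∀ s : S, s • g * g⁻¹ ∈ L.subgroupOf G) ↔
      ∃ d, Subgroup.inclusion hHG d = g := by
    intro g
    constructor
    · intro h
      obtain ⟨l, hl, hfl⟩ := Cfsg.Agent.H596.OddMain.exists_fixed_coset (S := S) (L.subgroupOf G)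
        hLS' (Nat.Coprime.coprime_dvd_left (Subgroup.card_subgroup_dvd_card _) hcop)
        (by have := hGsolv; infer_instance) g h
      have h1 : ((l * g : G) : Γ) ∈ C := (hCfix _).2 hfl
      have h2 : (g : Γ) ∈ H := by
        have e1 : (g : Γ) = (l : Γ)⁻¹ * ((l * g : G) : Γ) := by
          rw [Subgroup.coe_mul]; group
        rw [e1]
        exact H.mul_mem (H.inv_mem (hLH hl)) (hCH h1)
      exact ⟨⟨g, h2⟩, rfl⟩
    · rintro ⟨d, rfl⟩ s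
      have hd : (d : Γ) ∈ C ⊔ L := by
        have e1 : H ≤ C ⊔ L := by rw [hH, sup_comm]
        exact e1 d.2
      obtain ⟨l, hl, c, hc, hlc⟩ := Cfsg.Agent.Solvable.Glauberman.exists_mul_of_mem_sup C L
        (hCnorm L hLn) hd
      show ((s • (Subgroup.inclusion hHG d) * (Subgroup.inclusion hHG d)⁻¹ : G) : Γ) ∈ L
      rw [Subgroup.coe_mul, hact, Subgroup.coe_inv]
      show (s : Γ) * d * (s : Γ)⁻¹ * (d : Γ)⁻¹ ∈ L
      have h1 : (s : Γ) * c * (s : Γ)⁻¹ = c := by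
        have h2 := (hCfix ⟨c, hCG hc⟩).1 hc s
        have h3 := congrArg Subtype.val h2
        rw [hact] at h3
        exact h3
      have e1 : (s : Γ) * d * (s : Γ)⁻¹ * (d : Γ)⁻¹ =
          ((s : Γ) * l * (s : Γ)⁻¹) * ((s : Γ) * c * (s : Γ)⁻¹) * c⁻¹ * l⁻¹ := by
        rw [hlc]; group
      rw [e1, h1, mul_inv_cancel_right]
      exact L.mul_mem (hLS s s.2 l hl) (L.inv_mem hl)
  have hgen : ∀ g : G, ∃ k ∈ K.subgroupOf G, ∃ d, g = k * Subgroup.inclusion hHG d := by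
    intro g
    have hg : (g : Γ) ∈ C ⊔ K := by
      have e1 : G ≤ C ⊔ K := by rw [sup_comm]; exact hGKC.ge
      exact e1 g.2
    obtain ⟨k, hk, c, hc, hkc⟩ := Cfsg.Agent.Solvable.Glauberman.exists_mul_of_mem_sup C K
      (hCnorm K hKn) hg
    exact ⟨⟨k, hKG hk⟩, hk, ⟨c, hCH hc⟩, Subtype.ext hkc⟩
  obtain ⟨h1, h2, h3⟩ := Cfsg.Agent.H596.OddMain.main (S := S) (Subgroup.inclusion hHG)
    (Subgroup.inclusion_injective hHG) (L.subgroupOf G) (K.subgroupOf G) hodd hcop hGsolv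
    (fun x hx => hLK hx) hLS' hKS' (fun a ha b hb => hab a ha b hb) hfix hgen
  have hI : ∀ χ : Cfsg.IrrCharacter G,
      (∀ s ∈ S, ∀ g g' : G, (g' : Γ) = s * g * s⁻¹ → (χ : G → ℂ) g' = (χ : G → ℂ) g) ↔
      Cfsg.Agent.H593.GlaubermanP.Inv S (χ : G → ℂ) := fun χ =>
    Cfsg.Agent.H595.Conj.inv_iff G S hnorm χ.1
  have hID : ∀ ψ : Cfsg.IrrCharacter H,
      (∀ s ∈ S, ∀ g g' : H, (g' : Γ) = s * g * s⁻¹ → (ψ : H → ℂ) g' = (ψ : H → ℂ) g) ↔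
      ∀ (s : S) (d d' : H), Subgroup.inclusion hHG d' = s • Subgroup.inclusion hHG d →
        ψ.1 d' = ψ.1 d := by
    intro ψ
    constructor
    · intro h s d d' hd
      exact h s s.2 d d' (congrArg Subtype.val hd)
    · intro h s hs d d' hd
      exact h ⟨s, hs⟩ d d' (Subtype.ext hd)
  have hCor : ∀ (χ : Cfsg.IrrCharacter G) (ψ : Cfsg.IrrCharacter H),
      (∃ m : ℕ, Cfsg.classInner (fun h : H => (χ : G → ℂ) ⟨h, hHG h.2⟩) (ψ : H → ℂ) = (m : ℂ) ∧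
        Odd m) ↔ Cfsg.Agent.H595.Solv.Cor (Subgroup.inclusion hHG) 2 χ ψ := by
    intro χ ψ
    constructor
    · rintro ⟨m, hm, hm'⟩
      refine ⟨m, hm, ?_⟩
      rwa [← even_iff_two_dvd, Nat.not_even_iff_odd]
    · rintro ⟨m, hm, hm'⟩
      refine ⟨m, hm, ?_⟩
      rwa [← even_iff_two_dvd, Nat.not_even_iff_odd] at hm'
  refine ⟨?_, ?_, ?_⟩
  · intro χ hχ
    obtain ⟨ψ, ⟨hψ, hc⟩, huniq⟩ := h1 χ ((hI χ).1 hχ)
    refine ⟨ψ, ⟨(hID ψ).2 hψ, (hCor χ ψ).2 hc⟩, ?_⟩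
    rintro ψ' ⟨hψ', hc'⟩
    exact huniq ψ' ⟨(hID ψ').1 hψ', (hCor χ ψ').1 hc'⟩
  · intro χ χ' hχ hχ' ψ hψ m m' hm hmo hm' hmo'
    exact h2 χ χ' ψ ((hI χ).1 hχ) ((hI χ').1 hχ') ((hID ψ).1 hψ) ((hCor χ ψ).1 ⟨m, hm, hmo⟩)
      ((hCor χ' ψ).1 ⟨m', hm', hmo'⟩)
  · intro ψ hψ
    obtain ⟨χ, hχ, hc⟩ := h3 ψ ((hID ψ).1 hψ)
    exact ⟨χ, (hI χ).2 hχ, (hCor χ ψ).2 hc⟩

end Cfsg.Agent.S4453
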