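import Cfsg.Statements.S4457
import Cfsg.Agent.S4456
import Cfsg.Agent.H596.TwoDegrees

set_option autoImplicit false
open Cfsg

namespace Cfsg.Agent.S4457

open Cfsg.Agent.Characters.Core Cfsg.Agent.H596 Cfsg.Agent.H596.TwoDegrees
open Cfsg.Agent.Blocks.Basic (charDegree_of_eq irr_one_eq_charDegree charDegree_pos)

theorem result {G : Type*} [Group G] [Finite G] (m : ℕ) (hcd : ∀ χ : Cfsg.IrrCharacter G, Cfsg.charDegree (χ : G → ℂ) = 1 ∨ Cfsg.charDegree (χ : G → ℂ) = m) (hm : ∃ χ : Cfsg.IrrCharacter G, Cfsg.charDegree (χ : G → ℂ) = m) (hm1 : m ≠ 1) : (∃ A : Subgroup G, A.Normal ∧ (∀ a ∈ A, ∀ b ∈ A, a * b = b * a) ∧ A.index = m) ∨ ∃ p e : ℕ, p.Prime ∧ m = p ^ e ∧ ∃ P A : Subgroup G, P.Normal ∧ A.Normal ∧ IsPGroup p P ∧ (∀ a ∈ A, ∀ b ∈ A, a * b = b * a) ∧ P ⊓ A = ⊥ ∧ P ⊔ A = ⊤ := by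
  classical
  obtain ⟨χ₀, hχ₀⟩ := hm
  have hmpos : 0 < m := hχ₀ ▸ charDegree_pos χ₀.2
  -- normal p-complements
  have hthompson : ∀ p : m.primeFactors, ∃ N : Subgroup G, N.Normal ∧ (Nat.card N).Coprime p.1 ∧
      ∃ k : ℕ, N.index = p.1 ^ k := by
    intro p
    refine S4456.result p.1 (Nat.prime_of_mem_primeFactors p.2) fun χ hχ => ?_
    rw [(hcd χ).resolve_left hχ]
    exact Nat.dvd_of_mem_primeFactors p.2
  choose N hNn hNc k hNk using hthompson
  have hNn' : ∀ p, (N p).Normal := hNn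
  let M : Subgroup G := ⨅ p, N p
  have hMn : M.Normal := Subgroup.normal_iInf_normal hNn
  let φ : G →* (∀ p, G ⧸ N p) := MonoidHom.pi fun p => QuotientGroup.mk' (N p)
  have hker : φ.ker = M := by
    ext x
    rw [MonoidHom.mem_ker, Subgroup.mem_iInf, funext_iff]
    exact forall_congr' fun p => QuotientGroup.eq_one_iff x
  let ψ : G ⧸ M →* (∀ p, G ⧸ N p) := QuotientGroup.lift M φ (by rw [← hker])
  have hψ : Function.Injective ψ := by
    rw [injective_iff_map_eq_one]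
    intro q
    obtain ⟨x, rfl⟩ := QuotientGroup.mk_surjective q
    intro hx
    rw [QuotientGroup.eq_one_iff, ← hker]
    exact hx
  have hp : ∀ p : m.primeFactors, Fact (p.1.Prime) := fun p =>
    ⟨Nat.prime_of_mem_primeFactors p.2⟩
  have hpg : ∀ p : m.primeFactors, IsPGroup p.1 (G ⧸ N p) := fun p =>
    IsPGroup.of_card (n := k p) (hNk p)
  have hnilp : ∀ p : m.primeFactors, Group.IsNilpotent (G ⧸ N p) := fun p =>
    (hpg p).isNilpotent
  have hnil : Group.IsNilpotent (G ⧸ M) :=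
    Subgroup.isNilpotent_of_ker_le_center ψ (by
      rw [(MonoidHom.ker_eq_bot_iff ψ).2 hψ]; exact bot_le)
  have hidx : ∀ q : ℕ, q.Prime → q ∣ M.index → q ∈ m.primeFactors := by
    intro q hq hqM
    have h1 : M.index ∣ Nat.card (∀ p, G ⧸ N p) := Subgroup.card_dvd_of_injective ψ hψ
    have h2 := hqM.trans h1
    rw [Nat.card_pi] at h2
    obtain ⟨p, -, hp'⟩ := (Prime.dvd_finsetProd_iff hq.prime _).1 h2
    have h3 : q ∣ p.1 ^ k p := by rw [← hNk p]; exact hp'
    have h4 := (Nat.prime_dvd_prime_iff_eq hq (hp p).out).1 (hq.dvd_of_dvd_pow h3)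
    rw [h4]; exact p.2
  have hMq : ∀ q ∈ m.primeFactors, ¬ q ∣ Nat.card M := by
    intro q hq hqM
    have h1 : q ∣ Nat.card (N ⟨q, hq⟩) :=
      hqM.trans (Subgroup.card_dvd_of_le (iInf_le _ (⟨q, hq⟩ : m.primeFactors)))
    have h2 := Nat.dvd_gcd h1 (dvd_refl q)
    rw [hNc ⟨q, hq⟩] at h2
    exact (Nat.prime_of_mem_primeFactors hq).one_lt.ne' (Nat.dvd_one.1 h2)
  have hcop : (Nat.card M).Coprime M.index :=
    Nat.coprime_of_dvd' fun q hq h1 h2 => absurd h1 (hMq q (hidx q hq h2))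
  have hcopm : (Nat.card M).Coprime m :=
    Nat.coprime_of_dvd' fun q hq h1 h2 =>
      absurd h1 (hMq q (Nat.mem_primeFactors.2 ⟨hq, h2, hmpos.ne'⟩))
  have hM : ∀ a ∈ M, ∀ b ∈ M, a * b = b * a := fun a ha b hb =>
    congrArg Subtype.val (comm_of_normal_coprime hcd M hcopm ⟨a, ha⟩ ⟨b, hb⟩)
  obtain ⟨H, hH⟩ := Subgroup.exists_right_complement'_of_coprime hcop
  have hinf : M ⊓ H = ⊥ := disjoint_iff.1 hH.disjoint
  have hsup : M ⊔ H = ⊤ := hH.sup_eq_top
  have hHc : (Nat.card M).Coprime (Nat.card H) := by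
    rwa [← hH.symm.index_eq_card]
  by_cases hcen : ∃ lam : M →* ℂˣ, iner M lam ≠ ⊤
  · obtain ⟨lam, hlam⟩ := hcen
    obtain ⟨h1, h2⟩ := main hcd M H hinf hsup hM hnil hHc lam hlam
    left
    exact ⟨Subgroup.centralizer (M : Set G), inferInstance, h2, h1⟩
  · push Not at hcen
    right
    have hMcen : M ≤ Subgroup.center G := by
      intro x hx
      rw [Subgroup.mem_center_iff]
      intro g
      have := mem_centralizer_of_forall hM (g := g) (fun μ => by
        rw [hcen μ]; exact Subgroup.mem_top g)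
      exact (Subgroup.mem_centralizer_iff.1 this x hx).symm
    have hG : Group.IsNilpotent G :=
      Subgroup.isNilpotent_of_ker_le_center (QuotientGroup.mk' M)
        (by rw [QuotientGroup.ker_mk']; exact hMcen)
    obtain ⟨p, hpp, hpm⟩ := Nat.exists_prime_and_dvd hm1
    have hpf : p ∈ m.primeFactors := Nat.mem_primeFactors.2 ⟨hpp, hpm, hmpos.ne'⟩
    have := Fact.mk hpp
    let P : Sylow p G := default
    have hPn : (P : Subgroup G).Normal := inferInstance
    let A : Subgroup G := N ⟨p, hpf⟩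
    have hAn : A.Normal := hNn ⟨p, hpf⟩
    have hPA : (P : Subgroup G) ⊓ A = ⊥ := by
      rw [← disjoint_iff]
      apply Subgroup.disjoint_of_coprime_natCard
      obtain ⟨j, hj⟩ := IsPGroup.iff_card.1 P.isPGroup'
      rw [hj]
      exact Nat.Coprime.pow_left j (Nat.coprime_comm.1 (hNc ⟨p, hpf⟩))
    have hPA' : (P : Subgroup G) ⊔ A = ⊤ := by
      rw [← Subgroup.index_eq_one]
      have h1 : ((P : Subgroup G) ⊔ A).index ∣ (P : Subgroup G).index :=
        Subgroup.index_dvd_of_le le_sup_left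
      have h2 : ((P : Subgroup G) ⊔ A).index ∣ A.index :=
        Subgroup.index_dvd_of_le le_sup_right
      have h3 : A.index = p ^ k ⟨p, hpf⟩ := hNk ⟨p, hpf⟩
      rw [h3] at h2
      have h4 : Nat.Coprime (P : Subgroup G).index (p ^ k ⟨p, hpf⟩) := by
        apply Nat.Coprime.pow_right
        rw [Nat.coprime_comm, hpp.coprime_iff_not_dvd]
        exact P.not_dvd_index
      have h5 := Nat.dvd_gcd h1 h2
      rw [h4] at h5
      exact Nat.dvd_one.1 h5
    have hcommP : ∀ a b : G ⧸ (P : Subgroup G), a * b = b * a := by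
      refine comm_of_charDegree_eq_one fun χ => ?_
      have h1 := isIrr_comp (QuotientGroup.mk' (P : Subgroup G))
        (QuotientGroup.mk'_surjective _) χ.2
      have h2 := hcd ⟨_, h1⟩
      rw [show charDegree ((⟨_, h1⟩ : IrrCharacter G) : G → ℂ) =
        charDegree (χ : G ⧸ (P : Subgroup G) → ℂ) from charDegree_comp _ χ.2] at h2
      refine h2.resolve_right fun h3 => ?_
      have h4 := charDegree_dvd_card χ.2
      rw [h3] at h4
      exact P.not_dvd_index (hpm.trans h4)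
    have hA : ∀ a ∈ A, ∀ b ∈ A, a * b = b * a := by
      intro a ha b hb
      have h1 := hcommP (a : G ⧸ (P : Subgroup G)) b
      have h2 : (b * a)⁻¹ * (a * b) ∈ (P : Subgroup G) := QuotientGroup.eq.1 h1.symm
      have h3 : (b * a)⁻¹ * (a * b) ∈ (P : Subgroup G) ⊓ A :=
        ⟨h2, A.mul_mem (A.inv_mem (A.mul_mem hb ha)) (A.mul_mem ha hb)⟩
      rw [hPA, Subgroup.mem_bot, inv_mul_eq_one] at h3
      exact h3.symm
    have hmd : m ∣ p ^ k ⟨p, hpf⟩ := by
      have h1 := charDegree_dvd_index χ₀.2 A hA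
      rw [hχ₀] at h1
      exact h1.trans (dvd_of_eq (hNk ⟨p, hpf⟩))
    obtain ⟨e, -, he⟩ := (Nat.dvd_prime_pow hpp).1 hmd
    exact ⟨p, e, hpp, he, P, A, hPn, hAn, P.isPGroup', hA, hPA, hPA'⟩

end Cfsg.Agent.S4457
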