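import Cfsg.Statements.S4461
import Cfsg.Agent.H597.Broline
import Cfsg.Agent.Lib.FrattiniBasic
import Cfsg.Agent.Lib.Cores
import Cfsg.Agent.Solvable.Carter
import Cfsg.Agent.PLocal.ThompsonFrattini

set_option autoImplicit false
open Cfsg

namespace Cfsg.Agent.S4461

open Cfsg.Agent.H597.Base Cfsg.Agent.H597.Broline
open Cfsg.Agent.Characters.Core
open Subgroup

/-- A non-nilpotent normal subgroup has a Sylow subgroup whose normaliser lies in a maximal
subgroup. -/
theorem exists_sylow_of_not_nilpotent {G : Type*} [Group G] [Finite G] (E : Subgroup G)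
    [E.Normal] (h : ¬ Group.IsNilpotent E) :
    ∃ (p : ℕ) (_ : Fact p.Prime) (P : Sylow p E) (M : Subgroup G), IsCoatom M ∧
      normalizer (((P : Subgroup E).map E.subtype : Subgroup G) : Set G) ≤ M := by
  have h1 := (Group.isNilpotent_of_finite_tfae (G := E)).out 0 3
  rw [h1] at h
  push Not at h
  obtain ⟨p, hp, P, hP⟩ := h
  refine ⟨p, hp, P, ?_⟩
  have h2 : normalizer (((P : Subgroup E).map E.subtype : Subgroup G) : Set G) ≠ ⊤ := by
    intro htop
    apply hP
    have h3 : ((P : Subgroup E).map E.subtype).Normal := normalizer_eq_top_iff.1 htop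
    have h4 := h3.comap E.subtype
    rwa [comap_map_eq_self_of_injective E.subtype_injective] at h4
  obtain ⟨M, hM, hle⟩ := (eq_top_or_exists_le_coatom _).resolve_left h2
  exact ⟨M, hM, hle⟩

/-- A normal subgroup of index prime to `p` contains all `p`-subgroups. -/
theorem le_of_not_dvd_relIndex {G : Type*} [Group G] [Finite G] {p : ℕ} [hp : Fact p.Prime]
    {E : Subgroup G} (D : Subgroup G) [D.Normal] (P : Sylow p E) (h : ¬ p ∣ D.relIndex E) :
    (P : Subgroup E).map E.subtype ≤ D := by
  rintro _ ⟨x, hx, rfl⟩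
  have hn : (D.subgroupOf E).Normal := inferInstance
  obtain ⟨k, hk⟩ := P.2 ⟨x, hx⟩
  have hk' : x ^ p ^ k = 1 := congrArg Subtype.val hk
  have h1 : (QuotientGroup.mk x : E ⧸ D.subgroupOf E) = 1 := by
    rw [← orderOf_eq_one_iff]
    have h2 : orderOf (QuotientGroup.mk x : E ⧸ D.subgroupOf E) ∣ p ^ k := by
      rw [orderOf_dvd_iff_pow_eq_one, ← QuotientGroup.mk_pow, hk', QuotientGroup.mk_one]
    have h3 : orderOf (QuotientGroup.mk x : E ⧸ D.subgroupOf E) ∣ (D.subgroupOf E).index := by
      have := orderOf_dvd_natCard (QuotientGroup.mk x : E ⧸ D.subgroupOf E)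
      rwa [← index_eq_card] at this
    have h4 : Nat.Coprime (p ^ k) (D.subgroupOf E).index :=
      Nat.Coprime.pow_left k ((hp.out.coprime_iff_not_dvd).2 h)
    exact Nat.dvd_one.1 (h4 ▸ Nat.dvd_gcd h2 h3)
  have h5 := (QuotientGroup.eq_one_iff x).1 h1
  exact h5

/-- Let χ be an irreducible character of the finite group G and K its kernel (the elements where χ takes the value χ(1)). Suppose either that K is not contained in the Fitting subgroup F(G), or that K = F(G) with G/K solvable and K ≠ G. Then there is an irreducible character ψ of G with ψ(1) > χ(1) whose kernel is properly contained in K. -/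
theorem result {G : Type*} [Group G] [Finite G] (χ : Cfsg.IrrCharacter G) (K : Subgroup G) [K.Normal] (hK : (∀ g : G, g ∈ K ↔ (χ : G → ℂ) g = (χ : G → ℂ) 1)) (h : ¬ K ≤ Cfsg.fittingSubgroup G ∨ (K = Cfsg.fittingSubgroup G ∧ Group.IsSolvable (G ⧸ K) ∧ K ≠ ⊤)) : ∃ ψ : Cfsg.IrrCharacter G, Cfsg.charDegree (χ : G → ℂ) < Cfsg.charDegree (ψ : G → ℂ) ∧ ∃ L : Subgroup G, (∀ g : G, g ∈ L ↔ (ψ : G → ℂ) g = (ψ : G → ℂ) 1) ∧ L < K := by
  classical
  have := Fintype.ofFinite G
  have hχ1 : (χ : G → ℂ) 1 ≠ 0 := isIrr_apply_one_ne_zero χ.2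
  rcases h with h | ⟨hKF, hsol, hKtop⟩
  · -- the kernel is not nilpotent
    have hnil : ¬ Group.IsNilpotent K := fun hn =>
      h (Cfsg.Agent.Lib.Cores.le_fittingSubgroup inferInstance hn)
    obtain ⟨p, hp, P, M, hM, hPM⟩ := exists_sylow_of_not_nilpotent K hnil
    have hKM : K ⊔ M = ⊤ := by
      have h1 := Sylow.normalizer_sup_eq_top P
      rw [eq_top_iff, ← h1]
      exact sup_le (hPM.trans le_sup_right) le_sup_left
    by_contra hcon
    have hcore : K ⊓ M ≤ M.normalCore := by
      intro x hx
      by_contra hx'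
      refine hcon (exists_of_maximal χ.2 K hK M hM hKM hx.2 ?_ hx')
      rw [(hK x).1 hx.1]; exact hχ1
    have hD : (P : Subgroup K).map K.subtype ≤ M.normalCore ⊓ K := by
      have h2 : (P : Subgroup K).map K.subtype ≤ K := map_subtype_le _
      exact le_inf ((le_inf h2 (le_normalizer.trans hPM)).trans hcore) h2
    have h3 := Cfsg.Agent.Lib.FrattiniBasic.normalizer_sup_eq_top_of_le
      (H := M.normalCore ⊓ K) inferInstance P hD inf_le_right
    apply hM.1
    rw [eq_top_iff, ← h3]
    exact sup_le hPM (inf_le_left.trans M.normalCore_le)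
  · -- the kernel is the Fitting subgroup
    have hnt : Nontrivial (G ⧸ K) := by
      rw [QuotientGroup.nontrivial_iff]; exact hKtop
    obtain ⟨p, N, hp, hN, hNp, -, hNne, hNmin⟩ :=
      Cfsg.Agent.Solvable.Carter.exists_min_normal (G ⧸ K)
    have := Fact.mk hp
    set E : Subgroup G := N.comap (QuotientGroup.mk' K) with hEdef
    have hEn : E.Normal := inferInstance
    have hKE : K ≤ E := by
      intro k hk
      show (QuotientGroup.mk' K) k ∈ N
      rw [QuotientGroup.mk'_apply, (QuotientGroup.eq_one_iff k).2 hk]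
      exact one_mem N
    have hEK : ¬ E ≤ K := by
      intro hle
      apply hNne
      rw [eq_bot_iff]
      intro x hx
      obtain ⟨g, rfl⟩ := QuotientGroup.mk'_surjective K x
      have : g ∈ K := hle hx
      rw [Subgroup.mem_bot, QuotientGroup.mk'_apply, QuotientGroup.eq_one_iff]
      exact this
    have hchief : ∀ D : Subgroup G, D.Normal → K ≤ D → D ≤ E → D = K ∨ D = E := by
      intro D hD hKD hDE
      have h1 : (D.map (QuotientGroup.mk' K)).Normal :=
        hD.map _ (QuotientGroup.mk'_surjective K)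
      have h2 : D.map (QuotientGroup.mk' K) ≤ N := map_le_iff_le_comap.2 hDE
      have h3 : (D.map (QuotientGroup.mk' K)).comap (QuotientGroup.mk' K) = D := by
        rw [comap_map_eq, QuotientGroup.ker_mk']
        exact sup_eq_left.2 hKD
      rcases hNmin _ h1 h2 with h4 | h4
      · left
        rw [← h3, h4, MonoidHom.comap_bot, QuotientGroup.ker_mk']
      · right
        rw [← h3, h4]
    -- the index of `K` in `E` is a power of `p`
    have hpow : ∃ n, K.relIndex E = p ^ n := by
      obtain ⟨n, hn⟩ := IsPGroup.iff_card.1 hNp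
      refine ⟨n, ?_⟩
      rw [← hn]
      have h1 := relIndex_ker (K := E) (QuotientGroup.mk' K)
      rw [QuotientGroup.ker_mk'] at h1
      rw [h1, hEdef, map_comap_eq_self_of_surjective (QuotientGroup.mk'_surjective K)]
    obtain ⟨n, hn⟩ := hpow
    -- a Sylow subgroup of `E`
    obtain ⟨R⟩ : Nonempty (Sylow p E) := inferInstance
    set R' : Subgroup G := (R : Subgroup E).map E.subtype with hR'
    have hR'E : R' ≤ E := map_subtype_le _
    have hR'p : IsPGroup p R' := R.2.map E.subtype
    have hRidx : ¬ p ∣ R'.relIndex E := by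
      have h1 : R'.relIndex E = (R : Subgroup E).index := by
        rw [relIndex, subgroupOf, hR', comap_map_eq_self_of_injective E.subtype_injective]
      rw [h1]
      exact R.not_dvd_index
    have hsup : K ⊔ R' = E := by
      apply le_antisymm (sup_le hKE hR'E)
      rw [← relIndex_eq_one]
      have h1 : (K ⊔ R').relIndex E ∣ K.relIndex E := relIndex_dvd_of_le_left E le_sup_left
      have h2 : (K ⊔ R').relIndex E ∣ R'.relIndex E := relIndex_dvd_of_le_left E le_sup_right
      rw [hn] at h1
      have h3 : Nat.Coprime (p ^ n) (R'.relIndex E) :=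
        Nat.Coprime.pow_left n ((hp.coprime_iff_not_dvd).2 hRidx)
      exact Nat.dvd_one.1 (h3 ▸ Nat.dvd_gcd h1 h2)
    have hnorm : normalizer (R' : Set G) ≠ ⊤ := by
      intro htop
      have h3 : R'.Normal := normalizer_eq_top_iff.1 htop
      have h4 : R' ≤ K := by
        rw [hKF]
        exact Cfsg.Agent.Lib.Cores.le_fittingSubgroup h3 hR'p.isNilpotent
      apply hEK
      rw [← hsup]
      exact sup_le le_rfl h4
    obtain ⟨M, hM, hRM⟩ := (eq_top_or_exists_le_coatom _).resolve_left hnorm
    have hKM : K ⊔ M = ⊤ := by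
      have h1 := Sylow.normalizer_sup_eq_top R
      rw [eq_top_iff, ← h1]
      refine sup_le (hRM.trans le_sup_right) ?_
      rw [← hsup]
      exact sup_le le_sup_left ((le_normalizer.trans hRM).trans le_sup_right)
    by_contra hcon
    have hcore : ∀ m ∈ M, (χ : G → ℂ) m ≠ 0 → m ∈ M.normalCore := by
      intro m hm hne
      by_contra hx'
      exact hcon (exists_of_maximal χ.2 K hK M hM hKM hm hne hx')
    have hKMC : K ⊓ M ≤ M.normalCore := by
      intro x hx
      refine hcore x hx.2 ?_
      rw [(hK x).1 hx.1]; exact hχ1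
    set D : Subgroup G := M.normalCore ⊓ E with hD
    have hDn : D.Normal := inferInstance
    have hfrat : ¬ R' ≤ D := by
      intro hle
      have h3 := Cfsg.Agent.Lib.FrattiniBasic.normalizer_sup_eq_top_of_le
        (H := D) inferInstance R hle inf_le_right
      apply hM.1
      rw [eq_top_iff, ← h3]
      exact sup_le hRM (inf_le_left.trans M.normalCore_le)
    rcases hchief (K ⊔ D) inferInstance le_sup_left (sup_le hKE inf_le_right) with h5 | h5
    · -- `D ≤ K`
      have hDK : D ≤ K := by rw [← h5]; exact le_sup_right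
      have hirr : IsIrrCharacter M (fun m : M => (χ : G → ℂ) m) := by
        refine isIrr_restrict_of_supplement χ.2 K M (fun k hk => (hK k).1 hk) fun g => ?_
        have hg : g ∈ K ⊔ M := hKM ▸ mem_top g
        obtain ⟨k, hk, m, hm, rfl⟩ := mem_sup_of_normal_left.1 hg
        exact ⟨k, hk, m, hm, rfl⟩
      have hval : ∀ x : E.subgroupOf M, (χ : G → ℂ) ((x : M) : G) = (χ : G → ℂ) 1 ∨
          (χ : G → ℂ) ((x : M) : G) = 0 := by
        intro x
        by_cases h0 : (χ : G → ℂ) ((x : M) : G) = 0
        · exact Or.inr h0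
        · left
          have h6 : ((x : M) : G) ∈ D := ⟨hcore _ (x : M).2 h0, x.2⟩
          exact (hK _).1 (hDK h6)
      have hMEK : M ⊓ E ≤ K := by
        intro x hx
        rw [hK]
        by_contra hne
        have h6 := sum_apply_eq_zero (E.subgroupOf M) hirr ⟨⟨x, hx.1⟩, hx.2, hne⟩
        obtain ⟨d, hd, hd'⟩ := isIrr_apply_one χ.2
        have h7 : (∑ k : E.subgroupOf M, (fun m : M => (χ : G → ℂ) m) k).re > 0 := by
          rw [Complex.re_sum]
          apply Finset.sum_pos'
          · intro y _
            show 0 ≤ ((χ : G → ℂ) ((y : M) : G)).re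
            rcases hval y with h8 | h8
            · rw [h8, hd']; simp
            · rw [h8]; simp
          · refine ⟨1, Finset.mem_univ _, ?_⟩
            show 0 < ((χ : G → ℂ) 1).re
            rw [hd']; simpa using hd
        rw [h6] at h7
        simp at h7
      apply hEK
      intro x hx
      have hg : x ∈ K ⊔ M := hKM ▸ mem_top x
      obtain ⟨k, hk, m, hm, rfl⟩ := mem_sup_of_normal_left.1 hg
      have h6 : m ∈ E := by
        have := E.mul_mem (E.inv_mem (hKE hk)) hx
        rwa [inv_mul_cancel_left] at this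
      exact K.mul_mem hk (hMEK ⟨hm, h6⟩)
    · -- `K D = E`
      apply hfrat
      apply le_of_not_dvd_relIndex D R
      intro hdvd
      have h6 : D.relIndex E = D.relIndex K := by
        rw [← h5, relIndex_sup_right]
      have h7 := Cfsg.Agent.PLocal.ThompsonFrattini.not_dvd_relIndex_of_sylow_le R
        (M.subgroupOf E) (K.subgroupOf E) (by
          intro x hx
          exact (le_normalizer.trans hRM) (mem_map_of_mem E.subtype hx))
      apply h7
      have h8 : (M.subgroupOf E).relIndex (K.subgroupOf E) = M.relIndex K := by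
        rw [relIndex_subgroupOf hKE]
      rw [h8]
      rw [h6] at hdvd
      refine hdvd.trans ?_
      have h9 : M ⊓ K ≤ D := le_inf (by rw [inf_comm]; exact hKMC) (inf_le_right.trans hKE)
      have h10 := relIndex_dvd_of_le_left K h9
      rwa [inf_relIndex_right] at h10

end Cfsg.Agent.S4461
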