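import Cfsg.Statements.S4471
import Cfsg.Agent.H599.TwoP

set_option autoImplicit false
open Cfsg

namespace Cfsg.Agent.S4471

/-- Let p ≥ 7 be a prime and let the finite group G have a faithful irreducible character of degree n with n < 2p and n ≠ p. If the Sylow p-subgroups of G are non-abelian then p² does not divide the index of O_p(G) in G; consequently, in every case G/O_p(G) has abelian Sylow p-subgroups. -/
theorem result {G : Type*} [Group G] [Finite G] (χ : Cfsg.IrrCharacter G) (hfaith : ∀ g : G, (χ : G → ℂ) g = (χ : G → ℂ) 1 → g = 1) (n : ℕ) (hn : Cfsg.charDegree (χ : G → ℂ) = n) (p : ℕ) (hp : p.Prime) (h7 : 7 ≤ p) (hn2 : n < 2 * p) (hnp : n ≠ p) : ((∃ P : Sylow p G, ∃ x ∈ (P : Subgroup G), ∃ y ∈ (P : Subgroup G), x * y ≠ y * x) → ¬ p ^ 2 ∣ (Cfsg.pCore p G).index) ∧ ∀ Q : Sylow p (G ⧸ Cfsg.pCore p G), ∀ x ∈ (Q : Subgroup (G ⧸ Cfsg.pCore p G)), ∀ y ∈ (Q : Subgroup (G ⧸ Cfsg.pCore p G)), x * y = y * x := by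
  classical
  have := Fact.mk hp
  obtain ⟨χ, m, ρ, hirr, rfl⟩ := χ
  simp only at hfaith hn
  have hm : m = n := by
    rw [← hn, charDegree, Representation.char_one, Module.finrank_fin_fun, Complex.natCast_re,
      Nat.floor_natCast]
  subst hm
  have hρ : Function.Injective ρ := by
    rw [injective_iff_map_eq_one]
    intro g hg
    apply hfaith
    rw [Representation.character, Representation.character, hg, map_one ρ]
  have h1 : (∃ P : Sylow p G, ∃ x ∈ (P : Subgroup G), ∃ y ∈ (P : Subgroup G), x * y ≠ y * x) →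
      ¬ p ^ 2 ∣ (Cfsg.pCore p G).index := by
    rintro ⟨P, hP⟩
    exact Cfsg.Agent.H599.TwoP.main_struct ρ hρ hp h7 hn2 hnp P P.isPGroup' hP
  refine ⟨h1, fun Q x hx y hy => ?_⟩
  by_cases hna : ∃ P : Sylow p G, ∃ x ∈ (P : Subgroup G), ∃ y ∈ (P : Subgroup G), x * y ≠ y * x
  · have h2 := h1 hna
    -- the order of `Q` divides `p`
    have h3 : Nat.card Q ∣ (Cfsg.pCore p G).index := by
      rw [Subgroup.index_eq_card]
      exact Subgroup.card_subgroup_dvd_card (Q : Subgroup (G ⧸ Cfsg.pCore p G))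
    obtain ⟨k, hk⟩ := IsPGroup.iff_card.1 Q.isPGroup'
    have hk1 : k ≤ 1 := by
      by_contra hk1
      push Not at hk1
      apply h2
      refine dvd_trans ?_ h3
      rw [hk]
      exact pow_dvd_pow p hk1
    have hcyc : IsCyclic Q := by
      rcases Nat.le_one_iff_eq_zero_or_eq_one.1 hk1 with h | h
      · rw [h, pow_zero] at hk
        have : Subsingleton Q := (Nat.card_eq_one_iff_unique.1 hk).1
        infer_instance
      · rw [h, pow_one] at hk
        exact isCyclic_of_prime_card hk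
    have h4 : (⟨x, hx⟩ : Q) * ⟨y, hy⟩ = ⟨y, hy⟩ * ⟨x, hx⟩ :=
      (IsCyclic.isMulCommutative (α := Q)).is_comm.comm _ _
    exact congrArg Subtype.val h4
  · push Not at hna
    obtain ⟨P, rfl⟩ := Sylow.mapSurjective_surjective
      (QuotientGroup.mk'_surjective (Cfsg.pCore p G)) p Q
    rw [Sylow.coe_mapSurjective] at hx hy
    obtain ⟨a, ha, rfl⟩ := hx
    obtain ⟨b, hb, rfl⟩ := hy
    rw [← map_mul, ← map_mul, hna P a ha b hb]

end Cfsg.Agent.S4471
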