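import Cfsg.Statements.S4472
import Cfsg.Agent.H600.Canon
import Cfsg.Agent.H600.PSol

set_option autoImplicit false
open Cfsg

namespace Cfsg.Agent.S4472

/-- Let the finite p-solvable group G have a faithful character of degree n, and let p^a be the index of O_p(G) in a Sylow p-subgroup of G (the p-part of [G : O_p(G)]). Then a ≤ Σ_{i ≥ 0} ⌊n / ((p − 1) p^i)⌋ (a finite sum; the terms vanish for p^i > n). -/
theorem result {G : Type*} [Group G] [Finite G] (χ : G → ℂ) (hχ : Cfsg.IsCharacter G χ) (hfaith : ∀ g : G, χ g = χ 1 → g = 1) (n : ℕ) (hn : Cfsg.charDegree χ = n) (p : ℕ) (hp : p.Prime) (hsolv : Cfsg.IsPSolvable p G) : ((Cfsg.pCore p G).index).factorization p ≤ ∑ i ∈ Finset.range (n + 1), n / ((p - 1) * p ^ i) := by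
  have : Fact p.Prime := ⟨hp⟩
  have h1 : χ 1 = n := Cfsg.Agent.S4488.apply_one_eq hχ hn
  obtain ⟨K, A, hK, hA, hAg, hle⟩ := Cfsg.Agent.H600.PSol.exists_action hsolv
  have h2 := Cfsg.Agent.H600.Canon.bd hp n (Nat.card K) K A (χ ∘ K.subtype) hA hK
    (Cfsg.Agent.Characters.Core.isCharacter_comp K.subtype hχ)
    (fun x hx => by
      have h3 : χ (x : G) = χ 1 := hx
      exact Subtype.ext (hfaith _ h3))
    (fun a ha x => by
      obtain ⟨g, hg⟩ := hAg a ha
      show χ ((a x : K) : G) = χ (x : G)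
      rw [hg]
      exact Cfsg.Agent.Characters.Core.isCharacter_isClassFunction hχ (x : G) g)
    (by
      show χ ((1 : K) : G) = n
      exact h1) le_rfl
  exact (Nat.pow_le_pow_iff_right hp.one_lt).1 (hle.trans h2)

end Cfsg.Agent.S4472
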