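import Cfsg.Statements.S4473
import Cfsg.Agent.Blocks.Basic
import Cfsg.Agent.Characters.MonomialVec
import Cfsg.Agent.Characters.Linear
import Cfsg.Agent.CharactersDeep.Imprimitivity
import Cfsg.Agent.H600.KleinCount
import Mathlib.LinearAlgebra.Eigenspace.Semisimple
-- import your own Cfsg.Agent.* helpers here

set_option autoImplicit false
open Cfsg

namespace Cfsg.Agent.S4473

open Module Cfsg.Agent.Characters

theorem finrank_map_inj {f : End ℂ (Fin 2 → ℂ)} (hinj : Function.Injective f)
    (L : Submodule ℂ (Fin 2 → ℂ)) : finrank ℂ (L.map f) = finrank ℂ L :=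
  (Submodule.equivMapOfInjective f hinj L).finrank_eq.symm

theorem apply_mem_of_map_eq {f : End ℂ (Fin 2 → ℂ)} {L : Submodule ℂ (Fin 2 → ℂ)}
    (h : L.map f = L) {v : Fin 2 → ℂ} (hv : v ∈ L) : f v ∈ L := by
  have : f v ∈ L.map f := Submodule.mem_map_of_mem hv
  rwa [h] at this

/-- A diagonalizable non-scalar invertible operator on the plane fixes exactly two lines. -/
theorem two_lines (f : End ℂ (Fin 2 → ℂ)) (hf : f.IsSemisimple) (hinj : Function.Injective f)
    (hns : ∀ c : ℂ, f ≠ c • (1 : End ℂ (Fin 2 → ℂ))) :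
    ∃ L₁ L₂ : Submodule ℂ (Fin 2 → ℂ), L₁ ≠ L₂ ∧ finrank ℂ L₁ = 1 ∧ finrank ℂ L₂ = 1 ∧
      L₁.map f = L₁ ∧ L₂.map f = L₂ ∧
      ∀ L : Submodule ℂ (Fin 2 → ℂ), finrank ℂ L = 1 → L.map f = L → L = L₁ ∨ L = L₂ := by
  classical
  have hV : finrank ℂ (Fin 2 → ℂ) = 2 := by simp
  have htop : ∀ c : ℂ, f.eigenspace c ≠ ⊤ := by
    intro c h
    apply hns c
    apply LinearMap.ext
    intro v
    have hv : v ∈ f.eigenspace c := by rw [h]; exact Submodule.mem_top
    rw [End.mem_eigenspace_iff] at hv
    exact hv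
  obtain ⟨a, ha⟩ := End.exists_eigenvalue f
  have ha' : f.eigenspace a ≠ ⊥ := ha
  obtain ⟨b, hab, hb⟩ : ∃ b, b ≠ a ∧ f.eigenspace b ≠ ⊥ := by
    by_contra hcon
    push Not at hcon
    apply htop a
    have h := hf.iSup_eigenspace_eq_top
    rw [eq_top_iff, ← h]
    refine iSup_le fun c => ?_
    by_cases hc : c = a
    · rw [hc]
    · rw [hcon c hc]
      exact bot_le
  have hrank : ∀ c : ℂ, f.eigenspace c ≠ ⊥ → finrank ℂ (f.eigenspace c) = 1 := by
    intro c hc
    have h1 : finrank ℂ (f.eigenspace c) ≠ 0 := by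
      intro h
      exact hc (Submodule.finrank_eq_zero.1 h)
    have h2 : finrank ℂ (f.eigenspace c) < finrank ℂ (Fin 2 → ℂ) :=
      Submodule.finrank_lt (htop c)
    rw [hV] at h2
    omega
  have hdisj : Disjoint (f.eigenspace a) (f.eigenspace b) :=
    (End.eigenspaces_iSupIndep f).pairwiseDisjoint hab.symm
  have hsup : f.eigenspace a ⊔ f.eigenspace b = ⊤ := by
    apply Submodule.eq_top_of_finrank_eq
    have := Submodule.finrank_sup_add_finrank_inf_eq (f.eigenspace a) (f.eigenspace b)
    rw [hdisj.eq_bot, finrank_bot, hrank a ha', hrank b hb] at this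
    rw [hV]
    exact this
  have hmap : ∀ c : ℂ, (f.eigenspace c).map f = f.eigenspace c := by
    intro c
    apply Submodule.eq_of_le_of_finrank_eq
    · rintro _ ⟨v, hv, rfl⟩
      have hv' : v ∈ f.eigenspace c := hv
      rw [End.mem_eigenspace_iff] at hv'
      rw [hv']
      exact Submodule.smul_mem _ _ hv
    · exact finrank_map_inj hinj _
  refine ⟨f.eigenspace a, f.eigenspace b, ?_, hrank a ha', hrank b hb, hmap a, hmap b, ?_⟩
  · intro h
    rw [h, disjoint_self] at hdisj
    exact hb hdisj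
  · intro L hL1 hLf
    obtain ⟨v, hv0, hv⟩ := finrank_eq_one_iff'.1 hL1
    have hv0' : (v : Fin 2 → ℂ) ≠ 0 := fun h => hv0 (Subtype.ext h)
    have hfv : f v ∈ L := apply_mem_of_map_eq hLf v.2
    obtain ⟨c, hc⟩ := hv ⟨f v, hfv⟩
    have hc' : c • (v : Fin 2 → ℂ) = f v := congrArg Subtype.val hc
    have hLv : ∀ d : ℂ, (v : Fin 2 → ℂ) ∈ f.eigenspace d → f.eigenspace d ≠ ⊥ → L = f.eigenspace d := by
      intro d hd hd0
      apply Submodule.eq_of_le_of_finrank_eq
      · intro w hw
        obtain ⟨k, hk⟩ := hv ⟨w, hw⟩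
        have hk' : k • (v : Fin 2 → ℂ) = w := congrArg Subtype.val hk
        rw [← hk']
        exact Submodule.smul_mem _ _ hd
      · rw [hL1, hrank d hd0]
    have hvtop : (v : Fin 2 → ℂ) ∈ f.eigenspace a ⊔ f.eigenspace b := by
      rw [hsup]; exact Submodule.mem_top
    obtain ⟨x, hx, y, hy, hxy⟩ := Submodule.mem_sup.1 hvtop
    have hx' := End.mem_eigenspace_iff.1 hx
    have hy' := End.mem_eigenspace_iff.1 hy
    rw [← hxy, map_add, hx', hy', smul_add] at hc'
    have h1 : (c - a) • x = (b - c) • y := by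
      rw [sub_smul, sub_smul]
      have : c • x + c • y = a • x + b • y := hc'
      rw [sub_eq_sub_iff_add_eq_add, this]
      abel
    have h2 : (c - a) • x = 0 := by
      have m1 : (c - a) • x ∈ f.eigenspace a := Submodule.smul_mem _ _ hx
      have m2 : (c - a) • x ∈ f.eigenspace b := by
        rw [h1]
        exact Submodule.smul_mem _ _ hy
      exact (Submodule.disjoint_def.1 hdisj) _ m1 m2
    have h3 : (b - c) • y = 0 := by rw [← h1, h2]
    rcases smul_eq_zero.1 h2 with h4 | h4
    · -- c = a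
      have hca : c = a := sub_eq_zero.1 h4
      rcases smul_eq_zero.1 h3 with h5 | h5
      · exact absurd ((sub_eq_zero.1 h5).trans hca) hab
      · left
        apply hLv a _ ha'
        rw [← hxy, h5, add_zero]
        exact hx
    · right
      apply hLv b _ hb
      rw [← hxy, h4, zero_add]
      exact hy

variable {G : Type*} [Group G]

/-- The lines fixed by a noncentral element. -/
def Pole (ρ : Representation ℂ G (Fin 2 → ℂ)) : Type _ :=
  {L : Submodule ℂ (Fin 2 → ℂ) // finrank ℂ L = 1 ∧ ∃ x : G, x ∉ Subgroup.center G ∧ L.map (ρ x) = L}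

theorem map_map' (ρ : Representation ℂ G (Fin 2 → ℂ)) (g h : G) (L : Submodule ℂ (Fin 2 → ℂ)) :
    (L.map (ρ h)).map (ρ g) = L.map (ρ (g * h)) := by
  rw [map_mul, Module.End.mul_eq_comp, Submodule.map_comp]

theorem map_one' (ρ : Representation ℂ G (Fin 2 → ℂ)) (L : Submodule ℂ (Fin 2 → ℂ)) :
    L.map (ρ 1) = L := by
  rw [map_one]
  exact Submodule.map_id L

theorem rho_inj (ρ : Representation ℂ G (Fin 2 → ℂ)) (g : G) : Function.Injective (ρ g) := by
  intro v w h
  have : ρ g⁻¹ (ρ g v) = ρ g⁻¹ (ρ g w) := by rw [h]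
  simpa [← Module.End.mul_apply, ← map_mul] using this

/-- The action on poles. -/
@[reducible] def poleAction (ρ : Representation ℂ G (Fin 2 → ℂ)) : MulAction G (Pole ρ) where
  smul g L := ⟨L.1.map (ρ g), by
    refine ⟨?_, ?_⟩
    · rw [finrank_map_inj (rho_inj ρ g)]
      exact L.2.1
    · obtain ⟨x, hx, hxL⟩ := L.2.2
      refine ⟨g * x * g⁻¹, ?_, ?_⟩
      · intro h
        apply hx
        have := (inferInstance : (Subgroup.center G).Normal).conj_mem _ h g⁻¹
        simpa [mul_assoc] using this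
      · rw [map_map']
        have : g * x * g⁻¹ * g = g * x := by group
        rw [this, ← map_map', hxL]⟩
  one_smul L := Subtype.ext (map_one' ρ L.1)
  mul_smul g h L := Subtype.ext (map_map' ρ g h L.1).symm

/-- Let the finite group G have a faithful irreducible character χ of degree 2 that is primitive: χ is not induced from a character of any proper subgroup. Then the centre of G has index 12, 24 or 60. -/
theorem result {G : Type*} [Group G] [Fintype G] (χ : Cfsg.IrrCharacter G) (hfaith : ∀ g : G, (χ : G → ℂ) g = (χ : G → ℂ) 1 → g = 1) (h2 : Cfsg.charDegree (χ : G → ℂ) = 2) (hprim : ∀ H : Subgroup G, H ≠ ⊤ → ∀ θ : H → ℂ, Cfsg.IsCharacter H θ → (χ : G → ℂ) ≠ Cfsg.indFun H θ) : (Subgroup.center G).index = 12 ∨ (Subgroup.center G).index = 24 ∨ (Subgroup.center G).index = 60 := by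
  classical
  obtain ⟨χ, hχ⟩ := χ
  obtain ⟨n, ρ, hρ, rfl⟩ := hχ
  simp only at hfaith h2 hprim
  have hn : n = 2 := by
    have h1 : ρ.character 1 = (finrank ℂ (Fin n → ℂ) : ℂ) := Representation.char_one ρ
    rw [finrank_fin_fun] at h1
    rw [Blocks.Basic.charDegree_of_eq h1] at h2
    exact h2
  subst hn
  have hfaith' : ∀ g : G, ρ g = 1 → g = 1 := by
    intro g hg
    apply hfaith
    rw [Representation.character, Representation.character, hg, map_one ρ]
  -- scalar elements are central
  have hscal : ∀ x : G, (∃ c : ℂ, ρ x = c • (1 : End ℂ (Fin 2 → ℂ))) → x ∈ Subgroup.center G := by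
    rintro x ⟨c, hc⟩
    rw [Subgroup.mem_center_iff]
    intro g
    have h1 : ρ (g * x * g⁻¹ * x⁻¹) = 1 := by
      have h3 : ρ (g * x * g⁻¹) = ρ x := by
        rw [map_mul, map_mul, hc]
        have h4 : ρ g * ρ g⁻¹ = 1 := by rw [← map_mul, mul_inv_cancel, map_one]
        rw [mul_smul_comm, mul_one, smul_mul_assoc, h4]
      rw [map_mul, h3, ← map_mul, mul_inv_cancel, map_one]
    have h2 := hfaith' _ h1
    have h3 : g * x * g⁻¹ * x⁻¹ = g * x * (x * g)⁻¹ := by group
    rw [h3, mul_inv_eq_one] at h2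
    exact h2
  have hcent : ∀ x ∈ Subgroup.center G, ∃ c : ℂ, ρ x = c • (1 : End ℂ (Fin 2 → ℂ)) := by
    intro x hx
    apply CharactersDeep.Imprimitivity.exists_smul_of_comm ρ hρ
    intro g
    rw [← map_mul, ← map_mul, Subgroup.mem_center_iff.1 hx g]
  have hlines : ∀ x : G, x ∉ Subgroup.center G → _ := fun x hx =>
    two_lines (ρ x) (CharactersDeep.Imprimitivity.isSemisimple_rep ρ x) (rho_inj ρ x)
      (fun c hc => hx (hscal x ⟨c, hc⟩))
  let _act := poleAction ρ
  have hsmul : ∀ (g : G) (L : Pole ρ), (g • L).1 = L.1.map (ρ g) := fun _ _ => rfl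
  have hstab : ∀ (g : G) (ω : Pole ρ), g • ω = ω → ω.1.map (ρ g) = ω.1 := fun g ω h =>
    congrArg Subtype.val h
  -- finiteness
  have hfix2 : ∀ x ∉ Subgroup.center G, Nat.card {ω : Pole ρ // x • ω = ω} = 2 := by
    intro x hx
    obtain ⟨L₁, L₂, hne, h1, h2, hm1, hm2, hall⟩ := hlines x hx
    have : Nat.card {ω : Pole ρ // x • ω = ω} = Nat.card (Fin 2) := by
      refine Nat.card_congr (Equiv.symm (Equiv.ofBijective
        (fun i : Fin 2 => if i = 0 then
          (⟨⟨L₁, h1, x, hx, hm1⟩, Subtype.ext hm1⟩ : {ω : Pole ρ // x • ω = ω}) else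
          ⟨⟨L₂, h2, x, hx, hm2⟩, Subtype.ext hm2⟩) ⟨?_, ?_⟩))
      · intro i j hij
        fin_cases i <;> fin_cases j
        · rfl
        · exfalso
          simp only [Fin.zero_eta, if_true, Fin.mk_one, one_ne_zero, if_false] at hij
          exact hne (congrArg (fun ω => ω.1.1) hij)
        · exfalso
          simp only [Fin.zero_eta, if_true, Fin.mk_one, one_ne_zero, if_false] at hij
          exact hne (congrArg (fun ω => ω.1.1) hij).symm
        · rfl
      · rintro ⟨⟨L, hL, hL'⟩, hLx⟩
        have hLx' : L.map (ρ x) = L := congrArg Subtype.val hLx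
        rcases hall L hL hLx' with h | h
        · refine ⟨0, ?_⟩
          apply Subtype.ext
          apply Subtype.ext
          exact h.symm
        · refine ⟨1, ?_⟩
          apply Subtype.ext
          apply Subtype.ext
          exact h.symm
    rw [this]
    simp
  have hfin : Finite (Pole ρ) := by
    have h1 : (Set.univ : Set (Pole ρ)) = ⋃ x ∈ {x : G | x ∉ Subgroup.center G},
        {ω : Pole ρ | x • ω = ω} := by
      ext ω
      simp only [Set.mem_univ, Set.mem_iUnion, true_iff]
      obtain ⟨x, hx, hxω⟩ := ω.2.2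
      exact ⟨x, hx, Subtype.ext hxω⟩
    rw [← Set.finite_univ_iff, h1]
    refine Set.Finite.biUnion (Set.toFinite _) ?_
    intro x hx
    have h2 := hfix2 x hx
    exact Set.finite_coe_iff.1 (Nat.finite_of_card_ne_zero (by
      show Nat.card {ω : Pole ρ // x • ω = ω} ≠ 0
      rw [h2]
      norm_num))
  -- nonabelian
  have hnc : ∃ x : G, x ∉ Subgroup.center G := by
    by_contra hcon
    push Not at hcon
    have hirr := (CharactersDeep.Imprimitivity.isIrreducible_iff ρ).1 hρ
    have h3 := hirr.2 (Submodule.span ℂ {Pi.single 0 1}) (by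
      intro g v hv
      obtain ⟨c, hc⟩ := hcent g (hcon g)
      rw [hc]
      exact Submodule.smul_mem _ _ hv)
    have h4 : finrank ℂ (Submodule.span ℂ {(Pi.single 0 1 : Fin 2 → ℂ)}) = 1 :=
      finrank_span_singleton (by
        intro h
        have := congrFun h 0
        simp at this)
    rcases h3 with h3 | h3
    · rw [h3, finrank_bot] at h4
      omega
    · rw [h3, finrank_top] at h4
      simp at h4
  refine H600.KleinCount.klein_count (Ω := Pole ρ) (Subgroup.center G) ?_ hfix2 hnc ?_ ?_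
  · intro z hz ω
    obtain ⟨c, hc⟩ := hcent z hz
    apply Subtype.ext
    rw [hsmul, hc]
    apply Submodule.eq_of_le_of_finrank_eq
    · rintro _ ⟨v, hv, rfl⟩
      exact Submodule.smul_mem _ _ hv
    · have h := finrank_map_inj (rho_inj ρ z) ω.1
      rw [hc] at h
      exact h
  · intro ω
    obtain ⟨x, hx, hxω⟩ := ω.2.2
    exact ⟨x, hx, Subtype.ext hxω⟩
  · intro ω
    by_contra hlt
    push Not at hlt
    set S := MulAction.stabilizer G ω with hS
    obtain ⟨v, hv0, hv⟩ := finrank_eq_one_iff'.1 ω.2.1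
    have hv0' : (v : Fin 2 → ℂ) ≠ 0 := fun h => hv0 (Subtype.ext h)
    have heig : ∀ g ∈ S, ∃ c : ℂ, ρ g (v : Fin 2 → ℂ) = c • (v : Fin 2 → ℂ) := by
      intro g hg
      have h1 : ω.1.map (ρ g) = ω.1 := hstab g ω (MulAction.mem_stabilizer_iff.1 hg)
      have h3 : ρ g v ∈ ω.1 := apply_mem_of_map_eq h1 v.2
      obtain ⟨c, hc⟩ := hv ⟨_, h3⟩
      exact ⟨c, (congrArg Subtype.val hc).symm⟩
    by_cases htop : S = ⊤
    · have hirr := (CharactersDeep.Imprimitivity.isIrreducible_iff ρ).1 hρ
      have h3 := hirr.2 ω.1 (by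
        intro g w hw
        have hg : g ∈ S := by rw [htop]; trivial
        have h1 : ω.1.map (ρ g) = ω.1 := hstab g ω (MulAction.mem_stabilizer_iff.1 hg)
        exact apply_mem_of_map_eq h1 hw)
      have h4 := ω.2.1
      rcases h3 with h3 | h3
      · rw [h3, finrank_bot] at h4
        omega
      · rw [h3, finrank_top] at h4
        simp at h4
    · obtain ⟨lam, hlam⟩ := MonomialVec.exists_hom_of_eigenvector ρ S hv0' heig
      have h5 := MonomialVec.character_eq_indFun ρ hρ S lam hv0' hlam (by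
        rw [finrank_fin_fun]
        omega)
      exact hprim S htop _ (Characters.Linear.isCharacter_hom lam) h5

end Cfsg.Agent.S4473
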