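import Cfsg.Statements.S4479
import Cfsg.Agent.H608.Klein

set_option autoImplicit false
open Cfsg

namespace Cfsg.Agent.S4479

/-- An order formula from the principal 2-block. Let G be a finite group of order 4·g₀ with g₀ odd having no normal 2-complement (no normal subgroup of order g₀); let P be a Sylow 2-subgroup, J an involution of P, and fix a maximal ideal M of the algebraic integers containing 2. Suppose the principal 2-block consists of the principal character and three further distinct characters χ₁, χ₂, χ₃ of degrees x₁, x₂, x₃, with χ_i(J) = ε_i = ±1. Then, writing c(J) and c(P) for the orders of the centralizers of J and of P, the order of G equals 8·α·c(J)³/c(P)² with α = x₁x₂x₃ / ((x₁ + ε₁)(x₂ + ε₂)(x₃ + ε₃)). -/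
theorem result {G : Type*} [Group G] [Finite G] (M : Ideal Cfsg.AlgInt) (hM : Cfsg.IsPModular 2 M) (g₀ : ℕ) (hg₀ : Odd g₀) (hG : Nat.card G = 4 * g₀) (hnc : ¬ ∃ N : Subgroup G, N.Normal ∧ Nat.card N = g₀) (P : Sylow 2 G) (J : G) (hJ : J ∈ (P : Subgroup G)) (hJ2 : orderOf J = 2) (χ₁ χ₂ χ₃ : Cfsg.IrrCharacter G) (ε₁ ε₂ ε₃ : ℤ) (hB : Cfsg.principalBlock M G = {χ : Cfsg.IrrCharacter G | (χ : G → ℂ) = (fun _ => 1) ∨ χ = χ₁ ∨ χ = χ₂ ∨ χ = χ₃}) (hdist : (χ₁ : G → ℂ) ≠ (fun _ => 1) ∧ (χ₂ : G → ℂ) ≠ (fun _ => 1) ∧ (χ₃ : G → ℂ) ≠ (fun _ => 1) ∧ χ₁ ≠ χ₂ ∧ χ₁ ≠ χ₃ ∧ χ₂ ≠ χ₃) (hε : (ε₁ = 1 ∨ ε₁ = -1) ∧ (ε₂ = 1 ∨ ε₂ = -1) ∧ (ε₃ = 1 ∨ ε₃ = -1)) (hval : (χ₁ : G → ℂ) J = ε₁ ∧ (χ₂ : G → ℂ) J = ε₂ ∧ (χ₃ : G → ℂ) J = ε₃) : (Nat.card G : ℚ) = 8 * (((Cfsg.charDegree (χ₁ : G → ℂ) : ℚ) * Cfsg.charDegree (χ₂ : G → ℂ) * Cfsg.charDegree (χ₃ : G → ℂ)) / ((Cfsg.charDegree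 (χ₁ : G → ℂ) + ε₁) * (Cfsg.charDegree (χ₂ : G → ℂ) + ε₂) * (Cfsg.charDegree (χ₃ : G → ℂ) + ε₃))) * (Nat.card (Subgroup.centralizer ({J} : Set G)) : ℚ) ^ 3 / (Nat.card (Subgroup.centralizer ((P : Subgroup G) : Set G)) : ℚ) ^ 2 := by
  have h : Cfsg.Agent.H608.Klein.KHyp M g₀ P J χ₁ χ₂ χ₃ ε₁ ε₂ ε₃ :=
    ⟨hM, hg₀, hG, hnc, hJ, hJ2, hB, hdist, hε, hval⟩
  have h1 := h.order_eq
  have h2 := h.degree_eq
  have d1 := (Cfsg.Agent.H608.Klein.KHyp.deg χ₁).2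
  have d2 := (Cfsg.Agent.H608.Klein.KHyp.deg χ₂).2
  have d3 := (Cfsg.Agent.H608.Klein.KHyp.deg χ₃).2
  have hd : (0 : ℚ) < (Nat.card (Subgroup.centralizer ((P : Subgroup G) : Set G)) : ℚ) := by
    exact_mod_cast Nat.card_pos
  have hc : (0 : ℚ) < (Nat.card (Subgroup.centralizer ({J} : Set G)) : ℚ) := by
    exact_mod_cast Nat.card_pos
  have hn : (0 : ℚ) < (Nat.card G : ℚ) := by exact_mod_cast Nat.card_pos
  obtain ⟨s1, s2, s3⟩ := hε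
  have s1' : ((ε₁ : ℚ)) * ε₁ = 1 := by rcases s1 with rfl | rfl <;> norm_num
  have s2' : ((ε₂ : ℚ)) * ε₂ = 1 := by rcases s2 with rfl | rfl <;> norm_num
  have s3' : ((ε₃ : ℚ)) * ε₃ = 1 := by rcases s3 with rfl | rfl <;> norm_num
  have h2' : (1 : ℚ) + ε₁ * Cfsg.charDegree (χ₁ : G → ℂ) + ε₂ * Cfsg.charDegree (χ₂ : G → ℂ) +
      ε₃ * Cfsg.charDegree (χ₃ : G → ℂ) = 0 := by exact_mod_cast h2
  have d1' : (0 : ℚ) < (Cfsg.charDegree (χ₁ : G → ℂ) : ℚ) := by exact_mod_cast d1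
  have d2' : (0 : ℚ) < (Cfsg.charDegree (χ₂ : G → ℂ) : ℚ) := by exact_mod_cast d2
  have d3' : (0 : ℚ) < (Cfsg.charDegree (χ₃ : G → ℂ) : ℚ) := by exact_mod_cast d3
  generalize (Cfsg.charDegree (χ₁ : G → ℂ) : ℚ) = x₁ at *
  generalize (Cfsg.charDegree (χ₂ : G → ℂ) : ℚ) = x₂ at *
  generalize (Cfsg.charDegree (χ₃ : G → ℂ) : ℚ) = x₃ at *
  generalize (Nat.card (Subgroup.centralizer ({J} : Set G)) : ℚ) = c at *
  generalize (Nat.card (Subgroup.centralizer ((P : Subgroup G) : Set G)) : ℚ) = d at *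
  generalize (Nat.card G : ℚ) = n at *
  have e1 : (ε₁ : ℚ) ≠ 0 := left_ne_zero_of_mul (by rw [s1']; norm_num)
  have e2 : (ε₂ : ℚ) ≠ 0 := left_ne_zero_of_mul (by rw [s2']; norm_num)
  have e3 : (ε₃ : ℚ) ≠ 0 := left_ne_zero_of_mul (by rw [s3']; norm_num)
  have key : (x₁ + ε₁) * (x₂ + ε₂) * (x₃ + ε₃) =
      (1 + ε₁ / x₁ + ε₂ / x₂ + ε₃ / x₃) * (x₁ * x₂ * x₃) := by
    field_simp
    generalize (ε₁ : ℚ) = f₁ at *
    generalize (ε₂ : ℚ) = f₂ at *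
    generalize (ε₃ : ℚ) = f₃ at *
    have h3 : f₃ * x₃ = -1 - f₁ * x₁ - f₂ * x₂ := by linarith
    have h4 : x₃ = f₃ * (-1 - f₁ * x₁ - f₂ * x₂) := by
      rw [← h3, ← mul_assoc, s3', one_mul]
    have h5 : f₁ ^ 2 = 1 := by rw [sq]; exact s1'
    have h6 : f₂ ^ 2 = 1 := by rw [sq]; exact s2'
    have h7 : f₃ ^ 2 = 1 := by rw [sq]; exact s3'
    rw [h4]
    ring_nf
    simp only [h5, h6, h7]
    ring_nf
  have hS : (1 + ε₁ / x₁ + ε₂ / x₂ + ε₃ / x₃) ≠ 0 := by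
    intro h0
    rw [h0, mul_zero, zero_mul] at h1
    have : (0 : ℚ) < 8 * c ^ 3 := by positivity
    linarith
  rw [key]
  have hx : x₁ * x₂ * x₃ ≠ 0 := by positivity
  have : x₁ * x₂ * x₃ / ((1 + ε₁ / x₁ + ε₂ / x₂ + ε₃ / x₃) * (x₁ * x₂ * x₃)) =
      1 / (1 + ε₁ / x₁ + ε₂ / x₂ + ε₃ / x₃) := by
    rw [div_eq_div_iff (mul_ne_zero hS hx) hS]; ring
  rw [this, eq_div_iff (by positivity)]
  generalize (1 + ε₁ / x₁ + ε₂ / x₂ + ε₃ / x₃) = S at *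
  field_simp
  linarith

end Cfsg.Agent.S4479
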