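import Cfsg.Statements.S4480
import Cfsg.Agent.H608.KleinReal

set_option autoImplicit false
open Cfsg

namespace Cfsg.Agent.S4480

/-- Same setting as the Klein-four order formula: G of order 4·g₀ (g₀ odd) with no normal 2-complement, P a Sylow 2-subgroup, J an involution of P, M over 2, principal 2-block {1, χ₁, χ₂, χ₃} with χ_i(J) = ε_i = ±1. Suppose ε₁ε₂ε₃ = −1 and ε₃ = −1, and put q = x₃ = χ₃(1). Then there is a natural number m with 4·c(J) = m·c(P)·(q + 1), and the order of G equals (m³·c(P)/4)·(q³ − q)/2, that is 8·#G = m³·c(P)·(q³ − q). -/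
theorem result {G : Type*} [Group G] [Finite G] (M : Ideal Cfsg.AlgInt) (hM : Cfsg.IsPModular 2 M) (g₀ : ℕ) (hg₀ : Odd g₀) (hG : Nat.card G = 4 * g₀) (hnc : ¬ ∃ N : Subgroup G, N.Normal ∧ Nat.card N = g₀) (P : Sylow 2 G) (J : G) (hJ : J ∈ (P : Subgroup G)) (hJ2 : orderOf J = 2) (χ₁ χ₂ χ₃ : Cfsg.IrrCharacter G) (ε₁ ε₂ ε₃ : ℤ) (hB : Cfsg.principalBlock M G = {χ : Cfsg.IrrCharacter G | (χ : G → ℂ) = (fun _ => 1) ∨ χ = χ₁ ∨ χ = χ₂ ∨ χ = χ₃}) (hdist : (χ₁ : G → ℂ) ≠ (fun _ => 1) ∧ (χ₂ : G → ℂ) ≠ (fun _ => 1) ∧ (χ₃ : G → ℂ) ≠ (fun _ => 1) ∧ χ₁ ≠ χ₂ ∧ χ₁ ≠ χ₃ ∧ χ₂ ≠ χ₃) (hε : (ε₁ = 1 ∨ ε₁ = -1) ∧ (ε₂ = 1 ∨ ε₂ = -1) ∧ (ε₃ = 1 ∨ ε₃ = -1)) (hval : (χ₁ : G → ℂ) J = ε₁ ∧ (χ₂ : G → ℂ) J = ε₂ ∧ (χ₃ : G → ℂ) J = ε₃) (hprod : ε₁ * ε₂ * ε₃ = -1) (hε₃ : ε₃ = -1) : ∃ m : ℕ, 4 * Nat.card (Subgroup.centralizer ({J} : Set G)) = m * Nat.card (Subgroup.centralizer ((P : Subgroup G) : Set G))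 * (Cfsg.charDegree (χ₃ : G → ℂ) + 1) ∧ 8 * Nat.card G = m ^ 3 * Nat.card (Subgroup.centralizer ((P : Subgroup G) : Set G)) * (Cfsg.charDegree (χ₃ : G → ℂ) ^ 3 - Cfsg.charDegree (χ₃ : G → ℂ)) := by
  have h : Cfsg.Agent.H608.Klein.KHyp M g₀ P J χ₁ χ₂ χ₃ ε₁ ε₂ ε₃ :=
    ⟨hM, hg₀, hG, hnc, hJ, hJ2, hB, hdist, hε, hval⟩
  obtain ⟨e1, e2⟩ := h.signs hprod hε₃
  have h1 := h.order_eq
  have h2 := h.degree_eq
  have h3 := h.charDegree_eq hprod hε₃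
  have d1 := (Cfsg.Agent.H608.Klein.KHyp.deg χ₁).2
  have d3 := (Cfsg.Agent.H608.Klein.KHyp.deg χ₃).2
  have hcl : Nat.card {x : G // IsConj J x} = (Subgroup.centralizer ({J} : Set G)).index :=
    Cfsg.Agent.Blocks.Central.card_isConj J
  have k1 := Cfsg.Agent.CharactersDeep.FeitOddAux.degree_dvd_card_mul χ₁.2 (t := J)
    (Cfsg.Agent.H608.Klein.KHyp.deg χ₁).1 hcl hval.1
  have k3 := Cfsg.Agent.CharactersDeep.FeitOddAux.degree_dvd_card_mul χ₃.2 (t := J)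
    (Cfsg.Agent.H608.Klein.KHyp.deg χ₃).1 hcl hval.2.2
  have hidx := (Subgroup.centralizer ({J} : Set G)).card_mul_index
  rw [← h3, e1, e2, hε₃] at h1
  rw [← h3, e1, e2, hε₃] at h2
  rw [e1] at k1
  rw [hε₃] at k3
  have hd : 0 < Nat.card (Subgroup.centralizer ((P : Subgroup G) : Set G)) := Nat.card_pos
  have hc : 0 < Nat.card (Subgroup.centralizer ({J} : Set G)) := Nat.card_pos
  have hn : 0 < Nat.card G := Nat.card_pos
  generalize Cfsg.charDegree (χ₁ : G → ℂ) = x at *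
  generalize Cfsg.charDegree (χ₃ : G → ℂ) = q at *
  generalize Nat.card (Subgroup.centralizer ({J} : Set G)) = c at *
  generalize Nat.card (Subgroup.centralizer ((P : Subgroup G) : Set G)) = d at *
  generalize (Subgroup.centralizer ({J} : Set G)).index = k at *
  generalize Nat.card G = n at *
  have hq : q = 2 * x + 1 := by push_cast at h2; omega
  obtain ⟨a, ha⟩ := k1
  obtain ⟨b', hb'⟩ := k3
  obtain ⟨b, hb⟩ : ∃ b : ℤ, (k : ℤ) = q * b := ⟨-b', by linarith⟩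
  have ha' : (k : ℤ) = x * a := by linarith
  have hx0 : (0 : ℚ) < x := by exact_mod_cast d1
  have hq0 : (0 : ℚ) < q := by exact_mod_cast d3
  have hcq : (0 : ℚ) < c := by exact_mod_cast hc
  have hdq : (0 : ℚ) < d := by exact_mod_cast hd
  -- the order formula
  have hord : (n : ℚ) * (q + 1) ^ 2 * d ^ 2 = 8 * c ^ 3 * (q * (q - 1)) := by
    have hxq : (x : ℚ) = (q - 1) / 2 := by
      rw [hq]; push_cast; ring
    have hq1 : (q : ℚ) - 1 ≠ 0 := by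
      have : (q : ℚ) - 1 = 2 * x := by rw [hq]; push_cast; ring
      rw [this]; positivity
    rw [hxq] at h1
    push_cast at h1
    field_simp at h1
    linarith
  -- the square
  have hsq : (4 * (c : ℤ)) ^ 2 = ((d : ℤ) * (q + 1)) ^ 2 * (a - 2 * b) := by
    have hk : (c : ℚ) * k = n := by exact_mod_cast hidx
    have hkk : (k : ℚ) * (q + 1) ^ 2 * d ^ 2 = 8 * c ^ 2 * (q * (q - 1)) := by
      have : (c : ℚ) * ((k : ℚ) * (q + 1) ^ 2 * d ^ 2) = c * (8 * c ^ 2 * (q * (q - 1))) := by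
        rw [← hk] at hord
        linarith
      exact mul_left_cancel₀ hcq.ne' this
    have haq : (k : ℚ) = x * a := by exact_mod_cast ha'
    have hbq : (k : ℚ) = q * b := by exact_mod_cast hb
    have hqx : (q : ℚ) = 2 * x + 1 := by rw [hq]; push_cast; ring
    have e3 : (a : ℚ) * (q + 1) ^ 2 * d ^ 2 = 16 * c ^ 2 * q := by
      have : (x : ℚ) * ((a : ℚ) * (q + 1) ^ 2 * d ^ 2) = x * (16 * c ^ 2 * q) := by
        have h5 : (q : ℚ) - 1 = 2 * x := by rw [hqx]; ring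
        rw [h5, haq] at hkk
        linarith
      exact mul_left_cancel₀ hx0.ne' this
    have e4 : (b : ℚ) * (q + 1) ^ 2 * d ^ 2 = 8 * c ^ 2 * (q - 1) := by
      have : (q : ℚ) * ((b : ℚ) * (q + 1) ^ 2 * d ^ 2) = q * (8 * c ^ 2 * (q - 1)) := by
        rw [hbq] at hkk
        linarith
      exact mul_left_cancel₀ hq0.ne' this
    have e5 : (4 * (c : ℚ)) ^ 2 = ((d : ℚ) * (q + 1)) ^ 2 * (a - 2 * b) := by
      linear_combination 2 * e4 - e3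
    exact_mod_cast e5
  have hdvd : d * (q + 1) ∣ 4 * c := by
    have h6 : ((d : ℤ) * (q + 1)) ^ 2 ∣ (4 * (c : ℤ)) ^ 2 := ⟨_, hsq⟩
    have h7 : (d * (q + 1)) ^ 2 ∣ (4 * c) ^ 2 := by exact_mod_cast h6
    exact (Nat.pow_dvd_pow_iff (by norm_num)).1 h7
  obtain ⟨m, hm⟩ := hdvd
  refine ⟨m, by rw [hm]; ring, ?_⟩
  have hmq : (4 : ℚ) * c = d * (q + 1) * m := by exact_mod_cast hm
  have hle : q ≤ q ^ 3 := Nat.le_self_pow (by norm_num) q
  have goal : (8 : ℚ) * n = m ^ 3 * d * (q ^ 3 - q) := by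
    have h8 : ((q : ℚ) + 1) ^ 2 * d ^ 2 * (8 * n) =
        ((q : ℚ) + 1) ^ 2 * d ^ 2 * (m ^ 3 * d * (q ^ 3 - q)) := by
      have h9 : (64 : ℚ) * c ^ 3 = (d * (q + 1) * m) ^ 3 := by rw [← hmq]; ring
      linear_combination 8 * hord + (q * (q - 1)) * h9
    exact mul_left_cancel₀ (by positivity) h8
  zify [hle]
  exact_mod_cast goal

end Cfsg.Agent.S4480
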