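import Cfsg.Statements.S4482
import Cfsg.Agent.H602.Dih.Vanish
import Cfsg.Agent.Lib.Dihedral
import Cfsg.Agent.Blocks.Central

set_option autoImplicit false
open Cfsg

namespace Cfsg.Agent.S4482

open DihedralGroup Cfsg.Agent.Characters Cfsg.Agent.Classification.BGDefs
open Cfsg.Agent.Classification.BGOrder
open Cfsg.Agent.Classification.BGBasic (half_ne_zero half_add_half eq_zero_or_half t_mem tt tt_comm)
open Cfsg.Agent.Classification.BGSplit Cfsg.Agent.Classification.BGBlockB0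
open Cfsg.Agent.Classification Cfsg.Agent.Blocks Cfsg.Agent.H602.Dih
open scoped ComplexConjugate

theorem zmod2_ne_zero : ∀ x : ZMod 2, x ≠ 0 → x = 1 := by decide

theorem zmod2_ne : ∀ x y : ZMod 2, x ≠ y → x - 1 = y := by decide

theorem zmod2_cases : ∀ b : ZMod 2, b = 0 ∨ b = 1 := by decide

theorem zmod2_a : (0 : ZMod 2) - 1 = 1 := by decide

theorem zmod2_b : (1 : ZMod 2) - 1 = 0 := by decide

section Parity

variable {N : ℕ} [NeZero N]

theorem exists_half (h2 : 2 ∣ N) {x : ZMod N} (hx : ZMod.castHom h2 (ZMod 2) x = 0) :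
    ∃ k : ZMod N, x = k + k := by
  have h1 : ZMod.castHom h2 (ZMod 2) ((x.val : ℕ) : ZMod N) = 0 := by
    rw [ZMod.natCast_zmod_val]; exact hx
  rw [map_natCast, ZMod.natCast_eq_zero_iff] at h1
  obtain ⟨k, hk⟩ := h1
  refine ⟨(k : ZMod N), ?_⟩
  rw [← Nat.cast_add, ← two_mul, ← hk, ZMod.natCast_zmod_val]

/-- Reflections of the same parity are conjugate. -/
theorem conj_sr (h2 : 2 ∣ N) {j a : ZMod N}
    (h : ZMod.castHom h2 (ZMod 2) j = ZMod.castHom h2 (ZMod 2) a) :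
    ∃ k : ZMod N, r k * sr j * (r k)⁻¹ = sr a := by
  obtain ⟨k, hk⟩ := exists_half h2 (x := j - a) (by rw [map_sub, h, sub_self])
  refine ⟨k, ?_⟩
  rw [r_mul_sr, inv_r, sr_mul_r]
  congr 1
  have : a = j - (j - a) := by ring
  rw [this, hk]
  ring

/-- Conjugate reflections have the same parity. -/
theorem parity_of_conj (h2 : 2 ∣ N) {j a : ZMod N} {d : DihedralGroup N}
    (h : d * sr j * d⁻¹ = sr a) :
    ZMod.castHom h2 (ZMod 2) j = ZMod.castHom h2 (ZMod 2) a := by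
  have h2' : ∀ x : ZMod 2, x + x = 0 := by decide
  cases d with
  | r k =>
    rw [r_mul_sr, inv_r, sr_mul_r] at h
    have h1 := sr.inj h
    rw [← h1, map_add, map_sub, map_neg]
    have := h2' (ZMod.castHom h2 (ZMod 2) k)
    linear_combination this
  | sr k =>
    rw [sr_mul_sr, inv_sr, r_mul_sr] at h
    have h1 := sr.inj h
    rw [← h1, map_sub, map_sub]
    have e1 := h2' (ZMod.castHom h2 (ZMod 2) k)
    have e2 := h2' (ZMod.castHom h2 (ZMod 2) j)
    linear_combination e2 - e1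

end Parity

section Count

variable {G : Type*} [Group G] [Finite G] {t : G} {N : ℕ} [NeZero N]
  {π : (Subgroup.centralizer ({t} : Set G)) →* DihedralGroup N}

/-- The number of involutions of `C(t)` mapping to the reflections of the parity of the image of `x`. -/
theorem kcount_eq (h : DHyp t N π) (h2 : 2 ∣ N) (x : Subgroup.centralizer ({t} : Set G))
    (hx : orderOf x = 2) {a : ZMod N} (ha : π x = sr a) :
    kcount h2 π (ZMod.castHom h2 (ZMod 2) a) =
      Nat.card {y : Subgroup.centralizer ({t} : Set G) | IsConj x y} := by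
  unfold kcount
  refine Nat.card_congr (Equiv.subtypeEquivRight fun y => ?_)
  have hxx : x ^ 2 ^ 1 = 1 := by rw [pow_one, ← hx, pow_orderOf_eq_one]
  constructor
  · rintro ⟨hy, j, hj, hja⟩
    obtain ⟨k, hk⟩ := conj_sr h2 hja
    obtain ⟨c, hc⟩ := h.surj (r k)
    have h1 : π (c * y * c⁻¹) = π x := by
      rw [map_mul, map_mul, map_inv, hc, hj, hk, ha]
    have hyy : (c * y * c⁻¹) ^ 2 ^ 1 = 1 := by
      rw [conj_pow, pow_one]
      have : y ^ 2 = 1 := by rw [← hy, pow_orderOf_eq_one]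
      rw [this]; group
    have h2 : IsConj (c * y * c⁻¹) x :=
      BGValues.isConj_of_ker_odd π h.odd_ker _ _ 1 hyy hxx h1
    have h3 : IsConj y (c * y * c⁻¹) := isConj_iff.2 ⟨c, rfl⟩
    exact (h3.trans h2).symm
  · intro hxy
    obtain ⟨c, hc⟩ := isConj_iff.1 (show IsConj x y from hxy)
    have h1 : orderOf y = 2 := by
      rw [← hc, BGOrder.orderOf_conj, hx]
    refine ⟨h1, ?_⟩
    have h3 : π y = π c * sr a * (π c)⁻¹ := by
      rw [← hc, map_mul, map_mul, map_inv, ha]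
    rcases hy : π y with j | j
    · exfalso
      have h4 : sr a = (π c)⁻¹ * r j * π c := by
        rw [hy] at h3
        rw [h3]; group
      rcases hd : π c with k | k
      · rw [hd, inv_r, r_mul_r, r_mul_r] at h4
        cases h4
      · rw [hd, inv_sr, sr_mul_r, sr_mul_sr] at h4
        cases h4
    · refine ⟨j, rfl, ?_⟩
      rw [hy] at h3
      exact (parity_of_conj h2 h3.symm).symm

theorem card_centralizer_pair (t : G) (x : Subgroup.centralizer ({t} : Set G)) :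
    Nat.card (Subgroup.centralizer ({x} : Set (Subgroup.centralizer ({t} : Set G)))) =
      Nat.card (Subgroup.centralizer ({t, (x : G)} : Set G)) := by
  have hmem : ∀ g : G, g ∈ Subgroup.centralizer ({t, (x : G)} : Set G) ↔ g * t = t * g ∧
      g * (x : G) = x * g := by
    intro g
    rw [Subgroup.mem_centralizer_iff]
    constructor
    · intro h
      exact ⟨(h t (by simp)).symm, (h x (by simp)).symm⟩
    · rintro ⟨h1, h2⟩ y hy
      rcases hy with rfl | hy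
      · exact h1.symm
      · rw [Set.mem_singleton_iff] at hy
        rw [hy]; exact h2.symm
  refine Nat.card_congr
    { toFun := fun g => ⟨(g.1 : G), (hmem _).2 ⟨Subgroup.mem_centralizer_singleton_iff.1 g.1.2,
        congrArg Subtype.val (Subgroup.mem_centralizer_singleton_iff.1 g.2)⟩⟩
      invFun := fun g => ⟨⟨(g : G), Subgroup.mem_centralizer_singleton_iff.2 ((hmem _).1 g.2).1⟩,
        Subgroup.mem_centralizer_singleton_iff.2 (Subtype.ext ((hmem _).1 g.2).2)⟩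
      left_inv := fun g => rfl
      right_inv := fun g => rfl }

theorem kcount_mul (h : DHyp t N π) (h2 : 2 ∣ N) (x : Subgroup.centralizer ({t} : Set G))
    (hx : orderOf x = 2) {a : ZMod N} (ha : π x = sr a) :
    kcount h2 π (ZMod.castHom h2 (ZMod 2) a) *
      Nat.card (Subgroup.centralizer ({t, (x : G)} : Set G)) =
      Nat.card (Subgroup.centralizer ({t} : Set G)) := by
  rw [kcount_eq h h2 x hx ha, Central.card_isConj, ← card_centralizer_pair, mul_comm]
  exact Subgroup.card_mul_index _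

end Count

section Cases

variable {G : Type*} [Group G] [Fintype G] {t : G} {N : ℕ} [NeZero N]
  {π : (Subgroup.centralizer ({t} : Set G)) →* DihedralGroup N}
  {M : Ideal AlgInt} {X₁ X₂ X₃ : G → ℂ} {T : ZMod N → G → ℂ} {f : ℤ}

theorem cases_of_mem (hC : Chars M t N π X₁ X₂ X₃ T f) (h : DHyp t N π)
    (hM : IsPModular 2 M) (S : Sylow 2 G) (e : (S : Subgroup G) ≃* DihedralGroup N)
    (htdef : t = ((e.symm (r ((N / 2 : ℕ) : ZMod N)) : (S : Subgroup G)) : G))
    {χ : IrrCharacter G} (hχ : χ ∈ principalBlock M G) (hne : (χ : G → ℂ) ≠ 1) :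
    (X₁ = (χ : G → ℂ) ∨ X₁ = -(χ : G → ℂ)) ∨ (X₂ = (χ : G → ℂ) ∨ X₂ = -(χ : G → ℂ)) ∨
      (X₃ = (χ : G → ℂ) ∨ X₃ = -(χ : G → ℂ)) ∨
      ∃ i, i + i ≠ 0 ∧ (T i = (χ : G → ℂ) ∨ T i = -(χ : G → ℂ)) := by
  by_contra hnot
  simp only [not_or, not_exists, not_and] at hnot
  obtain ⟨⟨a1, a2⟩, ⟨b1, b2⟩, ⟨c1, c2⟩, d⟩ := hnot
  have hχs : SignedIrr (χ : G → ℂ) := Or.inl χ.2
  have orth : ∀ X : G → ℂ, SignedIrr X → X ≠ (χ : G → ℂ) → X ≠ -(χ : G → ℂ) →
      classInner X (χ : G → ℂ) = 0 := by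
    intro X hX h1 h2
    rcases signed_inner hX hχs with h3 | h3 | h3
    · exact h3
    · exact absurd h3 h1
    · exact absurd h3 h2
  refine hC.complete h hM S e htdef hχ ?_ (orth _ hC.s₁.signedIrr a1 a2)
    (orth _ hC.s₂.signedIrr b1 b2) (orth _ hC.s₃.signedIrr c1 c2)
    (fun i hi => orth _ (hC.sT i hi).signedIrr (by
      intro h1; exact (d i hi).1 h1) (by intro h1; exact (d i hi).2 h1))
  exact Core.classInner_irr_ne Core.isIrr_one χ.2 (Ne.symm hne)

end Cases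

/-- An order formula for groups with dihedral Sylow 2-subgroups and one class of involutions. Let G be a finite group whose Sylow 2-subgroup P = ⟨σ, τ⟩ is dihedral of order 2^n ≥ 8 (σ of order 2^(n−1), τ an involution inverting σ), let J be the central involution σ^(2^(n−2)), and suppose J, τ and στ are conjugate in G. Fix M over 2 and let χ₁ be an irreducible character in the principal 2-block taking one constant value δ₁ = ±1 at every non-identity power of σ, with χ₁ ≠ 1. Then, with x₁ = χ₁(1) and c(·) denoting orders of centralizers, x₁ ≠ δ₁ and #G · (x₁ − δ₁)² = 2·x₁(x₁ + δ₁)·c(J)³·(1/c(J, τ) + 1/c(J, στ))², where c(J, y) is the order of the joint centralizer of J and y. -/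
theorem result {G : Type*} [Group G] [Finite G] (M : Ideal Cfsg.AlgInt) (hM : Cfsg.IsPModular 2 M) (n : ℕ) (hn : 3 ≤ n) (P : Sylow 2 G) (σ τ : G) (hσ : σ ∈ (P : Subgroup G)) (hτ : τ ∈ (P : Subgroup G)) (hσo : orderOf σ = 2 ^ (n - 1)) (hτo : orderOf τ = 2) (hrel : τ * σ * τ⁻¹ = σ⁻¹) (hgen : Subgroup.closure ({σ, τ} : Set G) = (P : Subgroup G)) (hconj : IsConj (σ ^ (2 ^ (n - 2))) τ ∧ IsConj (σ ^ (2 ^ (n - 2))) (σ * τ)) (χ₁ : Cfsg.IrrCharacter G) (hχ₁ : χ₁ ∈ Cfsg.principalBlock M G) (h1 : (χ₁ : G → ℂ) ≠ (fun _ => 1)) (δ₁ : ℤ) (hδ₁ : δ₁ = 1 ∨ δ₁ = -1) (hval : ∀ l : ℕ, 0 < l → l < 2 ^ (n - 1) → (χ₁ : G → ℂ) (σ ^ l) = δ₁) : (Cfsg.charDegree (χ₁ : G → ℂ) : ℤ) ≠ δ₁ ∧ (Nat.card G : ℚ) * ((Cfsg.charDegree (χ₁ : G → ℂ) : ℚ) - δ₁) ^ 2 = 2 * (Cfsg.charDegree (χ₁ : G → ℂ) : ℚ) * ((Cfsg.charDegree (χ₁ : G → ℂ) : ℚ) + δ₁) * (Nat.card (Subgroup.centralizer ({σ ^ (2 ^ (n - 2))} : Set G)) : ℚ) ^ 3 * (1 / (Nat.card (Subgroup.centralizer ({σ ^ (2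 ^ (n - 2)), τ} : Set G)) : ℚ) + 1 / (Nat.card (Subgroup.centralizer ({σ ^ (2 ^ (n - 2)), σ * τ} : Set G)) : ℚ)) ^ 2 := by
  classical
  have := Fintype.ofFinite G
  obtain ⟨N, hN⟩ : ∃ N, N = 2 ^ (n - 1) := ⟨_, rfl⟩
  obtain ⟨K, hK⟩ : ∃ K, K = 2 ^ (n - 2) := ⟨_, rfl⟩
  have hNK : N = 2 * K := by
    rw [hN, hK, ← pow_succ']; congr 1; omega
  have hK2 : 2 ≤ K := by
    rw [hK]
    calc 2 = 2 ^ 1 := rfl
      _ ≤ 2 ^ (n - 2) := Nat.pow_le_pow_right (by norm_num) (by omega)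
  rw [← hN] at hσo hval
  rw [← hK] at hconj ⊢
  have : NeZero N := ⟨by omega⟩
  have h2N : 2 ∣ N := ⟨K, hNK⟩
  have hττ : τ * τ = 1 := by
    have := pow_orderOf_eq_one τ
    rwa [hτo, sq] at this
  have hτinv : τ⁻¹ = τ := inv_eq_of_mul_eq_one_right hττ
  have hτσ : τ ∉ Subgroup.zpowers σ := by
    intro hmem
    obtain ⟨k, hk⟩ := Subgroup.mem_zpowers_iff.1 hmem
    have h2 : τ * σ * τ⁻¹ = σ := by
      rw [← hk]; group
    rw [hrel] at h2
    have h3 : σ ^ 2 = 1 := by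
      rw [sq]
      nth_rewrite 1 [← h2]
      exact inv_mul_cancel σ
    have h4 := orderOf_dvd_of_pow_eq_one h3
    have h5 := Nat.le_of_dvd (by norm_num) h4
    omega
  obtain ⟨e₀⟩ := Cfsg.Agent.Lib.Dihedral.nonempty_mulEquiv_closure σ τ hσo hττ
    (by rw [← hτinv, hτinv]; rw [hτinv] at hrel; exact hrel) hτσ
  obtain ⟨eP⟩ : Nonempty ((P : Subgroup G) ≃* DihedralGroup N) :=
    ⟨(MulEquiv.subgroupCongr hgen.symm).trans e₀⟩
  -- the images of `σ` and `τ`
  obtain ⟨u, hu⟩ : ∃ u : (ZMod N)ˣ, eP ⟨σ, hσ⟩ = r (u : ZMod N) := by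
    have ho : orderOf (eP ⟨σ, hσ⟩) = N := by
      rw [MulEquiv.orderOf_eq, ← hσo]
      exact (Subgroup.orderOf_coe (⟨σ, hσ⟩ : (P : Subgroup G))).symm
    rcases hd : eP ⟨σ, hσ⟩ with i | i
    · rw [hd, DihedralGroup.orderOf_r] at ho
      have hg : Nat.gcd N i.val = 1 := by
        have h1 := Nat.gcd_dvd_left N i.val
        have h2 := Nat.div_mul_cancel h1
        rw [ho] at h2
        have h3 : 0 < N := by omega
        exact Nat.eq_of_mul_eq_mul_left h3 (by rw [h2, mul_one])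
      refine ⟨ZMod.unitOfCoprime i.val (Nat.Coprime.symm hg), ?_⟩
      rw [ZMod.coe_unitOfCoprime, ZMod.natCast_zmod_val]
    · rw [hd, DihedralGroup.orderOf_sr] at ho
      omega
  have hul : ∀ l : ℕ, 0 < l → l < N → (u : ZMod N) * (l : ZMod N) ≠ 0 := by
    intro l h1 h2 h3
    rw [Units.mul_right_eq_zero, ZMod.natCast_eq_zero_iff] at h3
    have := Nat.le_of_dvd h1 h3
    omega
  obtain ⟨a, ha⟩ : ∃ a, eP ⟨τ, hτ⟩ = sr a := by
    rcases hd : eP ⟨τ, hτ⟩ with i | i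
    · exfalso
      apply hτσ
      -- a rotation is a power of `σ`
      have h2 : eP (((⟨σ, hσ⟩ : (P : Subgroup G))) ^ (((u⁻¹ : (ZMod N)ˣ) : ZMod N) * i).val) =
          eP ⟨τ, hτ⟩ := by
        rw [map_pow, hu, r_pow, hd, ZMod.natCast_zmod_val, ← mul_assoc, Units.mul_inv, one_mul]
      have h3 := congrArg Subtype.val (eP.injective h2)
      rw [Subgroup.mem_zpowers_iff]
      exact ⟨((((u⁻¹ : (ZMod N)ˣ) : ZMod N) * i).val : ℤ), by
        rw [zpow_natCast]; exact h3⟩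
    · exact ⟨i, rfl⟩
  have hστ : eP ⟨σ * τ, mul_mem hσ hτ⟩ = sr (a - (u : ZMod N)) := by
    have h2 : (⟨σ * τ, mul_mem hσ hτ⟩ : (P : Subgroup G)) = ⟨σ, hσ⟩ * ⟨τ, hτ⟩ := rfl
    rw [h2, map_mul, hu, ha, r_mul_sr]
  -- the central involution
  have heJ : eP ((⟨σ, hσ⟩ : (P : Subgroup G)) ^ K) = r ((N / 2 : ℕ) : ZMod N) := by
    rw [map_pow, hu, r_pow]
    have h2 : (u : ZMod N) * (K : ZMod N) + (u : ZMod N) * (K : ZMod N) = 0 := by
      rw [← mul_add, ← Nat.cast_add, ← two_mul, ← hNK, ZMod.natCast_self, mul_zero]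
    rcases eq_zero_or_half h2 with h3 | h3
    · exact absurd h3 (hul K (by omega) (by omega))
    · rw [h3]
  obtain ⟨J, hJ⟩ : ∃ J, J = σ ^ K := ⟨_, rfl⟩
  have htdef : J = ((eP.symm (r ((N / 2 : ℕ) : ZMod N)) : (P : Subgroup G)) : G) := by
    rw [← heJ, MulEquiv.symm_apply_apply, hJ]
    rfl
  rw [← hJ] at hconj ⊢
  obtain ⟨hcent, π, hD, hπ⟩ := exists_dhyp P (n - 1) (by omega) hN eP J htdef
  obtain ⟨X₁, X₂, X₃, T, f, hC⟩ := dih_characters hD (by omega) hM
  -- one class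
  have hone : ∀ y : G, orderOf y = 2 → IsConj J y := by
    intro y hy
    have : Fact (Nat.Prime 2) := ⟨Nat.prime_two⟩
    have hyp : IsPGroup 2 (Subgroup.zpowers y) := by
      rw [IsPGroup.iff_card]
      exact ⟨1, by rw [Nat.card_zpowers, pow_one, hy]⟩
    obtain ⟨S', hS'⟩ := hyp.exists_le_sylow
    obtain ⟨g, hg⟩ := MulAction.exists_smul_eq G S' P
    have hmem : g * y * g⁻¹ ∈ (P : Subgroup G) := by
      rw [← hg]
      exact ⟨y, hS' (Subgroup.mem_zpowers y), rfl⟩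
    have hyc : IsConj y (g * y * g⁻¹) := isConj_iff.2 ⟨g, rfl⟩
    refine IsConj.trans ?_ hyc.symm
    have hyy : y ^ 2 = 1 := by rw [← hy, pow_orderOf_eq_one]
    set y' : (P : Subgroup G) := ⟨g * y * g⁻¹, hmem⟩ with hy'
    have hy'2 : eP y' * eP y' = 1 := by
      rw [← map_mul, map_eq_one_iff eP eP.injective]
      apply Subtype.ext
      show g * y * g⁻¹ * (g * y * g⁻¹) = 1
      have : g * y * g⁻¹ * (g * y * g⁻¹) = g * y ^ 2 * g⁻¹ := by rw [sq]; group
      rw [this, hyy]; group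
    have hy'1 : eP y' ≠ 1 := by
      rw [Ne, map_eq_one_iff eP eP.injective]
      intro h
      have h1 : g * y * g⁻¹ = 1 := congrArg Subtype.val h
      have h2 : y = 1 := by
        have : y = g⁻¹ * (g * y * g⁻¹) * g := by group
        rw [this, h1]; group
      rw [h2, orderOf_one] at hy
      omega
    have hconjP : ∀ (x z : (P : Subgroup G)) (k : ZMod N), r k * eP x * (r k)⁻¹ = eP z →
        IsConj (x : G) (z : G) := by
      intro x z k hk
      refine isConj_iff.2 ⟨((eP.symm (r k) : (P : Subgroup G)) : G), ?_⟩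
      have h3 : eP (eP.symm (r k) * x * (eP.symm (r k))⁻¹) = eP z := by
        rw [map_mul, map_mul, map_inv, MulEquiv.apply_symm_apply, hk]
      exact congrArg Subtype.val (eP.injective h3)
    rcases hd : eP y' with i | i
    · rw [hd, r_mul_r, DihedralGroup.one_def] at hy'2
      rcases eq_zero_or_half (r.inj hy'2) with h | h
      · rw [hd, h] at hy'1
        exact absurd DihedralGroup.one_def.symm hy'1
      · have h3 : y' = eP.symm (r ((N / 2 : ℕ) : ZMod N)) := by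
          rw [MulEquiv.eq_symm_apply, hd, h]
        rw [htdef, ← h3]
    · by_cases hp : ZMod.castHom h2N (ZMod 2) a = ZMod.castHom h2N (ZMod 2) i
      · obtain ⟨k, hk⟩ := conj_sr h2N hp
        exact hconj.1.trans (hconjP ⟨τ, hτ⟩ y' k (by rw [ha, hd, hk]))
      · have hpu : ZMod.castHom h2N (ZMod 2) (u : ZMod N) = 1 := by
          have h3 : ZMod.castHom h2N (ZMod 2) (u : ZMod N) ≠ 0 := by
            have h4 : IsUnit (ZMod.castHom h2N (ZMod 2) (u : ZMod N)) := u.isUnit.map _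
            exact h4.ne_zero
          exact zmod2_ne_zero _ h3
        have hp' : ZMod.castHom h2N (ZMod 2) (a - (u : ZMod N)) = ZMod.castHom h2N (ZMod 2) i := by
          rw [map_sub, hpu]
          exact zmod2_ne _ _ hp
        obtain ⟨k, hk⟩ := conj_sr h2N hp'
        exact hconj.2.trans (hconjP ⟨σ * τ, mul_mem hσ hτ⟩ y' k (by rw [hστ, hd, hk]))
  have hBG : BGHyp J N π :=
    { orderOf_t := hD.orderOf_t
      one_class := hone
      pow := hD.pow
      surj := hD.surj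
      odd_ker := hD.odd_ker
      map_t := hD.map_t }
  have hπσ : ∀ l : ℕ, ∀ hx : σ ^ l ∈ Subgroup.centralizer ({J} : Set G),
      π ⟨σ ^ l, hx⟩ = r ((u : ZMod N) * (l : ZMod N)) := by
    intro l hx
    have h1 := hπ ((⟨σ, hσ⟩ : (P : Subgroup G)) ^ l) hx
    rw [map_pow, hu, r_pow] at h1
    exact h1
  have hσc : ∀ l : ℕ, σ ^ l ∈ Subgroup.centralizer ({J} : Set G) := fun l =>
    hcent ((⟨σ, hσ⟩ : (P : Subgroup G)) ^ l)
  -- `χ₁` is `X₁` up to sign
  have hv := fun (l : ℕ) (hl0 : 0 < l) (hl1 : l < N) =>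
    hC.val ⟨σ ^ l, hσc l⟩ _ (hul l hl0 hl1) (hπσ l (hσc l))
  have hsgn : ∀ X : G → ℂ, (X = (χ₁ : G → ℂ) ∨ X = -(χ₁ : G → ℂ)) →
      ∃ c : ℂ, (c = 1 ∨ c = -1) ∧ ∀ l : ℕ, 0 < l → l < N → X (σ ^ l) = c := by
    rintro X (rfl | rfl)
    · refine ⟨δ₁, ?_, hval⟩
      rcases hδ₁ with rfl | rfl
      · left; norm_num
      · right; norm_num
    · refine ⟨-δ₁, ?_, fun l hl0 hl1 => by rw [Pi.neg_apply, hval l hl0 hl1]⟩
      rcases hδ₁ with rfl | rfl
      · right; norm_num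
      · left; norm_num
  have hmu1 : mu (r ((u : ZMod N) * ((1 : ℕ) : ZMod N))) ≠ mu (r ((u : ZMod N) * ((2 : ℕ) : ZMod N))) := by
    rw [mu_r, mu_r]
    intro h2
    have h3 : ((N / 2 : ℕ) : ZMod N) * ((u : ZMod N) * ((2 : ℕ) : ZMod N)) = 0 := by
      have : ((N / 2 : ℕ) : ZMod N) * ((u : ZMod N) * ((2 : ℕ) : ZMod N)) =
          (u : ZMod N) * (((N / 2 : ℕ) : ZMod N) + ((N / 2 : ℕ) : ZMod N)) := by
        push_cast; ring
      rw [this, half_add_half h2N, mul_zero]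
    rw [h3, AddChar.map_zero_eq_one, e_eq_one_iff, Nat.cast_one, mul_one] at h2
    have h4 := congrArg (fun x => x * ((u⁻¹ : (ZMod N)ˣ) : ZMod N)) h2
    simp only [mul_assoc, Units.mul_inv, mul_one, zero_mul] at h4
    exact half_ne_zero h2N h4
  have hX₁ : X₁ = (χ₁ : G → ℂ) ∨ X₁ = -(χ₁ : G → ℂ) := by
    rcases cases_of_mem hC hD hM P eP htdef hχ₁ h1 with h | h | h | ⟨i, hi, h⟩
    · exact h
    · exfalso
      obtain ⟨c, -, hc⟩ := hsgn _ h
      apply hmu1
      rw [← (hv 1 (by omega) (by omega)).2.1, ← (hv 2 (by omega) (by omega)).2.1]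
      show X₂ (σ ^ 1) = X₂ (σ ^ 2)
      rw [hc 1 (by omega) (by omega), hc 2 (by omega) (by omega)]
    · exfalso
      obtain ⟨c, -, hc⟩ := hsgn _ h
      apply hmu1
      rw [← (hv 1 (by omega) (by omega)).2.2.1, ← (hv 2 (by omega) (by omega)).2.2.1]
      show X₃ (σ ^ 1) = X₃ (σ ^ 2)
      rw [hc 1 (by omega) (by omega), hc 2 (by omega) (by omega)]
    · exfalso
      obtain ⟨c, hc1, hc⟩ := hsgn _ h
      have h3 := hC.val (tt J) _ (half_ne_zero h2N) (map_tt hD)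
      have h4 : T i J = theta i (r ((N / 2 : ℕ) : ZMod N)) := h3.2.2.2 i hi
      have h5 : T i J = c := by
        rw [hJ]; exact hc K (by omega) (by omega)
      have h6 : e N (i * ((N / 2 : ℕ) : ZMod N)) * e N (i * ((N / 2 : ℕ) : ZMod N)) = 1 := by
        rw [← AddChar.map_add_eq_mul, ← mul_add, half_add_half h2N, mul_zero,
          AddChar.map_zero_eq_one]
      have h7 : e N (-(i * ((N / 2 : ℕ) : ZMod N))) = e N (i * ((N / 2 : ℕ) : ZMod N)) := by
        rw [AddChar.map_neg_eq_inv]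
        exact inv_eq_of_mul_eq_one_left h6
      rw [h5, theta_r, h7] at h4
      rcases mul_self_eq_one_iff.1 h6 with h8 | h8 <;> rw [h8] at h4 <;>
        rcases hc1 with rfl | rfl <;> norm_num at h4
  -- the sign
  obtain ⟨d, hd0, hd⟩ := Core.isIrr_apply_one χ₁.2
  have hdeg : charDegree (χ₁ : G → ℂ) = d := by
    rw [charDegree, hd]; simp
  have hfd : f = δ₁ * d := by
    have h2 := hC.hf
    have h3 : X₁ (σ ^ 1) = 1 := (hv 1 (by omega) (by omega)).1
    have h4 := hval 1 (by omega) (by omega)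
    rcases hX₁ with h5 | h5
    · rw [h5, hd] at h2
      rw [h5, h4] at h3
      have h6 : δ₁ = 1 := by exact_mod_cast h3
      have h7 : (d : ℤ) = f := by exact_mod_cast h2
      rw [h6, one_mul, h7]
    · rw [h5, Pi.neg_apply, hd] at h2
      rw [h5, Pi.neg_apply, h4] at h3
      have h6 : -δ₁ = 1 := by exact_mod_cast h3
      have h7 : -(d : ℤ) = f := by exact_mod_cast h2
      have h8 : δ₁ = -1 := by omega
      rw [h8, ← h7]; ring
  have hδδ : δ₁ * δ₁ = 1 := by rcases hδ₁ with rfl | rfl <;> norm_num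
  -- order formula
  have hi0 : (1 : ZMod N) + 1 ≠ 0 := by
    intro h0
    have h1 : ((2 : ℕ) : ZMod N) = 0 := by rw [← h0]; norm_num
    rw [ZMod.natCast_eq_zero_iff] at h1
    have := Nat.le_of_dvd (by norm_num) h1
    omega
  have hTt : (T 1 J) ^ 2 = 4 := by
    have h1 : T 1 J = theta 1 (r ((N / 2 : ℕ) : ZMod N)) :=
      (hC.val (tt J) _ (half_ne_zero h2N) (map_tt hD)).2.2.2 1 hi0
    rw [theta_r, one_mul] at h1
    have h3 : e N (-((N / 2 : ℕ) : ZMod N)) = -1 := by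
      rw [BGIsometry.neg_half h2N, e_half h2N]
    rw [h1, h3, e_half h2N]
    norm_num
  have hord := order_formula (h := hBG) (i := 1) hi0 hC.s₁.signedIrr (hC.sT 1 hi0).signedIrr (by
    rw [hC.hT 1 hi0]; rfl) hC.hf (hC.hTf 1 hi0) (hC.value_t hD).1 hTt
  -- the counts
  have hτc : τ ∈ Subgroup.centralizer ({J} : Set G) := hcent ⟨τ, hτ⟩
  have hστc : σ * τ ∈ Subgroup.centralizer ({J} : Set G) := hcent ⟨σ * τ, mul_mem hσ hτ⟩
  have hστo : orderOf (σ * τ) = 2 := by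
    refine orderOf_eq_prime ?_ ?_
    · rw [sq]
      have : σ * τ * (σ * τ) = σ * (τ * σ * τ⁻¹) * (τ * τ) := by group
      rw [this, hrel, hττ]; group
    · intro h2
      apply hτσ
      have : τ = σ⁻¹ := eq_inv_of_mul_eq_one_right h2
      rw [this]
      exact inv_mem (Subgroup.mem_zpowers σ)
  have k1 := kcount_mul hD h2N ⟨τ, hτc⟩ (by rw [← hτo]; exact (Subgroup.orderOf_coe _).symm)
    (a := a) (by rw [hπ ⟨τ, hτ⟩ hτc, ha])
  have k2 := kcount_mul hD h2N ⟨σ * τ, hστc⟩ (by rw [← hστo]; exact (Subgroup.orderOf_coe _).symm)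
    (a := a - (u : ZMod N)) (by rw [hπ ⟨σ * τ, mul_mem hσ hτ⟩ hστc, hστ])
  have hsum : kcount (BGBasic.two_dvd hBG) π 0 + kcount (BGBasic.two_dvd hBG) π 1 =
      kcount h2N π (ZMod.castHom h2N (ZMod 2) a) + kcount h2N π (ZMod.castHom h2N (ZMod 2) (a - (u : ZMod N))) := by
    have hpu : ZMod.castHom h2N (ZMod 2) (u : ZMod N) = 1 := by
      have h3 : ZMod.castHom h2N (ZMod 2) (u : ZMod N) ≠ 0 := by
        have h4 : IsUnit (ZMod.castHom h2N (ZMod 2) (u : ZMod N)) := u.isUnit.map _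
        exact h4.ne_zero
      exact zmod2_ne_zero _ h3
    rw [map_sub, hpu]
    generalize ZMod.castHom h2N (ZMod 2) a = b
    have hb : b = 0 ∨ b = 1 := zmod2_cases b
    rcases hb with rfl | rfl
    · rw [zmod2_a]
    · rw [zmod2_b, add_comm]
  simp only at k1 k2
  set c := Nat.card (Subgroup.centralizer ({J} : Set G)) with hc
  set c1 := Nat.card (Subgroup.centralizer ({J, τ} : Set G)) with hc1
  set c2 := Nat.card (Subgroup.centralizer ({J, σ * τ} : Set G)) with hc2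
  have hcpos : 0 < c := Nat.card_pos
  have hc1pos : 0 < c1 := Nat.card_pos
  have hc2pos : 0 < c2 := Nat.card_pos
  have hidx : c * (Subgroup.centralizer ({J} : Set G)).index = Nat.card G :=
    Subgroup.card_mul_index _
  have hordQ : ((Subgroup.centralizer ({J} : Set G)).index : ℚ) * ((f : ℚ) - 1) ^ 2 =
      2 * ((kcount h2N π (ZMod.castHom h2N (ZMod 2) a) : ℚ) +
        kcount h2N π (ZMod.castHom h2N (ZMod 2) (a - (u : ZMod N)))) ^ 2 * ((f : ℚ) * (f + 1)) := by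
    have h2 : (((kcount (BGBasic.two_dvd hBG) π 0 + kcount (BGBasic.two_dvd hBG) π 1 : ℕ) : ℤ)) =
      ((kcount h2N π (ZMod.castHom h2N (ZMod 2) a) + kcount h2N π (ZMod.castHom h2N (ZMod 2) (a - (u : ZMod N))) : ℕ) : ℤ) := by
      rw [hsum]
    push_cast at h2
    rw [h2] at hord
    exact_mod_cast hord
  set K1 := kcount h2N π (ZMod.castHom h2N (ZMod 2) a) with hK1
  set K2 := kcount h2N π (ZMod.castHom h2N (ZMod 2) (a - (u : ZMod N))) with hK2
  have hcQ : (c : ℚ) ≠ 0 := by exact_mod_cast hcpos.ne'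
  have hc1Q : (c1 : ℚ) ≠ 0 := by exact_mod_cast hc1pos.ne'
  have hc2Q : (c2 : ℚ) ≠ 0 := by exact_mod_cast hc2pos.ne'
  have hK1Q : (K1 : ℚ) = c * (1 / c1) := by
    have h2 : (K1 : ℚ) * c1 = c := by exact_mod_cast k1
    rw [← h2]; field_simp
  have hK2Q : (K2 : ℚ) = c * (1 / c2) := by
    have h2 : (K2 : ℚ) * c2 = c := by exact_mod_cast k2
    rw [← h2]; field_simp
  have hfQ : (f : ℚ) = δ₁ * d := by rw [hfd]; push_cast; rfl
  have hδQ : (δ₁ : ℚ) * δ₁ = 1 := by exact_mod_cast hδδ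
  have hG : (Nat.card G : ℚ) = c * (Subgroup.centralizer ({J} : Set G)).index := by
    rw [← hidx]; push_cast; rfl
  rw [hdeg]
  refine ⟨?_, ?_⟩
  · intro hd1
    have hf1 : (f : ℚ) = 1 := by
      rw [hfQ]
      have : (d : ℚ) = δ₁ := by exact_mod_cast hd1
      rw [this, hδQ]
    rw [hf1, hK1Q, hK2Q] at hordQ
    have hpos : (0 : ℚ) < 2 * ((c : ℚ) * (1 / c1) + c * (1 / c2)) ^ 2 * (1 * (1 + 1)) := by
      have : (0 : ℚ) < c := by exact_mod_cast hcpos
      have : (0 : ℚ) < c1 := by exact_mod_cast hc1pos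
      have : (0 : ℚ) < c2 := by exact_mod_cast hc2pos
      positivity
    rw [← hordQ] at hpos
    norm_num at hpos
  · have e1 : ((d : ℚ) - δ₁) ^ 2 = ((f : ℚ) - 1) ^ 2 := by
      rw [hfQ]
      linear_combination (-(d : ℚ) ^ 2 + 1) * hδQ
    have e2 : (d : ℚ) * (d + δ₁) = (f : ℚ) * (f + 1) := by
      rw [hfQ]
      linear_combination (-(d : ℚ) ^ 2) * hδQ
    rw [e1, hG, mul_assoc (c : ℚ), hordQ, hK1Q, hK2Q, ← e2]
    ring

end Cfsg.Agent.S4482
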