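import Cfsg.Statements.S4484
-- import your own Cfsg.Agent.* helpers here
import Cfsg.Agent.H602.Blich.Main

set_option autoImplicit false
open Cfsg

namespace Cfsg.Agent.S4484

open Cfsg.Agent.H602.Blich

/-- An element of order `p` centralising a Sylow `p`-subgroup. -/
theorem exists_central {G : Type*} [Group G] [Finite G] {p : ℕ} [Fact p.Prime]
    (h : p ∣ Nat.card G) :
    ∃ x : G, orderOf x = p ∧ ¬ p ∣ (Subgroup.centralizer ({x} : Set G)).index := by
  classical
  obtain ⟨S⟩ : Nonempty (Sylow p G) := inferInstance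
  have hSne : Nontrivial (S : Subgroup G) := by
    rw [← Finite.one_lt_card_iff_nontrivial]
    have h1 := S.dvd_card_of_dvd_card h
    exact lt_of_lt_of_le (Fact.out : p.Prime).one_lt (Nat.le_of_dvd Nat.card_pos h1)
  have hc : Nontrivial (Subgroup.center (S : Subgroup G)) := S.isPGroup'.center_nontrivial
  have hpc : p ∣ Nat.card (Subgroup.center (S : Subgroup G)) := by
    have h1 : IsPGroup p (Subgroup.center (S : Subgroup G)) := S.isPGroup'.to_subgroup _
    obtain ⟨n, hn⟩ := IsPGroup.iff_card.mp h1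
    rw [hn]
    have hn0 : n ≠ 0 := by
      rintro rfl
      rw [pow_zero] at hn
      have := Finite.one_lt_card_iff_nontrivial.mpr hc
      omega
    exact dvd_pow_self p hn0
  obtain ⟨y, hy⟩ := exists_prime_orderOf_dvd_card' p hpc
  refine ⟨((y : (S : Subgroup G)) : G), ?_, ?_⟩
  · rw [Subgroup.orderOf_coe, Subgroup.orderOf_coe, hy]
  · intro hdvd
    have hle : (S : Subgroup G) ≤ Subgroup.centralizer ({((y : (S : Subgroup G)) : G)} : Set G) := by
      intro g hg
      rw [Subgroup.mem_centralizer_singleton_iff]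
      have h1 := Subgroup.mem_center_iff.mp y.2 ⟨g, hg⟩
      exact congrArg Subtype.val h1
    exact S.not_dvd_index (hdvd.trans (Subgroup.index_dvd_of_le hle))

/-- A refinement of Burnside's result on simple groups of order divisible by only two primes. Let G be a finite simple group of order p^a · q^b · g₀ with p, q distinct primes, a > 0, g₀ coprime to p and q, and the order of G different from p. Then g₀ − 1 > log p / log 6, that is 6^(g₀ − 1) > p. -/
theorem result {G : Type*} [Group G] [Finite G] [IsSimpleGroup G] (p q a b g₀ : ℕ) (hp : p.Prime) (hq : q.Prime) (hpq : p ≠ q) (ha : 0 < a) (hg : Nat.card G = p ^ a * q ^ b * g₀) (hcop : ¬ p ∣ g₀) (hcoq : ¬ q ∣ g₀) (hne : Nat.card G ≠ p) : p < 6 ^ (g₀ - 1) := by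
  classical
  by_contra hcon
  push Not at hcon
  have : Fact p.Prime := ⟨hp⟩
  have : Fintype G := Fintype.ofFinite G
  have hg0 : 0 < g₀ := Nat.pos_of_ne_zero fun h => hcop (h ▸ dvd_zero p)
  have hlt : 6 ^ (g₀ - 1) < p := by
    refine lt_of_le_of_ne hcon fun h => ?_
    rcases Nat.eq_zero_or_pos (g₀ - 1) with h0 | h0
    · rw [h0, pow_zero] at h; exact hp.one_lt.ne h
    · have h1 : (2 : ℕ) ∣ p := h ▸ (dvd_pow (by norm_num) h0.ne')
      have h2 : (3 : ℕ) ∣ p := h ▸ (dvd_pow (by norm_num) h0.ne')
      rw [Nat.prime_dvd_prime_iff_eq Nat.prime_two hp] at h1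
      rw [Nat.prime_dvd_prime_iff_eq Nat.prime_three hp] at h2
      omega
  have hg0p : g₀ < p := by
    have : g₀ - 1 < 6 ^ (g₀ - 1) := Nat.lt_pow_self (by norm_num)
    omega
  have hpG : p ∣ Nat.card G := by
    rw [hg, mul_assoc]; exact (dvd_pow_self p ha.ne').mul_right _
  -- `G` has a trivial centre
  have hnc : Subgroup.center G = ⊥ := by
    rcases (Subgroup.instNormalCenter (G := G)).eq_bot_or_eq_top with h | h
    · exact h
    · exfalso
      have hcomm : ∀ x y : G, x * y = y * x := fun x y =>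
        (Subgroup.mem_center_iff.mp (h ▸ Subgroup.mem_top x : x ∈ Subgroup.center G) y).symm
      let inst : CommGroup G := { ‹Group G› with mul_comm := hcomm }
      have h1 : (Nat.card G).Prime := @IsSimpleGroup.prime_card G inst _
      rw [Nat.prime_dvd_prime_iff_eq hp h1] at hpG
      exact hne hpG.symm
  obtain ⟨M, hM⟩ := Blocks.ExistsModular.exists_isPModular hp
  obtain ⟨x, hxo, hxi⟩ := exists_central (G := G) hpG
  have hxp : x ^ p = 1 := by rw [← hxo, pow_orderOf_eq_one]
  have hx1 : x ≠ 1 := by rintro rfl; rw [orderOf_one] at hxo; exact hp.one_lt.ne hxo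
  obtain ⟨χ, hχB, hχ1, hχq⟩ := exists_char (G := G) (p := p) hq hM (y := x) (by rw [hxo])
  obtain ⟨n, ρ, hirr, hρ⟩ := χ.2
  have hn1 : (χ : G → ℂ) 1 = n := by rw [← hρ, Representation.char_one]; simp
  have hqn : ¬ q ∣ n := hχq n hn1
  set k := (Subgroup.centralizer ({x} : Set G)).index with hk
  -- `gcd k n` divides `g₀`
  have hkdvd : k ∣ q ^ b * g₀ := by
    have h1 : k ∣ Nat.card G := Subgroup.index_dvd_card _
    rw [hg, mul_assoc] at h1
    refine Nat.Coprime.dvd_of_dvd_mul_left ?_ h1
    exact ((Nat.Prime.coprime_iff_not_dvd hp).mpr hxi).symm.pow_right a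
  have hedvd : Nat.gcd k n ∣ g₀ := by
    have h1 : Nat.gcd k n ∣ q ^ b * g₀ := (Nat.gcd_dvd_left k n).trans hkdvd
    refine Nat.Coprime.dvd_of_dvd_mul_left ?_ h1
    refine Nat.Coprime.pow_right b ?_
    exact (((Nat.Prime.coprime_iff_not_dvd hq).mpr hqn).symm).coprime_dvd_left
      (Nat.gcd_dvd_right k n)
  have hele : Nat.gcd k n ≤ g₀ := Nat.le_of_dvd hg0 hedvd
  have hB : SameBlock M (fun _ => (1 : ℂ)) ρ.character := by rw [hρ]; exact hχB
  have hcard := card_le_gcd hM hxp ρ hirr hB hk.symm hxi (lt_of_le_of_lt hele hg0p)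
  set I := Finset.univ.filter fun i : ZMod p => proj ρ x i ≠ 0 with hI
  -- a nonzero eigenspace
  have hn0 : 0 < n := by
    have : ρ.IsIrreducible := hirr
    have := Characters.CentralCharacter.finrank_pos_of_irreducible ρ
    simpa using this
  obtain ⟨i₀, hi₀⟩ : ∃ i₀ : ZMod p, proj ρ x i₀ ≠ 0 := by
    by_contra hall
    push Not at hall
    have h1 := sum_proj (ρ := ρ) (p := p) x
    rw [Finset.sum_eq_zero fun i _ => hall i] at h1
    have h2 := congrArg (fun f : Module.End ℂ (Fin n → ℂ) => f (fun _ => 1) ⟨0, hn0⟩) h1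
    simp at h2
  have hi₀I : i₀ ∈ I := Finset.mem_filter.mpr ⟨Finset.mem_univ _, hi₀⟩
  obtain ⟨j, hj0, hj⟩ := pigeon I i₀ hi₀I
    (lt_of_le_of_lt (Nat.pow_le_pow_right (by norm_num)
      (Nat.sub_le_sub_right (hcard.trans hele) 1)) hlt)
  obtain ⟨w, hw⟩ : ∃ w, proj ρ x i₀ w ≠ 0 := by
    by_contra hall
    push Not at hall
    exact hi₀ (LinearMap.ext hall)
  have hclose := close_zp (form_inv ρ) hxp i₀ j
    (fun i hi => hj i (Finset.mem_filter.mpr ⟨Finset.mem_univ _, hi⟩))
  -- `x ^ j` is not trivial
  have hzj : zp x j ≠ 1 := by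
    intro h
    have h1 := centralizer_zp hxp hj0
    rw [zp, ← orderOf_dvd_iff_pow_eq_one, hxo] at h
    have h2 := Nat.eq_zero_of_dvd_of_lt h (ZMod.val_lt j)
    exact hj0 ((ZMod.val_eq_zero j).mp h2)
  have hnormal : Subgroup.normalClosure {zp x j} = ⊤ := by
    rcases (Subgroup.normalClosure_normal (s := {zp x j})).eq_bot_or_eq_top with h | h
    · exfalso
      have h1 : zp x j ∈ Subgroup.normalClosure {zp x j} :=
        Subgroup.subset_normalClosure (Set.mem_singleton _)
      rw [h, Subgroup.mem_bot] at h1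
      exact hzj h1
    · exact h
  have hscalar := scalar_of_close hirr (form_inv ρ) hp.pos (ee_pow (i₀ * j)) (zp_pow hxp j)
    (ee_mul_conj (i₀ * j)) hclose hnormal hw (rho_proj_apply hxp j i₀ w)
  -- the kernel of `ρ` is trivial
  have hker : ρ.ker = ⊥ := by
    rcases (inferInstance : (MonoidHom.ker ρ).Normal).eq_bot_or_eq_top with h | h
    · exact h
    · exfalso
      have h1 : ∀ g, ρ g = 1 := fun g => (h ▸ Subgroup.mem_top g : g ∈ MonoidHom.ker ρ)
      -- all subspaces are invariant, so `n = 1` and the character is trivial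
      have hfin : n = 1 := by
        have h2 : ∀ F : Submodule ℂ (Fin n → ℂ), F = ⊥ ∨ F = ⊤ := by
          intro F
          let F' : Subrepresentation ρ := ⟨F, fun g u hu => by rw [h1 g]; exact hu⟩
          rcases hirr.eq_bot_or_eq_top F' with h3 | h3
          · left; exact congrArg Subrepresentation.toSubmodule h3
          · right; exact congrArg Subrepresentation.toSubmodule h3
        have h3 : Module.finrank ℂ (Submodule.span ℂ {(fun _ => 1 : Fin n → ℂ)}) = 1 := by
          apply finrank_span_singleton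
          intro h0
          have := congrFun h0 ⟨0, hn0⟩
          simp at this
        rcases h2 (Submodule.span ℂ {(fun _ => 1 : Fin n → ℂ)}) with h4 | h4
        · rw [h4, finrank_bot] at h3
          omega
        · rw [h4, finrank_top] at h3
          simpa using h3
      apply hχ1
      funext g
      rw [← hρ, Representation.character, h1 g, LinearMap.trace_one]
      simp [hfin]
  have hcent : zp x j ∈ Subgroup.center G := by
    rw [Subgroup.mem_center_iff]
    intro g
    have h1 : ρ (g * zp x j) = ρ (zp x j * g) := by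
      apply LinearMap.ext
      intro v
      rw [map_mul, map_mul, Module.End.mul_apply, Module.End.mul_apply, hscalar, hscalar,
        map_smul]
    have h2 : Function.Injective ρ := (MonoidHom.ker_eq_bot_iff _).mp hker
    exact h2 h1
  rw [hnc, Subgroup.mem_bot] at hcent
  exact hzj hcent

end Cfsg.Agent.S4484
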