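import Cfsg.Statements.S4485
import Cfsg.Agent.H603.Faithful

set_option autoImplicit false
open Cfsg

namespace Cfsg.Agent.S4485

open Cfsg.Agent.Characters.Core

theorem apply_one_eq {G : Type*} [Group G] {χ : G → ℂ} (hχ : Cfsg.IsCharacter G χ) :
    χ 1 = (Cfsg.charDegree χ : ℂ) := by
  obtain ⟨n, hn⟩ := isCharacter_apply_one hχ
  unfold Cfsg.charDegree
  rw [hn]
  simp

/-- Let G be a finite group and p a prime dividing its order such that every non-identity element of a Sylow p-subgroup P has the same centralizer as P itself (so P is abelian); let p^n be the order of P. If G has a faithful character of degree x with x² < p^n − 1, then P is normal in G. -/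
theorem result {G : Type*} [Group G] [Finite G] (p : ℕ) (hp : p.Prime) (hpG : p ∣ Nat.card G) (P : Sylow p G) (hstar : ∀ x ∈ (P : Subgroup G), x ≠ 1 → Subgroup.centralizer ({x} : Set G) = Subgroup.centralizer ((P : Subgroup G) : Set G)) (n : ℕ) (hn : Nat.card P = p ^ n) (χ : G → ℂ) (hχ : Cfsg.IsCharacter G χ) (hfaith : ∀ g : G, χ g = χ 1 → g = 1) (hdeg : Cfsg.charDegree χ ^ 2 + 1 < p ^ n) : (P : Subgroup G).Normal := by
  have : Fact p.Prime := ⟨hp⟩
  have h := Cfsg.Agent.H603.Cent.hyp_of_sylow P hpG hstar
  have hPn : Nat.card (P : Subgroup G) = p ^ n := hn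
  exact Cfsg.Agent.H603.Faithful.main (Nat.card G) P le_rfl h χ hχ hfaith _ (apply_one_eq hχ)
    (by rw [hPn]; exact hdeg)

end Cfsg.Agent.S4485
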