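import Cfsg.Statements.S4486
import Cfsg.Agent.H603.Final

set_option autoImplicit false
open Cfsg

namespace Cfsg.Agent.S4486

open Cfsg.Agent.Characters.Core

theorem apply_one_eq {G : Type*} [Group G] {χ : G → ℂ} (hχ : Cfsg.IsCharacter G χ) :
    χ 1 = (Cfsg.charDegree χ : ℂ) := by
  obtain ⟨n, hn⟩ := isCharacter_apply_one hχ
  unfold Cfsg.charDegree
  rw [hn]
  simp

/-- Let G be a finite group and p a prime dividing its order such that every non-identity element of a Sylow p-subgroup P has the same centralizer as P; let p^n be the order of P. If G has a non-principal irreducible character χ of degree x with x² < p^n − 1, then either G has a proper normal subgroup containing P, or G has a normal subgroup of index p^n and x = 1. -/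
theorem result {G : Type*} [Group G] [Finite G] (p : ℕ) (hp : p.Prime) (hpG : p ∣ Nat.card G) (P : Sylow p G) (hstar : ∀ x ∈ (P : Subgroup G), x ≠ 1 → Subgroup.centralizer ({x} : Set G) = Subgroup.centralizer ((P : Subgroup G) : Set G)) (n : ℕ) (hn : Nat.card P = p ^ n) (χ : Cfsg.IrrCharacter G) (h1 : (χ : G → ℂ) ≠ fun _ => 1) (hdeg : Cfsg.charDegree (χ : G → ℂ) ^ 2 + 1 < p ^ n) : (∃ K : Subgroup G, K.Normal ∧ K ≠ ⊤ ∧ (P : Subgroup G) ≤ K) ∨ ((∃ N : Subgroup G, N.Normal ∧ N.index = p ^ n) ∧ Cfsg.charDegree (χ : G → ℂ) = 1) := by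
  have : Fact p.Prime := ⟨hp⟩
  have h := Cfsg.Agent.H603.Cent.hyp_of_sylow P hpG hstar
  have hx := apply_one_eq (isIrr_isCharacter χ.2)
  have hPn : Nat.card (P : Subgroup G) = p ^ n := hn
  have hx0 : Cfsg.charDegree (χ : G → ℂ) ≠ 0 := by
    intro h0
    rw [h0] at hx
    exact isIrr_apply_one_ne_zero χ.2 (by rw [hx]; simp)
  by_cases hx1 : Cfsg.charDegree (χ : G → ℂ) = 1
  · rw [hx1] at hx
    rcases Cfsg.Agent.H603.Final.linear_case P h χ.2 (by rw [hx]; simp) h1 with h2 | ⟨N, h3, h4⟩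
    · exact Or.inl h2
    · exact Or.inr ⟨⟨N, h3, h4.trans hPn⟩, hx1⟩
  · left
    exact Cfsg.Agent.H603.Final.exists_normal P h χ.2 _ hx (by omega) (by rw [hPn]; exact hdeg)

end Cfsg.Agent.S4486
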