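import Cfsg.Statements.S4495
import Cfsg.Agent.H608.SelfCent
import Cfsg.Agent.S4509

set_option autoImplicit false
open Cfsg

namespace Cfsg.Agent.S4495

open Cfsg.Agent.H608.SelfCent

/-- The number of subgroups of order `p` is `1 + n p`. -/
theorem exists_count {G : Type*} [Group G] [Finite G] {p : ℕ} [hp : Fact p.Prime] {x : G}
    (hx : orderOf x = p) (hC : Subgroup.centralizer ({x} : Set G) = Subgroup.zpowers x) :
    ∃ n : ℕ, Nat.card {H : Subgroup G // Nat.card H = p} = 1 + n * p := by
  obtain ⟨P, hP⟩ := exists_sylow hx hC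
  have hPc := card_sylow hx hP
  have h1 := card_subgroups hPc
  have h2 := Sylow.card_eq_index_normalizer P
  rw [h1, P.coe_coe, ← h2]
  have h3 : Nat.card (Sylow p G) ≡ 1 [MOD p] := card_sylow_modEq_one p G
  have h4 : 1 ≤ Nat.card (Sylow p G) := Nat.card_pos
  obtain ⟨n, hn⟩ := (Nat.modEq_iff_dvd' h4).1 h3.symm
  exact ⟨n, by rw [mul_comm, ← hn]; omega⟩

/-- `x ∈ G'` unless `t = p - 1`. -/
theorem mem_commutator {G : Type*} [Group G] [Finite G] {p : ℕ} [hp : Fact p.Prime] {x : G}
    (hx : orderOf x = p) (hC : Subgroup.centralizer ({x} : Set G) = Subgroup.zpowers x)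
    (ht : Nat.card {C : ConjClasses G // ∃ g ∈ C.carrier, orderOf g = p} ≠ p - 1) :
    x ∈ commutator G := by
  obtain ⟨q, hN, htq, hind⟩ := exists_q hx hC
  set N := Subgroup.normalizer ((Subgroup.zpowers x : Subgroup G) : Set G) with hNdef
  by_contra hcon
  have h1 : ¬ p ∣ Nat.card (commutator G) := fun h => hcon (mem_of_dvd hx hC h)
  have h2 := inf_normalizer hx hC h1
  have h3 : N ≤ Subgroup.zpowers x := by
    intro g hg
    rw [← hC, Subgroup.mem_centralizer_singleton_iff]
    have hxN : x ∈ N := Subgroup.le_normalizer (Subgroup.mem_zpowers x)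
    have h4 : g * x * g⁻¹ * x⁻¹ ∈ commutator G ⊓ N := by
      refine Subgroup.mem_inf.2 ⟨?_, ?_⟩
      · rw [← commutatorElement_def, commutator_def]
        exact Subgroup.commutator_mem_commutator (Subgroup.mem_top _) (Subgroup.mem_top _)
      · exact N.mul_mem (N.mul_mem (N.mul_mem hg hxN) (N.inv_mem hg)) (N.inv_mem hxN)
    rw [h2, Subgroup.mem_bot] at h4
    calc g * x = (g * x * g⁻¹ * x⁻¹) * x * g := by group
      _ = x * g := by rw [h4, one_mul]
  have h4 : Nat.card N ≤ p := by
    have := Subgroup.card_le_of_le h3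
    rwa [Nat.card_zpowers, hx] at this
  rw [hN] at h4
  have hp0 := hp.out.pos
  have hq : q ≤ 1 := by
    by_contra h
    have : p * 2 ≤ p * q := Nat.mul_le_mul_left _ (by omega)
    omega
  interval_cases q
  · have := hp.out.one_lt
    omega
  · rw [mul_one] at htq
    exact ht htq

/-- Let the finite group G contain an element x of prime order p with C_G(x) = ⟨x⟩, and let t be the number of conjugacy classes of elements of order p. If t ≠ p − 1 then the commutator subgroup has index at most (p − 1)/t; if t = p − 1 it has index exactly p. -/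
theorem result {G : Type*} [Group G] [Finite G] (p : ℕ) (hp : p.Prime) (x : G) (hx : orderOf x = p) (hC : Subgroup.centralizer ({x} : Set G) = Subgroup.zpowers x) (t : ℕ) (ht : Nat.card {C : ConjClasses G // ∃ g ∈ C.carrier, orderOf g = p} = t) : (t ≠ p - 1 → (commutator G).index * t ≤ p - 1) ∧ (t = p - 1 → (commutator G).index = p) := by
  have := Fact.mk hp
  obtain ⟨n, hn⟩ := exists_count hx hC
  refine ⟨fun htp => ?_, fun htp =>
    ((Cfsg.Agent.S4509.result p hp x hx hC t ht n hn).2.1 htp).2.2⟩
  have hxG : x ∈ commutator G := mem_commutator hx hC (by rw [ht]; exact htp)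
  obtain ⟨q, hN, htq, hind⟩ := exists_q hx hC
  set N := Subgroup.normalizer ((Subgroup.zpowers x : Subgroup G) : Set G) with hNdef
  have hx0 : Subgroup.zpowers x ≤ N := Subgroup.le_normalizer
  have h1 : commutator G ⊔ N = ⊤ := by
    rw [eq_top_iff]
    intro g _
    obtain ⟨m, hm, k, hk, rfl⟩ := exists_mul hx hC hxG g
    exact Subgroup.mul_mem_sup hm hk
  have h2 : (commutator G).index = (commutator G).relIndex N := by
    rw [← Subgroup.relIndex_top_right, ← h1, Subgroup.relIndex_sup_left]
  have h3 : (commutator G).relIndex N ∣ (Subgroup.zpowers x).relIndex N := by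
    exact Subgroup.relIndex_dvd_of_le_left N (Subgroup.zpowers_le.2 hxG)
  have h4 : (Subgroup.zpowers x).relIndex N = q := by
    have h5 : Nat.card (Subgroup.zpowers x) * (Subgroup.zpowers x).relIndex N = Nat.card N := by
      rw [← Subgroup.relIndex_bot_left, ← Subgroup.relIndex_bot_left]
      exact Subgroup.relIndex_mul_relIndex _ _ _ bot_le hx0
    rw [Nat.card_zpowers, hx, hN] at h5
    exact Nat.eq_of_mul_eq_mul_left hp.pos h5
  have hq0 : 0 < q := by
    rcases Nat.eq_zero_or_pos q with rfl | h
    · have := hp.one_lt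
      omega
    · exact h
  have h6 : (commutator G).index ≤ q := by
    rw [h2]
    rw [h4] at h3
    exact Nat.le_of_dvd hq0 h3
  calc (commutator G).index * t ≤ q * t := Nat.mul_le_mul_right t h6
    _ = p - 1 := by rw [← htq, ht, mul_comm]

end Cfsg.Agent.S4495
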