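import Cfsg.Statements.S4498
import Cfsg.Agent.Blocks.Orthogonality
import Cfsg.Agent.Blocks.PPart
import Cfsg.Agent.S0913
import Cfsg.Agent.S0909

set_option autoImplicit false
open Cfsg

namespace Cfsg.Agent.S4498

open scoped ComplexConjugate

/-- The kernel of a block at a `p`-element vanishes off its section. -/
theorem kernel_eq_zero {G : Type*} [Group G] [Fintype G] {p : ℕ} [hp : Fact p.Prime]
    {M : Ideal AlgInt} (hM : IsPModular p M) (s : Finset (IrrCharacter G))
    (hs : (s : Set (IrrCharacter G)) = principalBlock M G) {x : G} (hx : orderOf x = p) {g : G}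
    (hg : ¬ p ∣ orderOf g) : ∑ χ ∈ s, conj ((χ : G → ℂ) x) * (χ : G → ℂ) g = 0 := by
  have hB : IsPBlock M (principalBlock M G) :=
    ⟨⟨fun _ => 1, Cfsg.Agent.Blocks.Basic.isIrrCharacter_one⟩, rfl⟩
  have h1 : IsPPart p g 1 := Cfsg.Agent.Blocks.PPart.isPPart_of_not_dvd hg
  have h2 : IsPPart p x x :=
    Cfsg.Agent.Blocks.PPart.isPPart_of_isPGroup ⟨1, by rw [hx, pow_one]⟩
  have h3 : ¬ IsConj (1 : G) x := by
    rw [isConj_one_right]
    rintro rfl
    rw [orderOf_one] at hx
    exact hp.out.one_lt.ne hx
  have key := Cfsg.Agent.Blocks.Orthogonality.block_orthogonality hM (principalBlock M G)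
    (Cfsg.Agent.S0913.result p M hM _ hB) h1 h2 h3
  rw [← hs, finsum_mem_coe_finset] at key
  rw [← key]
  exact Finset.sum_congr rfl fun χ _ => mul_comm _ _

/-- Let p and q be distinct primes dividing the order of the finite group G, and suppose G has no element of order p·q. Fix maximal ideals M_p over p and M_q over q of the algebraic integers. Then the principal p-block and the principal q-block of G have a non-principal irreducible character in common. -/
theorem result {G : Type*} [Group G] [Finite G] (p q : ℕ) [Fact p.Prime] [Fact q.Prime] (hpq : p ≠ q) (hp : p ∣ Nat.card G) (hq : q ∣ Nat.card G) (hno : ∀ g : G, orderOf g ≠ p * q) (Mp Mq : Ideal Cfsg.AlgInt) (hMp : Cfsg.IsPModular p Mp) (hMq : Cfsg.IsPModular q Mq) : ∃ χ : Cfsg.IrrCharacter G, (χ : G → ℂ) ≠ (fun _ => 1) ∧ χ ∈ Cfsg.principalBlock Mp G ∧ χ ∈ Cfsg.principalBlock Mq G := by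
  classical
  have : Fintype G := Fintype.ofFinite G
  have hfin : Finite (IrrCharacter G) := Cfsg.Agent.S0909.finite_irr
  have hpp : p.Prime := Fact.out
  have hqp : q.Prime := Fact.out
  obtain ⟨x, hx⟩ := exists_prime_orderOf_dvd_card' p hp
  obtain ⟨y, hy⟩ := exists_prime_orderOf_dvd_card' q hq
  by_contra hcon
  push Not at hcon
  set s : Finset (IrrCharacter G) := (Set.toFinite (principalBlock Mp G)).toFinset with hsdef
  set t : Finset (IrrCharacter G) := (Set.toFinite (principalBlock Mq G)).toFinset with htdef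
  have hs : (s : Set (IrrCharacter G)) = principalBlock Mp G := Set.Finite.coe_toFinset _
  have ht : (t : Set (IrrCharacter G)) = principalBlock Mq G := Set.Finite.coe_toFinset _
  set e : IrrCharacter G := ⟨fun _ => 1, Cfsg.Agent.Blocks.Basic.isIrrCharacter_one⟩ with hedef
  have hPp : Mp.IsPrime := hMp.2.1.isPrime
  have hPq : Mq.IsPrime := hMq.2.1.isPrime
  have hes : e ∈ s := by
    rw [← Finset.mem_coe, hs]
    exact Cfsg.Agent.Blocks.Basic.mem_blockOf_self e
  have het : e ∈ t := by
    rw [← Finset.mem_coe, ht]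
    exact Cfsg.Agent.Blocks.Basic.mem_blockOf_self e
  -- the two kernels
  have h1 : classInner (fun g : G => ∑ χ ∈ s, conj ((χ : G → ℂ) x) * (χ : G → ℂ) g)
      (fun g : G => ∑ χ ∈ t, conj ((χ : G → ℂ) y) * (χ : G → ℂ) g) = 0 := by
    rw [Cfsg.Agent.Characters.Core.classInner_def, Finset.sum_eq_zero, mul_zero]
    intro g _
    by_cases hpg : p ∣ orderOf g
    · have hqg : ¬ q ∣ orderOf g := by
        intro hqg
        have h2 : p * q ∣ orderOf g :=
          Nat.Coprime.mul_dvd_of_dvd_of_dvd ((Nat.coprime_primes hpp hqp).2 hpq) hpg hqg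
        obtain ⟨k, hk⟩ := h2
        refine hno (g ^ k) ?_
        have hk0 : k ≠ 0 := by
          rintro rfl
          rw [mul_zero] at hk
          exact (orderOf_pos g).ne' hk
        rw [orderOf_pow_of_dvd hk0 (by rw [hk]; exact Dvd.intro_left _ rfl), hk,
          Nat.mul_div_cancel _ (Nat.pos_of_ne_zero hk0)]
      rw [kernel_eq_zero hMq t ht hy hqg, map_zero, mul_zero]
    · rw [kernel_eq_zero hMp s hs hx hpg, zero_mul]
  have h2 : classInner (fun g : G => ∑ χ ∈ s, conj ((χ : G → ℂ) x) * (χ : G → ℂ) g)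
      (fun g : G => ∑ χ ∈ t, conj ((χ : G → ℂ) y) * (χ : G → ℂ) g) = 1 := by
    have e1 : (fun g : G => ∑ χ ∈ s, conj ((χ : G → ℂ) x) * (χ : G → ℂ) g) =
        ∑ χ ∈ s, conj ((χ : G → ℂ) x) • (χ : G → ℂ) := by
      funext g; simp
    have e2 : (fun g : G => ∑ χ ∈ t, conj ((χ : G → ℂ) y) * (χ : G → ℂ) g) =
        ∑ χ ∈ t, conj ((χ : G → ℂ) y) • (χ : G → ℂ) := by
      funext g; simp
    rw [e1, e2, Cfsg.Agent.Characters.Core.classInner_sum_left]
    rw [Finset.sum_eq_single e]
    · rw [Cfsg.Agent.Characters.Core.classInner_sum_right, Finset.sum_eq_single e]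
      · rw [Cfsg.Agent.Characters.Core.classInner_smul_left,
          Cfsg.Agent.Characters.Core.classInner_smul_right,
          Cfsg.Agent.Characters.Core.classInner_irr_self e.2]
        simp [hedef]
      · intro ψ hψ hne
        rw [Cfsg.Agent.Characters.Core.classInner_smul_left,
          Cfsg.Agent.Characters.Core.classInner_smul_right,
          Cfsg.Agent.Characters.Core.classInner_irr_ne e.2 ψ.2 (fun h => hne (Subtype.ext h.symm))]
        simp
      · exact fun h => absurd het h
    · intro χ hχ hne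
      rw [Cfsg.Agent.Characters.Core.classInner_sum_right, Finset.sum_eq_zero]
      intro ψ hψ
      rw [Cfsg.Agent.Characters.Core.classInner_smul_left,
        Cfsg.Agent.Characters.Core.classInner_smul_right,
        Cfsg.Agent.Characters.Core.classInner_irr_ne χ.2 ψ.2 ?_]
      · simp
      · intro h
        have h3 : χ = ψ := Subtype.ext h
        subst h3
        refine hcon χ (fun h4 => hne (Subtype.ext h4)) ?_ ?_
        · rw [← hs]; exact hχ
        · rw [← ht]; exact hψ
    · exact fun h => absurd hes h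
  rw [h1] at h2
  exact zero_ne_one h2

end Cfsg.Agent.S4498
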