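import Cfsg.Statements.S4501
-- import your own Cfsg.Agent.* helpers here
import Cfsg.Agent.S3719
import Cfsg.Agent.S0280
import Cfsg.Agent.SmallSimple.S1000.PSLFacts
import Cfsg.Agent.SolvableStructure.HallConverse
import Cfsg.Agent.LieClassical.FieldTransfer

set_option autoImplicit false
open Cfsg

namespace Cfsg.Agent.S4501

theorem card_psu_four {F : Type*} [Field F] [Fintype F] (hF : Fintype.card F = 4) :
    Nat.card (Cfsg.PSU 4 F 2) = 25920 := by
  have h := S0280.result (F := F) (q := 2) (by rw [hF]; norm_num) 4 (by norm_num)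
  simp [Finset.prod_range_succ, Nat.even_iff] at h
  omega

theorem psl_seven {F : Type*} [Field F] [Fintype F] (hF : Fintype.card F = 7) :
    Nonempty (Matrix.ProjectiveSpecialLinearGroup (Fin 2) F ≃*
      Matrix.ProjectiveSpecialLinearGroup (Fin 2) (ZMod 7)) := by
  have : Fact (Nat.Prime 7) := ⟨by norm_num⟩
  have e2 : ZMod 7 ≃+* F := ZMod.ringEquivOfPrime F (by norm_num) hF
  exact ⟨LieClassical.FieldTransfer.pslCongr e2.symm⟩

/-- The possible orders. -/
theorem orders {G : Type*} [Group G] [Finite G] [IsSimpleGroup G] (hG : ¬ IsMulCommutative G)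
    (h3 : (Nat.card G).primeFactors.card = 3) :
    Nonempty (G ≃* ↥(alternatingGroup (Fin 5))) ∨ Nat.card G = 360 ∨
      (∃ (F : Type) (_ : Field F) (_ : Fintype F), Fintype.card F = 7 ∧
        Nonempty (G ≃* Matrix.ProjectiveSpecialLinearGroup (Fin 2) F)) ∨ Nat.card G = 504 ∨
      Nat.card G = 2448 ∨ Nat.card G = 5616 ∨ Nat.card G = 6048 ∨ Nat.card G = 25920 := by
  rcases S3719.result hG h3 with h | ⟨⟨e⟩⟩ | ⟨F, iF, iF', hF, ⟨e⟩⟩ | ⟨F, iF, iF', hF, ⟨e⟩⟩ |
    ⟨F, iF, iF', hF, ⟨e⟩⟩ | ⟨F, iF, iF', hF, ⟨e⟩⟩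
  · exact Or.inl h
  · right; left
    rw [Nat.card_congr e.toEquiv, SmallSimple.PSLFacts.card_alt_six]
  · rcases hF with hF | hF | hF
    · right; right; left; exact ⟨F, iF, iF', hF, ⟨e⟩⟩
    · right; right; right; left
      rw [Nat.card_congr e.toEquiv, SmallSimple.PSLFacts.card_psl_two_eight hF]
    · right; right; right; right; left
      rw [Nat.card_congr e.toEquiv, SmallSimple.PSLFacts.card_psl_two_seventeen hF]
  · right; right; right; right; right; left
    rw [Nat.card_congr e.toEquiv, SmallSimple.PSLFacts.card_psl_three_three hF]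
  · right; right; right; right; right; right; left
    rw [Nat.card_congr e.toEquiv, SmallSimple.PSLFacts.card_psu_three_three hF]
  · right; right; right; right; right; right; right
    rw [Nat.card_congr e.toEquiv, card_psu_four hF]

theorem three_of_not_two {N : ℕ} {G : Type*} [Group G] [Finite G] [IsSimpleGroup G]
    (hG : ¬ IsMulCommutative G) (hN : Nat.card G = N) {r p q : ℕ}
    (hsub : N.primeFactors ⊆ {r, p, q}) : (Nat.card G).primeFactors.card = 3 := by
  have h1 : 3 ≤ (Nat.card G).primeFactors.card := by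
    by_contra h
    have hs : Group.IsSolvable G :=
      SolvableStructure.HallConverse.isSolvable_of_no_three_primes (by omega)
    apply hG
    exact ⟨⟨fun x y => (IsSimpleGroup.comm_iff_isSolvable.mpr hs) x y⟩⟩
  have h2 : (Nat.card G).primeFactors.card ≤ 3 := by
    rw [hN]
    exact (Finset.card_le_card hsub).trans Finset.card_le_three
  omega

/-- The factorization at a prime `r` not among `p`, `q`. -/
theorem not_pow_dvd {c r p q a b m : ℕ} (hc : c ≠ 0) (hr : r.Prime) (hp : p.Prime) (hq : q.Prime)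
    (hrp : r ≠ p) (hrq : r ≠ q) (hcard : c = r ^ m * p ^ a * q ^ b) : ¬ r ^ (m + 1) ∣ c := by
  intro hdvd
  have h0 : r ^ m ≠ 0 := pow_ne_zero _ hr.ne_zero
  rw [hcard, mul_assoc, pow_succ] at hdvd
  have h1 : r ∣ p ^ a * q ^ b := Nat.dvd_of_mul_dvd_mul_left (Nat.pos_of_ne_zero h0) hdvd
  rcases (Nat.Prime.dvd_mul hr).mp h1 with h | h
  · exact hrp ((Nat.prime_dvd_prime_iff_eq hr hp).mp (hr.dvd_of_dvd_pow h))
  · exact hrq ((Nat.prime_dvd_prime_iff_eq hr hq).mp (hr.dvd_of_dvd_pow h))

theorem main {G : Type*} [Group G] [Finite G] [IsSimpleGroup G] (hG : ¬ IsMulCommutative G)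
    {r m p q a b : ℕ} (hm : m ≠ 0) (hr : r.Prime) (hp : p.Prime) (hq : q.Prime)
    (hcard : Nat.card G = r ^ m * p ^ a * q ^ b) :
    (Nat.card G).primeFactors.card = 3 ∧ ¬ r ^ (m + 1) ∣ Nat.card G := by
  have hc0 : Nat.card G ≠ 0 := Nat.card_pos.ne'
  have hsub : (Nat.card G).primeFactors ⊆ {r, p, q} := by
    intro s hs
    have hs1 := Nat.prime_of_mem_primeFactors hs
    have hs2 := Nat.dvd_of_mem_primeFactors hs
    rw [hcard] at hs2
    rw [Finset.mem_insert, Finset.mem_insert, Finset.mem_singleton]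
    rcases (Nat.Prime.dvd_mul hs1).mp hs2 with h | h
    · rcases (Nat.Prime.dvd_mul hs1).mp h with h | h
      · exact Or.inl ((Nat.prime_dvd_prime_iff_eq hs1 hr).mp (hs1.dvd_of_dvd_pow h))
      · exact Or.inr (Or.inl ((Nat.prime_dvd_prime_iff_eq hs1 hp).mp (hs1.dvd_of_dvd_pow h)))
    · exact Or.inr (Or.inr ((Nat.prime_dvd_prime_iff_eq hs1 hq).mp (hs1.dvd_of_dvd_pow h)))
  have h3 := three_of_not_two hG rfl hsub
  have hrp : r ≠ p := by
    rintro rfl
    have := Finset.card_le_card hsub
    rw [h3, Finset.insert_eq_of_mem (Finset.mem_insert_self _ _)] at this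
    exact absurd (this.trans Finset.card_le_two) (by norm_num)
  have hrq : r ≠ q := by
    rintro rfl
    have := Finset.card_le_card hsub
    rw [h3, Finset.pair_comm, Finset.insert_eq_of_mem (Finset.mem_insert_self _ _)] at this
    exact absurd (this.trans Finset.card_le_two) (by norm_num)
  exact ⟨h3, not_pow_dvd hc0 hr hp hq hrp hrq hcard⟩

/-- Let G be a non-abelian finite simple group and p, q distinct primes. If the order of G is 4·p^a·q^b with a ≤ 2, then G is isomorphic to the alternating group of degree 5. If the order of G is 3·p^a·q^b with a ≤ 2, then G is isomorphic to the alternating group of degree 5 or to PSL(2,7). -/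
theorem result {G : Type*} [Group G] [Finite G] [IsSimpleGroup G] (hna : ∃ x y : G, x * y ≠ y * x) (p q a b : ℕ) (hp : p.Prime) (hq : q.Prime) (hpq : p ≠ q) (ha : a ≤ 2) : (Nat.card G = 4 * p ^ a * q ^ b → Nonempty (G ≃* alternatingGroup (Fin 5))) ∧ (Nat.card G = 3 * p ^ a * q ^ b → Nonempty (G ≃* alternatingGroup (Fin 5)) ∨ Nonempty (G ≃* Matrix.ProjectiveSpecialLinearGroup (Fin 2) (ZMod 7))) := by
  have hG : ¬ IsMulCommutative G := by
    intro h
    obtain ⟨x, y, hxy⟩ := hna
    exact hxy (h.is_comm.comm x y)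
  constructor
  · intro hcard
    obtain ⟨h3, hnd⟩ := main hG (r := 2) (m := 2) (a := a) (b := b) (by norm_num) Nat.prime_two hp hq
      (by rw [hcard]; norm_num)
    rcases orders hG h3 with h | h | ⟨F, iF, iF', hF, ⟨e⟩⟩ | h | h | h | h | h
    · exact h
    · exact absurd (by rw [h]; norm_num) hnd
    · exact absurd (by
        rw [Nat.card_congr e.toEquiv, SmallSimple.PSLFacts.card_psl_two_seven hF]; norm_num) hnd
    · exact absurd (by rw [h]; norm_num) hnd
    · exact absurd (by rw [h]; norm_num) hnd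
    · exact absurd (by rw [h]; norm_num) hnd
    · exact absurd (by rw [h]; norm_num) hnd
    · exact absurd (by rw [h]; norm_num) hnd
  · intro hcard
    obtain ⟨h3, hnd⟩ := main hG (r := 3) (m := 1) (a := a) (b := b) (by norm_num) Nat.prime_three hp hq
      (by rw [hcard]; norm_num)
    rcases orders hG h3 with h | h | ⟨F, iF, iF', hF, ⟨e⟩⟩ | h | h | h | h | h
    · exact Or.inl h
    · exact absurd (by rw [h]; norm_num) hnd
    · right
      exact (psl_seven hF).map fun e2 => e.trans e2
    · exact absurd (by rw [h]; norm_num) hnd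
    · exact absurd (by rw [h]; norm_num) hnd
    · exact absurd (by rw [h]; norm_num) hnd
    · exact absurd (by rw [h]; norm_num) hnd
    · exact absurd (by rw [h]; norm_num) hnd

end Cfsg.Agent.S4501
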