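import Cfsg.Statements.S4507
import Cfsg.Agent.H608.CycOneConj

set_option autoImplicit false
open Cfsg

namespace Cfsg.Agent.S4507

/-- Let G be a finite group whose order g is divisible by the prime p exactly once, g′ = g/p, and fix a maximal ideal M of the algebraic integers containing p. Call two irreducible characters p-conjugate when a field automorphism of ℂ fixing the g′-th roots of unity carries one to the other. Let B be a p-block of positive defect (its defect group is a Sylow p-subgroup). Then B contains a subset Y (the exceptional family) such that: Y is a full p-conjugacy class (its members are pairwise p-conjugate and every p-conjugate of a member of Y lies in Y); every member of B outside Y is p-conjugate only to itself; the size t of Y divides p − 1 and B has exactly t + (p − 1)/t members; and there are signs δ_χ = ±1 (χ ∈ B) such that for every p-regular element x and every θ ∈ Y, Σ_{χ ∈ B ∖ Y} δ_χ χ(x) + δ_θ θ(x) = 0. -/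
theorem result {G : Type*} [Group G] [Finite G] (p : ℕ) [Fact p.Prime] (M : Ideal Cfsg.AlgInt) (hM : Cfsg.IsPModular p M) (hdiv : p ∣ Nat.card G) (hsq : ¬ p ^ 2 ∣ Nat.card G) (B : Set (Cfsg.IrrCharacter G)) (hB : Cfsg.IsPBlock M B) (hd : 0 < Cfsg.blockDefect p B) : ∃ Y : Set (Cfsg.IrrCharacter G), Y ⊆ B ∧ Y.Nonempty ∧ (∀ θ ∈ Y, ∀ ψ : Cfsg.IrrCharacter G, (∃ σ : ℂ ≃+* ℂ, σ (Complex.exp (2 * Real.pi * Complex.I / ((Nat.card G / p ^ (Nat.card G).factorization p) : ℕ))) = Complex.exp (2 * Real.pi * Complex.I / ((Nat.card G / p ^ (Nat.card G).factorization p) : ℕ)) ∧ (ψ : G → ℂ) = fun g => σ ((θ : G → ℂ) g)) ↔ ψ ∈ Y) ∧ (∀ χ ∈ B, χ ∉ Y → ∀ ψ : Cfsg.IrrCharacter G, (∃ σ : ℂ ≃+* ℂ, σ (Complex.exp (2 * Real.pi * Complex.I / ((Nat.card G / p ^ (Nat.card G).factorization p) : ℕ))) = Complex.exp (2 * Real.pi * Complex.I / ((Nat.card G / p ^ (Nat.card G).factorization p) : ℕ)) ∧ (ψ : G → ℂ) = fun g => σ ((χ : G → ℂ) g)) → ψ = χ) ∧ Nat.card Y ∣ p - 1 ∧ Nat.card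 B = Nat.card Y + (p - 1) / Nat.card Y ∧ ∃ δ : Cfsg.IrrCharacter G → ℤ, (∀ χ ∈ B, δ χ = 1 ∨ δ χ = -1) ∧ ∀ x : G, ¬ p ∣ orderOf x → ∀ θ ∈ Y, (∑ᶠ χ ∈ B \ Y, (δ χ : ℂ) * (χ : G → ℂ) x) + (δ θ : ℂ) * (θ : G → ℂ) x = 0 := by
  classical
  have hp : p.Prime := Fact.out
  obtain ⟨P⟩ := (inferInstance : Nonempty (Sylow p G))
  have hfac : (Nat.card G).factorization p = 1 := by
    apply le_antisymm
    · by_contra h
      apply hsq
      rw [hp.pow_dvd_iff_le_factorization Nat.card_pos.ne']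
      omega
    · rw [← hp.pow_dvd_iff_le_factorization Nat.card_pos.ne', pow_one]
      exact hdiv
  have hP : Nat.card (P : Subgroup G) = p := by
    rw [P.card_eq_multiplicity, hfac, pow_one]
  obtain ⟨K, hK⟩ := Cfsg.Agent.SmallSimple.ThetaSetup.exists_isComp P hP
  obtain ⟨θ, hθ⟩ := Cfsg.Agent.H608.CycOne.exists_eq_Over hK hP hM hB hd
  have hcyc : IsCyclic (MulAut P) := Cfsg.Agent.SmallSimple.ThetaGroup.isCyclic_mulAut hP
  have hcard : Nat.card (MulAut P) = p - 1 := by
    have : IsCyclic P := isCyclic_of_prime_card hP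
    have h1 := IsCyclic.card_mulAut P
    rw [h1]
    have h2 : Nat.card P = p := hP
    rw [h2, Nat.totient_prime hp]
  have hfin : Finite (MulAut P) := Nat.finite_of_card_ne_zero (by
    rw [hcard]; have := hp.one_lt; omega)
  obtain ⟨t, ht⟩ : Nat.card (Cfsg.Agent.SmallSimple.ThetaOrtho.stabAct hK (θ : K → ℂ)) ∣ p - 1 := by
    rw [← hcard]; exact Subgroup.card_subgroup_dvd_card _
  obtain ⟨NE, X, δ, h1, h2, h3, h4, h5, h6, h7, h8⟩ :=
    Cfsg.Agent.H608.CycOneConj.pConj_exceptional hK hP (θ := θ) rfl ht.symm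
  have hp1 := hp.one_lt
  have ht0 : 0 < t := by
    rcases Nat.eq_zero_or_pos t with h | h
    · rw [h, mul_zero] at ht; omega
    · exact h
  have hXcard : Nat.card (X : Set (Cfsg.IrrCharacter G)) = t := by
    rw [← h4]; simp
  have hBeq : B = (NE : Set (Cfsg.IrrCharacter G)) ∪ X := by
    rw [hθ]
    ext χ
    rw [h1]; simp
  refine ⟨(X : Set (Cfsg.IrrCharacter G)), ?_, ?_, ?_, ?_, ?_, ?_, δ, ?_, ?_⟩
  · rw [hBeq]; exact Set.subset_union_right
  · rw [Finset.coe_nonempty, ← Finset.card_pos, h4]; exact ht0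
  · intro θ' hθ' ψ
    exact h5 θ' hθ' ψ
  · intro χ hχ hχX ψ hψ
    rw [hBeq] at hχ
    exact h6 χ (hχ.resolve_right hχX) ψ hψ
  · rw [hXcard, ht]; exact dvd_mul_left _ _
  · rw [hXcard, hBeq, Nat.card_coe_set_eq, Set.ncard_union_eq (by
      rw [Finset.disjoint_coe]; exact h2), Set.ncard_coe_finset, Set.ncard_coe_finset, h3, h4, ht,
      Nat.mul_div_cancel _ ht0, add_comm]
  · intro χ hχ
    rw [hθ] at hχ
    exact h7 χ hχ
  · intro x hx θ' hθ'
    rw [← h8 θ' hθ' x hx]
    congr 1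
    have hdiff : B \ (X : Set (Cfsg.IrrCharacter G)) = (NE : Set (Cfsg.IrrCharacter G)) := by
      rw [hBeq, Set.union_diff_right]
      exact (sdiff_eq_left.2 (by rw [Finset.disjoint_coe]; exact h2))
    rw [hdiff, finsum_mem_coe_finset]

end Cfsg.Agent.S4507
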