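import Cfsg.Statements.S4508
-- import your own Cfsg.Agent.* helpers here
import Cfsg.Agent.H608.DegPred
import Cfsg.Agent.S4509

set_option autoImplicit false
open Cfsg

namespace Cfsg.Agent.S4508

open Cfsg.Agent.H608.SelfCent Cfsg.Agent.H608.DegPred

/-- Let the finite group G contain an element x of prime order p with C_G(x) = ⟨x⟩, and let t be the number of conjugacy classes of elements of order p. If G has an irreducible character of degree p − 1, then t is even or the commutator subgroup has even index. -/
theorem result {G : Type*} [Group G] [Finite G] (p : ℕ) (hp : p.Prime) (x : G) (hx : orderOf x = p) (hC : Subgroup.centralizer ({x} : Set G) = Subgroup.zpowers x) (t : ℕ) (ht : Nat.card {C : ConjClasses G // ∃ g ∈ C.carrier, orderOf g = p} = t) (χ : Cfsg.IrrCharacter G) (hχ : Cfsg.charDegree (χ : G → ℂ) + 1 = p) : Even t ∨ Even (commutator G).index := by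
  have := Fact.mk hp
  obtain ⟨q, hN, htq, -⟩ := exists_q hx hC
  rw [ht] at htq
  have hp2 := hp.two_le
  have hq1 : q ≠ 0 := by
    rintro rfl
    omega
  rcases Nat.even_or_odd t with hte | hto
  · exact Or.inl hte
  right
  by_cases hq : q = 1
  · -- `t = p - 1` is odd, so `p = 2`
    rw [hq, mul_one] at htq
    have hp' : p = 2 := by
      rcases hp.eq_two_or_odd' with h | h
      · exact h
      · exfalso
        obtain ⟨k, hk⟩ := hto
        obtain ⟨l, hl⟩ := h
        omega
    obtain ⟨P, hP⟩ := exists_sylow hx hC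
    obtain ⟨n, hn⟩ : ∃ n, Nat.card {H : Subgroup G // Nat.card H = p} = 1 + n * p := by
      have h1 : Nat.card {H : Subgroup G // Nat.card H = p} = Nat.card (Sylow p G) := by
        rw [card_subgroups (card_sylow hx hP), P.coe_coe]
        exact (Sylow.card_eq_index_normalizer P).symm
      have h2 := card_sylow_modEq_one p G
      rw [← h1] at h2
      have h3 : 0 < Nat.card {H : Subgroup G // Nat.card H = p} := by
        rw [h1]; exact Nat.card_pos
      obtain ⟨n, hn⟩ := (Nat.modEq_iff_dvd' (by omega)).1 h2.symm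
      exact ⟨n, by rw [mul_comm n p]; omega⟩
    have h1 := (Cfsg.Agent.S4509.result p hp x hx hC t ht n hn).2.1 htq
    rw [h1.2.2, hp']
    exact even_two
  · have hq2 : 2 ≤ q := by omega
    have hpo : Even (p - 1) := by
      rcases hp.eq_two_or_odd' with h | h
      · exfalso
        rw [h] at htq
        have h1 : q ≤ t * q := Nat.le_mul_of_pos_left q (by
          rcases Nat.eq_zero_or_pos t with h2 | h2
          · rw [h2] at htq; simp at htq
          · exact h2)
        omega
      · obtain ⟨l, hl⟩ := h
        exact ⟨l, by omega⟩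
    have hqe : Even q := by
      rw [← htq, Nat.even_mul] at hpo
      exact hpo.resolve_left (Nat.not_even_iff_odd.2 hto)
    obtain ⟨n, ρ, hρ, hρχ⟩ := χ.2
    have hd : Module.finrank ℂ (Fin n → ℂ) = p - 1 := by
      have h1 : (χ : G → ℂ) 1 = (n : ℂ) := by
        rw [← hρχ, Representation.char_one]; simp
      have h2 : Cfsg.charDegree (χ : G → ℂ) = n := by
        unfold Cfsg.charDegree
        rw [h1]; simp
      rw [h2] at hχ
      rw [Module.finrank_fin_fun]
      omega
    have hirr : IsIrrCharacter G ρ.character := by rw [hρχ]; exact χ.2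
    obtain ⟨b, α, h1, h2, h3⟩ := eigen_ne_one hx hC ρ hirr hd hN hq2
    obtain ⟨y, hyq, hy⟩ := exists_generator hx hC hN hq2
    have htr : ∀ i, 0 < i → i < q → LinearMap.trace ℂ (Fin n → ℂ) ((ρ y) ^ i) = 0 := by
      intro i hi hiq
      obtain ⟨h, hh1, hh⟩ := hy i hi hiq
      rw [← map_pow]
      exact vanish hx hC ρ b α h1 h2 h3 hh hh1
    have hdet := Cfsg.Agent.H608.DetCyclic.det_of_trace_zero (ρ y) hq1
      (by rw [← map_pow, hyq, map_one]) htr (t := t) (by rw [hd, mul_comm]; exact htq.symm)
    have hodd : Odd (q + 1) := hqe.add_one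
    rw [hodd.neg_one_pow, hto.neg_one_pow] at hdet
    by_contra hcon
    rw [Nat.not_even_iff_odd] at hcon
    let f : G →* ℂ := (LinearMap.det : ((Fin n → ℂ) →ₗ[ℂ] (Fin n → ℂ)) →* ℂ).comp ρ
    have hf : f y = -1 := hdet
    have hker : commutator G ≤ f.ker := by
      rw [commutator_def, Subgroup.commutator_le]
      intro a _ c _
      rw [MonoidHom.mem_ker, commutatorElement_def]
      have e1 : f a * f a⁻¹ = 1 := by rw [← map_mul, mul_inv_cancel, map_one]
      have e2 : f c * f c⁻¹ = 1 := by rw [← map_mul, mul_inv_cancel, map_one]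
      calc f (a * c * a⁻¹ * c⁻¹) = (f a * f a⁻¹) * (f c * f c⁻¹) := by
            rw [map_mul, map_mul, map_mul]; ring
        _ = 1 := by rw [e1, e2, one_mul]
    have h4 : y ^ (commutator G).index ∈ f.ker := hker (Subgroup.pow_index_mem _ y)
    rw [MonoidHom.mem_ker, map_pow, hf, hcon.neg_one_pow] at h4
    norm_num at h4

end Cfsg.Agent.S4508
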