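import Cfsg.Statements.S4511
-- import your own Cfsg.Agent.* helpers here
import Cfsg.Agent.H608.BlockRank

set_option autoImplicit false
open Cfsg

namespace Cfsg.Agent.S4511

open Cfsg.Agent.H608.BlockRank Cfsg.Agent.Blocks.Basic Cfsg.Agent.Blocks.Local

/-- Brauer's count of the irreducible characters in a block by subsections. Let M be a maximal ideal of the algebraic integers containing the prime p, B a p-block of the finite group G, and X a set of representatives of the conjugacy classes of p-elements of G (elements of p-power order, the identity included: every p-element is conjugate to exactly one member of X). Then the number of irreducible characters in B is the sum, over x ∈ X and over the blocks b of C_G(x) that induce B, of the p-regular rank of b (the number of irreducible Brauer characters of b, here the dimension of the span of the restrictions of the members of b to the p-regular elements of C_G(x)). -/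
theorem result {G : Type*} [Group G] [Finite G] (p : ℕ) (M : Ideal Cfsg.AlgInt) (hM : Cfsg.IsPModular p M)
    (B : Set (Cfsg.IrrCharacter G)) (hB : Cfsg.IsPBlock M B) (X : Finset G)
    (hX : ∀ x ∈ X, ∃ k : ℕ, orderOf x = p ^ k)
    (hXrep : ∀ g : G, (∃ k : ℕ, orderOf g = p ^ k) → ∃! x, x ∈ X ∧ IsConj g x) :
    Nat.card B = ∑ x ∈ X, ∑ᶠ b ∈ {b : Set (Cfsg.IrrCharacter ↥(Subgroup.centralizer ({x} : Set G))) | Cfsg.IsInducedBlock M (Subgroup.centralizer ({x} : Set G)) b B},
      Cfsg.blockRank p b := by
  classical
  have hMp := isPrime_of_isPModular hM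
  rw [card_eq_sum_finrank hM (isUnion_of_isPBlock hB) X hX hXrep]
  refine Finset.sum_congr rfl fun x hx => ?_
  set A : Set (IrrCharacter ↥(Subgroup.centralizer ({x} : Set G))) :=
    {ξ | IsInducedBlock M (Subgroup.centralizer ({x} : Set G))
      (blockOf M (ξ : ↥(Subgroup.centralizer ({x} : Set G)) → ℂ)) B} with hA
  rw [finrank_secMap hM hB (hX x hx) rfl (A := A) (fun ξ => Iff.rfl),
    blockRank_eq_finsum hM (A := A)]
  · have hset : {b : Set (IrrCharacter ↥(Subgroup.centralizer ({x} : Set G))) |
        IsPBlock M b ∧ b ⊆ A} =
        {b | IsInducedBlock M (Subgroup.centralizer ({x} : Set G)) b B} := by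
      ext b
      constructor
      · rintro ⟨hb1, hb2⟩
        obtain ⟨ξ, hξ⟩ := isPBlock_nonempty hb1
        have h1 : IsInducedBlock M (Subgroup.centralizer ({x} : Set G))
          (blockOf M (ξ : ↥(Subgroup.centralizer ({x} : Set G)) → ℂ)) B := hb2 hξ
        rw [← isPBlock_eq_blockOf hb1 hξ] at h1
        exact h1
      · intro h1
        refine ⟨h1.1, fun ξ hξ => ?_⟩
        change IsInducedBlock M (Subgroup.centralizer ({x} : Set G))
          (blockOf M (ξ : ↥(Subgroup.centralizer ({x} : Set G)) → ℂ)) B
        rw [← isPBlock_eq_blockOf h1.1 hξ]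
        exact h1
    rw [hset]
  · intro ξ ξ' h hξ
    change IsInducedBlock M (Subgroup.centralizer ({x} : Set G))
          (blockOf M (ξ : ↥(Subgroup.centralizer ({x} : Set G)) → ℂ)) B at hξ
    change IsInducedBlock M (Subgroup.centralizer ({x} : Set G))
          (blockOf M (ξ' : ↥(Subgroup.centralizer ({x} : Set G)) → ℂ)) B
    rw [← blockOf_eq_of_sameBlock h]
    exact hξ

end Cfsg.Agent.S4511
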