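import Cfsg.Statements.S4634
import Cfsg.Agent.H608.CycFrob

set_option autoImplicit false
open Cfsg

namespace Cfsg.Agent.S4634

open Cfsg.Agent.H639 in
/-- Let B be a block of the finite group G relative to a maximal ideal M of the algebraic integers containing the prime p, with a nontrivial cyclic defect group P, let c be a block of C_G(P) inducing B, T the stabilizer of c in N_G(P) and e the index of C_G(P) in T. Let F be any finite group of order #P · e having a cyclic subgroup Q of order #P that is its own centralizer (F is then the semidirect product of Q by a cyclic group of order e acting faithfully). Then there is a perfect isometry from the set of all irreducible characters of F onto B whose signs agree on all the characters of F that do not contain Q in their kernel. -/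
theorem result {G : Type*} [Group G] [Finite G] (p : ℕ) [Fact p.Prime] (M : Ideal Cfsg.AlgInt) (hM : Cfsg.IsPModular p M) (B : Set (Cfsg.IrrCharacter G)) (hB : Cfsg.IsPBlock M B) (P : Subgroup G) (hPD : Cfsg.IsDefectGroup p M B P) (hP1 : P ≠ ⊥) (hcyc : IsCyclic P) (c : Set (Cfsg.IrrCharacter (Subgroup.centralizer (P : Set G)))) (hc : Cfsg.IsInducedBlock M (Subgroup.centralizer (P : Set G)) c B) (T : Subgroup G) (hT : ∀ g : G, g ∈ T ↔ (g ∈ Subgroup.normalizer (P : Set G) ∧ Cfsg.StabilizesBlock (Subgroup.centralizer (P : Set G)) c g)) (e : ℕ) (he : (Subgroup.centralizer (P : Set G)).relIndex T = e) (F : Type*) [Group F] [Finite F] (hF : Nat.card F = Nat.card P * e) (Q : Subgroup F) (hQ : IsCyclic Q) (hQcard : Nat.card Q = Nat.card P) (hQC : Subgroup.centralizer (Q : Set F) = Q) : ∃ (I : Cfsg.IrrCharacter F → Cfsg.IrrCharacter G) (ε : Cfsg.IrrCharacter F → ℤ), Cfsg.IsPerfectIsometry p M (Set.univ : Set (Cfsg.IrrCharacter F)) B I ε ∧ ∀ η η' : Cfsg.IrrCharacter F, (∃ x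 ∈ Q, (η : F → ℂ) x ≠ (η : F → ℂ) 1) → (∃ x ∈ Q, (η' : F → ℂ) x ≠ (η' : F → ℂ) 1) → ε η = ε η' := by
  have hp : p.Prime := Fact.out
  have hMp : M.IsPrime := hM.2.1.isPrime
  have : Fintype G := Fintype.ofFinite G
  have : Fintype F := Fintype.ofFinite F
  have hPp : IsPGroup p P := H641.isPGroup_of_isDefectGroup hPD
  obtain ⟨n, hn⟩ := IsPGroup.iff_card.mp hPp
  have hn0 : n ≠ 0 := by
    rintro rfl
    rw [pow_zero] at hn
    exact hP1 (Subgroup.eq_bot_of_card_eq _ hn)
  obtain ⟨z, hz⟩ := H653.CycFinal.exists_hyp hM hcyc (Nat.one_le_iff_ne_zero.mpr hn0) hn hPD hc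
  have hstab : stabT (⟨P, c⟩ : BrauerPairIdx G) = T := stabT_eq hM hc.1 hT
  have he' : (Subgroup.centralizer (P : Set G)).relIndex (H651.idxStab ⟨P, c⟩) = e := by
    rw [← stabT_eq_idxStab, hstab, he]
  obtain ⟨he1, -, he0⟩ := H653.CycFinal.dvd_and hz hn he'
  have hab : ∀ x ∈ P, ∀ y ∈ P, x * y = y * x := H653.CycPairs.comm_of_isCyclic hcyc
  obtain ⟨c1, ζ1, hF1⟩ := H639.exists_full hM hPD hP1 hab hc (by
    intro g hg1 hg2 x hx hx1 hgx
    refine H641.mem_centralizer_of_relIndex hp (P := P) (T := T) hPp hcyc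
      (fun t ht => ((hT t).mp ht).1) ?_ (not_dvd_relIndex' hM hPD hab hc hT)
      ((hT g).mpr ⟨hg1, hg2⟩) hx hx1 hgx
    rw [← hstab]
    exact hz.centralizer_le_stab.trans_eq (stabT_eq_idxStab _).symm)
  have hcard1 : Nat.card (inQ (⟨P, c⟩ : BrauerPairIdx G)) = e := by
    rw [card_inQ hF1.hs, hstab]
    exact he
  have hidx : Q.index = e := by
    have h1 := Q.card_mul_index
    rw [hF, hQcard] at h1
    exact Nat.eq_of_mul_eq_mul_left Nat.card_pos h1
  obtain ⟨c2, ζ2, hF2, hcard2⟩ := H608.CycFrob.exists_full (Q := Q) hM hn0 (hQcard.trans hn) hidx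
    he1 he0 hQ hQC
  let θ : Q ≃* P := mulEquivOfCyclicCardEq hQcard
  obtain ⟨I, ε, hI, -⟩ := exists_isPerfectIsometry hF1 hF2 θ (by
    intro τ
    have h1 := H608.CycFrob.mem_iff_of_dvd hp hcyc hn (inQ (⟨P, c⟩ : BrauerPairIdx G))
      (by rw [hcard1]; exact he1) (MulAut.congr θ τ)
    have h2 := H608.CycFrob.mem_iff_of_dvd hp hQ (hQcard.trans hn)
      (inQ (⟨Q, Set.univ⟩ : BrauerPairIdx F)) (by rw [hcard2]; exact he1) τ
    rw [hcard1] at h1
    rw [hcard2] at h2
    refine h1.trans (Iff.trans ?_ h2.symm)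
    rw [← map_pow, map_eq_one_iff _ (MulAut.congr θ).injective])
    (hF1.card_eq_of_isCyclic hcyc) (hF2.card_eq_of_isCyclic hQ)
  refine ⟨I, ε, hI, fun η η' h h' => (H608.PerfComp.sign_eq hI (Set.mem_univ _) (Set.mem_univ _)
    fun y hy => ?_).1⟩
  have h1 := H608.CycFrob.apply_eq (hQcard.trans hn) hidx he1 he0 hQ hQC η h hy
  have h2 := H608.CycFrob.apply_eq (hQcard.trans hn) hidx he1 he0 hQ hQC η' h' hy
  by_cases hy1 : y = 1
  · rw [h1.1 hy1, h2.1 hy1]
  · rw [h1.2 hy1, h2.2 hy1]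

end Cfsg.Agent.S4634
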