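import Cfsg.Statements.S4636

set_option autoImplicit false
open scoped Pointwise
open Cfsg

namespace Cfsg.Agent.S4636

/-- In a cyclic group two subgroups of the same order `n > 0` coincide. -/
theorem eq_of_card_eq {G : Type*} [Group G] [Finite G] (p : ℕ) (hp : 0 < p) (P : Subgroup G)
    (hcyc : IsCyclic P) (Y Z : Subgroup G) (hY : Y ≤ P) (hZ : Z ≤ P)
    (hYcard : Nat.card Y = p) (hZcard : Nat.card Z = p) : Y = Z := by
  classical
  haveI := Fintype.ofFinite P
  have hle : (Finset.univ.filter fun a : P => a ^ p = 1).card ≤ p :=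
    IsCyclic.card_pow_eq_one_le hp
  have key : ∀ W : Subgroup G, W ≤ P → Nat.card W = p →
      (W : Set G) = Subtype.val '' ((Finset.univ.filter fun a : P => a ^ p = 1 : Finset P) : Set P) := by
    intro W hW hWc
    apply Set.eq_of_subset_of_ncard_le
    · intro w hw
      refine ⟨⟨w, hW hw⟩, ?_, rfl⟩
      simp only [Finset.coe_filter, Finset.mem_univ, true_and, Set.mem_setOf_eq]
      apply Subtype.ext
      simp only [SubgroupClass.coe_pow, OneMemClass.coe_one]
      have := pow_card_eq_one' (x := (⟨w, hw⟩ : W))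
      rw [hWc] at this
      exact congrArg Subtype.val this
    · rw [Set.ncard_image_of_injective _ Subtype.val_injective, Set.ncard_coe_finset]
      refine hle.trans ?_
      rw [← hWc]
      exact le_of_eq rfl
    · exact Set.toFinite _
  apply SetLike.coe_injective
  rw [key Y hY hYcard, key Z hZ hZcard]

/-- In a cyclic `p`-group every nontrivial subgroup contains every subgroup of order `p`. -/
theorem le_of_ne_bot {G : Type*} [Group G] [Finite G] (p : ℕ) [Fact p.Prime] (P : Subgroup G)
    (hP : IsPGroup p P) (hcyc : IsCyclic P) (Z : Subgroup G) (hZ : Z ≤ P)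
    (hZcard : Nat.card Z = p) (Q : Subgroup G) (hQ : Q ≤ P) (hQ1 : Q ≠ ⊥) : Z ≤ Q := by
  have hp : p.Prime := Fact.out
  have hQp : IsPGroup p Q := hP.to_le hQ
  obtain ⟨n, hn⟩ := (IsPGroup.iff_card.mp hQp)
  have hn0 : n ≠ 0 := by
    rintro rfl
    rw [pow_zero] at hn
    exact hQ1 (Subgroup.eq_bot_of_card_eq Q hn)
  have hdvd : p ∣ Nat.card Q := by rw [hn]; exact dvd_pow_self p hn0
  obtain ⟨y, hy⟩ := exists_prime_orderOf_dvd_card' (G := Q) p hdvd
  have hy' : orderOf (y : G) = p := by rw [Subgroup.orderOf_coe, hy]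
  have hYQ : Subgroup.zpowers (y : G) ≤ Q := by
    rw [Subgroup.zpowers_le]; exact y.2
  have hYc : Nat.card (Subgroup.zpowers (y : G)) = p := by rw [Nat.card_zpowers, hy']
  have heq : (Subgroup.zpowers (y : G)) = Z :=
    eq_of_card_eq p hp.pos P hcyc _ _ (hYQ.trans hQ) hZ hYc hZcard
  rw [← heq]; exact hYQ

/-- Let P be a nontrivial cyclic p-subgroup of the finite group G and Z its subgroup of order p. For every x outside N_G(Z), P meets its conjugate xPx⁻¹ trivially; consequently N_G(Q) ≤ N_G(Z) for every nontrivial subgroup Q of P. -/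
theorem result {G : Type*} [Group G] [Finite G] (p : ℕ) [Fact p.Prime] (P : Subgroup G) (hP : IsPGroup p P) (hP1 : P ≠ ⊥) (hcyc : IsCyclic P) (Z : Subgroup G) (hZ : Z ≤ P) (hZcard : Nat.card Z = p) : (∀ x : G, x ∉ Subgroup.normalizer (Z : Set G) → P ⊓ MulAut.conj x • P = ⊥) ∧ ∀ Q : Subgroup G, Q ≤ P → Q ≠ ⊥ → Subgroup.normalizer (Q : Set G) ≤ Subgroup.normalizer (Z : Set G) := by
  have hp : p.Prime := Fact.out
  -- a criterion
  have crit : ∀ x : G, MulAut.conj x • Z = Z → x ∈ Subgroup.normalizer (Z : Set G) := by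
    intro x hx
    rw [Subgroup.mem_normalizer_iff]
    intro z
    constructor
    · intro hz
      have : x * z * x⁻¹ ∈ MulAut.conj x • Z := by
        have := Subgroup.smul_mem_pointwise_smul z (MulAut.conj x) Z hz
        simpa [MulAut.smul_def, MulAut.conj_apply] using this
      rwa [hx] at this
    · intro hz
      have hz' : x * z * x⁻¹ ∈ MulAut.conj x • Z := by rw [hx]; exact hz
      have h2 := Subgroup.mem_pointwise_smul_iff_inv_smul_mem.mp hz'
      have h3 : (MulAut.conj x)⁻¹ • (x * z * x⁻¹) = z := by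
        rw [inv_smul_eq_iff]
        simp [MulAut.smul_def, MulAut.conj_apply]
      rwa [h3] at h2
  have hcardsmul : ∀ (x : G) (W : Subgroup G), Nat.card (MulAut.conj x • W : Subgroup G) = Nat.card W := by
    intro x W
    exact (Nat.card_congr (Subgroup.equivSMul (MulAut.conj x) W).toEquiv).symm
  constructor
  · intro x hx
    by_contra hne
    apply hx
    apply crit
    -- the intersection contains `Z`
    have h1 : Z ≤ P ⊓ MulAut.conj x • P :=
      le_of_ne_bot p P hP hcyc Z hZ hZcard _ inf_le_left hne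
    -- the intersection contains `x Z x⁻¹`
    have hcyc' : IsCyclic (MulAut.conj x • P : Subgroup G) :=
      isCyclic_of_surjective (Subgroup.equivSMul (MulAut.conj x) P).toMonoidHom
        (Subgroup.equivSMul (MulAut.conj x) P).surjective
    exact eq_of_card_eq p hp.pos (MulAut.conj x • P : Subgroup G) hcyc' _ _
      (Subgroup.pointwise_smul_le_pointwise_smul_iff.mpr hZ) (h1.trans inf_le_right)
      (by rw [hcardsmul, hZcard]) hZcard
  · intro Q hQ hQ1 x hx
    apply crit
    have hZQ : Z ≤ Q := le_of_ne_bot p P hP hcyc Z hZ hZcard Q hQ hQ1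
    have hxQ : MulAut.conj x • Q = Q := by
      apply Subgroup.eq_of_le_of_card_ge
      · intro y hy
        have h2 := Subgroup.mem_pointwise_smul_iff_inv_smul_mem.mp hy
        have h3 : (MulAut.conj x)⁻¹ • y = x⁻¹ * y * x := by
          rw [inv_smul_eq_iff]
          simp [MulAut.smul_def, MulAut.conj_apply, mul_assoc]
        rw [h3] at h2
        have h4 := (Subgroup.mem_normalizer_iff.mp hx (x⁻¹ * y * x)).mp h2
        simpa [mul_assoc] using h4
      · rw [hcardsmul]
    have h5 : MulAut.conj x • Z ≤ P := by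
      refine le_trans ?_ hQ
      rw [← hxQ]
      exact Subgroup.pointwise_smul_le_pointwise_smul_iff.mpr hZQ
    exact eq_of_card_eq p hp.pos P hcyc _ _ h5 hZ (by rw [hcardsmul, hZcard]) hZcard

end Cfsg.Agent.S4636
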