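import Cfsg.Statements.S4642
import Cfsg.Agent.H646.OverPrime
import Cfsg.Agent.H646.PConstr
import Cfsg.Agent.Lib.Cores

set_option autoImplicit false
open Cfsg

namespace Cfsg.Agent.S4642

/-- Let G be a finite group, p a prime, M a maximal ideal of the algebraic integers containing p, K the largest normal subgroup of G of order prime to p, and L the preimage in G of the largest normal p-subgroup of G/K. Let Q be a Sylow p-subgroup of L and suppose C_G(Q) ≤ L. Let θ be an irreducible character of K invariant under conjugation by every element of G, and let B be the set of irreducible characters of G whose restriction to K contains θ. Then B is a block of G, every Sylow p-subgroup of G is a defect group of B, and B is of principal type: for every p-subgroup R of G exactly one block of C_G(R) induces B. -/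
theorem result {G : Type*} [Group G] [Fintype G] (p : ℕ) [Fact p.Prime] (M : Ideal Cfsg.AlgInt) (hM : Cfsg.IsPModular p M) (K : Subgroup G) (hK : K = Cfsg.pPrimeCore p G) [Fintype K] (L : Subgroup G) (hL : L = Cfsg.pPrimePCore p G) (Q : Subgroup G) (hQL : Q ≤ L) (hQp : IsPGroup p Q) (hQS : ¬ p ∣ Q.relIndex L) (hCQ : Subgroup.centralizer (Q : Set G) ≤ L) (θ : Cfsg.IrrCharacter K) (hθ : ∀ g : G, Cfsg.IsConjCharOf K g (θ : K → ℂ) (θ : K → ℂ)) (B : Set (Cfsg.IrrCharacter G)) (hBdef : ∀ χ : Cfsg.IrrCharacter G, χ ∈ B ↔ Cfsg.classInner (fun k : K => (χ : G → ℂ) k) (θ : K → ℂ) ≠ 0) : Cfsg.IsPBlock M B ∧ (∀ S : Sylow p G, Cfsg.IsDefectGroup p M B S) ∧ ∀ R : Subgroup G, IsPGroup p R → ∃! f : Set (Cfsg.IrrCharacter (Subgroup.centralizer (R : Set G))), Cfsg.IsInducedBlock M (Subgroup.centralizer (R : Set G)) f B := by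
  classical
  have hprime : M.IsPrime := hM.2.1.isPrime
  have := Agent.Blocks.Local.charP_resField hM
  subst hK
  have hKn : (pPrimeCore p G).Normal := Lib.Cores.pPrimeCore_normal p
  have hKc : ¬ p ∣ Nat.card (pPrimeCore p G) :=
    (Nat.Prime.coprime_iff_not_dvd Fact.out).1 (Lib.Cores.pPrimeCore_coprime p).symm
  have hLn : L.Normal := by
    rw [hL]
    exact (Lib.Cores.pCore_normal p).comap _
  have hKL : pPrimeCore p G ≤ L := by
    rw [hL]
    intro x hx
    rw [pPrimePCore, Subgroup.mem_comap, QuotientGroup.mk'_apply,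
      (QuotientGroup.eq_one_iff x).mpr hx]
    exact Subgroup.one_mem _
  -- `L = K Q`
  have hLKQ : L = pPrimeCore p G ⊔ Q := by
    refine le_antisymm ?_ (sup_le hKL hQL)
    rw [← Subgroup.relIndex_eq_one]
    have h1 : (pPrimeCore p G ⊔ Q).relIndex L ∣ Q.relIndex L := by
      have := Subgroup.relIndex_mul_relIndex Q (pPrimeCore p G ⊔ Q) L le_sup_right
        (sup_le hKL hQL)
      rw [← this]
      exact dvd_mul_left _ _
    have h2 : (pPrimeCore p G ⊔ Q).relIndex L ∣ (pPrimeCore p G).relIndex L := by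
      have := Subgroup.relIndex_mul_relIndex (pPrimeCore p G) (pPrimeCore p G ⊔ Q) L le_sup_left
        (sup_le hKL hQL)
      rw [← this]
      exact dvd_mul_left _ _
    have h3 : ∃ n : ℕ, (pPrimeCore p G).relIndex L = p ^ n := by
      obtain ⟨n, hn⟩ := IsPGroup.iff_card.mp (Lib.Cores.pCore_isPGroup (G := G ⧸ pPrimeCore p G) p)
      refine ⟨n, ?_⟩
      rw [← hn]
      have h4 : L.map (QuotientGroup.mk' (pPrimeCore p G)) = pCore p (G ⧸ pPrimeCore p G) := by
        rw [hL, pPrimePCore, Subgroup.map_comap_eq_self_of_surjective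
          (QuotientGroup.mk'_surjective _)]
      rw [← h4, ← Subgroup.relIndex_ker, QuotientGroup.ker_mk']
    obtain ⟨n, hn⟩ := h3
    rw [hn] at h2
    obtain ⟨i, -, hi⟩ := (Nat.dvd_prime_pow (Fact.out : p.Prime)).mp h2
    rcases Nat.eq_zero_or_pos i with h0 | h0
    · rw [hi, h0, pow_zero]
    · exact absurd ((dvd_pow_self p h0.ne').trans (hi ▸ h1)) hQS
  have hinv : ∀ g : G, Blocks.Fong.cj (pPrimeCore p G) g θ = θ := by
    intro g
    have h1 := (H646.UCov.isConjCharOf_iff (pPrimeCore p G) g⁻¹ θ θ).mp (hθ g⁻¹)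
    rw [inv_inv] at h1
    exact h1.symm
  have hBeq : B = Blocks.Fong.lyingOver (pPrimeCore p G) {θ} := by
    ext χ
    rw [hBdef, Blocks.Fong.mem_lyingOver]
    simp
  have hθB := H646.OverPrime.isPBlock_singleton hM hKc θ
  have hidem := H646.OverPrime.idem_lyingOver (M := M) (pPrimeCore p G) hinv
  have hcls : H644.IsCls (H644.emb (pPrimeCore p G)
      (H644.idem M ({θ} : Set (IrrCharacter (pPrimeCore p G))))) := by
    rw [← hidem]
    exact H644.isCls_idem _
  have hone : (H644.idem M ({θ} : Set (IrrCharacter (pPrimeCore p G)))).coeff 1 ≠ 0 := by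
    rw [H644.coeff_idem]
    intro h
    rw [Blocks.Local.redC_eq_zero_iff (H644.memLocalRing_blockCoeff hM
      (H644.isUnion_of_isPBlock hθB) _)] at h
    exact H646.OverPrime.not_memLocalIdeal_one hM hKc θ h
  -- uniqueness on `C_G(R)`
  have huniq : ∀ R : Subgroup G, IsPGroup p R → ∀ φ φ' : IrrCharacter
      (Subgroup.centralizer (R : Set G)),
      H644.lam M (φ : Subgroup.centralizer (R : Set G) → ℂ) (H644.br R (H644.idem M B)) = 1 →
      H644.lam M (φ' : Subgroup.centralizer (R : Set G) → ℂ) (H644.br R (H644.idem M B)) = 1 →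
      SameBlock M (φ : Subgroup.centralizer (R : Set G) → ℂ)
        (φ' : Subgroup.centralizer (R : Set G) → ℂ) := by
    intro R hR φ φ' hφ hφ'
    rw [hBeq, hidem] at hφ hφ'
    obtain ⟨g, hg⟩ := H646.PConstrGrp.exists_conj_normalized hQL hQp hQS hR
    have hLconj : L.map (MulAut.conj g).toMonoidHom = L := by
      ext x
      rw [Subgroup.mem_map_equiv, MulAut.conj_symm_apply]
      constructor
      · intro hx
        have := hLn.conj_mem _ hx g
        simpa [mul_assoc] using this
      · intro hx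
        have := hLn.conj_mem _ hx g⁻¹
        simpa [mul_assoc] using this
    have hKconj : (pPrimeCore p G).map (MulAut.conj g).toMonoidHom = pPrimeCore p G := by
      ext x
      rw [Subgroup.mem_map_equiv, MulAut.conj_symm_apply]
      constructor
      · intro hx
        have := hKn.conj_mem _ hx g
        simpa [mul_assoc] using this
      · intro hx
        have := hKn.conj_mem _ hx g⁻¹
        simpa [mul_assoc] using this
    refine H646.PConstr.sameBlock_of_lam_br hM (L := L) hKc (hQp.map (MulAut.conj g).toMonoidHom)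
      ?_ ?_ hR hg hθB hcls hone hφ hφ'
    · conv_lhs => rw [← hLconj, hLKQ, Subgroup.map_sup, hKconj]
    · intro x hx
      have h1 := (H644.mem_centralizer_map_conj Q g (g⁻¹ * x * g)).mpr (by
        simpa [mul_assoc] using hx)
      have := hLn.conj_mem _ (hCQ h1) g
      simpa [mul_assoc] using this
  have hcl : H644.IsCls (H644.idem M B) := H644.isCls_idem B
  have hU : H644.IsUnion M B := by
    rw [hBeq]
    exact H646.OverPrime.isUnion_lyingOver _ hM hKc hinv
  have hmem : ∀ χ : IrrCharacter G, H644.lam M (χ : G → ℂ) (H644.idem M B) = 1 ↔ χ ∈ B :=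
    fun χ => H644.lam_idem_eq_one_iff hM hU
  have hbr : ∀ R : Subgroup G, H644.br R (H644.idem M B) ≠ 0 := by
    intro R h0
    apply hone
    have h1 := congrArg (fun z => z.coeff 1) h0
    rw [hBeq, hidem] at h1
    simp only [H644.coeff_br, MonoidAlgebra.coeff_zero, Finsupp.zero_apply, Subgroup.coe_one] at h1
    rwa [H644.coeff_emb_of_mem _ (pPrimeCore p G).one_mem] at h1
  -- characters of `C_G(R)` over characters of `B`
  have hblk : IsPBlock M B := by
    obtain ⟨χ₀, hχ₀⟩ := Blocks.Over.exists_over (pPrimeCore p G) θ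
    have hχ₀B : χ₀ ∈ B := (hBdef χ₀).mpr hχ₀
    refine ⟨χ₀, ?_⟩
    ext χ
    constructor
    · intro hχ
      have hbot : IsPGroup p (⊥ : Subgroup G) := IsPGroup.of_bot
      have key : ∀ χ ∈ B, ∃ φ : IrrCharacter (Subgroup.centralizer ((⊥ : Subgroup G) : Set G)),
          H644.lam M (φ : Subgroup.centralizer ((⊥ : Subgroup G) : Set G) → ℂ)
            (H644.br ⊥ (H644.idem M B)) = 1 ∧ ∀ z, H644.IsCls z →
          H644.lam M (φ : Subgroup.centralizer ((⊥ : Subgroup G) : Set G) → ℂ) (H644.br ⊥ z) =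
            H644.lam M (χ : G → ℂ) z := by
        intro χ hχ
        have hbb : IsPBlock M (blockOf M (χ : G → ℂ)) := Blocks.Basic.isPBlock_blockOf χ
        have hself := Blocks.Basic.mem_blockOf_self (M := M) χ
        have h1 : H644.IsCls (H644.br (⊥ : Subgroup G) (H644.idem M (blockOf M (χ : G → ℂ)))) :=
          H644.isCls_br_of_isCls (H644.isCls_idem _)
        obtain ⟨φ, hφ⟩ := H644.exists_lam_eq_one h1 (by
          rw [← H644.br_mul (p := p) hbot (H644.isInv_of_isCls (H644.isCls_idem _) _)
            (H644.isInv_of_isCls (H644.isCls_idem _) _),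
            H644.idem_mul_self hM (H644.isUnion_of_isPBlock hbb)]) (by
          intro h0
          apply H644.idem_ne_zero hM (H644.isUnion_of_isPBlock hbb) ⟨χ, hself⟩
          refine H644.ext_coeff fun g => ?_
          have := congrArg (fun z => z.coeff (⟨g, by
            rw [Subgroup.mem_centralizer_iff]
            intro h hh
            rw [SetLike.mem_coe, Subgroup.mem_bot] at hh
            rw [hh, one_mul, mul_one]⟩ : Subgroup.centralizer ((⊥ : Subgroup G) : Set G))) h0
          exact this)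
        obtain ⟨B', hB', -, h2, h3⟩ := H644.exists_block_of_pair hM hbot φ
        have hBB := h2 _ hbb hφ
        have h4 := h3 χ (hBB ▸ hself)
        exact ⟨φ, by rw [h4 _ hcl, hmem]; exact hχ, h4⟩
      obtain ⟨φ, hφ, h1⟩ := key χ hχ
      obtain ⟨φ', hφ', h1'⟩ := key χ₀ hχ₀B
      have h2 := (H644.lam_eq_iff_sameBlock φ' φ).mpr (huniq ⊥ hbot φ' φ hφ' hφ)
      intro g
      have h3 : H644.lam M (χ₀ : G → ℂ) (H644.clsSum M g) =
          H644.lam M (χ : G → ℂ) (H644.clsSum M g) := by
        rw [← h1 _ (H644.isCls_clsSum g), ← h1' _ (H644.isCls_clsSum g), h2]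
      rw [H644.lam_clsSum, H644.lam_clsSum] at h3
      exact (Blocks.Local.redC_eq_iff (H649.memLocalRing_centralChar χ₀ g)
        (H649.memLocalRing_centralChar χ g)).mp h3
    · intro hχ
      exact hU χ₀ hχ₀B χ hχ
  refine ⟨hblk, fun S => ?_, fun R hR => ?_⟩
  · rw [Blocks.Basic.isDefectGroup_iff]
    refine ⟨1, by rw [hBeq]; exact H646.OverPrime.isDefectClass_one _ hM hKc hinv, ?_⟩
    rw [Blocks.Basic.isSylowCentralizer_iff]
    refine ⟨S.2, ?_, fun T hT _ hST => ?_⟩
    · intro x _
      rw [Subgroup.mem_centralizer_singleton_iff, mul_one, one_mul]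
    · exact S.3 hT hST
  · have hE : H644.IsCls (H644.br R (H644.idem M B)) := H644.isCls_br_of_isCls hcl
    obtain ⟨φ, hφ⟩ := H644.exists_lam_eq_one hE (by
      rw [← H644.br_mul (p := p) hR (H644.isInv_of_isCls hcl _)
        (H644.isInv_of_isCls hcl _), H644.idem_mul_self hM hU]) (hbr R)
    have hf : IsPBlock M (blockOf M (φ : Subgroup.centralizer (R : Set G) → ℂ)) :=
      Blocks.Basic.isPBlock_blockOf φ
    have hself := Blocks.Basic.mem_blockOf_self (M := M) φ
    refine ⟨_, (H649.isBrauerPairOf_iff_isInducedBlock hM hblk hR hf).mp ?_, fun f hfB => ?_⟩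
    · rw [H644.isBrauerPairOf_iff hM]
      exact ⟨⟨hR, hf⟩, hblk, (H644.forall_lam_iff hf hself _ _).2 hφ⟩
    · have h1 := (H649.isBrauerPairOf_iff_isInducedBlock hM hblk hR hfB.1).mpr hfB
      rw [H644.isBrauerPairOf_iff hM] at h1
      obtain ⟨ψ, hψ⟩ := Blocks.Basic.isPBlock_nonempty hfB.1
      have h2 := huniq R hR φ ψ hφ (h1.2.2 ψ hψ)
      exact Blocks.Basic.isPBlock_eq_of_mem hfB.1 hf hψ h2

end Cfsg.Agent.S4642
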