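import Cfsg.Statements.S4647
import Cfsg.Agent.H646.TwoSided
import Cfsg.Agent.S0908

set_option autoImplicit false
open Cfsg

namespace Cfsg.Agent.S4647

/-- Let B be a block of the finite group G relative to a maximal ideal M of the algebraic integers containing the prime p, p^a the p-part of the order of G and p^d the order of a defect group D of B. If Σ_{χ ∈ B} χ(1)² = p^(2a−d) (the least possible value), then B is nilpotent. -/
theorem result {G : Type*} [Group G] [Finite G] (p : ℕ) [Fact p.Prime] (M : Ideal Cfsg.AlgInt) (hM : Cfsg.IsPModular p M) (B : Set (Cfsg.IrrCharacter G)) (hB : Cfsg.IsPBlock M B) (D : Subgroup G) (hD : Cfsg.IsDefectGroup p M B D) (a d : ℕ) (ha : (Nat.card G).factorization p = a) (hd : Nat.card D = p ^ d) (hmin : ∑ᶠ χ ∈ B, Cfsg.charDegree (χ : G → ℂ) ^ 2 = p ^ (2 * a - d)) : Cfsg.IsNilpotentBlock p M B := by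
  classical
  have hprime : M.IsPrime := hM.2.1.isPrime
  have := Agent.Blocks.Local.charP_resField hM
  have := Fintype.ofFinite G
  refine ⟨hB, fun Q e hQe x hxQ _ hxreg => ?_⟩
  have hQp : IsPGroup p Q := hQe.1.1
  obtain ⟨S, hQS⟩ := hQp.exists_le_sylow
  letI := H646.TwoSided.twoSided (S : Subgroup G)
  have hSp := H646.TwoSided.isPGroup_prod S.2
  -- a defect group inside `S`
  obtain ⟨S', hS'⟩ := (Blocks.Basic.isPGroup_of_isDefectGroup hD).exists_le_sylow
  obtain ⟨g₀, hg₀⟩ := MulAction.exists_smul_eq G S' S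
  have hg₀' : ((S' : Subgroup G)).map (MulAut.conj g₀).toMonoidHom = (S : Subgroup G) := by
    rw [← hg₀]
    rfl
  let D₀ : Subgroup G := D.map (MulAut.conj g₀).toMonoidHom
  have hD₀ : IsDefectGroup p M B D₀ := Blocks.Basic.isDefectGroup_conj hD g₀
  have hD₀S : D₀ ≤ (S : Subgroup G) := by
    rw [← hg₀']
    exact Subgroup.map_mono hS'
  have hcardD₀ : Nat.card D₀ = Nat.card D := by
    refine (Nat.card_congr (Subgroup.equivMapOfInjective D _ ?_).toEquiv).symm
    exact (MulAut.conj g₀).injective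
  have hcardS : Nat.card S = p ^ a := by rw [S.card_eq_multiplicity, ha]
  have hda : d ≤ a := by
    have h1 := Subgroup.card_dvd_of_le hD₀S
    rw [hcardD₀, hd, hcardS] at h1
    exact (Nat.pow_dvd_pow_iff_le_right (Fact.out : p.Prime).one_lt).mp h1
  let E := H646.RankIdem.convK (H644.idem M B)
  have hcls : H644.IsCls (H644.idem M B) := H644.isCls_idem B
  have hE := H646.TwoSided.equi_convK (S : Subgroup G) hcls
  have hbb := H644.idem_mul_self hM (H644.isUnion_of_isPBlock hB)
  have hEE : E * E = E := by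
    rw [H646.RankIdem.convK_mul, hbb]
  have hrank : E.rank * Nat.card D ≤ Nat.card (S × S) := by
    rw [H646.RankIdem.rank_convK_idem hM (H644.isUnion_of_isPBlock hB), hmin, hd, Nat.card_prod,
      hcardS, ← pow_add, ← pow_add]
    refine le_of_eq ?_
    congr 1
    omega
  -- the diagonal copy of the defect group
  let T₀ : Subgroup (S × S) := (D₀.subgroupOf S).map (MonoidHom.prod (MonoidHom.id S) (MonoidHom.id S))
  have hT₀ : Nat.card T₀ = Nat.card D := by
    rw [← hcardD₀]
    have h1 : Function.Injective (MonoidHom.prod (MonoidHom.id S) (MonoidHom.id S)) := by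
      intro a b hab
      exact congrArg Prod.fst hab
    rw [← Nat.card_congr (Subgroup.equivMapOfInjective (D₀.subgroupOf S) _ h1).toEquiv]
    exact Nat.card_congr (Subgroup.subgroupOfEquivOfLe hD₀S).toEquiv
  have hT₀mem : ∀ t ∈ T₀, ∃ u ∈ D₀, (t.1 : G) = u ∧ (t.2 : G) = u := by
    rintro _ ⟨u, hu, rfl⟩
    exact ⟨u, hu, rfl, rfl⟩
  have hD₀p := Blocks.Basic.isPGroup_of_isDefectGroup hD₀
  obtain ⟨x₀, hx₀⟩ : ∃ x₀ : Subgroup.centralizer (D₀ : Set G), (H644.idem M B).coeff x₀ ≠ 0 := by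
    have h1 := (H644.br_idem_ne_zero_iff hM hB hD₀p).mpr ⟨D₀, hD₀, le_refl _⟩
    by_contra hcon
    push Not at hcon
    apply h1
    refine H644.ext_coeff fun g => ?_
    rw [H644.coeff_br, hcon g]
    rfl
  have hv₀ : E.mulVec (fun g => (H644.idem M B).coeff g) = fun g => (H644.idem M B).coeff g := by
    rw [H646.RankIdem.convK_mulVec, hbb]
  -- the twisted diagonal copy of `Q`
  have hxmem : ∀ u ∈ Q, x * u * x⁻¹ ∈ Q := fun u hu => (Subgroup.mem_normalizer_iff.mp hxQ u).mp hu
  let f : Q →* S × S := MonoidHom.prod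
    { toFun := fun u => ⟨x * u * x⁻¹, hQS (hxmem u u.2)⟩
      map_one' := Subtype.ext (by simp)
      map_mul' := fun u v => Subtype.ext (by push_cast; group) }
    (Subgroup.inclusion hQS)
  let T : Subgroup (S × S) := f.range
  let w : MonoidAlgebra (Blocks.Local.ResField M) G :=
    H644.emb _ (H644.idem M e) * H644.idem M B
  have hwinv : H644.IsInv Q w := H644.isInv_mul (H646.TwoSided.isInv_emb_centralizer Q _)
    (H644.isInv_of_isCls hcls _)
  have hwb : w * H644.idem M B = w := by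
    show H644.emb _ (H644.idem M e) * H644.idem M B * H644.idem M B = _
    rw [mul_assoc, hbb]
  obtain ⟨c, hc⟩ : ∃ c : Subgroup.centralizer (Q : Set G), w.coeff c ≠ 0 := by
    by_contra hcon
    push Not at hcon
    have h1 : H644.br Q w = 0 := by
      refine H644.ext_coeff fun g => ?_
      rw [H644.coeff_br, hcon g]
      rfl
    have h2 : H644.br Q w = H644.idem M e * H644.br Q (H644.idem M B) := by
      show H644.br Q (H644.emb _ (H644.idem M e) * H644.idem M B) = _
      rw [H644.br_mul (p := p) hQp (H646.TwoSided.isInv_emb_centralizer Q _)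
        (H644.isInv_of_isCls hcls _)]
      congr 1
      exact H644.res_emb _ _
    rw [h1] at h2
    have h3 := (H644.isBrauerPairOf_iff hM).mp hQe
    obtain ⟨ξ, hξ⟩ := Blocks.Basic.isPBlock_nonempty h3.1.2
    have h4 := congrArg (H644.lam M (ξ : Subgroup.centralizer (Q : Set G) → ℂ)) h2
    rw [H644.lam_mul ξ (H644.isCls_idem _) (H644.isCls_br_of_isCls hcls), h3.2.2 ξ hξ,
      H644.lam_idem_of_mem hM (H644.isUnion_of_isPBlock h3.1.2) hξ, map_zero, mul_one] at h4
    exact zero_ne_one h4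
  let wx : MonoidAlgebra (Blocks.Local.ResField M) G := MonoidAlgebra.single x 1 * w
  have hwxc : ∀ g, wx.coeff g = w.coeff (x⁻¹ * g) := by
    intro g
    show (MonoidAlgebra.single x 1 * w).coeff g = _
    rw [MonoidAlgebra.coeff_single_mul_apply, one_mul]
  have hv : E.mulVec (fun g => wx.coeff g) = fun g => wx.coeff g := by
    rw [H646.RankIdem.convK_mulVec]
    have : wx * H644.idem M B = wx := by
      show MonoidAlgebra.single x 1 * w * H644.idem M B = _
      rw [mul_assoc, hwb]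
    rw [this]
  obtain ⟨g, hg⟩ := H646.PermModule.exists_conj_le (p := p) hSp hE hEE
    (fun T v y hv hvT hy hvy => H646.TwoSided.card_le_of_fixed hM hB hD S.2 T v y hv hvT hy hvy)
    hrank hT₀ hv₀ (x₀ := (x₀ : G)) (by
      intro t ht y
      obtain ⟨u, hu, h1, h2⟩ := hT₀mem t ht
      rw [H646.TwoSided.twoSided_smul, h1, h2]
      exact hcls y u) (by
      intro t ht
      obtain ⟨u, hu, h1, h2⟩ := hT₀mem t ht
      rw [H646.TwoSided.twoSided_smul, h1, h2, Subgroup.mem_centralizer_iff.mp x₀.2 u hu,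
        mul_inv_cancel_right]) hx₀ (T := T) (x := x * (c : G)) hv (by
      rintro _ ⟨u, rfl⟩ y
      rw [H646.TwoSided.twoSided_smul]
      show wx.coeff (x * u * x⁻¹ * y * (u : G)⁻¹) = wx.coeff y
      rw [hwxc, hwxc, ← hwinv u u.2 (x⁻¹ * y)]
      congr 1
      group) (by
      rintro _ ⟨u, rfl⟩
      rw [H646.TwoSided.twoSided_smul]
      show x * u * x⁻¹ * (x * c) * (u : G)⁻¹ = x * c
      have h1 := Subgroup.mem_centralizer_iff.mp c.2 u u.2
      calc x * u * x⁻¹ * (x * c) * (u : G)⁻¹ = x * (u * c) * (u : G)⁻¹ := by group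
        _ = x * c := by rw [h1]; group) (by
      rw [hwxc, inv_mul_cancel_left]
      exact hc)
  -- conjugation by `x` on `Q` is conjugation by an element of `S`
  obtain ⟨s, t⟩ := g
  have hconj : ∀ u ∈ Q, x * u * x⁻¹ = ((s * t⁻¹ : S) : G) * u * ((s * t⁻¹ : S) : G)⁻¹ := by
    intro u hu
    obtain ⟨u', hu', h1, h2⟩ := hT₀mem _ (hg (f ⟨u, hu⟩) ⟨⟨u, hu⟩, rfl⟩)
    have h3 : (s : G)⁻¹ * (x * u * x⁻¹) * s = u' := h1
    have h4 : (t : G)⁻¹ * u * t = u' := h2
    rw [← h4] at h3
    calc x * u * x⁻¹ = s * ((s : G)⁻¹ * (x * u * x⁻¹) * s) * (s : G)⁻¹ := by group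
      _ = s * ((t : G)⁻¹ * u * t) * (s : G)⁻¹ := by rw [h3]
      _ = _ := by push_cast; group
  have hpow : ∀ n : ℕ, ∀ u ∈ Q, x ^ n * u * (x ^ n)⁻¹ =
      ((s * t⁻¹ : S) : G) ^ n * u * (((s * t⁻¹ : S) : G) ^ n)⁻¹ := by
    intro n
    induction n with
    | zero => intro u _; simp
    | succ n ih =>
      intro u hu
      have h1 := ih _ (hxmem u hu)
      calc x ^ (n + 1) * u * (x ^ (n + 1))⁻¹ = x ^ n * (x * u * x⁻¹) * (x ^ n)⁻¹ := by
            rw [pow_succ]; group
        _ = ((s * t⁻¹ : S) : G) ^ n * (x * u * x⁻¹) * (((s * t⁻¹ : S) : G) ^ n)⁻¹ := h1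
        _ = _ := by rw [hconj u hu, pow_succ]; group
  obtain ⟨n, hn⟩ := S.2 (s * t⁻¹)
  have hn' : ((s * t⁻¹ : S) : G) ^ p ^ n = 1 := by
    rw [← Subgroup.coe_pow, hn, Subgroup.coe_one]
  have hxn : x ^ p ^ n ∈ Subgroup.centralizer (Q : Set G) := by
    rw [Subgroup.mem_centralizer_iff]
    intro u hu
    have h1 := hpow (p ^ n) u hu
    rw [hn', one_mul, inv_one, mul_one, mul_inv_eq_iff_eq_mul] at h1
    exact h1.symm
  have hcop : (orderOf x).Coprime (p ^ n) :=
    Nat.Coprime.pow_right n ((Nat.Prime.coprime_iff_not_dvd Fact.out).2 hxreg).symm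
  obtain ⟨m, hm⟩ := exists_pow_eq_self_of_coprime hcop.symm
  rw [← hm]
  exact Subgroup.pow_mem _ hxn m

end Cfsg.Agent.S4647
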