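import Cfsg.Statements.S4649
import Cfsg.Agent.H653.CycFinal
import Cfsg.Agent.S4687
import Cfsg.Agent.S4689

set_option autoImplicit false
open Cfsg

namespace Cfsg.Agent.S4649

/-- A block with cyclic defect group, of a finite group relative to a maximal ideal M of the algebraic integers containing the prime p, is nilpotent if and only if its p-regular rank is 1 (it has a unique irreducible Brauer character). -/
theorem result {G : Type*} [Group G] [Finite G] (p : ℕ) [Fact p.Prime] (M : Ideal Cfsg.AlgInt) (hM : Cfsg.IsPModular p M) (B : Set (Cfsg.IrrCharacter G)) (hB : Cfsg.IsPBlock M B) (P : Subgroup G) (hPD : Cfsg.IsDefectGroup p M B P) (hcyc : IsCyclic P) : Cfsg.IsNilpotentBlock p M B ↔ Cfsg.blockRank p B = 1 := by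
  have := Fintype.ofFinite G
  have hprime : M.IsPrime := hM.2.1.isPrime
  constructor
  · intro h
    exact (Cfsg.Agent.S4689.result p M hM B h).1
  · intro h1
    obtain ⟨e, he⟩ := Cfsg.Agent.H644.exists_pair_of_le_isDefectGroup hM hB hPD le_rfl
    have hmax := Cfsg.Agent.H644.isMaximalBrauerPair_of_isDefectGroup hM he hPD
    have hab : ∀ x ∈ P, ∀ y ∈ P, x * y = y * x := by
      intro x hx y hy
      exact congrArg Subtype.val (mul_comm' (⟨x, hx⟩ : P) ⟨y, hy⟩)
    refine (Cfsg.Agent.S4687.result p M hM B P e hmax hab).2 ?_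
    intro x hx hst
    have hpg := Cfsg.Agent.H641.isPGroup_of_isDefectGroup hPD
    obtain ⟨n, hn⟩ := IsPGroup.iff_card.1 hpg
    by_cases hn0 : n = 0
    · rw [hn0, pow_zero] at hn
      have hbot : P = ⊥ := Subgroup.eq_bot_of_card_eq P hn
      rw [hbot]
      rw [Subgroup.mem_centralizer_iff]
      intro y hy
      have hy1 : y = 1 := by simpa using hy
      simp [hy1]
    · obtain ⟨z, hz⟩ := exists_prime_orderOf_dvd_card' p (G := P) (by
        rw [hn]
        exact dvd_pow_self p hn0)
      have h : Cfsg.Agent.H653.CycPairs.Hyp p M B ⟨P, e⟩ (z : G) :=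
        ⟨hM, hmax, hcyc, z.2, by rw [Subgroup.orderOf_coe]; exact hz⟩
      obtain ⟨-, h2, -⟩ := Cfsg.Agent.H653.CycFinal.dvd_and h hn rfl
      have h3 := (Cfsg.Agent.H653.CycMain.exists_rows h rfl h2).1
      rw [h1] at h3
      have h4 := Subgroup.relIndex_eq_one.1 h3.symm
      exact h4 ((Cfsg.Agent.H649.conjIdx_eq_iff hmax.1.1.2 x).2 ⟨hx, hst⟩)

end Cfsg.Agent.S4649
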