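import Cfsg.Statements.S4650
import Cfsg.Agent.H645.AbelPair

set_option autoImplicit false
open Cfsg

namespace Cfsg.Agent.S4650

/-- Let B be a block of the finite group G relative to a maximal ideal M of the algebraic integers containing the prime p, with a nontrivial commutative defect group P; let c be a block of C_G(P) inducing B and T the stabilizer of c in N_G(P). Then T/C_G(P) acts freely on the non-identity elements of P (an element of T fixing a non-identity element of P under conjugation lies in C_G(P)) if and only if, for every nontrivial subgroup Q of P, the block of C_G(Q) induced by c inside C_G(Q) is a nilpotent block of C_G(Q). -/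
theorem result {G : Type*} [Group G] [Finite G] (p : ℕ) [Fact p.Prime] (M : Ideal Cfsg.AlgInt) (hM : Cfsg.IsPModular p M) (B : Set (Cfsg.IrrCharacter G)) (hB : Cfsg.IsPBlock M B) (P : Subgroup G) (hPD : Cfsg.IsDefectGroup p M B P) (hPab : ∀ x ∈ P, ∀ y ∈ P, x * y = y * x) (hP1 : P ≠ ⊥) (c : Set (Cfsg.IrrCharacter (Subgroup.centralizer (P : Set G)))) (hc : Cfsg.IsInducedBlock M (Subgroup.centralizer (P : Set G)) c B) (T : Subgroup G) (hT : ∀ g : G, g ∈ T ↔ (g ∈ Subgroup.normalizer (P : Set G) ∧ Cfsg.StabilizesBlock (Subgroup.centralizer (P : Set G)) c g)) : (∀ g ∈ T, ∀ x ∈ P, x ≠ 1 → g * x * g⁻¹ = x → g ∈ Subgroup.centralizer (P : Set G)) ↔ ∀ Q : Subgroup G, Q ≤ P → Q ≠ ⊥ → ∀ f : Set (Cfsg.IrrCharacter (Subgroup.centralizer (Q : Set G))), Cfsg.IsInducedBlockIn M (Subgroup.centralizer (Q : Set G)) (Subgroup.centralizer (P : Set G)) c f → Cfsg.IsNilpotentBlock p M f := by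
  have hMp : M.IsPrime := Cfsg.Agent.Blocks.Local.isPrime_of_isPModular hM
  have hmax := Cfsg.Agent.H641.isMaximal_of_induced hM hPD hc
  have hPg := Cfsg.Agent.H641.isPGroup_of_isDefectGroup hPD
  have hstab : ∀ g : G, Cfsg.Agent.H649.conjIdx g ⟨P, c⟩ = ⟨P, c⟩ ↔ g ∈ T := fun g => by
    rw [Cfsg.Agent.H649.conjIdx_eq_iff hc.1 g, hT g]
  constructor
  · intro h Q hQP hQ1 f hf
    exact Cfsg.Agent.H641.isNilpotentBlock_of_free hM hmax hPab
      (fun t ht u hu hu1 htu => h t ((hstab t).1 ht) u hu hu1 htu) hQ1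
      ((Cfsg.Agent.H645.AbelPair.inducedIn_iff hM hPg hPab hQP hc.1).1 hf)
  · intro h g hg x hx hx1 hgx
    have hQP : Subgroup.zpowers x ≤ P := Subgroup.zpowers_le_of_mem hx
    have hQ1 : Subgroup.zpowers x ≠ ⊥ := fun h0 => hx1 (Subgroup.zpowers_eq_bot.1 h0)
    obtain ⟨f, hf⟩ := Cfsg.Agent.H645.AbelPair.exists_inducedIn hM hPg hPab hQP hc.1
    refine Cfsg.Agent.H645.AbelPair.mem_centralizer_of_nilpotent hM hmax hPab
      ((Cfsg.Agent.H645.AbelPair.inducedIn_iff hM hPg hPab hQP hc.1).1 hf)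
      (h _ hQP hQ1 f hf) ((hstab g).2 hg) ?_
    have hgx' : g * x = x * g := by
      calc g * x = g * x * g⁻¹ * g := by group
        _ = x * g := by rw [hgx]
    rw [Subgroup.mem_centralizer_iff]
    intro y hy
    obtain ⟨k, rfl⟩ := Subgroup.mem_zpowers_iff.1 hy
    exact ((show Commute x g from hgx'.symm).zpow_left k).eq

end Cfsg.Agent.S4650
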