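import Cfsg.Statements.S4654
import Mathlib
import Cfsg.Agent.H646.UCov
import Cfsg.Agent.H646.SubT

set_option autoImplicit false
open Cfsg

namespace Cfsg.Agent.S4654

open Cfsg.Agent.H646

/-- A Brauer pair `(P, e)` of `B`, `P` normal: the members of `e` lie under `B`. -/
theorem mem_underSet_of_isBrauerPairOf {G : Type*} [Group G] [Fintype G] {p : ℕ} [Fact p.Prime]
    {M : Ideal Cfsg.AlgInt} (hM : Cfsg.IsPModular p M) (P : Subgroup G) [P.Normal]
    (hP : IsPGroup p P) {B : Set (Cfsg.IrrCharacter G)}
    {e : Set (Cfsg.IrrCharacter (Subgroup.centralizer (P : Set G)))}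
    [Fintype (Subgroup.centralizer (P : Set G))]
    (hBe : Cfsg.IsBrauerPairOf p M B P e)
    {ξ : IrrCharacter (Subgroup.centralizer (P : Set G))} (hξ : ξ ∈ e) :
    ξ ∈ NormalSupport.underSet (Subgroup.centralizer (P : Set G)) B := by
  classical
  have hprime : M.IsPrime := hM.2.1.isPrime
  have hCn : (Subgroup.centralizer (P : Set G)).Normal := Subgroup.normal_centralizer
  obtain ⟨⟨-, he⟩, hB, h⟩ := hBe
  by_contra hnot
  have h1 := h ξ hξ
  have hU := UCov.ucov_of_centralizer_le hM P hP _ le_rfl
  have h2 : brauerOmega P (blockCoeff B) (ξ : Subgroup.centralizer (P : Set G) → ℂ) = 0 := by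
    unfold brauerOmega
    rw [finsum_eq_sum_of_fintype]
    have h3 := Blocks.Fong.sum_blockCoeff_mul
      (NormalSupport.underSet (Subgroup.centralizer (P : Set G)) B) ξ
    rw [if_neg hnot] at h3
    have h4 : ∀ x : Subgroup.centralizer (P : Set G),
        blockCoeff B (x : G) * (ξ : Subgroup.centralizer (P : Set G) → ℂ) x /
          (ξ : Subgroup.centralizer (P : Set G) → ℂ) 1 =
        (blockCoeff (NormalSupport.underSet (Subgroup.centralizer (P : Set G)) B) x *
          (ξ : Subgroup.centralizer (P : Set G) → ℂ) x) *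
          ((ξ : Subgroup.centralizer (P : Set G) → ℂ) 1)⁻¹ := by
      intro x
      rw [UCov.blockCoeff_eq _ hU hB, dif_pos x.2, div_eq_mul_inv]
    rw [Finset.sum_congr rfl fun x _ => h4 x, ← Finset.sum_mul, h3, zero_mul]
  rw [h2, zero_sub, Blocks.Local.memLocalIdeal_neg_iff] at h1
  exact Blocks.Local.not_memLocalIdeal_one h1

/-- Fix a prime p and a maximal ideal M of the algebraic integers containing p. Let P be a normal p-subgroup of the finite group G, B a p-block of G and e a p-block of C_G(P) such that (P, e) is a Brauer pair of B (as P is normal, this says that e occurs in the idempotent of B, which is supported on C_G(P)). Let T be the stabilizer of e in G under conjugation. Then the idempotent of e is a block idempotent of T: some block E of T has, at every element of T, the same idempotent coefficient as e (zero off C_G(P)); and the idempotent of B is the sum of the distinct G-conjugates of the idempotent of e: its coefficient at g is the sum over all x in G of the coefficient of e at x⁻¹ g x, divided by the order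 of T. -/
theorem result {G : Type*} [Group G] [Fintype G] (p : ℕ) [Fact p.Prime] (M : Ideal Cfsg.AlgInt) (hM : Cfsg.IsPModular p M) (P : Subgroup G) [P.Normal] (hP : IsPGroup p P) (B : Set (Cfsg.IrrCharacter G)) (e : Set (Cfsg.IrrCharacter (Subgroup.centralizer (P : Set G)))) (hBe : Cfsg.IsBrauerPairOf p M B P e) (T : Subgroup G) (hT : ∀ x : G, x ∈ T ↔ Cfsg.StabilizesBlock (Subgroup.centralizer (P : Set G)) e x) : (∃ E : Set (Cfsg.IrrCharacter T), Cfsg.IsPBlock M E ∧ ∀ t : T, Cfsg.blockCoeff E t = Cfsg.subgroupBlockCoeff (Subgroup.centralizer (P : Set G)) e (t : G)) ∧ ∀ g : G, Cfsg.blockCoeff B g = (Nat.card T : ℂ)⁻¹ * ∑ x : G, Cfsg.subgroupBlockCoeff (Subgroup.centralizer (P : Set G)) e (x⁻¹ * g * x) := by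
  classical
  have hprime : M.IsPrime := hM.2.1.isPrime
  have hCn : (Subgroup.centralizer (P : Set G)).Normal := Subgroup.normal_centralizer
  have : Fintype (Subgroup.centralizer (P : Set G)) := Fintype.ofFinite _
  have : Fintype T := Fintype.ofFinite _
  have he : IsPBlock M e := hBe.1.2
  have hB : IsPBlock M B := hBe.2.1
  obtain ⟨θ, hθ⟩ := Blocks.Basic.isPBlock_nonempty he
  have hθB := mem_underSet_of_isBrauerPairOf hM P hP hBe hθ
  have hU := UCov.ucov_of_centralizer_le hM P hP _ le_rfl
  refine ⟨?_, fun g => UCov.blockCoeff_eq_sum _ hM hU hB he hθ hθB T hT g⟩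
  -- the centralizer and `P` lie in `T`
  have hCT : Subgroup.centralizer (P : Set G) ≤ T := by
    intro x hx
    rw [hT, UCov.stabilizesBlock_iff_cj]
    intro ψ hψ
    have h1 : Blocks.Fong.cj (Subgroup.centralizer (P : Set G)) x⁻¹ ψ = ψ := by
      apply Subtype.ext
      funext n
      rw [Blocks.Fong.cj_apply]
      have h2 := Blocks.Basic.irr_conj ψ.2 n (⟨x⁻¹, inv_mem hx⟩ : Subgroup.centralizer (P : Set G))
      rw [← h2]
      refine congrArg (ψ : Subgroup.centralizer (P : Set G) → ℂ) (Subtype.ext ?_)
      rw [MulAut.conjNormal_apply]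
      rfl
    rwa [h1]
  have hPT : P ≤ T := by
    intro x hx
    rw [hT, UCov.stabilizesBlock_iff_cj]
    intro ψ hψ
    have h1 : Blocks.Fong.cj (Subgroup.centralizer (P : Set G)) x⁻¹ ψ = ψ := by
      apply Subtype.ext
      funext n
      rw [Blocks.Fong.cj_apply]
      refine congrArg (ψ : Subgroup.centralizer (P : Set G) → ℂ) (Subtype.ext ?_)
      rw [MulAut.conjNormal_apply]
      have h2 := Subgroup.mem_centralizer_iff.mp n.2 x hx
      rw [inv_inv, mul_assoc, ← h2, inv_mul_cancel_left]
    rwa [h1]
  -- apply the stable case in `T`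
  set N' := (Subgroup.centralizer (P : Set G)).subgroupOf T with hN'
  have : Fintype N' := Fintype.ofFinite _
  have hN'n : N'.Normal := inferInstance
  have hP'n : (P.subgroupOf T).Normal := inferInstance
  have hP'p : IsPGroup p (P.subgroupOf T) := hP.comap_subtype
  have hN'c : Subgroup.centralizer ((P.subgroupOf T : Subgroup T) : Set T) ≤ N' := by
    intro t ht
    rw [hN', Subgroup.mem_subgroupOf, Subgroup.mem_centralizer_iff]
    intro x hx
    have h1 := Subgroup.mem_centralizer_iff.mp ht ⟨x, hPT hx⟩ hx
    exact congrArg Subtype.val h1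
  have hU' := UCov.ucov_of_centralizer_le (G := T) hM (P.subgroupOf T) hP'p N' hN'c
  obtain ⟨E, hE, -, hcoeff⟩ := UCov.exists_block_of_stable N' hM hU' (SubT.isPBlock_subE hCT he)
    (fun t => SubT.stabilizesBlock_subE hCT ((hT t).mp t.2))
  refine ⟨E, hE, fun t => ?_⟩
  rw [hcoeff, SubT.subgroupBlockCoeff_subE]

end Cfsg.Agent.S4654
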