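import Cfsg.Statements.S4666
import Mathlib
import Cfsg.Agent.H646.RegInner

set_option autoImplicit false
open Cfsg

namespace Cfsg.Agent.S4666

open Cfsg.Agent.H646

/-- Fix a prime p and a maximal ideal M of the algebraic integers containing p, and a p-block B of the finite group G of defect d. For every integer combination χ of the irreducible characters in B, p^d times the function that agrees with χ on p-regular elements and vanishes elsewhere is again an integer combination of the irreducible characters in B. -/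
theorem result {G : Type*} [Group G] [Fintype G] (p : ℕ) [Fact p.Prime] (M : Ideal Cfsg.AlgInt) (hM : Cfsg.IsPModular p M) (B : Set (Cfsg.IrrCharacter G)) (hB : Cfsg.IsPBlock M B) (χ : G → ℂ) (hχ : (∃ n : Cfsg.IrrCharacter G → ℤ, ∀ g : G, χ g = ∑ᶠ ψ ∈ B, (n ψ : ℂ) * (ψ : G → ℂ) g)) : (∃ n : Cfsg.IrrCharacter G → ℤ, ∀ g : G, (p ^ Cfsg.blockDefect p B : ℂ) * Cfsg.pRegularPart p χ g = ∑ᶠ ψ ∈ B, (n ψ : ℂ) * (ψ : G → ℂ) g) := by
  classical
  have hfin : Finite (IrrCharacter G) := S0909.finite_irr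
  have := Fintype.ofFinite (IrrCharacter G)
  obtain ⟨n, hn⟩ := hχ
  have h1 : ∀ φ : IrrCharacter G, ∃ m : IrrCharacter G → ℤ, φ ∈ B → ∀ ψ : IrrCharacter G,
      ((p ^ blockDefect p B : ℕ) : ℂ) *
        classInner (pRegularPart p (φ : G → ℂ)) (ψ : G → ℂ) = m ψ := by
    intro φ
    by_cases hφ : φ ∈ B
    · choose m hm using fun ψ : IrrCharacter G => RegInner.exists_int_pow_defect hM hφ ψ
      exact ⟨m, fun _ => hm⟩
    · exact ⟨fun _ => 0, fun h => absurd h hφ⟩
  choose m hm using h1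
  refine ⟨fun ψ => ∑ φ : IrrCharacter G with φ ∈ B, n φ * m φ ψ, fun g => ?_⟩
  have h2 : pRegularPart p χ = ∑ φ : IrrCharacter G with φ ∈ B,
      (n φ : ℂ) • pRegularPart p (φ : G → ℂ) := by
    have h3 : χ = ∑ φ : IrrCharacter G with φ ∈ B, (n φ : ℂ) • (φ : G → ℂ) := by
      ext x
      rw [hn x, Blocks.Orthogonality.finsum_mem_eq_sum_filter, Finset.sum_apply]
      rfl
    conv_lhs => rw [h3, ← RegInner.regMap_apply, map_sum]
    refine Finset.sum_congr rfl fun φ _ => ?_
    rw [map_smul, RegInner.regMap_apply]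
  rw [h2, Finset.sum_apply, Blocks.Orthogonality.finsum_mem_eq_sum_filter, Finset.mul_sum]
  have h4 : ∀ φ ∈ (Finset.univ.filter (· ∈ B) : Finset (IrrCharacter G)),
      (p ^ blockDefect p B : ℂ) * ((n φ : ℂ) • pRegularPart p (φ : G → ℂ)) g =
      ∑ ψ : IrrCharacter G with ψ ∈ B, (n φ : ℂ) * (m φ ψ : ℂ) * (ψ : G → ℂ) g := by
    intro φ hφ
    have hφB : φ ∈ B := by simpa using hφ
    rw [Pi.smul_apply, smul_eq_mul]
    conv_lhs => rw [RegInner.pRegularPart_eq_sum hM hB hφB]
    rw [Finset.sum_apply, Finset.mul_sum, Finset.mul_sum]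
    refine Finset.sum_congr rfl fun ψ _ => ?_
    rw [Pi.smul_apply, smul_eq_mul, ← hm φ hφB ψ]
    push_cast
    ring
  rw [Finset.sum_congr rfl h4, Finset.sum_comm]
  refine Finset.sum_congr rfl fun ψ _ => ?_
  rw [← Finset.sum_mul]
  push_cast
  rfl

end Cfsg.Agent.S4666
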