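import Cfsg.Statements.S4668
import Mathlib
import Cfsg.Agent.H646.NormalSupport
import Cfsg.Agent.Lib.ThompsonPQ
import Cfsg.Agent.S0907

set_option autoImplicit false
open Cfsg

namespace Cfsg.Agent.S4668

open Cfsg.Agent.H646

/-- Fix a prime p and a maximal ideal M of the algebraic integers containing p. Let Q₀ < Q₁ < ⋯ < Q_m be a strictly increasing chain of p-subgroups of the finite group G and N the intersection of their normalizers. Then every block idempotent of N is supported on C_G(Q_m): for every p-block E of N, the idempotent coefficient of E vanishes at every element of N outside C_G(Q_m). -/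
theorem result {G : Type*} [Group G] [Fintype G] (p : ℕ) [Fact p.Prime] (M : Ideal Cfsg.AlgInt) (hM : Cfsg.IsPModular p M) (m : ℕ) (Q : Fin (m + 1) → Subgroup G) (hQ : StrictMono Q) (hQp : ∀ i, IsPGroup p (Q i)) (N : Subgroup G) (hN : ∀ g : G, g ∈ N ↔ ∀ i, g ∈ Subgroup.normalizer (Q i : Set G)) (E : Set (Cfsg.IrrCharacter N)) (hE : Cfsg.IsPBlock M E) (n : N) (hn : (n : G) ∉ Subgroup.centralizer (Q (Fin.last m) : Set G)) : Cfsg.blockCoeff E n = 0 := by
  classical
  have hp : p.Prime := Fact.out
  have : Fintype N := Fintype.ofFinite _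
  by_contra hne
  apply hn
  -- `n` is `p`-regular
  have hreg : ¬ p ∣ orderOf n := by
    intro hd
    apply hne
    have h := S0907.result p M hM E hE 1 n (by
      rw [orderOf_one]; exact fun h => hp.one_lt.ne' (Nat.dvd_one.mp h)) hd
    rw [Blocks.Basic.blockCoeff_def, h, mul_zero]
  have hreg' : ¬ p ∣ orderOf (n : G) := by rwa [Subgroup.orderOf_coe]
  have hmono := hQ.monotone
  have hlast : ∀ i, Q i ≤ Q (Fin.last m) := fun i => hmono (Fin.le_last i)
  have hself : ∀ i j, i ≤ j → ∀ x ∈ Q i, x ∈ Subgroup.normalizer (Q j : Set G) :=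
    fun i j hij x hx => Subgroup.le_normalizer (hmono hij hx)
  -- the normal `p`-subgroup `Q_m ∩ N` of `N`
  set R : Subgroup N := (Q (Fin.last m)).subgroupOf N with hR
  have hRn : R.Normal := by
    refine ⟨fun x hx g => ?_⟩
    rw [hR, Subgroup.mem_subgroupOf] at hx ⊢
    have h1 := (hN g).mp g.2 (Fin.last m)
    push_cast
    exact (Subgroup.mem_normalizer_iff.mp h1 _).mp hx
  have hRp : IsPGroup p R := (hQp (Fin.last m)).comap_subtype
  have hcent : n ∈ Subgroup.centralizer (R : Set N) := by
    by_contra hc
    exact hne (NormalSupport.blockCoeff_eq_zero hM hE R hRp hc)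
  have hcomm : ∀ x ∈ Q (Fin.last m), x ∈ N → x * n = n * x := by
    intro x hx hxN
    have h1 := Subgroup.mem_centralizer_iff.mp hcent ⟨x, hxN⟩ (by
      rw [SetLike.mem_coe, hR, Subgroup.mem_subgroupOf]; exact hx)
    exact congrArg Subtype.val h1
  -- induction along the chain
  have key : ∀ i : Fin (m + 1), (n : G) ∈ Subgroup.centralizer (Q i : Set G) := by
    intro i
    induction i using Fin.induction with
    | zero =>
      rw [Subgroup.mem_centralizer_iff]
      intro x hx
      exact hcomm x (hlast 0 hx) ((hN x).mpr fun j => hself 0 j (Fin.zero_le j) x hx)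
    | succ i ih =>
      have hcop : (Nat.card (Subgroup.zpowers (n : G))).Coprime p := by
        rw [Nat.card_zpowers]
        exact (hp.coprime_iff_not_dvd.mpr hreg').symm
      have hle : Q i.castSucc ≤ Q i.succ := hmono (Fin.castSucc_lt_succ).le
      have h1 := Lib.ThompsonPQ.thompson_p_times_q p (Q i.castSucc) (Subgroup.zpowers (n : G))
        (Q i.succ) (hQp _) hcop (hQp _) ?_ (hle.trans Subgroup.le_normalizer) ?_ ?_
      · exact h1 (Subgroup.mem_zpowers _)
      · rw [Subgroup.le_centralizer_iff, Subgroup.zpowers_le]
        exact ih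
      · rw [Subgroup.zpowers_le]
        exact (hN n).mp n.2 i.succ
      · rintro x ⟨hx1, hx2⟩
        have hxN : x ∈ N := by
          rw [hN]
          intro j
          rcases le_or_gt i.succ j with hj | hj
          · exact hself _ _ hj x hx1
          · have hj' : j ≤ i.castSucc := Fin.le_castSucc_iff.mpr hj
            have h2 : x ∈ Subgroup.centralizer (Q j : Set G) :=
              Subgroup.centralizer_le (hmono hj') hx2
            exact Subgroup.centralizer_le_normalizer _ h2
        have h3 := hcomm x (hlast _ hx1) hxN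
        have h4 : Subgroup.zpowers (n : G) ≤ Subgroup.centralizer ({x} : Set G) := by
          rw [Subgroup.zpowers_le, Subgroup.mem_centralizer_singleton_iff]
          exact h3.symm
        rw [Subgroup.mem_centralizer_iff]
        intro y hy
        exact Subgroup.mem_centralizer_singleton_iff.mp (h4 hy)
  exact key (Fin.last m)

end Cfsg.Agent.S4668
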