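import Cfsg.Statements.S4669
import Mathlib
import Cfsg.Agent.H646.RankTrace
import Cfsg.Agent.Blocks.CentralProduct
import Cfsg.Agent.CharDeep.DegreeBound
import Cfsg.Agent.S0968

set_option autoImplicit false
open Cfsg

namespace Cfsg.Agent.S4669

open Cfsg.Agent.H646
open scoped ComplexConjugate

theorem sum_normSq {G : Type*} [Group G] [Fintype G] (χ : IrrCharacter G) :
    ∑ x : G, Complex.normSq ((χ : G → ℂ) x) = (Nat.card G : ℝ) := by
  have h := Characters.Core.classInner_irr_self χ.2
  rw [Characters.Core.classInner_self_eq_ofReal] at h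
  have h1 : (Nat.card G : ℝ)⁻¹ * ∑ g : G, Complex.normSq ((χ : G → ℂ) g) = 1 := by
    exact_mod_cast h
  have hne : (Nat.card G : ℝ) ≠ 0 := by exact_mod_cast Nat.card_pos.ne'
  field_simp at h1
  exact h1

theorem card_mul_rank {G : Type*} [Group G] [Fintype G] {p : ℕ} {M : Ideal AlgInt}
    (hM : IsPModular p M) [Fact p.Prime]
    {B : Set (IrrCharacter G)} (hB : IsPBlock M B) [Fintype (IrrCharacter G)]
    [DecidablePred (· ∈ B)] :
    (Nat.card G : ℝ) * (blockRank p B : ℝ) = ∑ ψ : IrrCharacter G with ψ ∈ B,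
      ∑ x ∈ Finset.univ.filter (fun x : G => ¬ p ∣ orderOf x),
        Complex.normSq ((ψ : G → ℂ) x) := by
  have h := RankTrace.card_mul_blockRank hM hB
  have h1 : ∀ ψ : IrrCharacter G,
      ∑ x : G, pRegularPart p (ψ : G → ℂ) x * conj ((ψ : G → ℂ) x) =
      ((∑ x ∈ Finset.univ.filter (fun x : G => ¬ p ∣ orderOf x),
        Complex.normSq ((ψ : G → ℂ) x) : ℝ) : ℂ) := by
    intro ψ
    rw [Finset.sum_filter]
    push_cast
    refine Finset.sum_congr rfl fun x _ => ?_
    rw [RegInner.pRegularPart_apply]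
    by_cases h1 : p ∣ orderOf x
    · rw [if_pos h1, if_neg (not_not.mpr h1)]
      simp
    · rw [if_neg h1, if_pos h1, Complex.mul_conj]
  rw [Finset.sum_congr rfl fun ψ _ => h1 ψ] at h
  exact_mod_cast h

/-- Fix a prime p and a maximal ideal M of the algebraic integers containing p. If the p-block B of the finite group G has a defect group P contained in the centre of G, then B has p-regular rank one (a single irreducible Brauer character). -/
theorem result {G : Type*} [Group G] [Fintype G] (p : ℕ) [Fact p.Prime] (M : Ideal Cfsg.AlgInt) (hM : Cfsg.IsPModular p M) (B : Set (Cfsg.IrrCharacter G)) (hB : Cfsg.IsPBlock M B) (P : Subgroup G) (hD : Cfsg.IsDefectGroup p M B P) (hPZ : P ≤ Subgroup.center G) : Cfsg.blockRank p B = 1 := by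
  classical
  have hp : p.Prime := Fact.out
  have hprime : M.IsPrime := hM.2.1.isPrime
  have hfin : Finite (IrrCharacter G) := S0909.finite_irr
  have := Fintype.ofFinite (IrrCharacter G)
  have hP : IsPGroup p P := Blocks.Basic.isPGroup_of_isDefectGroup hD
  have hC : Subgroup.centralizer (P : Set G) = ⊤ := by
    rw [eq_top_iff]
    intro g _
    rw [Subgroup.mem_centralizer_iff]
    intro u hu
    exact (Subgroup.mem_center_iff.mp (hPZ hu) g).symm
  have hG : P ⊔ Subgroup.centralizer (P : Set G) = ⊤ := by rw [hC, sup_top_eq]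
  have hcard := (S0968.result p M hM P hP hG B hB hD).2.2
  have hcl : Nat.card (ConjClasses P) = Nat.card P := by
    refine (Nat.card_congr (Equiv.ofBijective (ConjClasses.mk : P → ConjClasses P) ⟨?_, ?_⟩)).symm
    · intro x y hxy
      rw [ConjClasses.mk_eq_mk_iff_isConj, isConj_iff] at hxy
      obtain ⟨c, hc⟩ := hxy
      rw [← hc]
      apply Subtype.ext
      have := Subgroup.mem_center_iff.mp (hPZ x.2) (c : G)
      push_cast
      rw [this, mul_inv_cancel_right]
    · exact ConjClasses.mk_surjective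
  rw [hcl] at hcard
  have hnG : (0 : ℝ) < (Nat.card G : ℝ) := by exact_mod_cast Nat.card_pos
  have hnP : (0 : ℝ) < (Nat.card P : ℝ) := by exact_mod_cast Nat.card_pos
  have key := card_mul_rank hM hB
  -- upper bound
  have hle : (Nat.card P : ℝ) * ((Nat.card G : ℝ) * (blockRank p B : ℝ)) ≤
      (Nat.card P : ℝ) * ((Nat.card G : ℝ) * 1) := by
    rw [key]
    have h1 : ∀ ψ : IrrCharacter G, (Nat.card P : ℝ) *
        ∑ x ∈ Finset.univ.filter (fun x : G => ¬ p ∣ orderOf x), Complex.normSq ((ψ : G → ℂ) x) ≤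
        (Nat.card G : ℝ) := by
      intro ψ
      have h2 := Blocks.CentralProduct.sum_prodSet hP hG (fun x => ((Complex.normSq ((ψ : G → ℂ) x) : ℝ) : ℂ))
      have h3 : ∀ u : P, ∑ y ∈ Finset.univ.filter (fun y : G => ¬ p ∣ orderOf y),
          ((Complex.normSq ((ψ : G → ℂ) (u * y)) : ℝ) : ℂ) =
          ∑ y ∈ Finset.univ.filter (fun y : G => ¬ p ∣ orderOf y),
          ((Complex.normSq ((ψ : G → ℂ) y) : ℝ) : ℂ) := by
        intro u
        refine Finset.sum_congr rfl fun y _ => ?_
        obtain ⟨w, hw, hw2⟩ := CharDeep.DegreeBound.exists_omega ψ.2 (hPZ u.2)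
        have h4 : (u : G) * y = y * u := (Subgroup.mem_center_iff.mp (hPZ u.2) y).symm
        rw [h4, hw2, Complex.normSq_mul, Complex.normSq_eq_norm_sq w, hw, one_pow, one_mul]
      rw [Finset.sum_congr rfl fun u _ => h3 u, Finset.sum_const, Finset.card_univ,
        ← Nat.card_eq_fintype_card, nsmul_eq_mul] at h2
      have h5 : (Nat.card P : ℝ) *
          ∑ x ∈ Finset.univ.filter (fun x : G => ¬ p ∣ orderOf x),
            Complex.normSq ((ψ : G → ℂ) x) =
          ∑ g ∈ Finset.univ.filter (fun g => g ∈ Blocks.CentralProduct.prodSet p P),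
            Complex.normSq ((ψ : G → ℂ) g) := by
        exact_mod_cast h2.symm
      rw [h5, ← sum_normSq ψ]
      exact Finset.sum_le_sum_of_subset_of_nonneg (Finset.filter_subset _ _)
        fun x _ _ => Complex.normSq_nonneg _
    rw [Finset.mul_sum, mul_one]
    refine (Finset.sum_le_sum fun ψ _ => h1 ψ).trans ?_
    rw [Finset.sum_const, nsmul_eq_mul]
    refine le_of_eq ?_
    congr 2
    rw [← hcard, Nat.card_eq_fintype_card, Fintype.card_subtype]
  have hle1 : (blockRank p B : ℝ) ≤ 1 :=
    le_of_mul_le_mul_left (le_of_mul_le_mul_left hle hnP) hnG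
  have hle2 : blockRank p B ≤ 1 := by exact_mod_cast hle1
  -- lower bound
  obtain ⟨χ, hχ⟩ := Blocks.Basic.isPBlock_nonempty hB
  have hpos : 0 < (Nat.card G : ℝ) * (blockRank p B : ℝ) := by
    rw [key]
    have h1 : 0 < ∑ x ∈ Finset.univ.filter (fun x : G => ¬ p ∣ orderOf x),
        Complex.normSq ((χ : G → ℂ) x) := by
      refine Finset.sum_pos' (fun x _ => Complex.normSq_nonneg _) ⟨1, ?_, ?_⟩
      · simp only [Finset.mem_filter, Finset.mem_univ, true_and, orderOf_one]
        exact fun h => hp.one_lt.ne' (Nat.dvd_one.mp h)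
      · exact Complex.normSq_pos.mpr (Blocks.Basic.irr_one_ne_zero χ.2)
    refine Finset.sum_pos' (fun ψ _ => Finset.sum_nonneg fun x _ => Complex.normSq_nonneg _)
      ⟨χ, by simpa using hχ, h1⟩
  have hpos2 : (0 : ℝ) < (blockRank p B : ℝ) := pos_of_mul_pos_right hpos hnG.le
  have hpos3 : 0 < blockRank p B := by exact_mod_cast hpos2
  omega

end Cfsg.Agent.S4669
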