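import Cfsg.Statements.S4679
import Cfsg.Agent.H649.FusBlock
import Cfsg.Agent.S4662

set_option autoImplicit false
open Cfsg

namespace Cfsg.Agent.S4679

open Cfsg.Agent.H649 in
/-- Fix a prime p and a maximal ideal M of the algebraic integers containing p, a p-block B of the finite group G with maximal Brauer pair (P, e), its fusion system F on P, a Brauer pair (Q, f) ≤ (P, e), and let T be the stabilizer of f in N_G(Q). Then Q is fully normalized in F if and only if N_P(Q) is a defect group of the block of T whose idempotent is that of f. -/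
theorem result {G : Type*} [Group G] [Fintype G] (p : ℕ) [Fact p.Prime] (M : Ideal Cfsg.AlgInt) (hM : Cfsg.IsPModular p M) (B : Set (Cfsg.IrrCharacter G)) (P : Subgroup G) (e : Set (Cfsg.IrrCharacter (Subgroup.centralizer (P : Set G)))) (hmax : Cfsg.IsMaximalBrauerPair p M B P e) (F : Cfsg.FusionSystem P) (hF : Cfsg.IsBlockFusionSystemOn p M B P e F) (Q : Subgroup G) (f : Set (Cfsg.IrrCharacter (Subgroup.centralizer (Q : Set G)))) (hQP : Q ≤ P) (hf : Cfsg.IsPBlock M f) (hle : Cfsg.SubpairLE p M Q f P e) (T : Subgroup G) (hT : ∀ y : G, y ∈ T ↔ y ∈ Subgroup.normalizer (Q : Set G) ∧ Cfsg.StabilizesBlock (Subgroup.centralizer (Q : Set G)) f y) : F.IsFullyNormalized Q ↔ ∃ F' : Set (Cfsg.IrrCharacter T), Cfsg.IsPBlock M F' ∧ (∀ t : T, Cfsg.blockCoeff F' t = Cfsg.subgroupBlockCoeff (Subgroup.centralizer (Q : Set G)) f (t : G)) ∧ Cfsg.IsDefectGroup p M F' ((P ⊓ Subgroup.normalizer (Q : Set G)).subgroupOf T) := by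
  obtain ⟨⟨F₁, hF₁, hc₁, D, hD, hCD⟩, x, hx, hTx⟩ :=
    Cfsg.Agent.S4662.result p M hM B P Q e f hmax hQP hf hle T hT
  have hleT := inf_normalizer_le hM hmax.1.1 hle hT
  constructor
  · intro hfn
    obtain ⟨F₂, hF₂, hc₂, hD₂⟩ := hTx (T.map (MulAut.conj x).toMonoidHom)
      (mem_map_conj_iff hT x)
    have h1 := hfn.2 _ (isConj_of_subpairLE hF hle hx)
    obtain ⟨h3, h4⟩ := isPBlock_subIso hF₁ hc₁ x
    have h5 : blkMap (subIso (MulAut.conj x) T) F₁ = F₂ :=
      eq_of_blockCoeff fun t => (h4 t).trans (hc₂ t).symm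
    have h6 := Cfsg.Agent.S0908.result p M hM F₁ hF₁ D hD
    have h7 := Cfsg.Agent.S0908.result p M hM F₂ hF₂ _ hD₂
    rw [← h5, blockDefect_blkMap, ← h6, card_subgroupOf (inf_normalizer_le hM hmax.1.1 hx
      (mem_map_conj_iff hT x))] at h7
    refine ⟨F₁, hF₁, hc₁, ?_⟩
    have h8 : (P ⊓ Subgroup.normalizer (Q : Set G)).subgroupOf T = D := by
      refine Subgroup.eq_of_le_of_card_ge hCD ?_
      rw [card_subgroupOf hleT, ← h7]
      exact h1
    rwa [h8]
  · rintro ⟨F', hF', hc', hdef⟩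
    have h0 : F' = F₁ := eq_of_blockCoeff fun t => (hc' t).trans (hc₁ t).symm
    subst h0
    refine ⟨hQP, fun R hR => ?_⟩
    obtain ⟨y, rfl, hy⟩ := exists_of_isConj hM hmax hF hle hR
    obtain ⟨⟨F₂, hF₂, hc₂, E, hE, hCE⟩, -⟩ := Cfsg.Agent.S4662.result p M hM B P _ e _ hmax
      (SubpairLE.le hy) ((isPBlock_conjBlock_iff Q y f).2 hf) hy
      (T.map (MulAut.conj y).toMonoidHom) (mem_map_conj_iff hT y)
    obtain ⟨h3, h4⟩ := isPBlock_subIso hF₁ hc₁ y
    have h5 : blkMap (subIso (MulAut.conj y) T) F' = F₂ :=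
      eq_of_blockCoeff fun t => (h4 t).trans (hc₂ t).symm
    have h6 := Cfsg.Agent.S0908.result p M hM F' hF' _ hdef
    have h7 := Cfsg.Agent.S0908.result p M hM F₂ hF₂ _ hE
    rw [← h5, blockDefect_blkMap, ← h6, card_subgroupOf hleT] at h7
    have h8 := Subgroup.card_le_of_le hCE
    rw [card_subgroupOf (inf_normalizer_le hM hmax.1.1 hy (mem_map_conj_iff hT y)), h7] at h8
    exact h8

end Cfsg.Agent.S4679
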