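import Cfsg.Statements.S4680
import Cfsg.Agent.H649.FusBlock
import Cfsg.Agent.S4661

set_option autoImplicit false
open Cfsg

namespace Cfsg.Agent.S4680

open Cfsg.Agent.H649 in
/-- Fix a prime p and a maximal ideal M of the algebraic integers containing p, a p-block B of the finite group G with maximal Brauer pair (P, e), its fusion system F on P, and a Brauer pair (Q, f) ≤ (P, e). Then Q is centric in F if and only if Z(Q) is a defect group of f as a block of C_G(Q). -/
theorem result {G : Type*} [Group G] [Fintype G] (p : ℕ) [Fact p.Prime] (M : Ideal Cfsg.AlgInt) (hM : Cfsg.IsPModular p M) (B : Set (Cfsg.IrrCharacter G)) (P : Subgroup G) (e : Set (Cfsg.IrrCharacter (Subgroup.centralizer (P : Set G)))) (hmax : Cfsg.IsMaximalBrauerPair p M B P e) (F : Cfsg.FusionSystem P) (hF : Cfsg.IsBlockFusionSystemOn p M B P e F) (Q : Subgroup G) (f : Set (Cfsg.IrrCharacter (Subgroup.centralizer (Q : Set G)))) (hQP : Q ≤ P) (hf : Cfsg.IsPBlock M f) (hle : Cfsg.SubpairLE p M Q f P e) : F.IsCentric Q ↔ Cfsg.IsDefectGroup p M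 f ((Q ⊓ Subgroup.centralizer (Q : Set G)).subgroupOf (Subgroup.centralizer (Q : Set G))) := by
  constructor
  · intro hc
    obtain ⟨-, x, hx, hDx⟩ := Cfsg.Agent.S4661.result p M hM B P Q e f hmax hQP hf hle
    have h1 := hc.2 _ (isConj_of_subpairLE hF hle hx)
    have h2 : P ⊓ Subgroup.centralizer
        ((Q.map (MulAut.conj x).toMonoidHom : Subgroup G) : Set G) =
        (Q ⊓ Subgroup.centralizer (Q : Set G)).map (MulAut.conj x).toMonoidHom := by
      rw [map_inf_centralizer]
      apply le_antisymm
      · exact le_inf h1 inf_le_right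
      · exact inf_le_inf_right _ (SubpairLE.le hx)
    rw [h2, isDefectGroup_conjBlock_iff] at hDx
    exact hDx
  · intro hdef
    refine ⟨hQP, fun R hR => ?_⟩
    obtain ⟨y, rfl, hy⟩ := exists_of_isConj hM hmax hF hle hR
    obtain ⟨⟨E, hE, hCE⟩, -⟩ := Cfsg.Agent.S4661.result p M hM B P _ e _ hmax (SubpairLE.le hy)
      ((isPBlock_conjBlock_iff Q y f).2 hf) hy
    have h2 := card_defect_conj hM hf y hdef hE
    rw [card_subgroupOf inf_le_right] at h2
    have h3 := Subgroup.card_le_of_le hCE
    rw [card_subgroupOf inf_le_right, h2] at h3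
    have h4 : Nat.card ((Q ⊓ Subgroup.centralizer (Q : Set G)).map
        (MulAut.conj y).toMonoidHom : Subgroup G) =
        Nat.card (Q ⊓ Subgroup.centralizer (Q : Set G) : Subgroup G) :=
      Nat.card_congr (subIso (MulAut.conj y) _).symm.toEquiv
    rw [← h4, map_inf_centralizer] at h3
    have h5 : Q.map (MulAut.conj y).toMonoidHom ⊓ Subgroup.centralizer
        ((Q.map (MulAut.conj y).toMonoidHom : Subgroup G) : Set G) = P ⊓ Subgroup.centralizer
        ((Q.map (MulAut.conj y).toMonoidHom : Subgroup G) : Set G) :=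
      Subgroup.eq_of_le_of_card_ge (inf_le_inf_right _ (SubpairLE.le hy)) h3
    change P ⊓ Subgroup.centralizer
        ((Q.map (MulAut.conj y).toMonoidHom : Subgroup G) : Set G) ≤ _
    rw [← h5]
    exact inf_le_left

end Cfsg.Agent.S4680
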