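import Cfsg.Statements.S4681
import Cfsg.Agent.H649.ConjPair
import Cfsg.Agent.S4655
import Cfsg.Agent.S4658
import Cfsg.Agent.S4663

set_option autoImplicit false
open Cfsg

namespace Cfsg.Agent.S4681

theorem isPBlock_principalBlock (M : Ideal Cfsg.AlgInt) (G : Type*) [Group G] :
    Cfsg.IsPBlock M (Cfsg.principalBlock M G) :=
  ⟨⟨fun _ => 1, Cfsg.Agent.Blocks.Basic.isIrrCharacter_one⟩, rfl⟩

/-- The pairs below `(S, principal block)` are the principal ones. -/
theorem exists_subpair {G : Type*} [Group G] [Fintype G] (p : ℕ) [Fact p.Prime] (M : Ideal Cfsg.AlgInt) (hM : Cfsg.IsPModular p M) (S : Sylow p G) (Q : Subgroup G) (hQ : Q ≤ (S : Subgroup G)) :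
    Cfsg.SubpairLE p M Q (Cfsg.principalBlock M (Subgroup.centralizer (Q : Set G)))
      (S : Subgroup G) (Cfsg.principalBlock M (Subgroup.centralizer ((S : Subgroup G) : Set G))) := by
  have hS : Cfsg.IsBrauerPairOf p M (Cfsg.principalBlock M G) (S : Subgroup G)
      (Cfsg.principalBlock M (Subgroup.centralizer ((S : Subgroup G) : Set G))) :=
    (Cfsg.Agent.S4663.result p M hM (S : Subgroup G) S.2 _ (isPBlock_principalBlock M _)).2 rfl
  obtain ⟨f, ⟨hf, hle⟩, -⟩ := Cfsg.Agent.S4655.result p M hM (S : Subgroup G) Q _ hS.1 hQ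
  have hQf := Cfsg.Agent.H649.SubpairLE.isBrauerPair hle hS.1
  have h1 := (Cfsg.Agent.S4658.result p M hM (S : Subgroup G) Q _ f hS.1 hQf hle
    (Cfsg.principalBlock M G) hS.2.1).1 hS
  have h2 := (Cfsg.Agent.S4663.result p M hM Q hQf.1 f hf).1 h1
  rw [h2] at hle
  exact hle

/-- Fix a prime p and a maximal ideal M of the algebraic integers containing p. Let B₀ be the principal p-block of the finite group G, P a Sylow p-subgroup and e₀ the principal p-block of C_G(P). Then (P, e₀) is a maximal Brauer pair of B₀, and the fusion system of B₀ on (P, e₀) is the fusion system of G on P: its maps from each subgroup of P are exactly the conjugation maps into P by elements of G. -/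
theorem result {G : Type*} [Group G] [Fintype G] (p : ℕ) [Fact p.Prime] (M : Ideal Cfsg.AlgInt) (hM : Cfsg.IsPModular p M) (S : Sylow p G) : Cfsg.IsMaximalBrauerPair p M (Cfsg.principalBlock M G) (S : Subgroup G) (Cfsg.principalBlock M (Subgroup.centralizer ((S : Subgroup G) : Set G))) ∧ ∀ F : Cfsg.FusionSystem (S : Subgroup G), Cfsg.IsBlockFusionSystemOn p M (Cfsg.principalBlock M G) (S : Subgroup G) (Cfsg.principalBlock M (Subgroup.centralizer ((S : Subgroup G) : Set G))) F → ∀ Q : Subgroup G, F.Hom Q = (Cfsg.groupFusionSystem (S : Subgroup G)).Hom Q := by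
  refine ⟨⟨(Cfsg.Agent.S4663.result p M hM (S : Subgroup G) S.2 _
    (isPBlock_principalBlock M _)).2 rfl, fun R g hg hle => ?_⟩, fun F hF Q => ?_⟩
  · exact S.3 hg.1.1 (Cfsg.Agent.H649.SubpairLE.le hle)
  · ext φ
    rw [hF.2 Q φ]
    constructor
    · rintro ⟨hQ, g, hg, hgQ, -⟩
      refine ⟨hQ, fun x => ?_, g, hg⟩
      rw [hg]
      exact hgQ ⟨x, x.2, rfl⟩
    · rintro ⟨hQ, hφ, g, hg⟩
      have hgQ : Q.map (MulAut.conj g).toMonoidHom ≤ (S : Subgroup G) := by
        rintro _ ⟨x, hx, rfl⟩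
        have h1 := hφ ⟨x, hx⟩
        rw [hg] at h1
        exact h1
      refine ⟨hQ, g, hg, hgQ, Cfsg.principalBlock M _, exists_subpair p M hM S Q hQ, ?_⟩
      rw [Cfsg.Agent.H649.conjBlock_eq, Cfsg.Agent.H649.pairMap,
        Cfsg.Agent.H649.blkMap_principalBlock]
      exact exists_subpair p M hM S _ hgQ

end Cfsg.Agent.S4681
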