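import Cfsg.Statements.S4683
import Cfsg.Agent.H650.SecOrtho
import Cfsg.Agent.H649.PairInduced
import Cfsg.Agent.H646.RankTrace

set_option autoImplicit false
open Cfsg

namespace Cfsg.Agent.S4683

open Cfsg.Agent.Blocks.Basic Cfsg.Agent.Blocks.Local Cfsg.Agent.Blocks Cfsg.Agent.H650
open Cfsg.Agent.H646.RegInner
open scoped ComplexConjugate

theorem centralizer_zpowers {G : Type*} [Group G] (u : G) :
    Subgroup.centralizer (Subgroup.zpowers u : Set G) = Subgroup.centralizer ({u} : Set G) := by
  ext x
  rw [Subgroup.mem_centralizer_singleton_iff]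
  constructor
  · intro h
    exact (Subgroup.mem_centralizer_iff.1 h u (Subgroup.mem_zpowers u)).symm
  · intro h
    rw [Subgroup.mem_centralizer_iff]
    rintro w ⟨n, rfl⟩
    exact (show Commute u x from h.symm).zpow_left n

/-- The `A`-parts of `c ↦ χ(u⁻¹ c)` and `c ↦ χ(u c)`. -/
theorem blockPart_inv {G : Type*} [Group G] [Finite G] {H : Subgroup G} {u : G}
    (hH : H = Subgroup.centralizer ({u} : Set G)) (A : Set (IrrCharacter H)) (χ : IrrCharacter G)
    (s : H) : blockPart A (fun c : H => (χ : G → ℂ) (u⁻¹ * (c : G))) s⁻¹ =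
      conj (blockPart A (fun c : H => (χ : G → ℂ) (u * (c : G))) s) := by
  classical
  have := Fintype.ofFinite G
  have := Fintype.ofFinite H
  have hfin : Finite (IrrCharacter H) := Characters.Core.finite_irr
  have := Fintype.ofFinite (IrrCharacter H)
  rw [CentralizerSum.blockPart_eq, CentralizerSum.blockPart_eq, finsum_mem_eq_sum_filter',
    finsum_mem_eq_sum_filter', map_sum]
  refine Finset.sum_congr rfl fun ξ _ => ?_
  rw [map_mul, Characters.Core.isCharacter_apply_inv (irr_isCharacter ξ.2)]
  congr 1
  rw [classInner_def, classInner_def, map_mul, map_inv₀, map_natCast, map_sum]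
  congr 1
  rw [← Equiv.sum_comp (Equiv.inv H)]
  refine Finset.sum_congr rfl fun c _ => ?_
  rw [Equiv.inv_apply, Characters.Core.isCharacter_apply_inv (irr_isCharacter ξ.2), map_mul]
  congr 1
  have h2 : (c : G) * u = u * (c : G) :=
    Subgroup.mem_centralizer_singleton_iff.1 (hH ▸ c.2)
  have h3 : u⁻¹ * ((c⁻¹ : H) : G) = (u * (c : G))⁻¹ := by
    rw [← h2, mul_inv_rev, Subgroup.coe_inv]
  rw [h3, Characters.Core.isCharacter_apply_inv (irr_isCharacter χ.2)]

/-- Fix a prime p and a maximal ideal M of the algebraic integers containing p, a p-block B of the finite group G, a p-element u and a p-block e of C = C_G(u) such that (⟨u⟩, e) is a Brauer pair of B (a Brauer element of B). For χ ∈ B let χ_u be the e-part of the class function c ↦ χ(u c) on C and χ_u' the e-part of c ↦ χ(u⁻¹ c). Then the sum over χ ∈ B and over the p-regular elements s of C of χ_u(s)·χ_u'(s⁻¹) equals the order of C times the p-regular rank of e (the number of irreducible Brauer characters of e). -/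
theorem result {G : Type*} [Group G] [Fintype G] (p : ℕ) [Fact p.Prime] (M : Ideal Cfsg.AlgInt) (hM : Cfsg.IsPModular p M) (B : Set (Cfsg.IrrCharacter G)) (u : G) (hu : ∃ k : ℕ, orderOf u = p ^ k) (e : Set (Cfsg.IrrCharacter (Subgroup.centralizer (Subgroup.zpowers u : Set G)))) (hBe : Cfsg.IsBrauerPairOf p M B (Subgroup.zpowers u) e) : ∑ᶠ χ ∈ B, ∑ᶠ s : Subgroup.centralizer (Subgroup.zpowers u : Set G), Cfsg.pRegularPart p (Cfsg.blockPart e (fun c : Subgroup.centralizer (Subgroup.zpowers u : Set G) => (χ : G → ℂ) (u * c))) s * Cfsg.blockPart e (fun c : Subgroup.centralizer (Subgroup.zpowers u : Set G) => (χ : G → ℂ) (u⁻¹ * c)) s⁻¹ = (Nat.card (Subgroup.centralizer (Subgroup.zpowers u : Set G)) : ℂ) * (Cfsg.blockRank p e : ℂ) := by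
  classical
  have hMp := isPrime_of_isPModular hM
  have hH := centralizer_zpowers u
  have hPe := (H649.isBrauerPairOf_iff_isInducedBlock hM hBe.2.1 hBe.1.1 hBe.1.2).1 hBe
  have he : IsPBlock M e := hBe.1.2
  have hB : IsPBlock M B := hBe.2.1
  clear hBe
  generalize Subgroup.centralizer (Subgroup.zpowers u : Set G) = H at *
  have := Fintype.ofFinite H
  have hfin : Finite (IrrCharacter H) := Characters.Core.finite_irr
  have := Fintype.ofFinite (IrrCharacter H)
  have hfinG : Finite (IrrCharacter G) := Characters.Core.finite_irr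
  have := Fintype.ofFinite (IrrCharacter G)
  have hreg : ∀ (χ : IrrCharacter G) (s : H), pRegularPart p (blockPart e (fun c : H =>
      (χ : G → ℂ) (u * c))) s * blockPart e (fun c : H => (χ : G → ℂ) (u⁻¹ * c)) s⁻¹ =
      if p ∣ orderOf s then 0 else blockPart e (fun c : H => (χ : G → ℂ) (u * c)) s *
        conj (blockPart e (fun c : H => (χ : G → ℂ) (u * c)) s) := by
    intro χ s
    rw [blockPart_inv hH, pRegularPart_apply]
    split_ifs <;> simp
  have hout : ∀ (χ : IrrCharacter G), χ ∉ B → ∀ s : H, (if p ∣ orderOf s then 0 else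
      blockPart e (fun c : H => (χ : G → ℂ) (u * c)) s *
        conj (blockPart e (fun c : H => (χ : G → ℂ) (u * c)) s)) = 0 := by
    intro χ hχ s
    split_ifs with hs
    · rfl
    · rw [CentralizerSum.secondMain hM hu hH (isPBlock_blockOf χ) χ (mem_blockOf_self χ) he
        (fun h => hχ ?_) s hs, zero_mul]
      rw [CentralizerSum.inducedBlock_unique hPe h]
      exact mem_blockOf_self χ
  rw [finsum_mem_eq_sum_filter']
  calc ∑ χ : IrrCharacter G with χ ∈ B, ∑ᶠ s : H, pRegularPart p (blockPart e (fun c : H =>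
      (χ : G → ℂ) (u * c))) s * blockPart e (fun c : H => (χ : G → ℂ) (u⁻¹ * c)) s⁻¹
      = ∑ χ : IrrCharacter G with χ ∈ B, ∑ s : H, (if p ∣ orderOf s then 0 else
        blockPart e (fun c : H => (χ : G → ℂ) (u * c)) s *
        conj (blockPart e (fun c : H => (χ : G → ℂ) (u * c)) s)) := by
        refine Finset.sum_congr rfl fun χ _ => ?_
        rw [finsum_eq_sum_of_fintype]
        exact Finset.sum_congr rfl fun s _ => hreg χ s
    _ = ∑ χ : IrrCharacter G, ∑ s : H, (if p ∣ orderOf s then 0 else
        blockPart e (fun c : H => (χ : G → ℂ) (u * c)) s *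
        conj (blockPart e (fun c : H => (χ : G → ℂ) (u * c)) s)) := by
        rw [Finset.sum_filter]
        refine Finset.sum_congr rfl fun χ _ => ?_
        split_ifs with hχ
        · rfl
        · exact (Finset.sum_eq_zero fun s _ => hout χ hχ s).symm
    _ = ∑ s : H, (if p ∣ orderOf s then 0 else
        ∑ ξ : IrrCharacter H with ξ ∈ e, (ξ : H → ℂ) s * conj ((ξ : H → ℂ) s)) := by
        rw [Finset.sum_comm]
        refine Finset.sum_congr rfl fun s _ => ?_
        split_ifs with hs
        · exact Finset.sum_const_zero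
        · have h1 := sum_blockPart_mul_blockPart hM hu hH (isUnB_of_isPBlock he)
            (isUnB_of_isPBlock he) s s hs hs
          rw [h1]
          simp only [and_self]
    _ = _ := by
        rw [H646.RankTrace.card_mul_blockRank hM he, Finset.sum_comm]
        refine Finset.sum_congr rfl fun s _ => ?_
        split_ifs with hs
        · refine (Finset.sum_eq_zero fun ξ _ => ?_).symm
          rw [pRegularPart_of_dvd hs, zero_mul]
        · refine Finset.sum_congr rfl fun ξ _ => ?_
          rw [pRegularPart_of_not_dvd hs]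

end Cfsg.Agent.S4683
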