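import Cfsg.Statements.S4693
import Cfsg.Agent.H649.CentricBlock
import Cfsg.Agent.H802.FusBasic

set_option autoImplicit false
open Cfsg

namespace Cfsg.Agent.S4693

open Cfsg.Agent.H644 Cfsg.Agent.Blocks.Local Cfsg.Agent.H651 Cfsg.Agent.H649

/-- Fix a prime p and a maximal ideal M of the algebraic integers containing p, a p-block B of the finite group G with maximal Brauer pair (P, e) and fusion system F on P, and a Brauer pair (Q, f) ≤ (P, e) with Q centric in F. Suppose every element of G normalizes Q and stabilizes f. Then the idempotent of B agrees with that of f modulo M at every element of G, and f is the idempotent of a nilpotent block of Q·C_G(Q): some p-block of Q·C_G(Q) has the idempotent coefficients of f and is nilpotent. -/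
theorem result {G : Type*} [Group G] [Fintype G] (p : ℕ) [Fact p.Prime] (M : Ideal Cfsg.AlgInt) (hM : Cfsg.IsPModular p M) (B : Set (Cfsg.IrrCharacter G)) (P : Subgroup G) (e : Set (Cfsg.IrrCharacter (Subgroup.centralizer (P : Set G)))) (hmax : Cfsg.IsMaximalBrauerPair p M B P e) (F : Cfsg.FusionSystem P) (hF : Cfsg.IsBlockFusionSystemOn p M B P e F) (Q : Subgroup G) (f : Set (Cfsg.IrrCharacter (Subgroup.centralizer (Q : Set G)))) (hQP : Q ≤ P) (hf : Cfsg.IsPBlock M f) (hle : Cfsg.SubpairLE p M Q f P e) (hcen : F.IsCentric Q) (hG : ∀ x : G, x ∈ Subgroup.normalizer (Q : Set G) ∧ Cfsg.StabilizesBlock (Subgroup.centralizer (Q : Set G)) f x) : (∀ g : G, Cfsg.MemLocalIdeal M (Cfsg.blockCoeff B g - Cfsg.subgroupBlockCoeff (Subgroup.centralizer (Q : Set G)) f g)) ∧ ∃ F' : Set (Cfsg.IrrCharacter ↥(Q ⊔ Subgroup.centralizer (Q : Set G))), Cfsg.IsPBlock M F' ∧ (∀ t : ↥(Q ⊔ Subgroup.centralizer (Q : Set G)), Cfsg.blockCoeff F' t = Cfsg.subgroupBlockCoeff (Subgroup.centralizer (Q :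 Set G)) f (t : G)) ∧ Cfsg.IsNilpotentBlock p M F' := by
  have hp : M.IsPrime := hM.2.1.isPrime
  have hQf : Cfsg.IsBrauerPairOf p M B Q f := (isBrauerPairOf_iff_of_subpairLE hM hle).1 hmax.1
  have hcoef := blockCoeff_eq_of_stable hM hQf hG
  refine ⟨fun g => ?_, ?_⟩
  · rw [hcoef, sub_self]
    exact Cfsg.Agent.Blocks.Local.memLocalIdeal_zero
  obtain ⟨F', hF', hF'c⟩ := exists_block_of_isSub hM hQf.1.1 hf (isSub_sup Q f hf)
  refine ⟨F', hF', hF'c, isNilpotentBlock_of_centric hM hQf.1.1 hf ?_ hF' hF'c⟩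
  obtain ⟨x, -, hx⟩ := exists_conj_centralizer_defect hM hmax hQf
  have hfix := (conjIdx_eq_iff hf x).2 (hG x)
  have hQx : Q.map (MulAut.conj x).toMonoidHom = Q := congrArg Sigma.fst hfix
  have hcen' : P ⊓ Subgroup.centralizer (Q : Set G) ≤ Q := hcen.2 Q (Cfsg.Agent.H802.isConj_refl F hQP)
  have hmap : (P ⊓ Subgroup.centralizer ((Q.map (MulAut.conj x).toMonoidHom) : Set G)) =
      (Q ⊓ Subgroup.centralizer (Q : Set G)).map (MulAut.conj x).toMonoidHom := by
    rw [map_inf_centralizer, hQx]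
    exact le_antisymm (le_inf hcen' inf_le_right) (inf_le_inf_right _ hQP)
  rw [hmap, isDefectGroup_conjBlock_iff] at hx
  exact hx

end Cfsg.Agent.S4693
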