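import Cfsg.Statements.S4697
-- import your own Cfsg.Agent.* helpers here
import Cfsg.Agent.H658.RankTwo
import Cfsg.Agent.H658.CyclicUse

set_option autoImplicit false
open Cfsg

namespace Cfsg.Agent.S4697

/-- Let p be a prime, M a maximal ideal of the algebraic integers containing p, and B a p-block of the finite group G with an abelian defect group D of order p^d. If D has rank 2 (its least number of generators is 2) then B contains at most p^d irreducible characters; if D has rank 3 then the number k of irreducible characters in B satisfies k^3 ≤ p^(5d). -/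
theorem result {G : Type*} [Group G] [Finite G] (p : ℕ) [Fact p.Prime] (M : Ideal Cfsg.AlgInt) (hM : Cfsg.IsPModular p M) (B : Set (Cfsg.IrrCharacter G)) (hB : Cfsg.IsPBlock M B) (D : Subgroup G) (hBD : Cfsg.IsDefectGroup p M B D) (hab : IsMulCommutative D) (d : ℕ) (hDd : Nat.card D = p ^ d) : (Group.rank D = 2 → Nat.card B ≤ p ^ d) ∧ (Group.rank D = 3 → Nat.card B ^ 3 ≤ p ^ (5 * d)) := by
  have key : ∀ S : Set D, Subgroup.closure S = ⊤ →
      D = Subgroup.closure (Subtype.val '' S) := by
    intro S hS
    have h1 := MonoidHom.map_closure D.subtype S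
    rw [hS, ← MonoidHom.range_eq_map, Subgroup.range_subtype] at h1
    exact h1
  constructor
  · intro h
    obtain ⟨x, y, hxy, hx⟩ := Cfsg.Agent.H658.exists_pair_of_rank h
    have h1 := key _ hxy
    rw [Set.image_pair] at h1
    rw [← hDd]
    refine Cfsg.Agent.H658.card_le_of_closure_pair (Cfsg.Agent.H658.cyclicPattern hM) hM hB hBD hab h1 ?_
    intro h2
    apply hx
    rw [eq_top_iff]
    rintro w -
    have h3 : (w : G) ∈ Subgroup.zpowers (x : G) := by
      rw [← h2]
      exact w.2
    obtain ⟨n, hn⟩ := Subgroup.mem_zpowers_iff.1 h3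
    exact Subgroup.mem_zpowers_iff.2 ⟨n, Subtype.ext (by rw [← hn]; push_cast; rfl)⟩
  · intro h
    obtain ⟨x, y, z, hxyz, hxy, hcard⟩ := Cfsg.Agent.H658.exists_triple_of_rank
      (fun a b : D => mul_comm' a b) h
    have h1 := key _ hxyz
    rw [Set.image_insert_eq, Set.image_pair] at h1
    have h4 := Cfsg.Agent.H658.card_cube_le_of_closure_triple
      (Cfsg.Agent.H658.cyclicPattern hM) hM hB hBD hab h1 (by
      intro hz
      apply hxy
      have h5 : Subgroup.closure {(x : G), (y : G)} =
          (Subgroup.closure {x, y}).map D.subtype := by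
        rw [MonoidHom.map_closure, Subgroup.coe_subtype, Set.image_pair]
      rw [h5] at hz
      obtain ⟨w, hw, hwz⟩ := hz
      have h6 : w = z := Subtype.ext hwz
      subst h6
      rw [eq_top_iff, ← hxyz, Subgroup.closure_le]
      rintro v (rfl | rfl | rfl)
      · exact Subgroup.subset_closure (by simp)
      · exact Subgroup.subset_closure (by simp)
      · exact hw) (by rw [Subgroup.orderOf_coe]; exact hcard)
    rw [hDd, ← pow_mul, mul_comm d 5] at h4
    exact h4

end Cfsg.Agent.S4697
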