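import Cfsg.Statements.S4700
import Cfsg.Agent.H607.BP.NonSelf
import Cfsg.Agent.H607.BP.Setup
import Cfsg.Agent.Lib.Cores
import Cfsg.Agent.H482.SylowNumbers
import Cfsg.Agent.H426.SL2Unrec

set_option autoImplicit false
open Cfsg

namespace Cfsg.Agent.S4700

open Cfsg.Agent.H607.BP.Arith

/-- Let G be a finite perfect group and p a prime such that a Sylow p-subgroup of G has order p, and write the number of Sylow p-subgroups as 1 + np. Let H = O_p'(G). Then either p > 3 and G/H is isomorphic to PSL(2, p); or p = 2^m + 1 > 3 and G/H is isomorphic to SL(2, 2^m); or n = (hup + u^2 + u + h)/(u + 1) for some positive integers h and u. -/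
theorem result {G : Type*} [Group G] [Finite G] (hperf : commutator G = ⊤) (p : ℕ) [Fact p.Prime] (P : Sylow p G) (hP : Nat.card P = p) (n : ℕ) (hn : Nat.card (Sylow p G) = 1 + n * p) : (∃ (F : Type) (_ : Field F) (_ : Fintype F), Fintype.card F = p ∧ 3 < p ∧ Nonempty (G ⧸ Cfsg.pPrimeCore p G ≃* Matrix.ProjectiveSpecialLinearGroup (Fin 2) F)) ∨ (∃ (m : ℕ) (F : Type) (_ : Field F) (_ : Fintype F), Fintype.card F = 2 ^ m ∧ p = 2 ^ m + 1 ∧ 3 < p ∧ Nonempty (G ⧸ Cfsg.pPrimeCore p G ≃* Matrix.SpecialLinearGroup (Fin 2) F)) ∨ (∃ h u : ℕ, 0 < h ∧ 0 < u ∧ n * (u + 1) = h * u * p + u ^ 2 + u + h) := by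
  classical
  have hp : p.Prime := Fact.out
  by_cases hF : NoForm p n
  swap
  · unfold NoForm at hF
    push Not at hF
    obtain ⟨h, u, h1, h2, h3⟩ := hF
    exact Or.inr (Or.inr ⟨h, u, h1, h2, h3⟩)
  let H := Cfsg.pPrimeCore p G
  have hHc : (Nat.card H).Coprime p := Cfsg.Agent.Lib.Cores.pPrimeCore_coprime p
  have hs : Function.Surjective (QuotientGroup.mk' H) := QuotientGroup.mk'_surjective H
  let Q : Sylow p (G ⧸ H) := P.mapSurjective hs
  -- `G / H` is perfect
  have hperf' : commutator (G ⧸ H) = ⊤ := by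
    have h1 : (commutator G).map (QuotientGroup.mk' H) = commutator (G ⧸ H) := by
      rw [_root_.commutator_def, _root_.commutator_def, Subgroup.map_commutator,
        ← MonoidHom.range_eq_map, MonoidHom.range_eq_top.2 hs]
    rw [← h1, hperf, ← MonoidHom.range_eq_map, MonoidHom.range_eq_top.2 hs]
  have hcore : ∀ N : Subgroup (G ⧸ H), N.Normal → (Nat.card N).Coprime p → N = ⊥ := by
    intro N hN hc
    have h1 := Cfsg.Agent.Lib.Cores.le_pPrimeCore hN hc
    rw [Cfsg.Agent.Lib.Cores.pPrimeCore_quotient_pPrimeCore] at h1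
    exact le_bot_iff.1 h1
  -- the order of `Q`
  have hinf : (P : Subgroup G) ⊓ H = ⊥ := by
    apply Subgroup.inf_eq_bot_of_coprime
    rw [show Nat.card (P : Subgroup G) = p from hP]
    exact hHc.symm
  have hQ : Nat.card Q = p := by
    have h1 : (Q : Subgroup (G ⧸ H)) = (P : Subgroup G).map (QuotientGroup.mk' H) :=
      Sylow.coe_mapSurjective hs P
    have h2 : Nat.card ((P : Subgroup G).map (QuotientGroup.mk' H)) = Nat.card (P : Subgroup G) := by
      apply Nat.card_congr
      refine (Equiv.ofBijective (fun x : (P : Subgroup G) =>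
        (⟨QuotientGroup.mk' H x, ⟨x, x.2, rfl⟩⟩ :
          (P : Subgroup G).map (QuotientGroup.mk' H))) ⟨?_, ?_⟩).symm
      · intro x y hxy
        have h3 : QuotientGroup.mk' H (x : G) = QuotientGroup.mk' H (y : G) :=
          congrArg Subtype.val hxy
        have h4 : (x : G)⁻¹ * y ∈ H := QuotientGroup.eq.1 h3
        have h5 : (x : G)⁻¹ * y ∈ (P : Subgroup G) ⊓ H :=
          ⟨(P : Subgroup G).mul_mem ((P : Subgroup G).inv_mem x.2) y.2, h4⟩
        rw [hinf, Subgroup.mem_bot, inv_mul_eq_one] at h5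
        exact Subtype.ext h5
      · rintro ⟨_, x, hx, rfl⟩
        exact ⟨⟨x, hx⟩, rfl⟩
    have h3 : Nat.card (Q : Subgroup (G ⧸ H)) = Nat.card (P : Subgroup G) := by rw [h1, h2]
    exact h3.trans hP
  -- the number of Sylow subgroups of `G / H`
  have hdvd : Nat.card (Sylow p (G ⧸ H)) ∣ Nat.card (Sylow p G) :=
    Cfsg.Agent.H482.SylowNumbers.card_sylow_dvd_of_surjective p (QuotientGroup.mk' H) hs
  have hmod : Nat.card (Sylow p (G ⧸ H)) % p = 1 := by
    have := card_sylow_modEq_one p (G ⧸ H)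
    have h1 : Nat.card (Sylow p (G ⧸ H)) % p = 1 % p := this
    rw [h1, Nat.mod_eq_of_lt hp.one_lt]
  obtain ⟨n', hn'⟩ : ∃ n', Nat.card (Sylow p (G ⧸ H)) = 1 + n' * p := by
    refine ⟨Nat.card (Sylow p (G ⧸ H)) / p, ?_⟩
    have := Nat.mod_add_div (Nat.card (Sylow p (G ⧸ H))) p
    rw [hmod] at this
    rw [mul_comm]
    exact this.symm
  have hn'1 : n' ≠ 0 := by
    rintro rfl
    rw [zero_mul, add_zero, Q.card_eq_index_normalizer, Subgroup.index_eq_one] at hn'
    exact Cfsg.Agent.H607.BP.NonSelf.not_normal hperf' Q hQ hn'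
  have hnn : n' = n := by
    obtain ⟨k, hk⟩ := hdvd
    rw [hn, hn'] at hk
    have hkm : k % p = 1 := by
      have h1 : (1 + n * p) % p = ((1 + n' * p) * k) % p := by rw [hk]
      rw [Nat.add_mul_mod_self_right, Nat.mul_mod, Nat.add_mul_mod_self_right, ← Nat.mul_mod,
        one_mul, Nat.mod_eq_of_lt hp.one_lt] at h1
      exact h1.symm
    obtain ⟨m, hm⟩ : ∃ m, k = 1 + m * p := by
      refine ⟨k / p, ?_⟩
      have := Nat.mod_add_div k p
      rw [hkm] at this
      rw [mul_comm]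
      exact this.symm
    rcases Nat.eq_zero_or_pos m with h0 | h0
    · rw [h0, zero_mul, add_zero] at hm
      rw [hm, mul_one] at hk
      have h2 : n * p = n' * p := by omega
      exact (Nat.eq_of_mul_eq_mul_right hp.pos h2).symm
    · exfalso
      refine hF (m * (n' + 1)) n' (Nat.mul_pos h0 (Nat.succ_pos _)) (Nat.pos_of_ne_zero hn'1) ?_
      rw [hm] at hk
      have h3 : n = n' + m + m * n' * p := by
        have h4 : n * p = (n' + m + m * n' * p) * p := by
          have h5 : 1 + n * p = 1 + (n' + m + m * n' * p) * p := by rw [hk]; ring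
          omega
        exact Nat.eq_of_mul_eq_mul_right hp.pos h4
      rw [h3]; ring
  rw [hnn] at hn'
  have hcent := Cfsg.Agent.H607.BP.NonSelf.cent_eq hperf' hcore Q hQ hn' hF
  obtain ⟨z, hzQ, hz1⟩ := Cfsg.Agent.H607.BP.NonSelf.exists_ne_one Q hQ
  have hz : orderOf z = p := by
    have h1 : orderOf z ∣ p := by
      have := Subgroup.orderOf_dvd_natCard (Q : Subgroup (G ⧸ H)) hzQ
      rwa [show Nat.card (Q : Subgroup (G ⧸ H)) = p from hQ] at this
    rcases (Nat.dvd_prime hp).1 h1 with h2 | h2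
    · exact absurd (orderOf_eq_one_iff.1 h2) hz1
    · exact h2
  have hC : Subgroup.centralizer ({z} : Set (G ⧸ H)) = Subgroup.zpowers z := by
    have h1 := Cfsg.Agent.Blocks.CyclicOrtho.centralizer_eq Q hQ hzQ hz1
    rw [h1]
    have h2 : Subgroup.zpowers z = (Q : Subgroup (G ⧸ H)) := by
      apply Subgroup.eq_of_le_of_card_ge
      · rw [Subgroup.zpowers_le]; exact hzQ
      · rw [Nat.card_zpowers, hz]; exact hQ.le
    rw [h2]
    exact hcent
  rcases Cfsg.Agent.H607.BP.Setup.selfCent hperf' hz hC (by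
    intro k hk
    rw [hn'] at hk
    have h1 : n * p = k * p := by omega
    rw [← Nat.eq_of_mul_eq_mul_right hp.pos h1]
    exact hF) with ⟨F, i1, i2, h1, h2, h3⟩ | ⟨m, F, i1, i2, h1, h2, h3, ⟨f⟩⟩
  · exact Or.inl ⟨F, i1, i2, h1, h2, h3⟩
  · right; left
    have hm : m ≠ 0 := by
      rintro rfl
      rw [pow_zero] at h2
      omega
    have : Fact (Nat.Prime 2) := ⟨Nat.prime_two⟩
    have hchar : CharP F 2 := by
      obtain ⟨q, hq⟩ := CharP.exists F
      have hqp : q.Prime := CharP.char_is_prime F q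
      obtain ⟨k, -, hk⟩ := FiniteField.card F q
      rw [h1] at hk
      have h4 : q ∣ 2 ^ m := by rw [hk]; exact dvd_pow_self q k.pos.ne'
      have h5 : q = 2 := (Nat.prime_dvd_prime_iff_eq hqp Nat.prime_two).1
        (hqp.dvd_of_dvd_pow h4)
      rw [← h5]
      exact hq
    exact ⟨m, F, i1, i2, h1, h2, h3, ⟨f.trans (Cfsg.Agent.H426.psl2EvenEquiv F)⟩⟩

end Cfsg.Agent.S4700
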