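import Cfsg.Statements.S4705
import Cfsg.Agent.S4701
import Cfsg.Agent.ClassicalGeometry.PSL2Basic
import Cfsg.Agent.H656.PM2Reduction
import Cfsg.Agent.H656.PM2Simple
import Cfsg.Agent.H656.PM2Order

set_option autoImplicit false
open Cfsg

namespace Cfsg.Agent.S4705

/-- Let G be a finite group with centre Z and p > 5 a prime such that a Sylow p-subgroup of G has order p and is not normal. If G has a faithful irreducible character of degree p − 2, then p = 2^a + 1 for some a and G is isomorphic to the direct product of SL(2, 2^a) with Z. -/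
theorem result {G : Type*} [Group G] [Finite G] (p : ℕ) [Fact p.Prime] (hp : 5 < p) (P : Sylow p G) (hP : Nat.card P = p) (hnn : ¬ (P : Subgroup G).Normal) (ζ : G → ℂ) (hζ : Cfsg.IsIrrCharacter G ζ) (hfaith : ∀ g : G, ζ g = ζ 1 → g = 1) (hdeg : Cfsg.charDegree ζ = p - 2) : ∃ (a : ℕ) (F : Type) (_ : Field F) (_ : Fintype F), p = 2 ^ a + 1 ∧ Fintype.card F = 2 ^ a ∧ Nonempty (G ≃* Matrix.SpecialLinearGroup (Fin 2) F × Subgroup.center G) := by
  classical
  have := Fintype.ofFinite G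
  obtain ⟨G₁, P₁, hperf, hP₁, hnn₁, hζ₁, hfaith₁, hdeg₁, hprod⟩ :=
    Cfsg.Agent.H656.PM2Reduction.reduce P hP hp hnn ζ hζ hfaith hdeg
  have := Fintype.ofFinite G₁
  obtain ⟨hcen, hsimple, hHyp, ρ, Ω, hΩ, Ψ, hρ1, hρP, hcard, hinj, hΨ1, hΨ⟩ :=
    Cfsg.Agent.H656.PM2Simple.main P₁ hP₁ hp hnn₁ hperf _ hζ₁ hfaith₁ hdeg₁
  have hG := Cfsg.Agent.H656.PM2Order.card_eq hHyp hp ρ hρ1 hρP Ψ hcard hinj hΨ1 hΨ
  have hpp : p.Prime := Fact.out
  have hlt : Nat.card G₁ < p ^ 3 := by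
    rw [hG]
    have h1 : p * (p - 1) < p * p := Nat.mul_lt_mul_of_pos_left (by omega) (by omega)
    calc p * (p - 1) * (p - 2) ≤ p * (p - 1) * p := Nat.mul_le_mul_left _ (by omega)
      _ < p * p * p := Nat.mul_lt_mul_of_pos_right h1 (by omega)
      _ = p ^ 3 := by ring
  have h2 : ∀ N : Subgroup G₁, N.Normal → Nat.card N ≠ 2 := by
    intro N hN hN2
    rcases hN.eq_bot_or_eq_top with h | h
    · rw [h, Subgroup.card_bot] at hN2
      omega
    · rw [h, Subgroup.card_top, hG] at hN2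
      have h3 : p ∣ p * (p - 1) * (p - 2) := ⟨(p - 1) * (p - 2), by ring⟩
      rw [hN2] at h3
      have := Nat.le_of_dvd (by norm_num) h3
      omega
  rcases Cfsg.Agent.S4701.result hperf p (by rw [hG]; exact ⟨(p - 1) * (p - 2), by ring⟩) hlt P₁ hnn₁
    h2 with ⟨F, _, _, hF, -, ⟨e⟩⟩ | ⟨m, F, _, _, hF, hpm, -, ⟨e⟩⟩
  · exfalso
    have hodd : Odd (Fintype.card F) := by
      rw [hF]
      exact hpp.odd_of_ne_two (by omega)
    have h3 := Cfsg.Agent.ClassicalGeometry.PSL2Basic.card_PSL2_odd F hodd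
    rw [← Nat.card_congr e.toEquiv, hG, hF] at h3
    obtain ⟨q, hq⟩ : ∃ q, p = q + 2 := ⟨p - 2, by omega⟩
    have h4 : p ^ 2 - 1 = (p - 1) * (p + 1) := by
      rw [hq]
      have h5 : (q + 2) ^ 2 = (q + 2 - 1) * (q + 2 + 1) + 1 := by
        have : q + 2 - 1 = q + 1 := by omega
        rw [this]
        ring
      omega
    rw [h4] at h3
    have h5 : (p * (p - 1)) * ((p - 2) * 2) = (p * (p - 1)) * (p + 1) := by
      calc (p * (p - 1)) * ((p - 2) * 2) = p * (p - 1) * (p - 2) * 2 := by ring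
        _ = p * ((p - 1) * (p + 1)) := h3
        _ = (p * (p - 1)) * (p + 1) := by ring
    have h6 := Nat.eq_of_mul_eq_mul_left (Nat.mul_pos (by omega) (by omega)) h5
    omega
  · obtain ⟨e'⟩ := hprod hcen
    exact ⟨m, F, inferInstance, inferInstance, hpm, hF,
      ⟨e'.trans (MulEquiv.prodCongr e (MulEquiv.refl _))⟩⟩

end Cfsg.Agent.S4705
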