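import Cfsg.Statements.S4707
import Cfsg.Agent.S0483
import Cfsg.Agent.S0720
import Cfsg.Agent.S0669
import Cfsg.Agent.S0253
import Cfsg.Agent.Classification.BSW.CharTools
import Cfsg.Agent.StandardComponent.FiRedGen
import Cfsg.Agent.SmallSimple.PSLTwoPart
import Cfsg.Agent.Lib.PSL2Torus
import Cfsg.Agent.ClassicalGeometry.PSL2Basic
import Cfsg.Agent.H656.DihedralSimple
import Cfsg.Agent.H656.PermSetup
import Cfsg.Agent.H656.TwoPSimple
import Cfsg.Agent.H656.TwoPChar
import Cfsg.Agent.H656.TwoPSylow
import Cfsg.Agent.H656.TwoPArith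
import Cfsg.Agent.H656.TwoPFix

set_option autoImplicit false
open Cfsg

namespace Cfsg.Agent.S4707

open scoped commutatorElement
open Cfsg.Agent.H656.DihedralP Cfsg.Agent.H656.DihedralSimple Cfsg.Agent.H656.PermSetup

/-- Let p > 3 be a prime and G a primitive permutation group of degree 2p that is not doubly transitive. If a Sylow p-subgroup of G has normalizer of order 2p, then p = 5 and G is isomorphic to the alternating group of degree 5. -/
theorem result {α : Type*} [Fintype α] [DecidableEq α] {p : ℕ} [Fact p.Prime] (hp : 3 < p) (hα : Fintype.card α = 2 * p) (G : Subgroup (Equiv.Perm α)) (hprim : MulAction.IsPreprimitive G α) (hnot2 : ¬ MulAction.IsMultiplyPretransitive G α 2) (P : Sylow p G) (hN : Nat.card (Subgroup.normalizer ((P : Subgroup G) : Set G)) = 2 * p) : p = 5 ∧ Nonempty (G ≃* alternatingGroup (Fin 5)) := by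
  have hpp : p.Prime := Fact.out
  have hp5 : 5 ≤ p := by
    have : p ≠ 4 := by rintro rfl; exact absurd hpp (by norm_num)
    omega
  have hodd : Odd p := hpp.odd_of_ne_two (by omega)
  have htrans : MulAction.IsPretransitive G α := hprim.toIsPretransitive
  obtain ⟨a₀⟩ : Nonempty α := by
    rw [← Fintype.card_pos_iff, hα]
    omega
  have hne : Nonempty α := ⟨a₀⟩
  have hNcα : Nat.card α = 2 * p := by rw [Nat.card_eq_fintype_card, hα]
  -- normal subgroups are transitive
  have hnorm : ∀ K : Subgroup G, K.Normal → K ≠ ⊥ → 2 * p ∣ Nat.card K := by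
    intro K hK hKb
    have hKt : MulAction.IsPretransitive K α := by
      apply MulAction.IsQuasiPreprimitive.isPretransitive_of_normal (G := G) (X := α) (N := K)
      intro h
      apply hKb
      rw [Subgroup.eq_bot_iff_forall]
      intro k hk
      apply FaithfulSMul.eq_of_smul_eq_smul (α := α)
      intro a
      rw [one_smul]
      have h1 : a ∈ MulAction.fixedPoints K α := by rw [h]; exact Set.mem_univ a
      exact h1 ⟨k, hk⟩
    rw [← hNcα, ← MulAction.index_stabilizer_of_transitive K a₀]
    exact Subgroup.index_dvd_card _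
  have h2pG : 2 * p ∣ Nat.card G := by
    rw [← hNcα, ← MulAction.index_stabilizer_of_transitive G a₀]
    exact Subgroup.index_dvd_card _
  have hpG : p ∣ Nat.card G := (Dvd.intro_left 2 rfl).trans h2pG
  have hnn : ¬ (P : Subgroup G).Normal := by
    intro h
    have h1 := hnorm _ h (P.ne_bot_of_dvd_card hpG)
    obtain ⟨n, hn⟩ := P.isPGroup'.exists_card_eq
    have h2 : 2 ∣ p ^ n := by
      rw [← hn]
      exact (Dvd.intro p rfl).trans h1
    have h3 := (Nat.prime_dvd_prime_iff_eq Nat.prime_two hpp).mp (Nat.prime_two.dvd_of_dvd_pow h2)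
    omega
  have hP : Nat.card P = p := card_sylow (by omega) P hN hnn
  have hP' : Nat.card (P : Subgroup G) = p := hP
  have hsimple : IsSimpleGroup G := by
    apply Cfsg.Agent.H656.TwoPSimple.isSimpleGroup P hP hN
    intro K hK hKb
    have h1 := hnorm K hK hKb
    refine ⟨(Dvd.intro_left 2 rfl).trans h1, ?_⟩
    intro h2
    rw [h2] at h1
    have h3 := Nat.le_of_dvd (by omega) h1
    omega
  have hH : Hyp P := ⟨hP, centralizer_eq P hP hN hnn, hN, hp5⟩
  have hnc : ¬ ∀ a b : G, a * b = b * a := by
    intro hcon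
    apply hnn
    constructor
    intro n hn g
    rw [hcon g n, mul_inv_cancel_right]
    exact hn
  have hperf : Group.IsPerfect G := by
    rw [Group.isPerfect_def]
    rcases (inferInstance : (commutator G).Normal).eq_bot_or_eq_top with h | h
    · exfalso
      apply hnc
      intro a b
      have h1 : ⁅a, b⁆ ∈ (⊥ : Subgroup G) := by
        rw [← h]
        exact Subgroup.commutator_mem_commutator (Subgroup.mem_top a) (Subgroup.mem_top b)
      rw [Subgroup.mem_bot, commutatorElement_eq_one_iff_mul_comm] at h1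
      exact h1
    · exact h
  -- all elements are even permutations
  have hsign : ∀ g : G, Equiv.Perm.sign (MulAction.toPerm g : Equiv.Perm α) = 1 := by
    intro g
    let φ : G →* ℤˣ := Equiv.Perm.sign.comp (MulAction.toPermHom G α)
    have h1 : commutator G ≤ φ.ker := Abelianization.commutator_subset_ker φ
    rw [Group.isPerfect_def] at hperf
    rw [hperf] at h1
    exact h1 (Subgroup.mem_top g)
  -- `P` is semiregular
  have hindexP : ¬ p ∣ (P : Subgroup G).index := P.not_dvd_index
  have hfree : ∀ y ∈ (P : Subgroup G), y ≠ 1 → ∀ a : α, y • a ≠ a := by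
    intro y hy hy1 a hya
    apply hindexP
    have h1 : p ∣ Nat.card (MulAction.stabilizer G a) := by
      have h2 : y ∈ MulAction.stabilizer G a := hya
      have h3 : orderOf (⟨y, h2⟩ : MulAction.stabilizer G a) ∣
          Nat.card (MulAction.stabilizer G a) := orderOf_dvd_natCard _
      rw [Subgroup.orderOf_mk, orderOf_eq hP' hy hy1] at h3
      exact h3
    have h2 : Nat.card (MulAction.stabilizer G a) * (2 * p) = Nat.card G := by
      rw [← hNcα, ← MulAction.index_stabilizer_of_transitive G a]
      exact Subgroup.card_mul_index _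
    have h3 : p * (P : Subgroup G).index = Nat.card G := by
      have h4 := Subgroup.card_mul_index (P : Subgroup G)
      rw [hP'] at h4
      exact h4
    have h4 : (P : Subgroup G).index = 2 * Nat.card (MulAction.stabilizer G a) := by
      apply Nat.eq_of_mul_eq_mul_left hpp.pos
      rw [h3, ← h2]
      ring
    rw [h4]
    exact h1.mul_left 2
  have hfix0 : ∀ y ∈ (P : Subgroup G), y ≠ 1 → Nat.card (MulAction.fixedBy α y) = 0 := by
    intro y hy hy1
    have h1 : MulAction.fixedBy α y = ∅ := by
      ext a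
      simp only [MulAction.mem_fixedBy, Set.mem_empty_iff_false, iff_false]
      exact hfree y hy hy1 a
    rw [h1]
    simp
  have hrank : Nat.card (Quotient (MulAction.orbitRel G (α × α))) = 3 := by
    rcases Cfsg.Agent.S0720.result hpp hα G hprim a₀ with h | ⟨h, -⟩
    · exact absurd h hnot2
    · have h1 := Cfsg.Agent.S0669.result (G := G) (Ω := α) a₀
      rw [h] at h1
      exact h1
  obtain ⟨ρ, σ, hρ, hσ, hρ1, hσ1, hρP, hπ⟩ :=
    Cfsg.Agent.H656.TwoPChar.main (α := α) hH hrank hα hfix0
  have hker : ∀ b : G, orderOf b = 2 → ρ b ≠ ρ 1 := by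
    intro b hb h
    have h1 : ρ ≠ 1 := by
      intro h1
      rw [h1] at hρ1
      simp only [Pi.one_apply] at hρ1
      have h2 : (p : ℂ) = 2 := by linear_combination -hρ1
      have h3 : p = 2 := by exact_mod_cast h2
      omega
    have h2 := Cfsg.Agent.Classification.BSW.CharTools.eq_one_of_apply_eq hρ h1 h
    rw [h2, orderOf_one] at hb
    norm_num at hb
  obtain ⟨x, hx, hxP⟩ := hH.exists_not_mem
  have hx2 := hH.orderOf_eq_two hx hxP
  have hxfix := Cfsg.Agent.H656.TwoPFix.card_eq_two hH hα hfree hsign hx hxP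
  have hinv : ∀ b : G, orderOf b = 2 → Nat.card (MulAction.fixedBy α b) = 2 := by
    intro b hb
    have h1 := hH.isConj_of_involution hρ hρ1 hρP hx hxP hb (hker b hb)
    have h2 := Cfsg.Agent.Characters.Core.classFunction_apply_eq
      (Cfsg.Agent.Characters.Core.isCharacter_isClassFunction
        (Cfsg.Agent.S0157.isCharacter_fixedBy (G := G) α)) h1
    simp only [Nat.cast_inj] at h2
    rw [← h2, hxfix]
  have hf2 := hH.factorization_two hρ hρ1 hρP hker
  have hFact2 : Fact (Nat.Prime 2) := ⟨Nat.prime_two⟩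
  obtain ⟨S⟩ : Nonempty (Sylow 2 G) := inferInstance
  obtain ⟨n, hn, hS⟩ := Cfsg.Agent.H656.TwoPSylow.main hodd (by omega) hα hinv hsign hf2 S
  have h2G : 2 ∣ Nat.card G := (Dvd.intro p rfl).trans h2pG
  have hcore := Cfsg.Agent.StandardComponent.FiRedGen.oddCore_eq_bot (G := G) h2G
  have eq : G ⧸ Cfsg.oddCore G ≃* G :=
    (QuotientGroup.quotientMulEquivOfEq hcore).trans QuotientGroup.quotientBot
  have hcardmul := hH.card_mul hρ hρ1 hρP hx hxP
  rcases Cfsg.Agent.S0483.result S n hn hS with ⟨F, _, _, hFodd, hF3, ⟨e⟩⟩ | he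
  · have e' : G ≃* Matrix.ProjectiveSpecialLinearGroup (Fin 2) F := eq.symm.trans e
    have hF2 : (2 : F) ≠ 0 :=
      (Cfsg.Agent.ClassicalGeometry.PSL2Basic.two_ne_zero_iff_odd F).mpr hFodd
    have hx1 : x ≠ 1 := by
      rintro rfl
      rw [orderOf_one] at hx2
      norm_num at hx2
    have hxx : x * x = 1 := hH.mul_self_eq_one hx hxP
    obtain ⟨T, m, hT, hm⟩ := Cfsg.Agent.Lib.PSL2Torus.exists_torus hF2 e' hx1 hxx
    have hc := hT.card_centralizer
    have hcard := Cfsg.Agent.SmallSimple.PSLTwoPart.card_psl_two_odd hFodd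
    rw [← Nat.card_congr e'.toEquiv] at hcard
    have h1 := Cfsg.Agent.H656.TwoPArith.arith (N := Nat.card G)
      (c := Nat.card (Subgroup.centralizer ({x} : Set G))) hpp hp5
      (FiniteField.isPrimePow_card F) hFodd hF3 hcard (by
        rw [Nat.card_eq_fintype_card (α := F)] at hm
        rcases hm with ⟨h1, h2⟩ | ⟨h1, h2⟩
        · left; exact ⟨h1, by rw [hc, h2]⟩
        · right; exact ⟨h1, by rw [hc, h2]⟩) hcardmul (by
        intro h
        apply hindexP
        have h3 : p * (P : Subgroup G).index = Nat.card G := by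
          have h4 := Subgroup.card_mul_index (P : Subgroup G)
          rw [hP'] at h4
          exact h4
        rw [← h3, sq] at h
        exact Nat.dvd_of_mul_dvd_mul_left hpp.pos h) (Subgroup.card_subgroup_dvd_card _)
    obtain ⟨f⟩ := Cfsg.Agent.S0253.result (F := F) h1.2
    exact ⟨h1.1, ⟨e'.trans f⟩⟩
  · exfalso
    obtain ⟨e⟩ := he
    have hcard : Nat.card G = 2520 := by
      rw [Nat.card_congr (eq.symm.trans e).toEquiv, nat_card_alternatingGroup]
      norm_num [Nat.factorial]
    rw [hcard] at hf2 hpG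
    exact Cfsg.Agent.H656.TwoPArith.alt_seven hpp hp5 hf2 hpG

end Cfsg.Agent.S4707
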