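import Cfsg.Statements.S4717
import Cfsg.Agent.H658.Major
import Cfsg.Agent.S0936

set_option autoImplicit false
open Cfsg

namespace Cfsg.Agent.S4717

open Cfsg.Agent.H658

/-- An upper bound of the defects of the non-principal blocks passes to the centralizers of
`p`-elements. -/
theorem down {G : Type*} [Group G] [Finite G] (p : ℕ) [Fact p.Prime] (M : Ideal Cfsg.AlgInt)
    (hM : Cfsg.IsPModular p M) (r : ℕ)
    (h : ∀ B' : Set (Cfsg.IrrCharacter G), Cfsg.IsPBlock M B' → B' ≠ Cfsg.principalBlock M G →
      Cfsg.blockDefect p B' < r) (y : G) (hy : ∃ k : ℕ, orderOf y = p ^ k)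
    (b : Set (Cfsg.IrrCharacter ↥(Subgroup.centralizer ({y} : Set G)))) (hb : Cfsg.IsPBlock M b)
    (hne : b ≠ Cfsg.principalBlock M ↥(Subgroup.centralizer ({y} : Set G))) :
    Cfsg.blockDefect p b < r := by
  have hMp : M.IsPrime := hM.2.1.isPrime
  obtain ⟨k, hk⟩ := hy
  have hcent : Subgroup.centralizer ((Subgroup.zpowers y : Subgroup G) : Set G) =
      Subgroup.centralizer ({y} : Set G) := by
    rw [Subgroup.zpowers_eq_closure, Subgroup.centralizer_closure]
  have hdef : Cfsg.InducedBlockDefined M (Subgroup.centralizer ({y} : Set G)) b := by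
    refine Cfsg.Agent.S0919.result p M hM (Subgroup.zpowers y) _ ?_ ?_ ?_ ?_ b hb
    · refine IsPGroup.of_card (n := k) ?_
      rw [Nat.card_zpowers, hk]
    · rw [Subgroup.zpowers_le, Subgroup.mem_centralizer_singleton_iff]
    · exact hcent.le
    · rw [← hcent]
      intro x hx
      rw [Subgroup.mem_normalizer_iff]
      rw [Subgroup.mem_centralizer_iff] at hx
      intro w
      constructor
      · intro hw
        have h1 := hx w hw
        have h2 : x * w * x⁻¹ = w := by rw [← h1]; group
        rw [h2]; exact hw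
      · intro hw
        have h1 := hx _ hw
        have h2 : w = x * w * x⁻¹ := by
          have h3 : x * w = x * (x * w * x⁻¹) := by
            rw [← h1]; group
          exact mul_left_cancel h3
        rw [h2]; exact hw
  obtain ⟨B, hB⟩ := hdef
  refine lt_of_le_of_lt (defect_le_of_induced hM hB) (h B hB.2.1 ?_)
  rintro rfl
  exact hne ((Cfsg.Agent.S0936.result p M hM _ b ⟨_, hB⟩).1 hB)

/-- Let p be a prime, M a maximal ideal of the algebraic integers containing p, and r a natural number; say that a finite group X has deficiency class r when X has no non-principal p-block of defect ≥ r. If G has deficiency class r then so does the centralizer of every p-element of G; conversely, if r > 0 and the centralizer of every element of order p has deficiency class r, then G has deficiency class r. -/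
theorem result {G : Type*} [Group G] [Finite G] (p : ℕ) [Fact p.Prime] (M : Ideal Cfsg.AlgInt) (hM : Cfsg.IsPModular p M) (r : ℕ) : ((∀ B' : Set (Cfsg.IrrCharacter G), Cfsg.IsPBlock M B' → B' ≠ Cfsg.principalBlock M G → Cfsg.blockDefect p B' < r) → ∀ y : G, (∃ k : ℕ, orderOf y = p ^ k) → (∀ B' : Set (Cfsg.IrrCharacter ↥(Subgroup.centralizer ({y} : Set G))), Cfsg.IsPBlock M B' → B' ≠ Cfsg.principalBlock M ↥(Subgroup.centralizer ({y} : Set G)) → Cfsg.blockDefect p B' < r)) ∧ (0 < r → (∀ y : G, orderOf y = p → (∀ B' : Set (Cfsg.IrrCharacter ↥(Subgroup.centralizer ({y} : Set G))), Cfsg.IsPBlock M B' → B' ≠ Cfsg.principalBlock M ↥(Subgroup.centralizer ({y} : Set G)) → Cfsg.blockDefect p B' < r)) → (∀ B' : Set (Cfsg.IrrCharacter G), Cfsg.IsPBlock M B' → B' ≠ Cfsg.principalBlock M G → Cfsg.blockDefect p B' < r)) := by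
  have hMp : M.IsPrime := hM.2.1.isPrime
  refine ⟨fun h y hy b hb hne => down p M hM r h y hy b hb hne, ?_⟩
  intro hr h B hB hne
  by_contra hlt
  rw [not_lt] at hlt
  obtain ⟨D, hD⟩ := Cfsg.Agent.H662.exists_defectGroup hM hB
  have hDp : IsPGroup p D := Cfsg.Agent.Blocks.Basic.isPGroup_of_isDefectGroup hD
  have hcard := Cfsg.Agent.S0908.result p M hM B hB D hD
  have hnt : Nontrivial D := by
    rw [← Finite.one_lt_card_iff_nontrivial, hcard]
    exact Nat.one_lt_pow (by omega) (Fact.out : p.Prime).one_lt
  have hZnt : Nontrivial (Subgroup.center D) := hDp.center_nontrivial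
  have hZp : IsPGroup p (Subgroup.center D) := hDp.to_subgroup _
  have hdvd : p ∣ Nat.card (Subgroup.center D) := by
    obtain ⟨n, hn⟩ := (IsPGroup.iff_card.1 hZp)
    rw [hn]
    have hn0 : n ≠ 0 := by
      rintro rfl
      have := Finite.one_lt_card (α := Subgroup.center D)
      rw [hn, pow_zero] at this
      exact lt_irrefl _ this
    exact dvd_pow_self p hn0
  obtain ⟨z, hz⟩ := exists_prime_orderOf_dvd_card' p hdvd
  have hzo : orderOf (((z : Subgroup.center D) : D) : G) = p := by
    rw [Subgroup.orderOf_coe, Subgroup.orderOf_coe, hz]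
  obtain ⟨b, -, hb⟩ := (Cfsg.Agent.S0973.result p M hM B hB D hD).1
  obtain ⟨f, -, hf, -, hdf⟩ := exists_major hM hD (z := ((z : D) : G)) (z : D).2
    (fun w hw => by
      have h1 := Subgroup.mem_center_iff.1 z.2 ⟨w, hw⟩
      exact (congrArg Subtype.val h1).symm) hb
  have h1 := h _ hzo f hf.1 (by
    intro hfp
    have h2 := (Cfsg.Agent.S0936.result p M hM _ f ⟨_, hf⟩).2 hfp
    exact hne (Cfsg.Agent.H662.inducedBlock_unique hf h2))
  omega

end Cfsg.Agent.S4717
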