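import Cfsg.Statements.S4718
import Cfsg.Agent.H659.Landau
import Cfsg.Agent.H659.BlockBound

set_option autoImplicit false
universe u
open Cfsg

namespace Cfsg.Agent.S4718

/-- A finite group with a single `p`-block has at most `|G|_p ^ 2` conjugacy classes. -/
theorem card_conjClasses_le {G : Type*} [Group G] [Finite G] {p : ℕ} [Fact p.Prime]
    {M : Ideal AlgInt} (hM : IsPModular p M)
    (h : ∀ B : Set (IrrCharacter G), IsPBlock M B → B = principalBlock M G) :
    Nat.card (ConjClasses G) ≤ (p ^ (Nat.card G).factorization p) ^ 2 := by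
  have hMp : M.IsPrime := Blocks.Local.isPrime_of_isPModular hM
  have hall : principalBlock M G = Set.univ := by
    rw [Set.eq_univ_iff_forall]
    intro χ
    rw [← h (blockOf M (χ : G → ℂ)) ⟨χ, rfl⟩]
    exact Blocks.Basic.mem_blockOf_self χ
  have h1 := H659.BlockBound.card_block_le hM (principalBlock M G)
    ⟨⟨fun _ => 1, Characters.Core.isIrr_one⟩, rfl⟩
  rw [hall, Nat.card_congr (Equiv.Set.univ (IrrCharacter G)), Characters.Core.card_irr] at h1
  exact h1

/-- Let p be a prime and a a natural number. There is a bound N such that every finite group whose Sylow p-subgroups have order p^a and whose only p-block (relative to a maximal ideal of the algebraic integers containing p) is the principal block has order at most N. -/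
theorem result (p : ℕ) [Fact p.Prime] (a : ℕ) : ∃ N : ℕ, ∀ (G : Type u) [Group G] [Finite G] (M : Ideal Cfsg.AlgInt), Cfsg.IsPModular p M → (Nat.card G).factorization p = a → (∀ B : Set (Cfsg.IrrCharacter G), Cfsg.IsPBlock M B → B = Cfsg.principalBlock M G) → Nat.card G ≤ N := by
  obtain ⟨N, hN⟩ := H659.Landau.landau.{u} ((p ^ a) ^ 2)
  refine ⟨N, fun G _ _ M hM ha hB => hN G ?_⟩
  have h1 := card_conjClasses_le hM hB
  rwa [ha] at h1

end Cfsg.Agent.S4718
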