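import Cfsg.Statements.S4719
import Cfsg.Agent.S4718
import Cfsg.Agent.H659.BFC
import Cfsg.Agent.H659.Deficiency

set_option autoImplicit false
universe u
open Cfsg

namespace Cfsg.Agent.S4719

open Subgroup

theorem main (r : ℕ) : ∀ a : ℕ, ∃ N : ℕ, ∀ (G : Type u) [Group G] [Finite G] (M : Ideal AlgInt),
    IsPModular 2 M → (Nat.card G).factorization 2 = a →
    (∀ B : Set (IrrCharacter G), IsPBlock M B → B ≠ principalBlock M G → blockDefect 2 B < r) →
    (∃ E : Subgroup G, (∀ x ∈ E, ∀ y ∈ E, x * y = y * x) ∧ (∀ x ∈ E, x * x = 1) ∧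
      Nat.card E = 2 ^ (r + 1)) → Nat.card G ≤ N := by
  have : Fact (Nat.Prime 2) := ⟨Nat.prime_two⟩
  induction r with
  | zero =>
    intro a
    obtain ⟨N, hN⟩ := S4718.result.{u} 2 a
    refine ⟨N, fun G _ _ M hM ha hB _ => hN G M hM ha fun B hBB => ?_⟩
    by_contra hne
    exact absurd (hB B hBB hne) (Nat.not_lt_zero _)
  | succ r ih =>
    intro a
    choose F hF using ih
    obtain ⟨N, hN⟩ := H659.BFC.exists_order_bound.{u} (2 * ∑ j ∈ Finset.range (a + 1), F j)
    refine ⟨N, fun G _ _ M hM ha hB hE => ?_⟩
    obtain ⟨E, hEc, hE2, hEcard⟩ := hE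
    -- the centralizers of the involutions of `E`
    have key : ∀ x ∈ E, x ≠ 1 →
        Nat.card (centralizer ({x} : Set G)) ≤ 2 * ∑ j ∈ Finset.range (a + 1), F j := by
      intro x hxE hx1
      have hx2 : orderOf x = 2 := by
        apply orderOf_eq_prime _ hx1
        rw [pow_two, hE2 x hxE]
      set H := centralizer ({x} : Set G) with hH
      have hxH : x ∈ H := mem_centralizer_singleton_iff.2 rfl
      set z : H := ⟨x, hxH⟩ with hz
      set Z : Subgroup H := zpowers z with hZ
      have hzc : z ∈ center H := by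
        rw [mem_center_iff]
        intro g
        exact Subtype.ext (mem_centralizer_singleton_iff.1 g.2)
      have hZc : Z ≤ center H := by
        rw [hZ, zpowers_le]
        exact hzc
      have hZn : Z.Normal := ⟨fun n hn g => by
        have := mem_center_iff.1 (hZc hn) g
        rwa [this, mul_inv_cancel_right]⟩
      have hZcard : Nat.card Z = 2 := by
        rw [hZ, Nat.card_zpowers, hz, orderOf_mk, hx2]
      have hdef := H659.Deficiency.defClass_centralizer hM (r + 1) hB x ⟨1, by rw [hx2, pow_one]⟩
      have hdef2 := H659.Deficiency.defClass_quotient (G := H) hM r hdef Z hZc hZcard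
      -- the elementary abelian subgroup
      have hEH : E ≤ H := by
        intro y hy
        rw [hH, mem_centralizer_singleton_iff]
        exact hEc y hy x hxE
      set E' : Subgroup H := E.subgroupOf H with hE'
      have hE'card : Nat.card E' = 2 ^ (r + 1 + 1) := by
        rw [← hEcard]
        exact Nat.card_congr (subgroupOfEquivOfLe hEH).toEquiv
      have hZE' : Z ≤ E' := by
        rw [hZ, zpowers_le]
        exact hxE
      have hmapcard : Nat.card (E'.map (QuotientGroup.mk' Z)) = 2 ^ (r + 1) := by
        have h3 := relIndex_ker (K := E') (QuotientGroup.mk' Z)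
        rw [QuotientGroup.ker_mk'] at h3
        have h4 := relIndex_mul_relIndex (⊥ : Subgroup H) Z E' bot_le hZE'
        rw [relIndex_bot_left, relIndex_bot_left, h3, hZcard, hE'card, pow_succ' 2 (r + 1)] at h4
        exact Nat.eq_of_mul_eq_mul_left (by norm_num) h4
      have hbound := hF ((Nat.card (H ⧸ Z)).factorization 2) (H ⧸ Z) M hM rfl hdef2
        ⟨E'.map (QuotientGroup.mk' Z), ?_, ?_, hmapcard⟩
      · have hcard : Nat.card H = Nat.card (H ⧸ Z) * 2 := by
          rw [← hZcard]
          exact card_eq_card_quotient_mul_card_subgroup Z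
        have hle : (Nat.card (H ⧸ Z)).factorization 2 ≤ a := by
          rw [← ha]
          refine (Nat.factorization_le_iff_dvd Nat.card_pos.ne' Nat.card_pos.ne').2 ?_ 2
          exact (Dvd.intro _ hcard.symm).trans (card_subgroup_dvd_card H)
        have hsum : F ((Nat.card (H ⧸ Z)).factorization 2) ≤ ∑ j ∈ Finset.range (a + 1), F j :=
          Finset.single_le_sum (f := F) (fun _ _ => Nat.zero_le _)
            (Finset.mem_range.2 (Nat.lt_succ_of_le hle))
        rw [hcard]
        omega
      · rintro _ ⟨u, hu, rfl⟩ _ ⟨v, hv, rfl⟩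
        rw [← map_mul, ← map_mul]
        congr 1
        exact Subtype.ext (hEc u hu v hv)
      · rintro _ ⟨u, hu, rfl⟩
        rw [← map_mul]
        have : u * u = 1 := Subtype.ext (hE2 u hu)
        rw [this, map_one]
    -- two different involutions
    have hcard4 : 4 ≤ Nat.card E := by
      rw [hEcard]
      calc 4 = 2 ^ 2 := by norm_num
        _ ≤ 2 ^ (r + 1 + 1) := Nat.pow_le_pow_right (by norm_num) (by omega)
    have hnc : (E : Set G).ncard = Nat.card E := rfl
    obtain ⟨x, hxE, hx1⟩ : ∃ x ∈ (E : Set G), x ∉ ({1} : Set G) := by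
      apply Set.exists_mem_notMem_of_ncard_lt_ncard _ (Set.toFinite _)
      rw [Set.ncard_singleton, hnc]
      omega
    obtain ⟨y, hyE, hy1⟩ : ∃ y ∈ (E : Set G), y ∉ ({1, x} : Set G) := by
      apply Set.exists_mem_notMem_of_ncard_lt_ncard _ (Set.toFinite _)
      have := Set.ncard_insert_le (1 : G) ({x} : Set G)
      rw [Set.ncard_singleton] at this
      rw [hnc]
      omega
    simp only [Set.mem_singleton_iff] at hx1
    simp only [Set.mem_insert_iff, Set.mem_singleton_iff, not_or] at hy1
    have hxy1 : x * y ≠ 1 := by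
      intro h
      apply hy1.2
      have h2 := hE2 x hxE
      rw [← h2] at h
      exact mul_left_cancel h
    exact hN G x y (hE2 x hxE) (hE2 y hyE) (hEc x hxE y hyE) (key x hxE hx1) (key y hyE hy1.1)
      (key (x * y) (E.mul_mem hxE hyE) hxy1)

/-- For every natural number a there is a bound N with the following property. Let G be a finite group with Sylow 2-subgroups of order 2^a and r ≥ 0 such that G has no non-principal 2-block (relative to a maximal ideal of the algebraic integers containing 2) of defect ≥ r, and suppose a Sylow 2-subgroup of G contains an elementary abelian subgroup of order 2^(r+1). Then the order of G is at most N. -/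
theorem result (a : ℕ) : ∃ N : ℕ, ∀ (G : Type u) [Group G] [Finite G] (M : Ideal Cfsg.AlgInt) (r : ℕ) (P : Sylow 2 G), Cfsg.IsPModular 2 M → Nat.card P = 2 ^ a → (∀ B : Set (Cfsg.IrrCharacter G), Cfsg.IsPBlock M B → B ≠ Cfsg.principalBlock M G → Cfsg.blockDefect 2 B < r) → (∃ E : Subgroup G, E ≤ (P : Subgroup G) ∧ IsMulCommutative E ∧ (∀ x ∈ E, x * x = 1) ∧ Nat.card E = 2 ^ (r + 1)) → Nat.card G ≤ N := by
  have : Fact (Nat.Prime 2) := ⟨Nat.prime_two⟩
  choose F hF using main.{u}
  refine ⟨∑ r ∈ Finset.range (a + 1), F r a, fun G _ _ M r P hM hP hB hE => ?_⟩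
  obtain ⟨E, hEP, hEc, hE2, hEcard⟩ := hE
  have hra : r + 1 ≤ a := by
    have h1 := card_dvd_of_le hEP
    rw [hEcard] at h1
    change 2 ^ (r + 1) ∣ Nat.card P at h1
    rw [hP] at h1
    exact (Nat.pow_dvd_pow_iff_le_right (by norm_num)).1 h1
  have hGa : (Nat.card G).factorization 2 = a := by
    have h1 := P.card_eq_multiplicity
    change Nat.card P = _ at h1
    rw [hP] at h1
    exact (Nat.pow_right_injective (le_refl 2) h1).symm
  have h1 := hF r a G M hM hGa hB ⟨E, fun x hx y hy => ?_, hE2, hEcard⟩
  · refine h1.trans ?_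
    exact Finset.single_le_sum (f := fun r => F r a) (fun _ _ => Nat.zero_le _)
      (Finset.mem_range.2 (by omega))
  · have := hEc.is_comm.comm (⟨x, hx⟩ : E) ⟨y, hy⟩
    exact congrArg Subtype.val this

end Cfsg.Agent.S4719
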