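import Cfsg.Statements.S4721
import Cfsg.Agent.H659.Frob3Invol

set_option autoImplicit false
open Cfsg

namespace Cfsg.Agent.S4721

open Subgroup Cfsg.Agent.Blocks Cfsg.Agent.Characters.Core H659.Frob3Group H659.Frob3Dual
  H659.Frob3Data H659.Frob3Invol

theorem relations {G : Type*} [Group G] [Finite G] {p : ℕ} [Fact p.Prime] {M : Ideal AlgInt}
    {P : Sylow p G} {X Y : Set (IrrCharacter G)} {a : IrrCharacter G → ℤ} {δ : ℤ}
    {ζ : ((P : Subgroup G) →* ℂˣ) → IrrCharacter G}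
    (hM : IsPModular p M) (hyp : Hyp P) (hP : 4 < Nat.card P)
    (D : Data M P X Y a δ ζ) (t : G) (ht : orderOf t = 2) :
    ∃ η₀ ∈ Y, -(δ : ℂ) * (η₀ : G → ℂ) t + ∑ᶠ χ ∈ X, (a χ : ℂ) * (χ : G → ℂ) t = 0 ∧
      -(δ : ℂ) * cc t η₀ + ∑ᶠ χ ∈ X, (a χ : ℂ) * cc t χ = 0 := by
  by_cases hp2 : p = 2
  · subst hp2
    obtain ⟨t', ht'P, ht', hconj⟩ := Homocyclic.exists_isConj_mem P t ht
    obtain ⟨η₀, hη₀, h1, h2⟩ := relations_two hM hyp hP D t' ht' ht'P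
    have hval : ∀ χ : IrrCharacter G, (χ : G → ℂ) t' = (χ : G → ℂ) t :=
      fun χ => (Basic.irr_isConj χ.2 hconj).symm
    refine ⟨η₀, hη₀, ?_, ?_⟩
    · simpa only [hval] using h1
    · simpa only [cc, hval] using h2
  · exact relations_odd hM hyp hP hp2 D t ht

theorem charDegree_eq {G : Type*} [Group G] {χ : G → ℂ} {n : ℕ} (h : χ 1 = n) :
    charDegree χ = n := by
  unfold charDegree
  rw [h]
  simp

theorem final {G : Type*} [Group G] [Finite G] {p : ℕ} [Fact p.Prime] {M : Ideal AlgInt}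
    {P : Sylow p G} {X Y : Set (IrrCharacter G)} {a : IrrCharacter G → ℤ} {δ : ℤ}
    {ζ : ((P : Subgroup G) →* ℂˣ) → IrrCharacter G}
    (hM : IsPModular p M) (hyp : Hyp P) (hP : 4 < Nat.card P)
    (D : Data M P X Y a δ ζ) (t : G) (ht : orderOf t = 2)
    (hK : ∀ K : Subgroup G, K.Normal → t ∈ K → K = ⊤) :
    Nat.card {χ : IrrCharacter G // χ ∈ X ∧ (χ : G → ℂ) ≠ (fun _ => 1) ∧ a χ = -1} +
        (if δ = 1 then 1 else 0) = 2 ∧
      ∀ η ∈ Y, IsSquare (charDegree (η : G → ℂ) *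
        ∏ᶠ χ ∈ {χ : IrrCharacter G | χ ∈ X ∧ (χ : G → ℂ) ≠ fun _ => 1},
          charDegree (χ : G → ℂ)) := by
  classical
  have : Finite (IrrCharacter G) := finite_irr
  have := Fintype.ofFinite (IrrCharacter G)
  have := Fintype.ofFinite G
  obtain ⟨χ₁, hχ₁, hχ₁'⟩ := D.one
  have hXc : X.ncard = 3 := D.cardX
  have hdiff : (X \ {χ₁}).ncard = 2 := by
    rw [Set.ncard_diff_singleton_of_mem hχ₁, hXc]
  obtain ⟨χ₂, χ₃, h23, hX'⟩ := Set.ncard_eq_two.1 hdiff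
  have hχ₂ : χ₂ ∈ X \ {χ₁} := by rw [hX']; simp
  have hχ₃ : χ₃ ∈ X \ {χ₁} := by rw [hX']; simp
  have h21 : χ₂ ≠ χ₁ := hχ₂.2
  have h31 : χ₃ ≠ χ₁ := hχ₃.2
  have hXeq : X = (({χ₁, χ₂, χ₃} : Finset (IrrCharacter G)) : Set (IrrCharacter G)) := by
    have h1 : X = insert χ₁ (X \ {χ₁}) := by
      rw [Set.insert_diff_singleton, Set.insert_eq_of_mem hχ₁]
    rw [h1, hX']
    simp
  have hsumX : ∀ F : IrrCharacter G → ℂ, ∑ᶠ χ ∈ X, F χ = F χ₁ + F χ₂ + F χ₃ := by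
    intro F
    rw [hXeq, finsum_mem_coe_finset, Finset.sum_insert, Finset.sum_insert, Finset.sum_singleton]
    · ring
    · rw [Finset.mem_singleton]; exact h23
    · rw [Finset.mem_insert, Finset.mem_singleton, not_or]; exact ⟨h21.symm, h31.symm⟩
  have hne1 : ∀ χ : IrrCharacter G, χ ≠ χ₁ → (χ : G → ℂ) ≠ fun _ => 1 := by
    intro χ hχ h
    exact hχ (Subtype.ext (h.trans hχ₁'.symm))
  have ha1 : a χ₁ = 1 := by
    obtain ⟨y₀, hy₀, hy₀1⟩ : ∃ y ∈ (P : Subgroup G), y ≠ 1 := by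
      by_contra hcon
      push Not at hcon
      have : (P : Subgroup G) = ⊥ := (Subgroup.eq_bot_iff_forall _).2 hcon
      have h1 : Nat.card (P : Subgroup G) = 1 := by rw [this, Subgroup.card_bot]
      change Nat.card P = 1 at h1
      omega
    have h1 := (D.valX χ₁ hχ₁).2 y₀ y₀ (PPart.isPPart_of_isPGroup (exists_orderOf P hy₀)) hy₀ hy₀1
    rw [hχ₁'] at h1
    have h2 : (1 : ℂ) = (a χ₁ : ℂ) := h1
    exact_mod_cast h2.symm
  -- nontrivial characters do not have `t` in the kernel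
  have hker : ∀ χ : IrrCharacter G, (χ : G → ℂ) ≠ (fun _ => 1) →
      (χ : G → ℂ) t ≠ (χ : G → ℂ) 1 := by
    intro χ hχ h
    apply hχ
    refine S0898.eq_one_of_ker (zpowers t) (fun K hK1 hK2 => hK K hK1 (hK2 (mem_zpowers t))) χ.2 ?_
    rintro ⟨s, hs, hs'⟩
    apply hs'
    obtain ⟨k, rfl⟩ := mem_zpowers_iff.1 hs
    rcases Int.even_or_odd k with ⟨m, hm⟩ | ⟨m, hm⟩
    · have : t ^ k = 1 := by
        rw [hm, ← two_mul, zpow_mul]
        have h2 : t ^ (2 : ℤ) = 1 := by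
          have := pow_orderOf_eq_one t
          rw [ht] at this
          exact_mod_cast this
        rw [h2, one_zpow]
      rw [this]
    · have : t ^ k = t := by
        rw [hm, zpow_add, zpow_mul, zpow_one]
        have h2 : t ^ (2 : ℤ) = 1 := by
          have := pow_orderOf_eq_one t
          rw [ht] at this
          exact_mod_cast this
        rw [h2, one_zpow, one_mul]
      rw [this, h]
  obtain ⟨η₀, hη₀, R2, R3⟩ := relations hM hyp hP D t ht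
  have R1 := D.rel η₀ hη₀ 1 one_not_dvd
  rw [hsumX] at R1 R2 R3
  -- integral values
  obtain ⟨y₂, hy₂, -⟩ := S0944.result χ₂ t ht
  obtain ⟨y₃, hy₃, -⟩ := S0944.result χ₃ t ht
  obtain ⟨y₄, hy₄, -⟩ := S0944.result η₀ t ht
  obtain ⟨f₂, hf₂, hf₂'⟩ := isIrr_apply_one χ₂.2
  obtain ⟨f₃, hf₃, hf₃'⟩ := isIrr_apply_one χ₃.2
  obtain ⟨f₄, hf₄, hf₄'⟩ := isIrr_apply_one η₀.2
  have hη₀ne : (η₀ : G → ℂ) ≠ fun _ => 1 := by
    intro h
    have h1 : η₀ = χ₁ := Subtype.ext (h.trans hχ₁'.symm)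
    exact (Set.disjoint_left.1 D.disj hχ₁) (h1 ▸ hη₀)
  have k₂ : y₂ ≠ f₂ := by
    intro h
    apply hker χ₂ (hne1 χ₂ h21)
    rw [hy₂, hf₂', h]
    norm_cast
  have k₃ : y₃ ≠ f₃ := by
    intro h
    apply hker χ₃ (hne1 χ₃ h31)
    rw [hy₃, hf₃', h]
    norm_cast
  have k₄ : y₄ ≠ f₄ := by
    intro h
    apply hker η₀ hη₀ne
    rw [hy₄, hf₄', h]
    norm_cast
  have hδ' : -δ = 1 ∨ -δ = -1 := by
    rcases D.hδ with h | h <;> rw [h] <;> norm_num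
  have e1 : (χ₁ : G → ℂ) 1 = 1 := by rw [hχ₁']
  have et : (χ₁ : G → ℂ) t = 1 := by rw [hχ₁']
  have R1' : 1 + a χ₂ * f₂ + a χ₃ * f₃ + (-δ) * f₄ = (0 : ℤ) := by
    rw [hf₂', hf₃', hf₄', e1, ha1] at R1
    have : ((1 + a χ₂ * f₂ + a χ₃ * f₃ + (-δ) * f₄ : ℤ) : ℂ) = 0 := by
      push_cast
      linear_combination R1
    exact_mod_cast this
  have R2' : 1 + a χ₂ * y₂ + a χ₃ * y₃ + (-δ) * y₄ = (0 : ℤ) := by
    rw [hy₂, hy₃, hy₄, et, ha1] at R2
    have : ((1 + a χ₂ * y₂ + a χ₃ * y₃ + (-δ) * y₄ : ℤ) : ℂ) = 0 := by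
      push_cast
      linear_combination R2
    exact_mod_cast this
  have R3' : (1 : ℚ) + a χ₂ * (y₂ : ℚ) ^ 2 / f₂ + a χ₃ * (y₃ : ℚ) ^ 2 / f₃ +
      ((-δ : ℤ) : ℚ) * (y₄ : ℚ) ^ 2 / f₄ = 0 := by
    simp only [cc] at R3
    rw [hy₂, hy₃, hy₄, et, ha1, e1, hf₂', hf₃', hf₄'] at R3
    have : (((1 : ℚ) + a χ₂ * (y₂ : ℚ) ^ 2 / f₂ + a χ₃ * (y₃ : ℚ) ^ 2 / f₃ +
      ((-δ : ℤ) : ℚ) * (y₄ : ℚ) ^ 2 / f₄ : ℚ) : ℂ) = 0 := by
      push_cast
      linear_combination R3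
    exact_mod_cast this
  obtain ⟨hcount, hsq⟩ := H659.Arith3.main (D.valX χ₂ hχ₂.1).1 (D.valX χ₃ hχ₃.1).1 hδ' hf₂ hf₃ hf₄
    k₂ k₃ k₄ R1' R2' R3'
  constructor
  · have hset : Nat.card {χ : IrrCharacter G // χ ∈ X ∧ (χ : G → ℂ) ≠ (fun _ => 1) ∧ a χ = -1} =
        (if a χ₂ = -1 then 1 else 0) + (if a χ₃ = -1 then 1 else 0) := by
      have h1 : Nat.card {χ : IrrCharacter G // χ ∈ X ∧ (χ : G → ℂ) ≠ (fun _ => 1) ∧ a χ = -1} =
          (({χ₂, χ₃} : Finset (IrrCharacter G)).filter (fun χ => a χ = -1)).card := by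
        rw [Nat.card_eq_fintype_card, Fintype.card_subtype]
        congr 1
        ext χ
        simp only [Finset.mem_filter, Finset.mem_univ, true_and, Finset.mem_insert,
          Finset.mem_singleton]
        constructor
        · rintro ⟨h1, h2, h3⟩
          refine ⟨?_, h3⟩
          have h4 : χ ∈ X \ {χ₁} := ⟨h1, fun h => h2 (by rw [h]; exact hχ₁')⟩
          rw [hX'] at h4
          exact h4
        · rintro ⟨h1, h3⟩
          rcases h1 with rfl | rfl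
          · exact ⟨hχ₂.1, hne1 _ h21, h3⟩
          · exact ⟨hχ₃.1, hne1 _ h31, h3⟩
      rw [h1, Finset.card_filter, Finset.sum_insert (by rw [Finset.mem_singleton]; exact h23),
        Finset.sum_singleton]
    rw [hset, ← hcount]
    congr 1
    rcases D.hδ with h | h <;> rw [h] <;> norm_num
  · intro η hη
    have h1 : charDegree (η : G → ℂ) = f₄ :=
      charDegree_eq ((D.regY η hη η₀ hη₀ 1 one_not_dvd).trans hf₄')
    have h2 : ∏ᶠ χ ∈ {χ : IrrCharacter G | χ ∈ X ∧ (χ : G → ℂ) ≠ fun _ => 1},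
          charDegree (χ : G → ℂ) = f₂ * f₃ := by
      have h3 : {χ : IrrCharacter G | χ ∈ X ∧ (χ : G → ℂ) ≠ fun _ => 1} = {χ₂, χ₃} := by
        rw [← hX']
        ext χ
        constructor
        · rintro ⟨h1, h2⟩
          exact ⟨h1, fun h => h2 (by rw [h]; exact hχ₁')⟩
        · rintro ⟨h1, h2⟩
          exact ⟨h1, hne1 χ h2⟩
      rw [h3, finprod_mem_pair h23, charDegree_eq hf₂', charDegree_eq hf₃']
    rw [h1, h2]
    exact hsq

/-- Let p be a prime, M a maximal ideal of the algebraic integers containing p, and G a finite group with a nontrivial abelian Sylow p-subgroup P, N = N_G(P), C = C_G(P), such that N/C is cyclic of order 3, #P > 4, and C_G(y) ∩ N = C for every non-identity y ∈ P. Then the principal p-block is the disjoint union of a set X of exactly 3 characters containing the principal character and a set Y of (#P − 1)/3 characters, with signs a_χ = ±1 (χ ∈ X, a = 1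 at the principal character) and δ = ±1 such that every χ ∈ X takes the value a_χ at every element whose p-part is a non-identity element of P, and there is a map ζ from the non-principal linear characters of P onto Y, constant on N-conjugacy classes, with ζ_ψ(z) = δ·Σ ψ'(y) over the N-orbit of ψ, for z with p-part y ≠ 1 in P. If moreover G has an involution lying in no proper normal subgroup of G, then exactly two of the three numbers −δ and a_χ (χ ∈ X non-principal) equal −1, and the product of the degrees of the two non-principal members of X and of any member of Y is a perfect square. -/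
theorem result {G : Type*} [Group G] [Finite G] (p : ℕ) [Fact p.Prime] (M : Ideal Cfsg.AlgInt) (hM : Cfsg.IsPModular p M) (P : Sylow p G) (hab : IsMulCommutative P) (hP1 : Nat.card P ≠ 1) (hCN : (Subgroup.centralizer ((P : Subgroup G) : Set G)).relIndex (Subgroup.normalizer ((P : Subgroup G) : Set G)) = 3) (hcyc : ∃ g : G, g ∈ Subgroup.normalizer ((P : Subgroup G) : Set G) ∧ Subgroup.centralizer ((P : Subgroup G) : Set G) ⊔ Subgroup.zpowers g = Subgroup.normalizer ((P : Subgroup G) : Set G)) (hm2 : 3 + 1 < Nat.card P) (hfrob : ∀ y : G, y ∈ (P : Subgroup G) → y ≠ 1 → Subgroup.centralizer ({y} : Set G) ⊓ Subgroup.normalizer ((P : Subgroup G) : Set G) = Subgroup.centralizer ((P : Subgroup G) : Set G)) : ∃ (X Y : Set (Cfsg.IrrCharacter G)), Cfsg.principalBlock M G = X ∪ Y ∧ Disjoint X Y ∧ Nat.card X = 3 ∧ Nat.card Y = (Nat.card P - 1) / 3 ∧ (∃ χ₁ ∈ X, (χ₁ : G → ℂ) = fun _ => 1) ∧ ∃ (a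 : Cfsg.IrrCharacter G → ℤ) (δ : ℤ) (ζ : (↥(P : Subgroup G) →* ℂˣ) → Cfsg.IrrCharacter G), (δ = 1 ∨ δ = -1) ∧ (∀ χ ∈ X, (a χ = 1 ∨ a χ = -1) ∧ ∀ z y : G, Cfsg.IsPPart p z y → y ∈ (P : Subgroup G) → y ≠ 1 → (χ : G → ℂ) z = (a χ : ℂ)) ∧ (∀ ψ : ↥(P : Subgroup G) →* ℂˣ, ψ ≠ 1 → ζ ψ ∈ Y) ∧ (∀ η ∈ Y, ∃ ψ : ↥(P : Subgroup G) →* ℂˣ, ψ ≠ 1 ∧ ζ ψ = η) ∧ (∀ ψ ψ' : ↥(P : Subgroup G) →* ℂˣ, ψ ≠ 1 → (∃ n : G, n ∈ Subgroup.normalizer ((P : Subgroup G) : Set G) ∧ ∀ w w' : ↥(P : Subgroup G), (w' : G) = n * w * n⁻¹ → ψ' w' = ψ w) → ζ ψ' = ζ ψ) ∧ (∀ ψ : ↥(P : Subgroup G) →* ℂˣ, ψ ≠ 1 → ∀ (z : G) (y : ↥(P : Subgroup G)), Cfsg.IsPPart p z (y : G) → (y : G) ≠ 1 → (ζ ψ : G → ℂ) z = (δ : ℂ) * ∑ᶠ ψ' ∈ {ψ' : ↥(P : Subgroup G) →* ℂˣ | ∃ n : G, n ∈ Subgroup.normalizer ((P : Subgroup G) : Set G) ∧ ∀ w w' : ↥(P : Subgroup G), (w' : G) = n * w * n⁻¹ → ψ' w' = ψ w}, ((ψ' y : ℂˣ) : ℂ)) ∧ ((∃ t : G, orderOf t = 2 ∧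 ∀ K : Subgroup G, K.Normal → t ∈ K → K = ⊤) → Nat.card {χ : Cfsg.IrrCharacter G // χ ∈ X ∧ (χ : G → ℂ) ≠ (fun _ => 1) ∧ a χ = -1} + (if δ = 1 then 1 else 0) = 2 ∧ ∀ η ∈ Y, IsSquare (Cfsg.charDegree (η : G → ℂ) * ∏ᶠ χ ∈ {χ : Cfsg.IrrCharacter G | χ ∈ X ∧ (χ : G → ℂ) ≠ fun _ => 1}, Cfsg.charDegree (χ : G → ℂ))) := by
  have hyp : Hyp P := ⟨fun x hx y hy => congrArg Subtype.val
    (hab.is_comm.comm (⟨x, hx⟩ : (P : Subgroup G)) ⟨y, hy⟩), hCN, hfrob⟩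
  obtain ⟨X, Y, a, δ, ζ, D⟩ := H659.Frob3Data.reduced M hM P hyp hm2 hcyc
  refine ⟨X, Y, D.block, D.disj, D.cardX, D.cardY, D.one, a, δ, ζ, D.hδ, D.valX, D.memY,
    D.surjY, D.orbY, D.valY, ?_⟩
  rintro ⟨t, ht, hK⟩
  exact final hM hyp hm2 D t ht hK

end Cfsg.Agent.S4721
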