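import Cfsg.Statements.S4725
-- import your own Cfsg.Agent.* helpers here
import Cfsg.Agent.Blocks.Blau
import Cfsg.Agent.Blocks.BlockIdem
import Cfsg.Agent.Blocks.SepCentral
import Cfsg.Agent.CharactersDeep.NormalInd
import Cfsg.Agent.S0148
import Cfsg.Agent.S0150
import Cfsg.Agent.S0913
import Cfsg.Agent.S0135

set_option autoImplicit false
open Cfsg

namespace Cfsg.Agent.S4725

open Cfsg.Agent.Blocks.Local Cfsg.Agent.Blocks.ConvCentral

theorem charDegree_dvd_card {G : Type*} [Group G] [Finite G] (χ : IrrCharacter G) :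
    charDegree (χ : G → ℂ) ∣ Nat.card G := by
  obtain ⟨n, ρ, hρ, h⟩ := χ.2
  have h1 : (χ : G → ℂ) 1 = n := by
    rw [← h, Representation.char_one]
    simp
  have := Cfsg.Agent.S0135.result ρ
  rw [Cfsg.Agent.Blocks.Basic.charDegree_of_eq h1]
  simpa using this

/-- For a height zero character the exponent of `p` in the degree. -/
theorem factorization_charDegree {G : Type*} [Group G] [Finite G] {p : ℕ} {B : Set (IrrCharacter G)}
    {χ : IrrCharacter G} (hχ : χ ∈ B) (h0 : blockHeight p B (χ : G → ℂ) = 0) :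
    (charDegree (χ : G → ℂ)).factorization p + blockDefect p B = (Nat.card G).factorization p := by
  have h1 : (charDegree (χ : G → ℂ)).factorization p =
      sInf ((fun ψ : IrrCharacter G => (charDegree (ψ : G → ℂ)).factorization p) '' B) := by
    rw [Cfsg.Agent.Blocks.Basic.blockHeight_def, tsub_eq_zero_iff_le] at h0
    exact le_antisymm h0 (Nat.sInf_le ⟨χ, hχ, rfl⟩)
  have h2 : (charDegree (χ : G → ℂ)).factorization p ≤ (Nat.card G).factorization p :=
    (Nat.factorization_le_iff_dvd (Cfsg.Agent.Blocks.Basic.charDegree_pos χ.2).ne'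
      Nat.card_pos.ne').2 (charDegree_dvd_card χ) p
  rw [Cfsg.Agent.Blocks.Basic.blockDefect_def, ← h1]
  omega

/-- The linear extension of a class function at the block idempotent. -/
theorem lin_blockCoeff_eq {G : Type*} [Group G] [Fintype G] [Fintype (IrrCharacter G)]
    (B : Set (IrrCharacter G)) [DecidablePred (· ∈ B)] {θ : G → ℂ} (hθ : IsClassFunction G θ) :
    lin θ (blockCoeff B) = ∑ χ : IrrCharacter G,
      if χ ∈ B then classInner θ (χ : G → ℂ) * (χ : G → ℂ) 1 else 0 := by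
  classical
  conv_lhs => rw [Cfsg.Agent.Characters.Core.classFunction_eq_sum hθ]
  rw [lin_def]
  have h3 : ∀ g : G, blockCoeff B g * (∑ χ : IrrCharacter G,
      classInner θ (χ : G → ℂ) • (χ : G → ℂ)) g =
      ∑ χ : IrrCharacter G, classInner θ (χ : G → ℂ) * (blockCoeff B g * (χ : G → ℂ) g) := by
    intro g
    rw [Finset.sum_apply, Finset.mul_sum]
    refine Finset.sum_congr rfl fun χ _ => ?_
    rw [Pi.smul_apply, smul_eq_mul]
    ring
  rw [Finset.sum_congr rfl fun g _ => h3 g, Finset.sum_comm]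
  refine Finset.sum_congr rfl fun χ _ => ?_
  rw [← Finset.mul_sum]
  have h4 := Cfsg.Agent.Blocks.BlockIdem.lin_blockCoeff B χ
  rw [lin_def] at h4
  rw [h4]
  split_ifs <;> simp

/-- Let p be a prime, M a maximal ideal of the algebraic integers containing p, H a subgroup of the finite group G, and b a p-block of H inducing the p-block B of G, with b and B of the same defect. Then for every height-zero ζ ∈ b there is a height-zero χ ∈ B whose multiplicity in the character induced from ζ is not divisible by p. -/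
theorem result {G : Type*} [Group G] [Fintype G] (p : ℕ) [Fact p.Prime] (M : Ideal Cfsg.AlgInt) (hM : Cfsg.IsPModular p M) (H : Subgroup G) (b : Set (Cfsg.IrrCharacter ↥H)) (B : Set (Cfsg.IrrCharacter G)) (hind : Cfsg.IsInducedBlock M H b B) (hdef : Cfsg.blockDefect p b = Cfsg.blockDefect p B) (ζ : Cfsg.IrrCharacter ↥H) (hζ : ζ ∈ b) (hζ0 : Cfsg.blockHeight p b (ζ : ↥H → ℂ) = 0) : ∃ χ ∈ B, Cfsg.blockHeight p B (χ : G → ℂ) = 0 ∧ ∃ a : ℕ, Cfsg.classInner (Cfsg.indFun H (ζ : ↥H → ℂ)) (χ : G → ℂ) = (a : ℂ) ∧ ¬ p ∣ a := by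
  classical
  have hP : M.IsPrime := hM.2.1.isPrime
  have hp : p.Prime := hM.1
  have : Fintype H := Fintype.ofFinite _
  have hfin : Finite (IrrCharacter G) := Cfsg.Agent.Characters.Core.finite_irr
  have : Fintype (IrrCharacter G) := Fintype.ofFinite _
  obtain ⟨χ₀, hχ₀⟩ := Cfsg.Agent.Blocks.Basic.isPBlock_nonempty hind.2.1
  have hζc : IsCharacter H (ζ : H → ℂ) := Cfsg.Agent.Characters.Core.isIrr_isCharacter ζ.2
  have hθc : IsCharacter G (indFun H (ζ : H → ℂ)) := Cfsg.Agent.S0148.result H _ hζc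
  have hcl : IsClassFunction G (indFun H (ζ : H → ℂ)) :=
    Cfsg.Agent.S0150.indFun_isClassFunction H _
  set θ : G → ℂ := indFun H (ζ : H → ℂ) with hθ
  have hθ1 : θ 1 = ((H.index * charDegree (ζ : H → ℂ) : ℕ) : ℂ) := by
    rw [hθ, Cfsg.Agent.CharactersDeep.NormalInd.indFun_one,
      Cfsg.Agent.Blocks.Basic.irr_one_eq_charDegree ζ.2]
    push_cast
    ring
  have hθ0 : H.index * charDegree (ζ : H → ℂ) ≠ 0 :=
    Nat.mul_ne_zero Subgroup.index_ne_zero_of_finite
      (Cfsg.Agent.Blocks.Basic.charDegree_pos ζ.2).ne'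
  obtain ⟨s, hs⟩ := Cfsg.Agent.Blocks.SepCentral.exists_reps G
  have hcc : IsClassFunction G (blockCoeff B) :=
    Cfsg.Agent.Blocks.BlockIdem.isClassFunction_blockCoeff B
  -- the congruence at the block idempotent
  have key : MemLocalIdeal M (lin θ (blockCoeff B) / θ 1 -
      lin (χ₀ : G → ℂ) (blockCoeff B) / (χ₀ : G → ℂ) 1) := by
    rw [hs _ _ hcl hcc, hs _ _ (Cfsg.Agent.Characters.Core.isIrr_isClassFunction χ₀.2) hcc,
      ← Finset.sum_sub_distrib]
    refine memLocalIdeal_sum fun g _ => ?_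
    rw [← mul_sub]
    refine memLocalIdeal_mul_left (Cfsg.Agent.S0913.result p M hM B hind.2.1 g) ?_
    rw [hθ, Cfsg.Agent.Blocks.Induced.centralChar_indFun]
    exact hind.2.2 ζ hζ χ₀ hχ₀ g
  have h1 : lin (χ₀ : G → ℂ) (blockCoeff B) / (χ₀ : G → ℂ) 1 = 1 := by
    have := Cfsg.Agent.Blocks.BlockIdem.lin_blockCoeff B χ₀
    rw [this, if_pos hχ₀, div_self (Cfsg.Agent.Blocks.Basic.irr_one_ne_zero χ₀.2)]
  rw [h1] at key
  have h2 : ¬ MemLocalIdeal M (lin θ (blockCoeff B) / θ 1) := by
    intro h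
    exact not_memLocalIdeal_one ((memLocalIdeal_iff_of_sub key).1 h)
  rw [lin_blockCoeff_eq B hcl, Finset.sum_div] at h2
  obtain ⟨χ, -, hχ⟩ := exists_not_memLocalIdeal_of_sum h2
  have hχB : χ ∈ B := by
    by_contra hcon
    apply hχ
    rw [if_neg hcon, zero_div]
    exact memLocalIdeal_zero
  rw [if_pos hχB] at hχ
  obtain ⟨a, ha⟩ := Cfsg.Agent.Characters.Core.classInner_isNat hθc
    (Cfsg.Agent.Characters.Core.isIrr_isCharacter χ.2)
  rw [ha, Cfsg.Agent.Blocks.Basic.irr_one_eq_charDegree χ.2, hθ1, ← Nat.cast_mul] at hχ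
  have h3 : (a * charDegree (χ : G → ℂ)).factorization p ≤
      (H.index * charDegree (ζ : H → ℂ)).factorization p := by
    by_contra hcon
    push Not at hcon
    exact hχ (Cfsg.Agent.Blocks.Blau.memLocalIdeal_natCast_div hM hθ0 hcon)
  have ha0 : a ≠ 0 := by
    rintro rfl
    apply hχ
    rw [zero_mul]
    simpa using memLocalIdeal_zero (M := M)
  have hχd := (Cfsg.Agent.Blocks.Basic.charDegree_pos χ.2).ne'
  rw [Nat.factorization_mul ha0 hχd, Nat.factorization_mul Subgroup.index_ne_zero_of_finite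
    (Cfsg.Agent.Blocks.Basic.charDegree_pos ζ.2).ne'] at h3
  simp only [Finsupp.coe_add, Pi.add_apply] at h3
  have h4 := factorization_charDegree hζ hζ0
  have h5 : (Nat.card G).factorization p = (Nat.card H).factorization p +
      H.index.factorization p := by
    rw [← H.card_mul_index, Nat.factorization_mul Nat.card_pos.ne'
      Subgroup.index_ne_zero_of_finite]
    rfl
  obtain ⟨χ₁, hχ₁, hχ₁0⟩ := Cfsg.Agent.Blocks.Blau.exists_blockHeight_eq_zero p
    (Cfsg.Agent.Blocks.Basic.isPBlock_nonempty hind.2.1)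
  have h6 := factorization_charDegree hχ₁ hχ₁0
  have h7 := Cfsg.Agent.Blocks.Blau.factorization_le_of_blockHeight_eq_zero hχ₁0 hχB
  have h8 : a.factorization p = 0 := by omega
  have h9 : (charDegree (χ : G → ℂ)).factorization p =
      (charDegree (χ₁ : G → ℂ)).factorization p := by omega
  refine ⟨χ, hχB, ?_, a, ha, ?_⟩
  · rw [Cfsg.Agent.Blocks.Basic.blockHeight_def, h9,
      ← Cfsg.Agent.Blocks.Basic.blockHeight_def]
    exact hχ₁0
  · intro hdvd
    have := (hp.dvd_iff_one_le_factorization ha0).1 hdvd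
    omega

end Cfsg.Agent.S4725
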