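import Cfsg.Statements.S4723
-- import your own Cfsg.Agent.* helpers here
import Cfsg.Agent.H660.BlockTransport
import Cfsg.Agent.S4725
import Cfsg.Agent.S0174
import Cfsg.Agent.S0906
import Cfsg.Agent.S0964
import Cfsg.Agent.S0966
import Cfsg.Agent.S0970

set_option autoImplicit false
open Cfsg

namespace Cfsg.Agent.S4723

open Cfsg.Agent.Characters Cfsg.Agent.Blocks.Covering Cfsg.Agent.H660.BlockTransport

/-- The case of a normal subgroup of `p`-power index and an invariant block. -/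
theorem pIndex {K : Type*} [Group K] [Finite K] (p : ℕ) [Fact p.Prime] (M : Ideal AlgInt)
    (hM : IsPModular p M) (N : Subgroup K) [hN : N.Normal] (hidx : ∃ k : ℕ, N.index = p ^ k)
    (b : Set (IrrCharacter N)) (hb : IsPBlock M b)
    (hinv : ∀ g : K, ∀ θ ∈ b, conjIrr N g θ ∈ b) :
    ∃ θ ∈ b, blockHeight p b (θ : N → ℂ) = 0 ∧ ∀ g : K, conjIrr N g θ = θ := by
  classical
  have hp : p.Prime := Fact.out
  have := Fintype.ofFinite K
  have : Fintype N := Fintype.ofFinite _
  have hprime : M.IsPrime := hM.2.1.isPrime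
  obtain ⟨B, ⟨hB, χ₀, hχ₀, θ₀, hθ₀, hc₀⟩, huniq⟩ := Cfsg.Agent.S0966.result p M hM N hidx b hb
  obtain ⟨D, hD⟩ : ∃ D : Subgroup K, IsDefectGroup p M B D := by
    obtain ⟨g, hg⟩ := Cfsg.Agent.S0906.result p M hM B hB
    obtain ⟨P⟩ : Nonempty (Sylow p (Subgroup.centralizer ({g} : Set K))) := inferInstance
    exact ⟨_, g, hg, P, rfl⟩
  have hfong := (Cfsg.Agent.S0970.result p M hM N b hb (by
      intro g θ hθ θ' h
      have : θ' = conjIrr N g θ := by
        apply Subtype.ext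
        funext n
        rw [h n, conjIrr_apply]
        rfl
      rw [this]
      exact hinv g θ hθ) B hB ⟨χ₀, hχ₀, θ₀, hθ₀, hc₀⟩ (by
      intro B' hB' hcov
      rw [huniq B' ⟨hB', hcov⟩]) D hD).2.2
  obtain ⟨χ, hχ, hχ0⟩ := Cfsg.Agent.Blocks.Blau.exists_blockHeight_eq_zero p
    (Cfsg.Agent.Blocks.Basic.isPBlock_nonempty hB)
  have hχc : IsCharacter K (χ : K → ℂ) := Core.isIrr_isCharacter χ.2
  -- a constituent of the restriction
  obtain ⟨θ, hcon⟩ : ∃ θ : IrrCharacter N,
      classInner (fun n : N => (χ : K → ℂ) n) (θ : N → ℂ) ≠ 0 := by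
    by_contra hcon
    push Not at hcon
    have h1 : (fun n : N => (χ : K → ℂ) n) = 0 := by
      have hcl : IsClassFunction N (fun n : N => (χ : K → ℂ) n) :=
        Core.isCharacter_isClassFunction (Core.isCharacter_comp N.subtype hχc)
      refine Core.classFunction_eq_zero hcl fun ψ hψ => ?_
      exact hcon ⟨ψ, hψ⟩
    have h2 := congrFun h1 1
    simp only [OneMemClass.coe_one, Pi.zero_apply] at h2
    exact Cfsg.Agent.Blocks.Basic.irr_one_ne_zero χ.2 h2
  have hθb : θ ∈ b := by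
    obtain ⟨g, θ', hθ', h⟩ := Cfsg.Agent.S0964.result p M hM N B hB b hb χ₀ hχ₀ θ₀ hθ₀ hc₀ χ hχ θ hcon
    have : θ = conjIrr N g θ' := by
      apply Subtype.ext
      funext n
      rw [h n, conjIrr_apply]
      rfl
    rw [this]
    exact hinv g θ' hθ'
  -- Clifford
  have hcliff := Cfsg.Agent.S0174.result N hN (χ : K → ℂ) χ.2 (θ : N → ℂ) θ.2 hcon
  obtain ⟨e, he⟩ := Core.classInner_isNat (Core.isCharacter_comp N.subtype hχc)
    (Core.isIrr_isCharacter θ.2)
  have he' : classInner (fun n : N => (χ : K → ℂ) n) (θ : N → ℂ) = e := he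
  set O : Set (N → ℂ) := {ψ : N → ℂ | ∃ g : K, ψ = fun n : N => (θ : N → ℂ)
    ⟨g * n * g⁻¹, hN.conj_mem n n.2 g⟩} with hO
  have hOimg : O = (fun ψ : IrrCharacter N => (ψ : N → ℂ)) ''
      (Set.range fun g : K => conjIrr N g θ) := by
    ext ψ
    constructor
    · rintro ⟨g, rfl⟩
      refine ⟨conjIrr N g θ, ⟨g, rfl⟩, ?_⟩
      funext n
      rfl
    · rintro ⟨_, ⟨g, rfl⟩, rfl⟩
      refine ⟨g, ?_⟩
      funext n
      rfl
  have hfin : Finite (IrrCharacter N) := Core.finite_irr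
  -- the degree
  have hdeg : charDegree (χ : K → ℂ) = e * O.ncard * charDegree (θ : N → ℂ) := by
    have h1 := congrFun hcliff 1
    rw [he'] at h1
    have hOfin : O.Finite := by
      rw [hOimg]
      exact (Set.toFinite _).image _
    rw [Pi.smul_apply, smul_eq_mul] at h1
    have h2 : (∑ᶠ ψ ∈ O, ψ) 1 = (O.ncard : ℂ) * (charDegree (θ : N → ℂ) : ℂ) := by
      rw [finsum_mem_eq_finite_toFinset_sum _ hOfin, Finset.sum_apply]
      rw [Finset.sum_congr rfl (g := fun _ => (charDegree (θ : N → ℂ) : ℂ))]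
      · rw [Finset.sum_const, nsmul_eq_mul, Set.ncard_eq_toFinset_card _ hOfin]
      · intro ψ hψ
        rw [Set.Finite.mem_toFinset] at hψ
        obtain ⟨g, rfl⟩ := hψ
        rw [← Cfsg.Agent.Blocks.Basic.irr_one_eq_charDegree θ.2]
        exact congrArg (θ : N → ℂ) (Subtype.ext (by simp))
    rw [h2] at h1
    have h3 : (χ : K → ℂ) 1 = ((e * O.ncard * charDegree (θ : N → ℂ) : ℕ) : ℂ) := by
      push_cast
      rw [mul_assoc, ← h1]
      simp
    rw [Cfsg.Agent.Blocks.Basic.charDegree_of_eq h3]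
  have hχd := (Cfsg.Agent.Blocks.Basic.charDegree_pos χ.2).ne'
  have hθd := (Cfsg.Agent.Blocks.Basic.charDegree_pos θ.2).ne'
  have he0 : e ≠ 0 := by
    rintro rfl
    simp at hdeg
    exact hχd hdeg
  have hO0 : O.ncard ≠ 0 := by
    intro h
    rw [h] at hdeg
    simp at hdeg
    exact hχd hdeg
  -- the exponents
  have hf1 := Cfsg.Agent.S4725.factorization_charDegree hχ hχ0
  have hcard : (Nat.card K).factorization p = (Nat.card N).factorization p +
      N.index.factorization p := by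
    rw [← N.card_mul_index, Nat.factorization_mul Nat.card_pos.ne'
      Subgroup.index_ne_zero_of_finite]
    rfl
  obtain ⟨θ₁, hθ₁, hθ₁0⟩ := Cfsg.Agent.Blocks.Blau.exists_blockHeight_eq_zero p
    (Cfsg.Agent.Blocks.Basic.isPBlock_nonempty hb)
  have hf2 := Cfsg.Agent.S4725.factorization_charDegree hθ₁ hθ₁0
  have hf3 := Cfsg.Agent.Blocks.Blau.factorization_le_of_blockHeight_eq_zero hθ₁0 hθb
  have hf4 : (charDegree (χ : K → ℂ)).factorization p = e.factorization p +
      O.ncard.factorization p + (charDegree (θ : N → ℂ)).factorization p := by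
    rw [hdeg, Nat.factorization_mul (Nat.mul_ne_zero he0 hO0) hθd,
      Nat.factorization_mul he0 hO0]
    rfl
  have hO1 : O.ncard.factorization p = 0 := by omega
  have hθh : (charDegree (θ : N → ℂ)).factorization p =
      (charDegree (θ₁ : N → ℂ)).factorization p := by omega
  -- the orbit has `p`-power length
  have horb : O.ncard ∣ N.index := by
    let act : MulAction K (IrrCharacter N) :=
      { smul := fun g ψ => conjIrr N g⁻¹ ψ
        one_smul := fun ψ => by
          show conjIrr N 1⁻¹ ψ = ψ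
          rw [inv_one, conjIrr_one]
        mul_smul := fun g h ψ => by
          show conjIrr N (g * h)⁻¹ ψ = conjIrr N g⁻¹ (conjIrr N h⁻¹ ψ)
          rw [conjIrr_conjIrr, mul_inv_rev] }
    have h1 : O.ncard = (MulAction.orbit K θ).ncard := by
      rw [hOimg, Set.ncard_image_of_injective _ Subtype.val_injective]
      congr 1
      ext ψ
      constructor
      · rintro ⟨g, rfl⟩
        refine ⟨g⁻¹, ?_⟩
        show conjIrr N g⁻¹⁻¹ θ = conjIrr N g θ
        rw [inv_inv]
      · rintro ⟨g, rfl⟩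
        exact ⟨g⁻¹, rfl⟩
    rw [h1, ← MulAction.index_stabilizer]
    refine Subgroup.index_dvd_of_le ?_
    intro n hn
    rw [MulAction.mem_stabilizer_iff]
    show conjIrr N n⁻¹ θ = θ
    apply Subtype.ext
    funext m
    rw [conjIrr_apply]
    have h2 : MulAut.conjNormal (n⁻¹) m = (⟨n, hn⟩ : N)⁻¹ * m * ((⟨n, hn⟩ : N)⁻¹)⁻¹ := by
      ext
      simp
    rw [h2]
    exact Core.isIrr_isClassFunction θ.2 m _
  have hOone : O.ncard = 1 := by
    obtain ⟨k, hk⟩ := hidx
    rw [hk] at horb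
    obtain ⟨j, -, hj⟩ := (Nat.dvd_prime_pow hp).1 horb
    rw [hj, Nat.Prime.factorization_pow hp] at hO1
    simp at hO1
    rw [hj, hO1, pow_zero]
  refine ⟨θ, hθb, ?_, ?_⟩
  · rw [Cfsg.Agent.Blocks.Basic.blockHeight_def, hθh,
      ← Cfsg.Agent.Blocks.Basic.blockHeight_def]
    exact hθ₁0
  · intro g
    rw [Set.ncard_eq_one] at hOone
    obtain ⟨ψ, hψ⟩ := hOone
    have h1 : (conjIrr N g θ : N → ℂ) ∈ O := ⟨g, rfl⟩
    have h2 : (θ : N → ℂ) ∈ O := by
      refine ⟨1, ?_⟩
      funext n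
      exact congrArg (θ : N → ℂ) (Subtype.ext (by simp))
    rw [hψ, Set.mem_singleton_iff] at h1 h2
    exact Subtype.ext (h1.trans h2.symm)

/-- Let p be a prime, M a maximal ideal of the algebraic integers containing p, H a normal subgroup of the finite group G and b a p-block of H. Let T be the stabilizer of b in G. Then b contains a character θ of height zero whose own stabilizer in G (the elements g with θ(g h g⁻¹) = θ(h) for all h ∈ H) has index prime to p in T, i.e. contains a Sylow p-subgroup of T. -/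
theorem result {G : Type*} [Group G] [Finite G] (p : ℕ) [Fact p.Prime] (M : Ideal Cfsg.AlgInt) (hM : Cfsg.IsPModular p M) (H : Subgroup G) [H.Normal] (b : Set (Cfsg.IrrCharacter ↥H)) (hb : Cfsg.IsPBlock M b) (T : Subgroup G) (hT : (∀ g : G, g ∈ T ↔ ∀ θ ∈ b, ∀ θ' : Cfsg.IrrCharacter ↥H, (∀ h h' : ↥H, (h' : G) = g * h * g⁻¹ → (θ' : ↥H → ℂ) h' = (θ : ↥H → ℂ) h) → θ' ∈ b)) : ∃ θ ∈ b, Cfsg.blockHeight p b (θ : ↥H → ℂ) = 0 ∧ ∃ S : Subgroup G, S ≤ T ∧ (∀ g : G, g ∈ S ↔ (g ∈ T ∧ ∀ h h' : ↥H, (h' : G) = g * h * g⁻¹ → (θ : ↥H → ℂ) h' = (θ : ↥H → ℂ) h)) ∧ ¬ p ∣ S.relIndex T := by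
  classical
  have hp : p.Prime := Fact.out
  rename_i hHn
  -- `g ∈ T` in terms of `conjIrr`
  have hTc : ∀ g ∈ T, ∀ θ ∈ b, conjIrr H g⁻¹ θ ∈ b := by
    intro g hg θ hθ
    refine (hT g).1 hg θ hθ _ ?_
    intro h h' hh
    rw [conjIrr_apply]
    refine congrArg (θ : H → ℂ) (Subtype.ext ?_)
    rw [MulAut.conjNormal_apply, hh]
    group
  have hHT : H ≤ T := by
    intro g hg
    rw [hT]
    intro θ hθ θ' h
    have : θ' = θ := by
      apply Subtype.ext
      funext x
      have h1 := h ((⟨g, hg⟩ : H)⁻¹ * x * (⟨g, hg⟩ : H)) x (by simp [mul_assoc])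
      rw [h1]
      have := Core.isIrr_isClassFunction θ.2 x (⟨g, hg⟩ : H)⁻¹
      rw [inv_inv] at this
      exact this
    rw [this]
    exact hθ
  obtain ⟨P⟩ : Nonempty (Sylow p T) := inferInstance
  set P₀ : Subgroup G := (P : Subgroup T).map T.subtype with hP₀
  have hP₀T : P₀ ≤ T := Subgroup.map_subtype_le _
  have hP₀p : IsPGroup p P₀ := P.isPGroup'.map _
  set K : Subgroup G := H ⊔ P₀ with hK
  have hKT : K ≤ T := sup_le hHT hP₀T
  have hHK : H ≤ K := le_sup_left
  have hNn : (H.subgroupOf K).Normal := inferInstance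
  let e : H ≃* (H.subgroupOf K) := (Subgroup.subgroupOfEquivOfLe hHK).symm
  have hecoe : ∀ n : H.subgroupOf K, ((e.symm n : H) : G) = ((n : K) : G) := fun n => rfl
  have hecoe' : ∀ h : H, ((e h : K) : G) = (h : G) := fun h => rfl
  have hidx : ∃ k : ℕ, (H.subgroupOf K).index = p ^ k := by
    have h1 : (H.subgroupOf K).index = H.relIndex K := rfl
    have h2 : H.relIndex K = H.relIndex P₀ := by
      rw [hK, Subgroup.relIndex_sup_left]
    rw [h1, h2]
    have h3 : H.relIndex P₀ ∣ Nat.card P₀ := Subgroup.relIndex_dvd_card H P₀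
    obtain ⟨n, hn⟩ := IsPGroup.iff_card.1 hP₀p
    rw [hn] at h3
    obtain ⟨j, -, hj⟩ := (Nat.dvd_prime_pow hp).1 h3
    exact ⟨j, hj⟩
  obtain ⟨θ', hθ', hθ'0, hθ'inv⟩ := pIndex p M hM (H.subgroupOf K) hidx (blockMap e b)
    (isPBlock_blockMap e hb) (by
      intro g θ hθ
      rw [mem_blockMap] at hθ ⊢
      have h1 := hTc ((g : G)⁻¹) (T.inv_mem (hKT g.2)) _ hθ
      rw [inv_inv] at h1
      convert h1 using 1
      apply Subtype.ext
      funext x
      rw [irrMap_apply, conjIrr_apply, conjIrr_apply, irrMap_apply]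
      rfl)
  set θ : IrrCharacter H := irrMap e.symm θ' with hθdef
  have hθb : θ ∈ b := hθ'
  have hθe : irrMap e θ = θ' := irrMap_irrMap_symm e θ'
  have hinv : ∀ g ∈ K, ∀ h h' : ↥H, (h' : G) = g * h * g⁻¹ → (θ : ↥H → ℂ) h' = (θ : ↥H → ℂ) h := by
    intro g hg h h' hh
    have h1 := congrArg (fun ψ : IrrCharacter (H.subgroupOf K) => (ψ : _ → ℂ) (e h))
      (hθ'inv ⟨g, hg⟩)
    have hval : ∀ x : H.subgroupOf K, (θ' : _ → ℂ) x = (θ : H → ℂ) (e.symm x) := fun x =>
      congrFun (congrArg Subtype.val hθe.symm) x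
    rw [conjIrr_apply, hval, hval, e.symm_apply_apply] at h1
    rw [← h1]
    refine congrArg (θ : H → ℂ) (Subtype.ext ?_)
    rw [hecoe, hh]
    rfl
  have hθ0 : blockHeight p b (θ : H → ℂ) = 0 := by
    rw [← blockHeight_blockMap p e b θ, hθe]
    exact hθ'0
  refine ⟨θ, hθb, hθ0, ?_⟩
  let S : Subgroup G :=
    { carrier := {g | g ∈ T ∧ ∀ h h' : ↥H, (h' : G) = g * h * g⁻¹ →
        (θ : ↥H → ℂ) h' = (θ : ↥H → ℂ) h}
      mul_mem' := by
        rintro x y ⟨hx, hx'⟩ ⟨hy, hy'⟩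
        refine ⟨T.mul_mem hx hy, fun h h' hh => ?_⟩
        have h1 := hy' h ⟨y * h * y⁻¹, hHn.conj_mem _ h.2 y⟩ rfl
        rw [← h1]
        refine hx' _ _ ?_
        rw [hh]
        group
      one_mem' := by
        refine ⟨T.one_mem, fun h h' hh => ?_⟩
        refine congrArg (θ : H → ℂ) (Subtype.ext ?_)
        rw [hh]
        group
      inv_mem' := by
        rintro x ⟨hx, hx'⟩
        refine ⟨T.inv_mem hx, fun h h' hh => ?_⟩
        refine (hx' h' h ?_).symm
        rw [hh]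
        group }
  refine ⟨S, fun g hg => hg.1, fun g => Iff.rfl, ?_⟩
  have hKS : K ≤ S := fun g hg => ⟨hKT hg, hinv g hg⟩
  have hPS : P₀ ≤ S := le_sup_right.trans hKS
  intro hdvd
  have h1 : S.relIndex T ∣ P₀.relIndex T := Subgroup.relIndex_dvd_of_le_left T hPS
  have h2 : P₀.relIndex T = (P : Subgroup T).index := by
    rw [Subgroup.relIndex, hP₀, Subgroup.subgroupOf, Subgroup.comap_map_eq_self_of_injective
      T.subtype_injective]
  rw [h2] at h1
  exact P.not_dvd_index (hdvd.trans h1)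

end Cfsg.Agent.S4723
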