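-- Statement S4726 (Cfsg.blk7_induced_block_defect_groups_nested_when_centralizer_inside).
import Cfsg.Statements.S4726
import Cfsg.Agent.H661.CentDefect

set_option autoImplicit false
open Cfsg

namespace Cfsg.Agent.S4726

open Cfsg.Agent.H661 Cfsg.Agent.H662

/-- Let p be a prime, M a maximal ideal of the algebraic integers containing p, H a subgroup of the finite group G and b a p-block of H with defect group D₀ such that C_G(D₀) ≤ H. Then b induces a block of G, and for every block B of G induced by b there is a defect group D of B with Z(D) ≤ Z(D₀) ≤ D₀ ≤ D (as subgroups of G). In particular, if the defect groups of B are abelian then D₀ is a defect group of B. -/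
theorem result {G : Type*} [Group G] [Finite G] (p : ℕ) [Fact p.Prime] (M : Ideal Cfsg.AlgInt) (hM : Cfsg.IsPModular p M) (H : Subgroup G) (b : Set (Cfsg.IrrCharacter ↥H)) (hb : Cfsg.IsPBlock M b) (D₀ : Subgroup ↥H) (hD₀ : Cfsg.IsDefectGroup p M b D₀) (hC : Subgroup.centralizer ((D₀.map H.subtype : Subgroup G) : Set G) ≤ H) : Cfsg.InducedBlockDefined M H b ∧ ∀ B : Set (Cfsg.IrrCharacter G), Cfsg.IsInducedBlock M H b B → (∃ D : Subgroup G, Cfsg.IsDefectGroup p M B D ∧ (Subgroup.center ↥D).map D.subtype ≤ ((Subgroup.center ↥D₀).map D₀.subtype).map H.subtype ∧ ((Subgroup.center ↥D₀).map D₀.subtype).map H.subtype ≤ D₀.map H.subtype ∧ D₀.map H.subtype ≤ D) ∧ (∀ D : Subgroup G, Cfsg.IsDefectGroup p M B D → IsMulCommutative ↥D → Cfsg.IsDefectGroup p M B (D₀.map H.subtype)) := by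
  refine ⟨inducedBlockDefined hM hb hD₀ hC, fun B hB => ?_⟩
  obtain ⟨D, hD, hle, hz⟩ := exists_chain hM hB hD₀ hC
  refine ⟨⟨D, hD, ?_, ?_, hle⟩, fun E hE hcomm => ?_⟩
  · rintro _ ⟨z, hzc, rfl⟩
    have hzc' : ∀ w ∈ D, (z : G) * w = w * (z : G) := fun w hw =>
      (congrArg Subtype.val (Subgroup.mem_center_iff.1 hzc ⟨w, hw⟩)).symm
    obtain ⟨y, hy, hyz⟩ := hz z z.2 hzc'
    refine ⟨y, ⟨⟨y, hy⟩, ?_, rfl⟩, hyz⟩
    rw [SetLike.mem_coe, Subgroup.mem_center_iff]
    rintro ⟨w, hw⟩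
    apply Subtype.ext
    apply Subtype.ext
    have h1 := hzc' (w : G) (hle ⟨w, hw, rfl⟩)
    have h2 : (y : G) = (z : G) := hyz
    rw [← h2] at h1
    exact h1.symm
  · exact Subgroup.map_mono (Subgroup.map_subtype_le _)
  · obtain ⟨x, hx⟩ := defectGroup_conj hM hB.2.1 hE hD
    have hDcomm : ∀ z ∈ D, ∀ w ∈ D, z * w = w * z := by
      rw [hx]
      rintro _ ⟨z, hz, rfl⟩ _ ⟨w, hw, rfl⟩
      have h1 : (⟨z, hz⟩ : E) * ⟨w, hw⟩ = ⟨w, hw⟩ * ⟨z, hz⟩ := hcomm.is_comm.comm _ _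
      have h2 : z * w = w * z := congrArg Subtype.val h1
      rw [← map_mul, h2, map_mul]
    have h3 : D₀.map H.subtype = D := le_antisymm hle fun z hzD => hz z hzD fun w hw => hDcomm z hzD w hw
    rw [h3]
    exact hD

end Cfsg.Agent.S4726
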