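-- Statement S4728 (Cfsg.blk7_local_kernel_condition_implies_brauer_correspondent_pi_prime_core_in_kernel).
import Cfsg.Statements.S4728
import Cfsg.Agent.H662.KernelPi

set_option autoImplicit false
open Cfsg

namespace Cfsg.Agent.S4728

open Cfsg.Agent.H662 Cfsg.Agent.OddOrderLocal.PiCoreOf

/-- Elements of `O_π'(X)` have orders without prime divisors in `π`. -/
theorem not_mem_of_dvd {G : Type*} [Group G] [Finite G] {π' : Set ℕ} {X : Subgroup G} {x : G}
    (hx : x ∈ piCoreOf π' X) {q : ℕ} (hq : q.Prime) (hd : q ∣ orderOf x) : q ∈ π' := by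
  refine piCoreOf_isPi π' X q hq (hd.trans ?_)
  have h1 : orderOf (⟨x, hx⟩ : piCoreOf π' X) = orderOf x := Subgroup.orderOf_mk x hx
  rw [← h1]
  exact orderOf_dvd_natCard _

/-- The ascent: from a block of `Q C_G(Q)` inducing `B` to the Brauer correspondent of `B`. -/
theorem ascend {G : Type*} [Group G] [Finite G] (p : ℕ) [Fact p.Prime] (M : Ideal AlgInt)
    (hM : IsPModular p M) (π : Set ℕ)
    (hpπ : p ∈ π) (B : Set (IrrCharacter G)) (hB : IsPBlock M B) (D : Subgroup G)
    (hBD : IsDefectGroup p M B D)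
    (B₁ : Set (IrrCharacter ↥(Subgroup.normalizer (D : Set G))))
    (hB₁ : IsInducedBlock M (Subgroup.normalizer (D : Set G)) B₁ B)
    (hB₁D : IsDefectGroup p M B₁ (D.subgroupOf (Subgroup.normalizer (D : Set G)))) :
    ∀ (n : ℕ) (Q : Subgroup G)
      (b : Set (IrrCharacter ↥(Q ⊔ Subgroup.centralizer (Q : Set G)))),
      IsPGroup p Q → IsInducedBlock M (Q ⊔ Subgroup.centralizer (Q : Set G)) b B →
      (∀ x ∈ Subgroup.centralizer (Q : Set G), (∀ q : ℕ, q.Prime → q ∣ orderOf x → q ∉ π) →
        x ∈ piCoreOf {q | q ∉ π} (Subgroup.centralizer (Q : Set G))) →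
      (∀ x : ↥(Q ⊔ Subgroup.centralizer (Q : Set G)),
        (x : G) ∈ piCoreOf {q | q ∉ π} (Subgroup.centralizer (Q : Set G)) → x ∈ blockKer b) →
      Nat.card G - Nat.card Q = n →
      ∀ x : ↥(Subgroup.normalizer (D : Set G)),
        x ∈ piCore {q | q ∉ π} ↥(Subgroup.normalizer (D : Set G)) → x ∈ blockKer B₁ := by
  have hMp : M.IsPrime := hM.2.1.isPrime
  have hp' : p ∉ {q | q ∉ π} := fun h => h hpπ
  intro n
  induction n using Nat.strong_induction_on with
  | _ n ih =>
    intro Q b hQp hbB hc hk hn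
    obtain ⟨N, hN⟩ : ∃ N : Subgroup G, N = Subgroup.normalizer (Q : Set G) := ⟨_, rfl⟩
    have hQN : Q ≤ N := hN ▸ Subgroup.le_normalizer
    have hCN : Subgroup.centralizer (Q : Set G) ≤ N := by
      rw [hN]
      exact Subgroup.centralizer_le_normalizer _
    have hKN : Q ⊔ Subgroup.centralizer (Q : Set G) ≤ N := sup_le hQN hCN
    obtain ⟨f, hf, hfB⟩ := exists_in_overgroup hM hQp le_sup_left le_sup_right
      (hKN.trans hN.le) hKN hbB.1
    have hfB := hfB B hbB
    -- the kernel of `f`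
    have hkf : ∀ a ∈ piCore {q | q ∉ π} N, a ∈ blockKer f := by
      refine (le_blockKer_iff_in hM hKN hf (piCore {q | q ∉ π} N) (not_dvd_card_piCore hp')).2
        fun x hx => hk x ?_
      rw [← mem_piCoreOf_iff] at hx
      exact mem_core_centralizer hp' hQp hQN hCN hx (hN ▸ hKN x.2)
    obtain ⟨R, hR⟩ := exists_defectGroup hM hf.2.1
    have hQR := le_defectGroup_of_normal hM hQp hN.le hf.2.1 hR
    by_cases hRQ : R = Q.subgroupOf N
    · subst hN
      rw [hRQ] at hR
      obtain ⟨g, e, he, hQg, hfe⟩ := eq_conj_of_defect hM hB hBD hB₁ hB₁D hQp hfB hR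
      intro x hx
      have h1 := Cfsg.Agent.OddOrderLocal.PiCore.piCore_map_equiv {q | q ∉ π} e
      have h2 : e x ∈ piCore {q | q ∉ π} ↥(Subgroup.normalizer (Q : Set G)) := by
        rw [← h1]
        exact ⟨x, hx, rfl⟩
      have h3 := hkf _ h2
      rw [hfe, mem_blockKer_trB] at h3
      exact h3
    · obtain ⟨R', hR'⟩ : ∃ R' : Subgroup G, R.map N.subtype = R' := ⟨_, rfl⟩
      have hQR' : Q ≤ R' := by
        intro x hx
        rw [← hR']
        exact ⟨⟨x, hQN hx⟩, hQR (show (⟨x, hQN hx⟩ : N) ∈ Q.subgroupOf N from hx), rfl⟩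
      have hCR : Subgroup.centralizer (R' : Set G) ≤ Subgroup.centralizer (Q : Set G) :=
        Subgroup.centralizer_le hQR'
      have hR'p : IsPGroup p R' := hR' ▸ (isDefectGroup_isPGroup hR).map N.subtype
      have hR'N : R' ≤ N := hR' ▸ Subgroup.map_subtype_le R
      obtain ⟨b', hb', hb'D⟩ := exists_root hM hf.2.1 hR hR' (hCR.trans hCN)
      have hK'N : R' ⊔ Subgroup.centralizer (R' : Set G) ≤ N := sup_le hR'N (hCR.trans hCN)
      have hb'B : IsInducedBlock M _ b' B := trans_in hK'N hb' hfB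
      have hcardR : Nat.card R' = Nat.card R := by
        rw [← hR']
        exact Nat.card_congr (R.equivMapOfInjective N.subtype N.subtype_injective).symm.toEquiv
      have hcardQ : Nat.card (Q.subgroupOf N) = Nat.card Q :=
        Nat.card_congr (Subgroup.subgroupOfEquivOfLe hQN).toEquiv
      have hlt : Nat.card Q < Nat.card R := by
        rw [← hcardQ]
        refine lt_of_le_of_ne (Nat.le_of_dvd Nat.card_pos (Subgroup.card_dvd_of_le hQR)) ?_
        intro h
        exact hRQ (Subgroup.eq_of_le_of_card_ge hQR h.ge).symm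
      have hRle : Nat.card R' ≤ Nat.card G :=
        Nat.le_of_dvd Nat.card_pos (Subgroup.card_subgroup_dvd_card R')
      -- `O_π'(C(R'))` is contained in `O_π'(C(Q))`
      have hsub : ∀ x ∈ piCoreOf {q | q ∉ π} (Subgroup.centralizer (R' : Set G)),
          x ∈ piCoreOf {q | q ∉ π} (Subgroup.centralizer (Q : Set G)) := by
        intro x hx
        refine hc x (hCR (piCoreOf_le _ _ hx)) fun q hq hd => ?_
        exact not_mem_of_dvd hx hq hd
      refine ih (Nat.card G - Nat.card R') (by omega) R' b' hR'p hb'B ?_ ?_ rfl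
      · intro x hx hxo
        have h1 := hc x (hCR hx) hxo
        have hA : piCoreOf {q | q ∉ π} (Subgroup.centralizer (Q : Set G)) ⊓
            Subgroup.centralizer (R' : Set G) ≤
            piCoreOf {q | q ∉ π} (Subgroup.centralizer (R' : Set G)) := by
          refine le_piCoreOf inf_le_right ?_ (isPi_mono inf_le_left (piCoreOf_isPi _ _))
          intro y hy
          rw [Subgroup.mem_normalizer_iff]
          intro z
          have h1 : y ∈ Subgroup.normalizer
              (piCoreOf {q | q ∉ π} (Subgroup.centralizer (Q : Set G)) : Set G) :=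
            le_normalizer_piCoreOf _ _ (hCR hy)
          have h2 : y ∈ Subgroup.normalizer (Subgroup.centralizer (R' : Set G) : Set G) :=
            Subgroup.le_normalizer hy
          rw [Subgroup.mem_inf, Subgroup.mem_inf]
          exact and_congr (Subgroup.mem_normalizer_iff.1 h1 z) (Subgroup.mem_normalizer_iff.1 h2 z)
        exact hA (Subgroup.mem_inf.2 ⟨h1, hx⟩)
      · intro x hx
        have h1 := (le_blockKer_iff_in hM hK'N hb' (piCore {q | q ∉ π} N)
          (not_dvd_card_piCore hp')).1 hkf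
        apply h1
        rw [← mem_piCoreOf_iff]
        have h2 := core_centralizer_le {q | q ∉ π} Q (hsub _ hx)
        rw [← hN] at h2
        exact h2

/-- Let p be a prime, π a set of primes containing p, M a maximal ideal of the algebraic integers containing p, B a p-block of the finite group G with defect group D, and B₁ the block of N_G(D) with defect group D inducing B. Let D₀ be a p-subgroup, H₀ = D₀·C_G(D₀), and b a block of H₀ inducing B. Write O_π'(X) for the largest normal subgroup of X whose order has no prime divisor in π. Suppose that O_π'(C_G(D₀)) is a normal Hall π'-subgroup of C_G(D₀) (it contains every element of C_G(D₀) whose order has no prime divisor in π) and that every element of it lies in the kernel of every member of b. Then every element of O_π'(N_G(D)) lies in the kernel of every member of B₁. -/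
theorem result {G : Type*} [Group G] [Finite G] (p : ℕ) [Fact p.Prime] (M : Ideal Cfsg.AlgInt) (hM : Cfsg.IsPModular p M) (π : Set ℕ) (hpπ : p ∈ π) (B : Set (Cfsg.IrrCharacter G)) (hB : Cfsg.IsPBlock M B) (D : Subgroup G) (hBD : Cfsg.IsDefectGroup p M B D) (B₁ : Set (Cfsg.IrrCharacter ↥(Subgroup.normalizer (D : Set G)))) (hB₁ : Cfsg.IsInducedBlock M (Subgroup.normalizer (D : Set G)) B₁ B) (hB₁D : Cfsg.IsDefectGroup p M B₁ (D.subgroupOf (Subgroup.normalizer (D : Set G)))) (D₀ : Subgroup G) (hD₀ : IsPGroup p D₀) (H₀ : Subgroup G) (hH₀ : H₀ = D₀ ⊔ Subgroup.centralizer (D₀ : Set G)) (b : Set (Cfsg.IrrCharacter ↥H₀)) (hb : Cfsg.IsInducedBlock M H₀ b B) (hcompl : ∀ x : ↥(Subgroup.centralizer (D₀ : Set G)), (∀ q : ℕ, q.Prime → q ∣ orderOf x → q ∉ π) → x ∈ Cfsg.piCore {q | q ∉ π} ↥(Subgroup.centralizer (D₀ : Set G))) (hkerb : ∀ x : ↥(Subgroup.centralizer (D₀ : Set G)), x ∈ Cfsg.piCore {q | q ∉ π} ↥(Subgroup.centralizer (D₀ : Set G)) → ∀ θ ∈ b, ∀ h : ↥H₀, (h : G) = (x : G) → (θ : ↥H₀ → ℂ)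 h = (θ : ↥H₀ → ℂ) 1) : ∀ n : ↥(Subgroup.normalizer (D : Set G)), n ∈ Cfsg.piCore {q | q ∉ π} ↥(Subgroup.normalizer (D : Set G)) → n ∈ Cfsg.blockKer B₁ := by
  subst hH₀
  refine ascend p M hM π hpπ B hB D hBD B₁ hB₁ hB₁D _ D₀ b hD₀ hb ?_ ?_ rfl
  · intro x hx hxo
    have h1 := hcompl ⟨x, hx⟩ (fun q hq hd => hxo q hq (by rwa [Subgroup.orderOf_mk] at hd))
    exact (mem_piCoreOf_iff (⟨x, hx⟩ : ↥(Subgroup.centralizer (D₀ : Set G)))).2 h1
  · intro x hx θ hθ
    have h1 : (x : G) ∈ Subgroup.centralizer (D₀ : Set G) := piCoreOf_le _ _ hx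
    exact hkerb ⟨x, h1⟩ ((mem_piCoreOf_iff (⟨(x : G), h1⟩ :
      ↥(Subgroup.centralizer (D₀ : Set G)))).1 hx) θ hθ x rfl

end Cfsg.Agent.S4728
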