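import Cfsg.Statements.S4732
import Cfsg.Agent.H662.BFMain
import Cfsg.Agent.H662.Specialize
import Cfsg.Agent.Blocks.ExistsModular

set_option autoImplicit false
universe u v
open Cfsg

namespace Cfsg.Agent.S4732

/-- Let p be a prime. There is a function f of two natural-number arguments such that every finite group G admitting a faithful representation of degree n over a field of characteristic p, with Sylow p-subgroups of order p^m, has a normal abelian subgroup A with [G : A] < f(m, n). -/
theorem result (p : ℕ) [Fact p.Prime] : ∃ f : ℕ → ℕ → ℕ, ∀ (G : Type u) [Group G] [Finite G] (F : Type v) [Field F] [CharP F p] (n : ℕ) (ρ : Representation F G (Fin n → F)), Function.Injective ρ → ∀ m : ℕ, (Nat.card G).factorization p = m → ∃ A : Subgroup G, A.Normal ∧ IsMulCommutative A ∧ A.index < f m n := by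
  obtain ⟨M, hM⟩ := Cfsg.Agent.Blocks.ExistsModular.exists_isPModular (p := p) Fact.out
  have hMp : M.IsPrime := Cfsg.Agent.Blocks.Local.isPrime_of_isPModular hM
  have hmax : M.IsMaximal := Cfsg.Agent.Blocks.Local.isMaximal_of_isPModular hM
  have halg : IsAlgClosed (Cfsg.Agent.Blocks.Local.ResField M) :=
    Cfsg.Agent.Blocks.CyclicAssembly.isAlgClosed_resField
  have hchar : CharP (Cfsg.Agent.Blocks.Local.ResField M) p :=
    Cfsg.Agent.Blocks.Local.charP_resField hM
  choose c hc using fun m n => Cfsg.Agent.H662.BF.exists_bd.{u} hM m n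
  refine ⟨fun m n => c m n ^ 2 + 1, ?_⟩
  intro G _ _ F _ _ n ρ hρ m hm
  let μ : G →* Matrix (Fin n) (Fin n) F :=
    { toFun := fun g => LinearMap.toMatrixAlgEquiv' (ρ g)
      map_one' := by rw [map_one, map_one]
      map_mul' := fun g h => by rw [map_mul, map_mul] }
  have hμ : Function.Injective μ := fun a b h =>
    hρ ((LinearMap.toMatrixAlgEquiv' : Module.End F (Fin n → F) ≃ₐ[F] _).injective h)
  obtain ⟨τ, hτ⟩ := Cfsg.Agent.H662.Specialize.exists_matrix_rep p μ hμ
    (Cfsg.Agent.Blocks.Local.ResField M)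
  let σ : Representation (Cfsg.Agent.Blocks.Local.ResField M) G
      (Fin n → Cfsg.Agent.Blocks.Local.ResField M) :=
    { toFun := fun g => Matrix.toLinAlgEquiv' (τ g)
      map_one' := by rw [map_one, map_one]
      map_mul' := fun g h => by rw [map_mul, map_mul] }
  have hσ : Function.Injective σ := fun a b h =>
    hτ ((Matrix.toLinAlgEquiv' : Matrix (Fin n) (Fin n) (Cfsg.Agent.Blocks.Local.ResField M)
      ≃ₐ[Cfsg.Agent.Blocks.Local.ResField M] _).injective h)
  obtain ⟨B, hB, hBi⟩ := hc m n G (Fin n → Cfsg.Agent.Blocks.Local.ResField M) σ hσ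
    (by rw [Module.finrank_fintype_fun_eq_card, Fintype.card_fin]) hm.le
  obtain ⟨L, hLc, hL, hLi⟩ := Cfsg.Agent.H662.ChermakDelgado.exists_characteristic B hB
  refine ⟨L, inferInstance, ⟨⟨fun a b => Subtype.ext (hL a a.2 b b.2)⟩⟩, ?_⟩
  exact Nat.lt_succ_of_le (hLi.trans (Nat.pow_le_pow_left hBi 2))

end Cfsg.Agent.S4732
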