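import Cfsg.Statements.S4955
import Cfsg.Agent.H718.KGVBasic
import Cfsg.Agent.S0134

set_option autoImplicit false
open Cfsg

namespace Cfsg.Agent.S4955

open Cfsg.Agent.H718 Cfsg.Agent.Characters.Core Cfsg.Agent.Blocks.Local

theorem card_centralizer_le {X : Type*} [Group X] [Finite X] (p : ℕ) [Fact p.Prime] (V : Subgroup X)
    [V.Normal] (hVp : IsPGroup p V) (hab : ∀ a ∈ V, ∀ b ∈ V, a * b = b * a) (G : Subgroup X)
    (hG : ¬ p ∣ Nat.card G) (hGV : Subgroup.IsComplement' V G) (v : X) (hv : v ∈ V) :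
    Nat.card (Subgroup.centralizer ({v} : Set X)) ≤
      Nat.card ↥(G ⊓ Subgroup.centralizer ({v} : Set X)) * Nat.card V := by
  have h := card_centralizer_mul_le hVp hab hG hGV hv (one_mem G) (Commute.one_right v)
  rw [mul_one] at h
  have h1 : Subgroup.centralizer ({1} : Set X) = ⊤ := by
    rw [eq_top_iff]
    intro x _
    rw [Subgroup.mem_centralizer_singleton_iff, mul_one, one_mul]
  rw [h1, inf_top_eq, inf_top_eq, mul_comm] at h
  exact h

/-- Let X be a finite group with an abelian normal Sylow p-subgroup V (a normal p-subgroup of index prime to p in which any two elements commute), and let G be a complement to V in X. Then for every v in V, writing C for the centralizer of v in G, the number k(X) of conjugacy classes of X satisfies k(X) ≤ (order of C)·(order of V) − ((order of G) − k(G)); the statement is written with the subtracted term moved to the left. In particular, if some v in V is centralized by no nonidentity element of G, then k(X) is at most the order of V. -/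
theorem result {X : Type*} [Group X] [Finite X] (p : ℕ) [Fact p.Prime] (V : Subgroup X) [V.Normal] (hVp : IsPGroup p V) (hidx : ¬ p ∣ V.index) (hab : ∀ a ∈ V, ∀ b ∈ V, a * b = b * a) (G : Subgroup X) (hGV : Subgroup.IsComplement' V G) (v : X) (hv : v ∈ V) : Nat.card (ConjClasses X) + Nat.card G ≤ Nat.card ↥(G ⊓ Subgroup.centralizer ({v} : Set X)) * Nat.card V + Nat.card (ConjClasses G) := by
  classical
  have hGidx : V.index = Nat.card G := hGV.symm.index_eq_card
  have hG : ¬ p ∣ Nat.card G := hGidx ▸ hidx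
  have hcent := card_centralizer_le p V hVp hab G hG hGV v hv
  have : Finite (IrrCharacter X) := finite_irr
  have : Finite (IrrCharacter G) := finite_irr
  have : Fintype (IrrCharacter X) := Fintype.ofFinite _
  have : Fintype (IrrCharacter G) := Fintype.ofFinite _
  -- the projection
  let π : X →* G := (hGV.symm.QuotientMulEquiv).toMonoidHom.comp (QuotientGroup.mk' V)
  have hπ : Function.Surjective π :=
    (hGV.symm.QuotientMulEquiv).surjective.comp (QuotientGroup.mk'_surjective V)
  have hπv : π v = 1 := by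
    have h1 : QuotientGroup.mk' V v = 1 := (QuotientGroup.eq_one_iff v).2 hv
    show (hGV.symm.QuotientMulEquiv) (QuotientGroup.mk' V v) = 1
    rw [h1, map_one]
  let infl : IrrCharacter G → IrrCharacter X := fun θ => ⟨(θ : G → ℂ) ∘ π, isIrr_comp π hπ θ.2⟩
  have hinfl : Function.Injective infl := by
    intro θ θ' h
    apply Subtype.ext
    funext g
    obtain ⟨x, rfl⟩ := hπ g
    exact congrArg (fun f : IrrCharacter X => (f : X → ℂ) x) h
  obtain ⟨M, hM⟩ := Cfsg.Agent.Blocks.ExistsModular.exists_isPModular (Fact.out : p.Prime)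
  obtain ⟨ι, _, _, σ, hσ⟩ := exists_galois_avg (Nat.card X) Nat.card_pos.ne'
  -- the lower bound for each character
  have hlow : ∀ χ : IrrCharacter X, (Fintype.card ι : ℝ) ≤ ∑ i, ‖σ i ((χ : X → ℂ) v)‖ ^ 2 := by
    intro χ
    apply hσ
    · exact isIntegral_character (isIrr_isCharacter χ.2) v
    · exact character_mem_Cyc (isIrr_isCharacter χ.2) Nat.card_pos.ne' dvd_rfl v
    · intro h0
      apply not_memLocalIdeal_apply hM hVp hidx hab χ hv
      rw [h0]
      have := isPrime_of_isPModular hM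
      exact memLocalIdeal_zero
  have hlow' : ∀ θ : IrrCharacter G, ∑ i, ‖σ i ((infl θ : X → ℂ) v)‖ ^ 2 =
      (Fintype.card ι : ℝ) * ‖(θ : G → ℂ) 1‖ ^ 2 := by
    intro θ
    have h1 : (infl θ : X → ℂ) v = (θ : G → ℂ) 1 := by
      show (θ : G → ℂ) (π v) = _
      rw [hπv]
    obtain ⟨d, -, hd⟩ := isIrr_apply_one θ.2
    rw [h1, hd]
    simp
  -- total
  have htot : ∑ χ : IrrCharacter X, ∑ i, ‖σ i ((χ : X → ℂ) v)‖ ^ 2 ≤
      (Fintype.card ι : ℝ) * Nat.card (Subgroup.centralizer ({v} : Set X)) := by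
    rw [Finset.sum_comm]
    calc ∑ i, ∑ χ : IrrCharacter X, ‖σ i ((χ : X → ℂ) v)‖ ^ 2
        ≤ ∑ _i : ι, (Nat.card (Subgroup.centralizer ({v} : Set X)) : ℝ) :=
          Finset.sum_le_sum (fun i _ => sum_norm_sq_gal_le (σ i) v)
      _ = _ := by simp
  have hsplit : ∑ χ : IrrCharacter X, ∑ i, ‖σ i ((χ : X → ℂ) v)‖ ^ 2 =
      ∑ χ ∈ Finset.univ.image infl, ∑ i, ‖σ i ((χ : X → ℂ) v)‖ ^ 2 +
        ∑ χ ∈ (Finset.univ.image infl)ᶜ, ∑ i, ‖σ i ((χ : X → ℂ) v)‖ ^ 2 := by
    rw [Finset.sum_add_sum_compl]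
  have himg : ∑ χ ∈ Finset.univ.image infl, ∑ i, ‖σ i ((χ : X → ℂ) v)‖ ^ 2 =
      (Fintype.card ι : ℝ) * Nat.card G := by
    rw [Finset.sum_image (fun a _ b _ h => hinfl h)]
    simp_rw [hlow']
    rw [← Finset.mul_sum]
    congr 1
    have h0 := Cfsg.Agent.S0134.result (G := G)
    rw [finsum_eq_sum_of_fintype] at h0
    have h1 : ∀ θ : IrrCharacter G, (((‖(θ : G → ℂ) 1‖ ^ 2 : ℝ)) : ℂ) = (θ : G → ℂ) 1 ^ 2 := by
      intro θ
      obtain ⟨d, -, hd⟩ := isIrr_apply_one θ.2
      rw [hd]
      simp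
    have h2 : ((∑ θ : IrrCharacter G, ‖(θ : G → ℂ) 1‖ ^ 2 : ℝ) : ℂ) = ((Nat.card G : ℝ) : ℂ) := by
      push_cast
      rw [← h0]
      exact Finset.sum_congr rfl (fun θ _ => by rw [← h1]; push_cast; rfl)
    exact Complex.ofReal_injective h2
  have hcompl : (Fintype.card ι : ℝ) * ((Nat.card (ConjClasses X) : ℝ) - Nat.card (ConjClasses G)) ≤
      ∑ χ ∈ (Finset.univ.image infl)ᶜ, ∑ i, ‖σ i ((χ : X → ℂ) v)‖ ^ 2 := by
    have hc : (((Finset.univ.image infl)ᶜ : Finset (IrrCharacter X)).card : ℝ) =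
        (Nat.card (ConjClasses X) : ℝ) - Nat.card (ConjClasses G) := by
      rw [Finset.card_compl, Finset.card_image_of_injective _ hinfl, Finset.card_univ,
        ← Nat.card_eq_fintype_card, ← Nat.card_eq_fintype_card, card_irr, card_irr,
        Nat.cast_sub]
      rw [← card_irr (G := X), ← card_irr (G := G)]
      exact Nat.card_le_card_of_injective infl hinfl
    rw [← hc]
    calc (Fintype.card ι : ℝ) * (((Finset.univ.image infl)ᶜ : Finset (IrrCharacter X)).card : ℝ)
        = ∑ _χ ∈ (Finset.univ.image infl)ᶜ, (Fintype.card ι : ℝ) := by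
          rw [Finset.sum_const, nsmul_eq_mul, mul_comm]
      _ ≤ _ := Finset.sum_le_sum (fun χ _ => hlow χ)
  have hι : (0 : ℝ) < Fintype.card ι := by exact_mod_cast Fintype.card_pos
  have hfin : (Fintype.card ι : ℝ) * (Nat.card G + ((Nat.card (ConjClasses X) : ℝ) -
      Nat.card (ConjClasses G))) ≤
        (Fintype.card ι : ℝ) * Nat.card (Subgroup.centralizer ({v} : Set X)) := by
    rw [mul_add]
    rw [hsplit, himg] at htot
    linarith
  have hfin2 := le_of_mul_le_mul_left hfin hι
  have hcent' : (Nat.card (Subgroup.centralizer ({v} : Set X)) : ℝ) ≤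
      Nat.card ↥(G ⊓ Subgroup.centralizer ({v} : Set X)) * Nat.card V := by exact_mod_cast hcent
  have : (Nat.card (ConjClasses X) : ℝ) + Nat.card G ≤
      Nat.card ↥(G ⊓ Subgroup.centralizer ({v} : Set X)) * Nat.card V +
        Nat.card (ConjClasses G) := by linarith
  exact_mod_cast this

end Cfsg.Agent.S4955
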