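import Cfsg.Statements.S4958
import Cfsg.Agent.H718.DeltaAb
import Cfsg.Agent.H718.ConjRep

set_option autoImplicit false
open Cfsg

namespace Cfsg.Agent.S4958

open Cfsg.Agent.H718

/-- Let X be a finite group and V a normal subgroup of X in which every element has order dividing the prime p, whose index in X is prime to p and which is its own centralizer in X; so V is an elementary abelian normal Sylow p-subgroup, and any complement G to V in X is a group of order prime to p acting faithfully on the vector space V by conjugation (the coprime linear setting of the k(GV) problem). Let G be a complement to V in X and suppose that for some v in V the centralizer of v in G is abelian. Then the number of conjugacy classes of X is at most the order of V (the abelian-stabilizer criterion for the k(GV) problem). -/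
theorem result {X : Type*} [Group X] [Finite X] (p : ℕ) [Fact p.Prime] (V : Subgroup X) [V.Normal] (hVexp : ∀ v ∈ V, v ^ p = 1) (hidx : ¬ p ∣ V.index) (hself : Subgroup.centralizer (V : Set X) = V) (G : Subgroup X) (hGV : Subgroup.IsComplement' V G) (v : X) (hv : v ∈ V) (hab : ∀ a ∈ G ⊓ Subgroup.centralizer ({v} : Set X), ∀ b ∈ G ⊓ Subgroup.centralizer ({v} : Set X), a * b = b * a) : Nat.card (ConjClasses X) ≤ Nat.card V := by
  classical
  set H : Subgroup X := G ⊓ Subgroup.centralizer ({v} : Set X) with hH
  have : Fintype H := Fintype.ofFinite _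
  have hGidx : V.index = Nat.card G := hGV.symm.index_eq_card
  have hG : ¬ p ∣ Nat.card G := hGidx ▸ hidx
  have hHcard : ¬ p ∣ Nat.card H := fun h => hG (h.trans (Subgroup.card_dvd_of_le inf_le_left))
  have hVab : ∀ a ∈ V, ∀ b ∈ V, a * b = b * a := by
    intro a ha b hb
    have h1 : a ∈ Subgroup.centralizer (V : Set X) := by rw [hself]; exact ha
    exact (Subgroup.mem_centralizer_iff.1 h1 b hb).symm
  have hVp : IsPGroup p V := by
    intro x
    refine ⟨1, ?_⟩
    rw [pow_one]
    exact Subtype.ext (hVexp x x.2)
  obtain ⟨M, hM⟩ := Cfsg.Agent.Blocks.ExistsModular.exists_isPModular (Fact.out : p.Prime)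
  obtain ⟨E, _, _, _, e, ρ, he, hρ⟩ := exists_conjRep p H V hVab hVexp
    (fun h _ u hu => (inferInstance : V.Normal).conj_mem u hu h)
  obtain ⟨δ, hδ⟩ := exists_delta_rep hM (fun a b : H => Subtype.ext (hab a a.2 b b.2)) hHcard ρ
  have hδ' := hδ.congr (act' := fun h u => e (ρ h (e.symm u))) e
    (fun h s => by rw [e.symm_apply_apply])
  refine card_conjClasses_le_of_Delta hVp hidx hVab G hGV hv H hH hM V le_rfl _ ?_ ?_ hδ'
  · intro h u
    rw [hρ, e.apply_symm_apply]
  · intro h hu
    have h1 : (h : X) ∈ Subgroup.centralizer (V : Set X) := by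
      rw [Subgroup.mem_centralizer_iff]
      intro u hu'
      have h2 := congrArg (Subtype.val) (hu ⟨u, hu'⟩)
      rw [hρ, e.apply_symm_apply] at h2
      have h3 : (h : X) * u * (h : X)⁻¹ = u := h2
      calc u * (h : X) = ((h : X) * u * (h : X)⁻¹) * h := by rw [h3]
        _ = h * u := by group
    rw [hself] at h1
    have h2 : (h : X) ∈ G := (hH ▸ h.2 : (h : X) ∈ G ⊓ Subgroup.centralizer ({v} : Set X)).1
    have h3 : (h : X) ∈ V ⊓ G := ⟨h1, h2⟩
    have h4 : V ⊓ G = ⊥ := hGV.disjoint.eq_bot
    rw [h4, Subgroup.mem_bot] at h3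
    exact Subtype.ext h3

end Cfsg.Agent.S4958
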