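import Cfsg.Statements.S4962
import Cfsg.Agent.H644.KGV.Final
import Cfsg.Agent.H591.KGV.Block

set_option autoImplicit false
open Cfsg

namespace Cfsg.Agent.S4962

/-- Let p be a prime, G a finite p-solvable group, M a maximal ideal of the algebraic integers containing p, and B a p-block of G with a nonabelian defect group D. Then B contains strictly fewer irreducible characters than D has elements (the strict form of the k(B) bound for p-solvable groups; for p-solvable groups the non-strict bound, that B has at most as many irreducible characters as D has elements, holds whatever the defect group). -/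
theorem result {G : Type*} [Group G] [Finite G] (p : ℕ) [Fact p.Prime] (hsolv : Cfsg.IsPSolvable p G) (M : Ideal Cfsg.AlgInt) (hM : Cfsg.IsPModular p M) (B : Set (Cfsg.IrrCharacter G)) (hB : Cfsg.IsPBlock M B) (D : Subgroup G) (hD : Cfsg.IsDefectGroup p M B D) (hna : ∃ a ∈ D, ∃ b ∈ D, a * b ≠ b * a) : Nat.card B < Nat.card D := by
  exact Cfsg.Agent.H591.KGV.s4962 (fun _ _ _ p _ V _ h1 h2 h3 => (Cfsg.Agent.H644.KGV.mainKGV p _ V h1 h2 h3).1) p hsolv M hM B hB D hD hna

end Cfsg.Agent.S4962
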