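import Cfsg.Statements.S4964
import Cfsg.Agent.S0941
import Cfsg.Agent.S0029
import Cfsg.Agent.Blocks.BrauerMap
import Cfsg.Agent.Lib.FrattiniPGroup
import Cfsg.Agent.Characters.Core

set_option autoImplicit false
open Cfsg

namespace Cfsg.Agent.S4964

open Cfsg.Agent.Blocks.Local Cfsg.Agent.Blocks.ConvCentral Cfsg.Agent.Blocks.PRegular

open scoped commutatorElement

/-- A `p`-regular element centralizing `D` modulo `D'` centralizes the `p`-group `D`. -/
theorem mem_centralizer_of_mod {G : Type*} [Group G] [Finite G] {p : ℕ} [Fact p.Prime]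
    (D : Subgroup G) [D.Normal] (hD : IsPGroup p D) {g : G} (hg : IsPRegular p g)
    (h : ∀ d ∈ D, g * d * g⁻¹ * d⁻¹ ∈ ⁅D, D⁆) : g ∈ Subgroup.centralizer (D : Set G) := by
  have hp : p.Prime := Fact.out
  have hmap : (commutator ↥D).map D.subtype = ⁅D, D⁆ := by
    rw [_root_.commutator_def, Subgroup.map_commutator, ← MonoidHom.range_eq_map,
      Subgroup.range_subtype]
  have hle : ⁅D, D⁆ ≤ (frattini D).map D.subtype := by
    rw [← hmap]
    exact Subgroup.map_mono (Cfsg.Agent.Lib.FrattiniPGroup.commutator_le_frattini hD)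
  have hcop : (Nat.card (Subgroup.zpowers g)).Coprime (Nat.card (frattini D)) := by
    rw [Nat.card_zpowers]
    obtain ⟨k, hk⟩ := (IsPGroup.iff_card).1 (hD.to_subgroup (frattini D))
    rw [hk]
    exact Nat.Coprime.pow_right k ((Nat.Prime.coprime_iff_not_dvd hp).2 hg).symm
  -- the elements acting trivially on `D / Φ(D)` form a subgroup
  have hchar : ((frattini D).map D.subtype).Normal := by
    have : (frattini D).Characteristic := inferInstance
    exact ConjAct.normal_of_characteristic_of_normal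
  have htriv : ∀ a ∈ Subgroup.zpowers g, ∀ k ∈ D, a * k * a⁻¹ * k⁻¹ ∈ (frattini D).map D.subtype := by
    intro a ha k hk
    let f : G →* G ⧸ (frattini D).map D.subtype := QuotientGroup.mk' _
    have h1 : ∀ k ∈ D, Commute (f g) (f k) := by
      intro k hk
      have h2 : f (g * k * g⁻¹ * k⁻¹) = 1 := (QuotientGroup.eq_one_iff _).2 (hle (h k hk))
      have h3 : f g * f k * (f g)⁻¹ * (f k)⁻¹ = 1 := by simpa using h2
      rw [mul_inv_eq_one, mul_inv_eq_iff_eq_mul] at h3
      exact h3
    obtain ⟨i, rfl⟩ := Subgroup.mem_zpowers_iff.1 ha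
    have h4 : Commute (f (g ^ i)) (f k) := by
      rw [map_zpow]
      exact (h1 k hk).zpow_left i
    have h5 : f (g ^ i * k * (g ^ i)⁻¹ * k⁻¹) = 1 := by
      rw [map_mul, map_mul, map_mul, map_inv, map_inv, h4.eq]
      group
    exact (QuotientGroup.eq_one_iff _).1 h5
  have hnorm : Subgroup.zpowers g ≤ Subgroup.normalizer (D : Set G) := by
    rw [Subgroup.normalizer_eq_top]
    exact le_top
  exact Cfsg.Agent.S0029.result (Subgroup.zpowers g) D hnorm hcop htriv (Subgroup.mem_zpowers g)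

/-- If the `p`-regular element `g` centralizes the normal `p`-subgroup `P ≥ N` then the centralizer of
`g N` in `G / N` is the image of the centralizer of `g`. -/
theorem centralizer_comap {G : Type*} [Group G] {p : ℕ} (hp : p.Prime)
    (N P : Subgroup G) [N.Normal] (hNP : N ≤ P) (hP : IsPGroup p P) {g : G} (hg : IsPRegular p g)
    (hgC : g ∈ Subgroup.centralizer (P : Set G)) :
    (Subgroup.centralizer ({QuotientGroup.mk g} : Set (G ⧸ N))).comap (QuotientGroup.mk' N) ≤
      Subgroup.centralizer ({g} : Set G) := by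
  intro h hh
  rw [Subgroup.mem_comap, Subgroup.mem_centralizer_singleton_iff] at hh
  rw [Subgroup.mem_centralizer_singleton_iff]
  -- `h * g * h⁻¹ = g * u`
  have h1 : (QuotientGroup.mk (g⁻¹ * (h * g * h⁻¹)) : G ⧸ N) = 1 := by
    simp only [QuotientGroup.mk_mul, QuotientGroup.mk_inv]
    have h2 : (QuotientGroup.mk h : G ⧸ N) * QuotientGroup.mk g =
      QuotientGroup.mk g * QuotientGroup.mk h := hh
    rw [h2]
    group
  rw [QuotientGroup.eq_one_iff] at h1
  set u := g⁻¹ * (h * g * h⁻¹) with hu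
  have h3 : g * u = u * g := (Subgroup.mem_centralizer_iff.1 hgC u (hNP h1)).symm
  have h4 : g * u = h * g * h⁻¹ := by rw [hu]; group
  have h5 : u ^ orderOf g = 1 := by
    have h6 : (g * u) ^ orderOf g = 1 := by
      rw [h4, conj_pow, pow_orderOf_eq_one]
      group
    rw [Commute.mul_pow h3, pow_orderOf_eq_one, one_mul] at h6
    exact h6
  obtain ⟨m, hm⟩ := hP ⟨u, hNP h1⟩
  have hm' : u ^ p ^ m = 1 := by
    have := congrArg Subtype.val hm
    simpa using this
  have h7 : Nat.Coprime (p ^ m) (orderOf g) :=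
    Nat.Coprime.pow_left m ((Nat.Prime.coprime_iff_not_dvd hp).2 hg)
  have h8 := Nat.dvd_gcd (orderOf_dvd_of_pow_eq_one hm') (orderOf_dvd_of_pow_eq_one h5)
  rw [h7, Nat.dvd_one, orderOf_eq_one_iff] at h8
  rw [h8, mul_one] at h4
  rw [eq_mul_inv_iff_mul_eq] at h4
  exact h4.symm

/-- Let D be a normal p-subgroup of the finite group G, let D′ be its commutator subgroup (normal in G), and fix a maximal ideal M of the algebraic integers containing p. Then (i) two irreducible characters of G ⧸ D′ lie in the same p-block if and only if their inflations to G do, and (ii) every p-block of G contains the inflation of some irreducible character of G ⧸ D′; so inflation induces a bijection between the p-blocks of G ⧸ D′ and the p-blocks of G. -/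
theorem result {G : Type*} [Group G] [Finite G] (p : ℕ) [Fact p.Prime] (M : Ideal Cfsg.AlgInt) (hM : Cfsg.IsPModular p M) (D : Subgroup G) [D.Normal] (hD : IsPGroup p D) : (∀ χ ψ : Cfsg.IrrCharacter (G ⧸ ⁅D, D⁆), Cfsg.SameBlock M (χ : G ⧸ ⁅D, D⁆ → ℂ) (ψ : G ⧸ ⁅D, D⁆ → ℂ) ↔ Cfsg.SameBlock M ((χ : G ⧸ ⁅D, D⁆ → ℂ) ∘ QuotientGroup.mk) ((ψ : G ⧸ ⁅D, D⁆ → ℂ) ∘ QuotientGroup.mk)) ∧ ∀ B : Set (Cfsg.IrrCharacter G), Cfsg.IsPBlock M B → ∃ χ : Cfsg.IrrCharacter (G ⧸ ⁅D, D⁆), ∃ θ ∈ B, (θ : G → ℂ) = (χ : G ⧸ ⁅D, D⁆ → ℂ) ∘ QuotientGroup.mk := by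
  classical
  have hp : p.Prime := Fact.out
  have hMp := isPrime_of_isPModular hM
  have hDD : ⁅D, D⁆ ≤ D := Subgroup.commutator_le_left D D
  have hDp : IsPGroup p (⁅D, D⁆ : Subgroup G) := hD.to_le hDD
  constructor
  · intro χ ψ
    constructor
    · intro h
      exact Cfsg.Agent.S0941.sameBlock_inflate ⁅D, D⁆ h
    · intro h
      have := Fintype.ofFinite (G ⧸ ⁅D, D⁆)
      apply sameBlock_of_isPRegular hM χ.2 ψ.2
      intro x hx
      obtain ⟨g, hg, rfl⟩ := exists_isPRegular_lift G p ⁅D, D⁆ hx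
      let f : G →* G ⧸ ⁅D, D⁆ := QuotientGroup.mk' _
      have hf : Function.Surjective f := QuotientGroup.mk'_surjective _
      by_cases hc : f g ∈ Subgroup.centralizer ((D.map f : Subgroup (G ⧸ ⁅D, D⁆)) : Set (G ⧸ ⁅D, D⁆))
      · have hgC : g ∈ Subgroup.centralizer (D : Set G) := by
          apply mem_centralizer_of_mod D hD hg
          intro d hd
          have h1 := Subgroup.mem_centralizer_iff.1 hc (f d) (Subgroup.mem_map_of_mem f hd)
          rw [← QuotientGroup.eq_one_iff]
          show f (g * d * g⁻¹ * d⁻¹) = 1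
          rw [map_mul, map_mul, map_mul, map_inv, map_inv, ← h1]
          group
        have h1 := h g
        rw [Cfsg.Agent.S0941.centralChar_inflate, Cfsg.Agent.S0941.centralChar_inflate] at h1
        have h2 : (Subgroup.centralizer ({g} : Set G)).relIndex
          ((Subgroup.centralizer ({QuotientGroup.mk g} : Set (G ⧸ ⁅D, D⁆))).comap
            (QuotientGroup.mk' ⁅D, D⁆)) = 1 :=
          Subgroup.relIndex_eq_one.2 (centralizer_comap hp ⁅D, D⁆ D hDD hD hg hgC)
        rw [h2] at h1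
        simpa using h1
      · have hn : (D.map f).Normal := Subgroup.Normal.map inferInstance f hf
        have hDf : IsPGroup p (D.map f) := hD.map f
        have h1 := Cfsg.Agent.Blocks.BrauerMap.memLocalIdeal_centralChar_of_notMem hM χ.2 (D.map f)
          hDf (f g) hc
        have h2 := Cfsg.Agent.Blocks.BrauerMap.memLocalIdeal_centralChar_of_notMem hM ψ.2 (D.map f)
          hDf (f g) hc
        exact memLocalIdeal_sub h1 h2
  · rintro B ⟨χ₀, rfl⟩
    have := Fintype.ofFinite G
    obtain ⟨θ, hθ⟩ := exists_inflation_sameBlock hM ⁅D, D⁆ hDp χ₀.2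
    exact ⟨θ, ⟨(θ : G ⧸ ⁅D, D⁆ → ℂ) ∘ (QuotientGroup.mk' ⁅D, D⁆),
      Cfsg.Agent.Characters.Core.isIrr_comp (QuotientGroup.mk' ⁅D, D⁆)
        (QuotientGroup.mk'_surjective ⁅D, D⁆) θ.2⟩, hθ, rfl⟩

end Cfsg.Agent.S4964
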