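import Cfsg.Statements.S4967
import Mathlib.RingTheory.Trace.Basic
-- import your own Cfsg.Agent.* helpers here

set_option autoImplicit false
open Cfsg

namespace Cfsg.Agent.S4967

section Model

variable {F : Type*} [Field F] [Fintype F] {H : Type*} [CommGroup H] [Finite H]
  {K : Type*} [Field K] [Finite K] [Algebra F K]

/-- An invariant nondegenerate form on a field generated by `H` gives the field automorphism inverting
`H`. -/
theorem exists_star (ι : H →* K) (hgen : Submodule.span F (Set.range ι) = ⊤)
    (b : LinearMap.BilinForm F K) (hb : b.Nondegenerate)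
    (hinv : ∀ h x y, b (ι h * x) (ι h * y) = b x y) :
    ∃ σ : K →ₐ[F] K, ∀ h, σ (ι h) = ι h⁻¹ := by
  have h1 : ∀ a : K, ∃ s : K, ∀ x y, b (a * x) y = b x (s * y) := by
    intro a
    have ha : a ∈ Submodule.span F (Set.range ι) := by rw [hgen]; trivial
    induction ha using Submodule.span_induction with
    | mem x hx =>
      obtain ⟨h, rfl⟩ := hx
      refine ⟨ι h⁻¹, fun x y => ?_⟩
      have := hinv h x (ι h⁻¹ * y)
      rw [← mul_assoc, ← map_mul, mul_inv_cancel, map_one, one_mul] at this
      exact this
    | zero => exact ⟨0, by simp⟩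
    | add x y _ _ hx hy =>
      obtain ⟨s, hs⟩ := hx
      obtain ⟨t, ht⟩ := hy
      exact ⟨s + t, fun u v => by simp [add_mul, hs, ht]⟩
    | smul c x _ hx =>
      obtain ⟨s, hs⟩ := hx
      exact ⟨c • s, fun u v => by simp [hs]⟩
  choose σ hσ using h1
  have huniq : ∀ s t : K, (∀ x y, b x (s * y) = b x (t * y)) → s = t := by
    intro s t h
    have h0 : ∀ x, b x (s - t) = 0 := by
      intro x
      have := h x 1
      rw [mul_one, mul_one] at this
      rw [map_sub, this, sub_self]
    exact sub_eq_zero.mp (hb.2 _ h0)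
  have hone : σ 1 = 1 := huniq _ _ fun x y => by rw [← hσ, one_mul, one_mul]
  have hmul : ∀ a c, σ (a * c) = σ a * σ c := fun a c => huniq _ _ fun x y => by
    rw [← hσ, mul_assoc, hσ, hσ, ← mul_assoc, mul_comm (σ c)]
  have hadd : ∀ a c, σ (a + c) = σ a + σ c := fun a c => huniq _ _ fun x y => by
    rw [← hσ, add_mul, add_mul, map_add, map_add, LinearMap.add_apply, hσ, hσ]
  have hzero : σ 0 = 0 := huniq _ _ fun x y => by rw [← hσ]; simp
  have hc : ∀ c : F, σ (algebraMap F K c) = algebraMap F K c := fun c => huniq _ _ fun x y => by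
    rw [← hσ, ← Algebra.smul_def, ← Algebra.smul_def]; simp
  refine ⟨⟨⟨⟨⟨σ, hone⟩, hmul⟩, hzero, hadd⟩, hc⟩, fun h => ?_⟩
  change σ (ι h) = ι h⁻¹
  refine huniq _ _ fun x y => ?_
  rw [← hσ]
  have := hinv h x (ι h⁻¹ * y)
  rw [← mul_assoc (ι h), ← map_mul, mul_inv_cancel, map_one, one_mul] at this
  exact this

/-- If inversion on `H` is induced by the identity then `H` has order at most two and the field is the
base field. -/
theorem trivial_star (ι : H →* K) (hι : Function.Injective ι)
    (hgen : Submodule.span F (Set.range ι) = ⊤) (h : ∀ x, ι x⁻¹ = ι x) :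
    Nat.card H ≤ 2 ∧ Module.finrank F K = 1 := by
  have h1 : ∀ x, ι x = 1 ∨ ι x = -1 := by
    intro x
    have : ι x * ι x = 1 := by
      conv_lhs => rw [← h x]
      rw [h x]
      nth_rewrite 1 [← h x]
      rw [← map_mul, inv_mul_cancel, map_one]
    exact mul_self_eq_one_iff.mp this
  constructor
  · have hsub : Set.range ι ⊆ {1, -1} := by
      rintro _ ⟨x, rfl⟩
      rcases h1 x with h | h <;> simp [h]
    have h2 : Nat.card H = (Set.range ι).ncard := by
      rw [← Set.image_univ, Set.ncard_image_of_injective _ hι, Set.ncard_univ]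
    rw [h2]
    refine (Set.ncard_le_ncard hsub).trans ?_
    exact (Set.ncard_insert_le _ _).trans (by simp)
  · have htop : Submodule.span F ({1} : Set K) = ⊤ := by
      rw [eq_top_iff, ← hgen, Submodule.span_le]
      rintro _ ⟨x, rfl⟩
      rcases h1 x with h | h
      · rw [h]; exact Submodule.mem_span_singleton_self _
      · rw [h]; exact Submodule.neg_mem _ (Submodule.mem_span_singleton_self _)
    have := finrank_span_singleton (K := F) (v := (1 : K)) one_ne_zero
    rw [htop, finrank_top] at this
    exact this

theorem card_dvd_of_pow (ι : H →* K) (hι : Function.Injective ι) (m : ℕ) (h : ∀ x, ι x ^ m = 1) :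
    Nat.card H ∣ m := by
  have hcyc : IsCyclic H := isCyclic_of_subgroup_isDomain ι hι
  obtain ⟨g, hg⟩ := hcyc.exists_generator
  rw [← orderOf_eq_card_of_forall_mem_zpowers hg]
  apply orderOf_dvd_of_pow_eq_one
  apply hι
  rw [map_pow, h, map_one]

theorem model (ι : H →* K) (hι : Function.Injective ι)
    (hgen : Submodule.span F (Set.range ι) = ⊤) :
    (Module.finrank F K = 1 → (∃ b : LinearMap.BilinForm F K, b.Nondegenerate ∧
      ∀ h x y, b (ι h * x) (ι h * y) = b x y) → Nat.card H ≤ 2) ∧
    (2 ≤ Module.finrank F K → ((∃ b : LinearMap.BilinForm F K, b.Nondegenerate ∧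
      ∀ h x y, b (ι h * x) (ι h * y) = b x y) ↔ (Even (Module.finrank F K) ∧
        Nat.card H ∣ Fintype.card F ^ (Module.finrank F K / 2) + 1))) := by
  have : FiniteDimensional F K := Module.Finite.of_finite
  have hmain : ∀ b : LinearMap.BilinForm F K, b.Nondegenerate →
      (∀ h x y, b (ι h * x) (ι h * y) = b x y) →
      (Nat.card H ≤ 2 ∧ Module.finrank F K = 1) ∨ (Even (Module.finrank F K) ∧
        Nat.card H ∣ Fintype.card F ^ (Module.finrank F K / 2) + 1) := by
    intro b hb hinv
    obtain ⟨σ, hσ⟩ := exists_star ι hgen b hb hinv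
    obtain ⟨⟨j, hj⟩, hj'⟩ := (FiniteField.bijective_frobeniusAlgHom_pow F K).2 σ
    simp only at hj'
    have hsq : σ * σ = 1 := by
      have hlin : (σ * σ).toLinearMap = (1 : K →ₐ[F] K).toLinearMap := by
        refine LinearMap.ext_on hgen ?_
        rintro _ ⟨h, rfl⟩
        change σ (σ (ι h)) = ι h
        rw [hσ, hσ, inv_inv]
      exact AlgHom.toLinearMap_injective hlin
    have hdvd : Module.finrank F K ∣ 2 * j := by
      rw [← FiniteField.orderOf_frobeniusAlgHom F K]
      apply orderOf_dvd_of_pow_eq_one
      rw [two_mul, pow_add, hj', hsq]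
    obtain ⟨c, hc⟩ := hdvd
    have hn : 0 < Module.finrank F K := Module.finrank_pos
    have hclt : c < 2 := by
      by_contra hcon
      push Not at hcon
      have : Module.finrank F K * 2 ≤ Module.finrank F K * c := Nat.mul_le_mul_left _ hcon
      omega
    have happ : ∀ x, σ x = x ^ Fintype.card F ^ j := by
      intro x
      rw [← hj', AlgHom.coe_pow, FiniteField.coe_frobeniusAlgHom, pow_iterate]
    rcases Nat.lt_succ_iff_lt_or_eq.mp hclt with h0 | h1
    · have hc0 : c = 0 := by omega
      have hj0 : j = 0 := by subst hc0; omega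
      left
      refine trivial_star ι hι hgen fun x => ?_
      rw [← hσ, happ, hj0, pow_zero, pow_one]
    · right
      subst h1
      have hnj : Module.finrank F K = 2 * j := by omega
      refine ⟨⟨j, by omega⟩, ?_⟩
      have hj2 : Module.finrank F K / 2 = j := by omega
      rw [hj2]
      refine card_dvd_of_pow ι hι _ fun x => ?_
      rw [pow_succ, ← happ, hσ, ← map_mul, inv_mul_cancel, map_one]
  refine ⟨?_, ?_⟩
  · rintro hn ⟨b, hb, hinv⟩
    rcases hmain b hb hinv with h | ⟨⟨m, hm⟩, -⟩
    · exact h.1
    · omega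
  · intro hn
    constructor
    · rintro ⟨b, hb, hinv⟩
      rcases hmain b hb hinv with h | h
      · omega
      · exact h
    · rintro ⟨⟨m, hm⟩, hdvd⟩
      have hm2 : Module.finrank F K / 2 = m := by omega
      rw [hm2] at hdvd
      let σ : K →ₐ[F] K := FiniteField.frobeniusAlgHom F K ^ m
      have happ : ∀ x, σ x = x ^ Fintype.card F ^ m := by
        intro x
        simp only [σ]
        rw [AlgHom.coe_pow, FiniteField.coe_frobeniusAlgHom, pow_iterate]
      have hσ : ∀ h, ι h * σ (ι h) = 1 := by
        intro h
        rw [happ, ← pow_succ']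
        obtain ⟨c, hc⟩ := hdvd
        rw [hc, pow_mul, ← map_pow, pow_card_eq_one', map_one, one_pow]
      have hσinj : Function.Injective σ := σ.toRingHom.injective
      have hσsurj : Function.Surjective σ := Finite.surjective_of_injective hσinj
      have hsep : Algebra.IsSeparable F K := inferInstance
      have htr := traceForm_nondegenerate F K
      refine ⟨(Algebra.traceForm F K).compl₁₂ LinearMap.id σ.toLinearMap, ⟨?_, ?_⟩, ?_⟩
      · intro x hx
        apply htr.1 x
        intro y
        obtain ⟨z, rfl⟩ := hσsurj y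
        exact hx z
      · intro y hy
        have : σ y = 0 := by
          apply htr.2
          intro x
          exact hy x
        exact hσinj (by rw [this, map_zero])
      · intro h x y
        change Algebra.trace F K (ι h * x * σ (ι h * y)) = Algebra.trace F K (x * σ y)
        rw [map_mul σ, mul_mul_mul_comm, hσ, one_mul]

end Model

section Reduction

universe u v w

variable {F : Type u} [Field F] [Fintype F] {H : Type v} [CommGroup H] [Finite H]
  {V : Type w} [AddCommGroup V] [Module F V] [FiniteDimensional F V]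

/-- A faithful irreducible module of an abelian group is the additive group of a field generated by
the image of the group. -/
theorem exists_model (ρ : Representation F H V) (hfaith : Function.Injective ρ)
    (hirr : ∀ U : Submodule F V, (∀ h : H, ∀ u ∈ U, ρ h u ∈ U) → U = ⊥ ∨ U = ⊤) [Nontrivial V] :
    ∃ (K : Type (max u v)) (_ : Field K) (_ : Finite K) (_ : Algebra F K) (ι : H →* K) (e : K ≃ₗ[F] V),
      Function.Injective ι ∧ Submodule.span F (Set.range ι) = ⊤ ∧
        ∀ h x, e (ι h * x) = ρ h (e x) := by
  classical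
  let A := MonoidAlgebra F H
  let φ : A →ₐ[F] Module.End F V := ρ.asAlgebraHom
  have hφ : ∀ h, φ (MonoidAlgebra.of F H h) = ρ h := fun h => ρ.asAlgebraHom_of h
  have hcomm : ∀ a c : A, ∀ v, φ a (φ c v) = φ c (φ a v) := by
    intro a c v
    rw [← Module.End.mul_apply, ← Module.End.mul_apply, ← map_mul, ← map_mul, mul_comm]
  have hinj : ∀ a : A, φ a = 0 ∨ ∀ v, φ a v = 0 → v = 0 := by
    intro a
    rcases hirr (LinearMap.ker (φ a)) (by
      intro h u hu
      rw [LinearMap.mem_ker] at hu ⊢
      rw [← hφ, hcomm, hu, map_zero]) with h | h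
    · right
      intro v hv
      have : v ∈ LinearMap.ker (φ a) := hv
      rw [h] at this
      simpa using this
    · left
      exact LinearMap.ker_eq_top.mp h
  let M : Ideal A := RingHom.ker φ
  have hM : ∀ a, a ∈ M ↔ φ a = 0 := fun a => Iff.rfl
  have hprime : M.IsPrime := by
    refine ⟨?_, ?_⟩
    · rw [Ideal.ne_top_iff_one, hM, map_one]
      exact one_ne_zero
    · intro a c hac
      rw [hM, map_mul] at hac
      rcases hinj a with h | h
      · exact Or.inl h
      · right
        rw [hM]
        ext v
        exact h _ (by rw [← Module.End.mul_apply, hac]; rfl)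
  have hfin : Finite A := Module.finite_of_finite F
  have hfinq : Finite (A ⧸ M) := Finite.of_surjective _ Ideal.Quotient.mk_surjective
  have hdom : IsDomain (A ⧸ M) := (Ideal.Quotient.isDomain_iff_prime M).mpr hprime
  have hmax : M.IsMaximal := Ideal.Quotient.maximal_of_isField M (Finite.isField_of_domain _)
  obtain ⟨v0, hv0⟩ := exists_ne (0 : V)
  let ψ : (A ⧸ M) →ₐ[F] Module.End F V := Ideal.Quotient.liftₐ M φ (fun a ha => ha)
  have hψ : ∀ a, ψ (Ideal.Quotient.mk M a) = φ a := fun a => rfl
  let _ : Field (A ⧸ M) := Ideal.Quotient.field M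
  let e0 : (A ⧸ M) →ₗ[F] V := LinearMap.applyₗ v0 ∘ₗ ψ.toLinearMap
  have he0 : ∀ x, e0 x = ψ x v0 := fun x => rfl
  have he0inj : Function.Injective e0 := by
    rw [injective_iff_map_eq_zero]
    intro x hx
    obtain ⟨a, rfl⟩ := Ideal.Quotient.mk_surjective x
    rw [he0, hψ] at hx
    rcases hinj a with h | h
    · exact Ideal.Quotient.eq_zero_iff_mem.mpr h
    · exact absurd (h _ hx) hv0
  have he0surj : Function.Surjective e0 := by
    rw [← LinearMap.range_eq_top]
    rcases hirr (LinearMap.range e0) (by
      rintro h _ ⟨x, rfl⟩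
      refine ⟨Ideal.Quotient.mk M (MonoidAlgebra.of F H h) * x, ?_⟩
      rw [he0, he0, map_mul, hψ, hφ, Module.End.mul_apply]) with h | h
    · exfalso
      have : e0 1 ∈ LinearMap.range e0 := ⟨1, rfl⟩
      rw [h, Submodule.mem_bot, he0, map_one] at this
      exact hv0 this
    · exact h
  refine ⟨A ⧸ M, inferInstance, hfinq, inferInstance,
    (Ideal.Quotient.mk M).toMonoidHom.comp (MonoidAlgebra.of F H),
    LinearEquiv.ofBijective e0 ⟨he0inj, he0surj⟩, ?_, ?_, ?_⟩
  · intro h h' hh
    apply hfaith
    rw [← hφ, ← hφ, ← hψ, ← hψ]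
    exact congrArg ψ hh
  · rw [eq_top_iff]
    rintro x -
    obtain ⟨a, rfl⟩ := Ideal.Quotient.mk_surjective x
    induction a using MonoidAlgebra.induction_on with
    | of h => exact Submodule.subset_span ⟨h, rfl⟩
    | add a c ha hc => rw [map_add]; exact Submodule.add_mem _ ha hc
    | smul r a ha => exact Submodule.smul_mem _ r ha
  · intro h x
    change e0 (Ideal.Quotient.mk M (MonoidAlgebra.of F H h) * x) = ρ h (e0 x)
    rw [he0, he0, map_mul, hψ, hφ, Module.End.mul_apply]

end Reduction

/-- Let F be a finite field with r elements and of characteristic p, H a finite abelian group of order prime to p, and V a faithful irreducible representation of H over F of dimension n (faithful: distinct elements act differently; irreducible: the only H-invariant subspaces are 0 and V). Call V self-dual when it carries a nondegenerate H-invariant bilinear form. If n = 1 and V is self-dual then H has order at most 2. If n ≥ 2 then V is self-dual if and only if n is even and the order of H divides r^(n/2) + 1. -/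
theorem result {F : Type*} [Field F] [Fintype F] (p : ℕ) [Fact p.Prime] [CharP F p] {H : Type*} [CommGroup H] [Finite H] (hcop : ¬ p ∣ Nat.card H) {V : Type*} [AddCommGroup V] [Module F V] [FiniteDimensional F V] (ρ : Representation F H V) (hfaith : Function.Injective ρ) (hirr : ∀ U : Submodule F V, (∀ h : H, ∀ u ∈ U, ρ h u ∈ U) → U = ⊥ ∨ U = ⊤) : (Module.finrank F V = 1 → (∃ B : LinearMap.BilinForm F V, B.Nondegenerate ∧ ∀ h : H, ∀ x y : V, B (ρ h x) (ρ h y) = B x y) → Nat.card H ≤ 2) ∧ (2 ≤ Module.finrank F V → ((∃ B : LinearMap.BilinForm F V, B.Nondegenerate ∧ ∀ h : H, ∀ x y : V, B (ρ h x) (ρ h y) = B x y) ↔ (Even (Module.finrank F V) ∧ Nat.card H ∣ Fintype.card F ^ (Module.finrank F V / 2) + 1))) := by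
  rcases subsingleton_or_nontrivial V with hV | hV
  · have h0 : Module.finrank F V = 0 := Module.finrank_zero_of_subsingleton
    exact ⟨fun h => by omega, fun h => by omega⟩
  obtain ⟨K, _, _, _, ι, e, hι, hgen, he⟩ := exists_model ρ hfaith hirr
  have hrank : Module.finrank F V = Module.finrank F K := e.finrank_eq.symm
  have hiff : (∃ B : LinearMap.BilinForm F V, B.Nondegenerate ∧
      ∀ h : H, ∀ x y : V, B (ρ h x) (ρ h y) = B x y) ↔
      (∃ b : LinearMap.BilinForm F K, b.Nondegenerate ∧
        ∀ h x y, b (ι h * x) (ι h * y) = b x y) := by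
    constructor
    · rintro ⟨B, hB, hinv⟩
      refine ⟨B.compl₁₂ e.toLinearMap e.toLinearMap, ⟨?_, ?_⟩, ?_⟩
      · intro x hx
        apply e.injective
        rw [map_zero]
        apply hB.1
        intro y
        obtain ⟨z, rfl⟩ := e.surjective y
        exact hx z
      · intro y hy
        apply e.injective
        rw [map_zero]
        apply hB.2
        intro x
        obtain ⟨z, rfl⟩ := e.surjective x
        exact hy z
      · intro h x y
        change B (e (ι h * x)) (e (ι h * y)) = B (e x) (e y)
        rw [he, he, hinv]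
    · rintro ⟨b, hb, hinv⟩
      refine ⟨b.compl₁₂ e.symm.toLinearMap e.symm.toLinearMap, ⟨?_, ?_⟩, ?_⟩
      · intro x hx
        apply e.symm.injective
        rw [map_zero]
        apply hb.1
        intro y
        obtain ⟨z, rfl⟩ := e.symm.surjective y
        exact hx z
      · intro y hy
        apply e.symm.injective
        rw [map_zero]
        apply hb.2
        intro x
        obtain ⟨z, rfl⟩ := e.symm.surjective x
        exact hy z
      · intro h x y
        change b (e.symm (ρ h x)) (e.symm (ρ h y)) = b (e.symm x) (e.symm y)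
        obtain ⟨x, rfl⟩ := e.surjective x
        obtain ⟨y, rfl⟩ := e.surjective y
        rw [← he, ← he, e.symm_apply_apply, e.symm_apply_apply, e.symm_apply_apply,
          e.symm_apply_apply, hinv]
  rw [hiff, hrank]
  exact model ι hι hgen

end Cfsg.Agent.S4967
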