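import Cfsg.Statements.S5018
import Cfsg.Agent.H731.RankOne

set_option autoImplicit false
open Cfsg

namespace Cfsg.Agent.S5018

open H731 in
/-- A rank one group is not nilpotent, and its second centre equals its centre. -/
theorem result {X : Type*} [Group X] {A B : Subgroup X} (h : Cfsg.IsRankOneGroup X A B) :
    Subgroup.upperCentralSeries X 2 = Subgroup.center X ∧ ¬ Group.IsNilpotent X := by
  have h2 := rankOneGroup_second_centre h
  refine ⟨h2, ?_⟩
  intro hnil
  have hstab : ∀ n, 1 ≤ n → Subgroup.upperCentralSeries X n = Subgroup.center X := by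
    intro n hn
    have := Subgroup.upperCentralSeries.eq_ge_of_eq_succ (G := X) hn (by
      rw [h2, Subgroup.upperCentralSeries_one])
    rw [← this, Subgroup.upperCentralSeries_one]
  obtain ⟨n, hn⟩ := hnil.nilpotent
  have hc : Subgroup.center X = ⊤ := by
    rcases Nat.eq_zero_or_pos n with h0 | h0
    · subst h0
      rw [Subgroup.upperCentralSeries_zero] at hn
      rw [eq_top_iff, ← hn]; exact bot_le
    · rw [← hstab n h0, hn]
  apply rankOne_not_commute h.2
  rw [commutator_eq_bot_iff_forall]
  intro a _ b _
  have : a ∈ Subgroup.center X := by rw [hc]; exact Subgroup.mem_top _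
  exact ((Subgroup.mem_center_iff.1 this) b).symm

end Cfsg.Agent.S5018
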