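import Cfsg.Statements.S5019
import Cfsg.Agent.H731.SL2Pair

set_option autoImplicit false
open Cfsg

namespace Cfsg.Agent.S5019

open H731

section
variable {X : Type*} [Group X] {N : Type*} [AddCommGroup N] [DistribMulAction X N]

/-- `[N, C]` -/
def comm (N : Type*) [AddCommGroup N] [DistribMulAction X N] (C : Subgroup X) : AddSubgroup N :=
  AddSubgroup.closure {m | ∃ c ∈ C, ∃ n : N, m = c • n - n}

theorem comm_conj (C : Subgroup X) (g : X) {m : N} : m ∈ comm N (conjBy C g) ↔ g⁻¹ • m ∈ comm N C := by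
  constructor
  · intro hm
    induction hm using AddSubgroup.closure_induction with
    | mem x hx =>
      obtain ⟨c, hc, n, rfl⟩ := hx
      rw [mem_conjBy] at hc
      refine AddSubgroup.subset_closure ⟨_, hc, g⁻¹ • n, ?_⟩
      rw [smul_sub, ← mul_smul, ← mul_smul, mul_assoc, mul_assoc, mul_inv_cancel, mul_one]
    | zero => rw [smul_zero]; exact AddSubgroup.zero_mem _
    | add x y _ _ hx hy => rw [smul_add]; exact AddSubgroup.add_mem _ hx hy
    | neg x _ hx => rw [smul_neg]; exact AddSubgroup.neg_mem _ hx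
  · intro hm
    have key : ∀ m' ∈ comm N C, g • m' ∈ comm N (conjBy C g) := by
      intro m' hm'
      induction hm' using AddSubgroup.closure_induction with
      | mem x hx =>
        obtain ⟨c, hc, n, rfl⟩ := hx
        refine AddSubgroup.subset_closure ⟨_, conj_mem_conjBy hc g, g • n, ?_⟩
        rw [smul_sub, ← mul_smul, ← mul_smul, mul_assoc, inv_mul_cancel, mul_one]
      | zero => rw [smul_zero]; exact AddSubgroup.zero_mem _
      | add x y _ _ hx hy => rw [smul_add]; exact AddSubgroup.add_mem _ hx hy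
      | neg x _ hx => rw [smul_neg]; exact AddSubgroup.neg_mem _ hx
    have := key _ hm
    rwa [smul_inv_smul] at this

theorem fix_comm {C : Subgroup X} (hq : ∀ a ∈ C, ∀ a' ∈ C, ∀ n : N, a' • (a • n - n) = a • n - n)
    {a : X} (ha : a ∈ C) {m : N} (hm : m ∈ comm N C) : a • m = m := by
  induction hm using AddSubgroup.closure_induction with
  | mem x hx =>
    obtain ⟨c, hc, n, rfl⟩ := hx
    exact hq c hc a ha n
  | zero => rw [smul_zero]
  | add x y _ _ hx hy => rw [smul_add, hx, hy]
  | neg x _ hx => rw [smul_neg, hx]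

theorem sub_mem_comm {C : Subgroup X} {c : X} (hc : c ∈ C) (n : N) : c • n - n ∈ comm N C :=
  AddSubgroup.subset_closure ⟨c, hc, n, rfl⟩

theorem quad_conj {C : Subgroup X} (hq : ∀ a ∈ C, ∀ a' ∈ C, ∀ n : N, a' • (a • n - n) = a • n - n) (g : X) :
    ∀ a ∈ conjBy C g, ∀ a' ∈ conjBy C g, ∀ n : N, a' • (a • n - n) = a • n - n := by
  intro a ha a' ha' n
  rw [mem_conjBy] at ha ha'
  have h1 := hq _ ha _ ha' (g⁻¹ • n)
  have h2 := congrArg (fun m => g • m) h1
  simp only [smul_sub, ← mul_smul] at h2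
  simp only [smul_sub, ← mul_smul]
  simpa [mul_assoc] using h2

end

/-- Let X be a rank one group with abelian unipotent subgroups A and B, and suppose X acts on an abelian group N (written additively) in such a way that A acts quadratically, meaning a' • (a • n − n) = a • n − n for all a, a' in A and n in N, while X as a whole does not: y • (x • n − n) ≠ x • n − n for some x, y in X and n in N. Then X is a special rank one group. -/
theorem result {X : Type*} [Group X] {A B : Subgroup X} (h : Cfsg.IsRankOneGroup X A B)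
    (hab : Cfsg.HasAbelianUnipotents A B) {N : Type*} [AddCommGroup N] [DistribMulAction X N]
    (hq : ∀ a ∈ A, ∀ a' ∈ A, ∀ n : N, a' • (a • n - n) = a • n - n)
    (hX : ∃ x y : X, ∃ n : N, y • (x • n - n) ≠ x • n - n) : Cfsg.IsSpecialRankOnePair A B := by
  obtain ⟨htop, h⟩ := h
  obtain ⟨x₀, -, hx₀⟩ := right_mem_unipotentSubgroups h
  have hqB : ∀ b ∈ B, ∀ b' ∈ B, ∀ n : N, b' • (b • n - n) = b • n - n := by
    rw [hx₀]; exact quad_conj hq x₀
  set NA : AddSubgroup N := comm N A with hNA
  set NB : AddSubgroup N := comm N B with hNB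
  have fA : ∀ a ∈ A, ∀ m ∈ NA, a • m = m := fun a ha m hm => fix_comm hq ha hm
  have fB : ∀ b ∈ B, ∀ m ∈ NB, b • m = m := fun b hb m hm => fix_comm hqB hb hm
  -- induction principle over X = ⟨A, B⟩
  have hind : ∀ S : Subgroup X, A ≤ S → B ≤ S → ∀ x, x ∈ S := by
    intro S hA hB x
    have : (⊤ : Subgroup X) ≤ S := by rw [← htop]; exact sup_le hA hB
    exact this (Subgroup.mem_top x)
  -- I is fixed by X
  have fI : ∀ x : X, ∀ m, m ∈ NA → m ∈ NB → x • m = m := by
    intro x m hmA hmB
    have := hind (MulAction.stabilizer X m) (fun a ha => MulAction.mem_stabilizer_iff.2 (fA a ha m hmA))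
      (fun b hb => MulAction.mem_stabilizer_iff.2 (fB b hb m hmB)) x
    exact MulAction.mem_stabilizer_iff.1 this
  -- the key relations
  have keyA : ∀ a ∈ A, ∀ b ∈ B, conjBy A b⁻¹ = conjBy B a⁻¹ → ∀ v ∈ NA,
      v - (a⁻¹ • (b⁻¹ • v - v) - (b⁻¹ • v - v)) ∈ NA ∧ v - (a⁻¹ • (b⁻¹ • v - v) - (b⁻¹ • v - v)) ∈ NB := by
    intro a ha b hb hab' v hv
    -- b⁻¹ • v = a⁻¹ • w
    have h1 : b⁻¹ • v ∈ comm N (conjBy A b⁻¹) := by
      rw [comm_conj, smul_smul, inv_inv, mul_inv_cancel, one_smul]; exact hv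
    rw [hab', comm_conj, inv_inv] at h1
    set w := a • b⁻¹ • v with hw
    have hw' : a⁻¹ • w = b⁻¹ • v := by rw [hw, inv_smul_smul]
    have h2 : b⁻¹ • v - v ∈ NB := sub_mem_comm (B.inv_mem hb) v
    have h3 : a⁻¹ • w - w ∈ NA := sub_mem_comm (A.inv_mem ha) w
    set i := w - (b⁻¹ • v - v) with hi
    have hiB : i ∈ NB := AddSubgroup.sub_mem _ h1 h2
    have hiA : i ∈ NA := by
      have : i = v - (a⁻¹ • w - w) := by rw [hi, hw']; abel
      rw [this]; exact AddSubgroup.sub_mem _ hv h3
    have h4 : b⁻¹ • v - v = w - i := by rw [hi]; abel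
    have h5 : a⁻¹ • (b⁻¹ • v - v) - (b⁻¹ • v - v) = a⁻¹ • w - w := by
      rw [h4, smul_sub, fI a⁻¹ i hiA hiB]; abel
    have h6 : v - (a⁻¹ • (b⁻¹ • v - v) - (b⁻¹ • v - v)) = i := by
      rw [h5, hi, hw']; abel
    rw [h6]
    exact ⟨hiA, hiB⟩
  have keyB : ∀ a ∈ A, ∀ b ∈ B, conjBy A b⁻¹ = conjBy B a⁻¹ → ∀ w ∈ NB,
      w - (b⁻¹ • (a⁻¹ • w - w) - (a⁻¹ • w - w)) ∈ NA ∧ w - (b⁻¹ • (a⁻¹ • w - w) - (a⁻¹ • w - w)) ∈ NB := by
    intro a ha b hb hab' w hw0
    have h1 : a⁻¹ • w ∈ comm N (conjBy B a⁻¹) := by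
      rw [comm_conj, smul_smul, inv_inv, mul_inv_cancel, one_smul]; exact hw0
    rw [← hab', comm_conj, inv_inv] at h1
    set v := b • a⁻¹ • w with hv
    have hv' : b⁻¹ • v = a⁻¹ • w := by rw [hv, inv_smul_smul]
    have h2 : a⁻¹ • w - w ∈ NA := sub_mem_comm (A.inv_mem ha) w
    have h3 : b⁻¹ • v - v ∈ NB := sub_mem_comm (B.inv_mem hb) v
    set i := v - (a⁻¹ • w - w) with hi
    have hiA : i ∈ NA := AddSubgroup.sub_mem _ h1 h2
    have hiB : i ∈ NB := by
      have : i = w - (b⁻¹ • v - v) := by rw [hi, hv']; abel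
      rw [this]; exact AddSubgroup.sub_mem _ hw0 h3
    have h4 : a⁻¹ • w - w = v - i := by rw [hi]; abel
    have h5 : b⁻¹ • (a⁻¹ • w - w) - (a⁻¹ • w - w) = b⁻¹ • v - v := by
      rw [h4, smul_sub, fI b⁻¹ i hiA hiB]; abel
    have h6 : w - (b⁻¹ • (a⁻¹ • w - w) - (a⁻¹ • w - w)) = i := by
      rw [h5, hi, hv']; abel
    rw [h6]
    exact ⟨hiA, hiB⟩
  -- invariance of W = NA ⊔ NB
  have hW : ∀ x : X, ∀ n : N, x • n - n ∈ NA ⊔ NB := by
    intro x
    let S : Subgroup X :=
      { carrier := {x | ∀ n : N, x • n - n ∈ NA ⊔ NB}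
        one_mem' := fun n => by rw [one_smul, sub_self]; exact AddSubgroup.zero_mem _
        mul_mem' := by
          intro x y hx hy n
          have : (x * y) • n - n = (x • (y • n) - y • n) + (y • n - n) := by rw [mul_smul]; abel
          rw [this]; exact AddSubgroup.add_mem _ (hx _) (hy _)
        inv_mem' := by
          intro x hx n
          have h1 := hx (x⁻¹ • n)
          rw [smul_inv_smul] at h1
          have : x⁻¹ • n - n = -(n - x⁻¹ • n) := by abel
          rw [this]; exact AddSubgroup.neg_mem _ h1 }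
    exact hind S (fun a ha n => AddSubgroup.mem_sup_left (sub_mem_comm ha n))
      (fun b hb n => AddSubgroup.mem_sup_right (sub_mem_comm hb n)) x
  have hWinv : ∀ x : X, ∀ m ∈ NA ⊔ NB, x • m ∈ NA ⊔ NB := by
    intro x m hm
    have := AddSubgroup.add_mem _ (hW x m) hm
    rwa [sub_add_cancel] at this
  -- the kernel
  let K : Subgroup X :=
    { carrier := {x | ∀ m ∈ NA ⊔ NB, x • m - m ∈ NA ∧ x • m - m ∈ NB}
      one_mem' := fun m _ => by rw [one_smul, sub_self]; exact ⟨AddSubgroup.zero_mem _, AddSubgroup.zero_mem _⟩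
      mul_mem' := by
        intro x y hx hy m hm
        have : (x * y) • m - m = (x • (y • m) - y • m) + (y • m - m) := by rw [mul_smul]; abel
        rw [this]
        have h1 := hx (y • m) (hWinv y m hm)
        have h2 := hy m hm
        exact ⟨AddSubgroup.add_mem _ h1.1 h2.1, AddSubgroup.add_mem _ h1.2 h2.2⟩
      inv_mem' := by
        intro x hx m hm
        have h1 := hx (x⁻¹ • m) (hWinv _ m hm)
        rw [smul_inv_smul] at h1
        have : x⁻¹ • m - m = -(m - x⁻¹ • m) := by abel
        rw [this]; exact ⟨AddSubgroup.neg_mem _ h1.1, AddSubgroup.neg_mem _ h1.2⟩ }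
  have hKn : ∀ x ∈ A ⊔ B, conjBy K x = K := by
    have h1 : ∀ x : X, ∀ k ∈ K, x⁻¹ * k * x ∈ K := by
      intro x k hk m hm
      have h2 := hk (x • m) (hWinv x m hm)
      have h3 : (x⁻¹ * k * x) • m - m = x⁻¹ • (k • (x • m) - x • m) := by
        rw [smul_sub, ← mul_smul, ← mul_smul, inv_smul_smul, mul_assoc]
      rw [h3, fI x⁻¹ _ h2.1 h2.2]
      exact h2
    intro x _
    ext k
    rw [mem_conjBy]
    constructor
    · intro hk
      have := h1 x⁻¹ _ hk
      simpa [mul_assoc] using this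
    · exact h1 x k
  rcases rankOne_dichotomy h (N := K) (by rw [htop]; exact le_top) hKn with hKA | hKc
  · exfalso
    rw [htop] at hKA
    obtain ⟨a, ha, ha1⟩ := rankOne_exists_left h
    obtain ⟨b, hb, hb1, hab'⟩ := h.cond_left a ha ha1
    -- X fixes NA modulo I
    have h1 : ∀ x : X, ∀ v ∈ NA, x • v - v ∈ NA ∧ x • v - v ∈ NB := by
      let S : Subgroup X :=
        { carrier := {x | ∀ v ∈ NA, x • v - v ∈ NA ∧ x • v - v ∈ NB}
          one_mem' := fun m _ => by rw [one_smul, sub_self]; exact ⟨AddSubgroup.zero_mem _, AddSubgroup.zero_mem _⟩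
          mul_mem' := by
            intro x y hx hy v hv
            have h3 := hy v hv
            have h2 := hx v hv
            have : (x * y) • v - v = (y • v - v) + (x • v - v) := by
              have h4 := fI x _ h3.1 h3.2
              rw [mul_smul]
              rw [smul_sub] at h4
              rw [← h4]; abel
            rw [this]
            exact ⟨AddSubgroup.add_mem _ h3.1 h2.1, AddSubgroup.add_mem _ h3.2 h2.2⟩
          inv_mem' := by
            intro x hx v hv
            have h2 := hx v hv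
            have h4 := fI x⁻¹ _ h2.1 h2.2
            have : x⁻¹ • v - v = -(x • v - v) := by
              rw [smul_sub, inv_smul_smul] at h4
              rw [← h4]; abel
            rw [this]; exact ⟨AddSubgroup.neg_mem _ h2.1, AddSubgroup.neg_mem _ h2.2⟩ }
      intro x
      have hKS : K ≤ S := fun k hk v hv => hk v (AddSubgroup.mem_sup_left hv)
      have hAS : A ≤ S := fun a ha v hv => by
        change a • v - v ∈ NA ∧ a • v - v ∈ NB
        rw [fA a ha v hv, sub_self]; exact ⟨AddSubgroup.zero_mem _, AddSubgroup.zero_mem _⟩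
      have : (⊤ : Subgroup X) ≤ S := by rw [← hKA]; exact sup_le hKS hAS
      exact this (Subgroup.mem_top x)
    -- so NA ≤ NB
    have h2 : ∀ v ∈ NA, v ∈ NB := by
      intro v hv
      have h3 := (keyA a ha b hb hab' v hv).2
      have h4 := h1 b⁻¹ v hv
      rw [fI a⁻¹ _ h4.1 h4.2, sub_self, sub_zero] at h3
      exact h3
    have h3 : ∀ x : X, ∀ v ∈ NA, x • v = v := fun x v hv => fI x v hv (h2 v hv)
    -- NB = x₀ • NA = NA
    have h4 : ∀ w ∈ NB, w ∈ NA := by
      intro w hw
      rw [hNB, hx₀, comm_conj] at hw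
      have := h3 x₀ _ hw
      rw [smul_inv_smul] at this
      rw [this]; exact hw
    obtain ⟨x, y, n, hxy⟩ := hX
    apply hxy
    have h5 : x • n - n ∈ NA := by
      have : NA ⊔ NB ≤ NA := sup_le le_rfl h4
      exact this (hW x n)
    exact h3 y _ h5
  · refine ⟨h, ?_⟩
    intro a ha ha1 b hb hb1 hab'
    have kA := keyA a ha b hb hab'
    have kB := keyB a ha b hb hab'
    -- both elements act in the same way on W
    have hsame : ∀ m ∈ NA ⊔ NB, (b⁻¹ * a * b) • m = (a⁻¹ * b⁻¹ * a) • m := by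
      intro m hm
      obtain ⟨v, hv, w, hw, rfl⟩ := AddSubgroup.mem_sup.1 hm
      have hv1 : (b⁻¹ * a * b) • v = (a⁻¹ * b⁻¹ * a) • v := by
        have h1 := kA v hv
        set β := b⁻¹ • v - v with hβ
        set i := v - (a⁻¹ • β - β) with hi
        have hβB : β ∈ NB := sub_mem_comm (B.inv_mem hb) v
        have e1 : b⁻¹ • v = v + β := by rw [hβ]; abel
        have e2 : b • v = v - β := by
          have : b • (b⁻¹ • v) = v := smul_inv_smul _ _
          rw [e1, smul_add, fB b hb β hβB] at this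
          exact eq_sub_of_add_eq this
        have e3 : a⁻¹ • β = β + v - i := by rw [hi]; abel
        have e4 : a • β = β - v + i := by
          have : a • (a⁻¹ • β) = β := smul_inv_smul _ _
          rw [e3, smul_sub, smul_add, fA a ha v hv, fI a i h1.1 h1.2] at this
          have h5 : a • β = (a • β + v - i) - v + i := by abel
          rw [h5, this]
        have l1 : (b⁻¹ * a * b) • v = v + β + (v + β) - β - i := by
          rw [mul_smul, mul_smul, e2, smul_sub, fA a ha v hv, e4]
          have : v - (β - v + i) = v + v - β - i := by abel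
          rw [this, smul_sub, smul_sub, smul_add, e1, fB b⁻¹ (B.inv_mem hb) β hβB, fI b⁻¹ i h1.1 h1.2]
        have l2 : (a⁻¹ * b⁻¹ * a) • v = v + (β + v - i) := by
          rw [mul_smul, mul_smul, fA a ha v hv, e1, smul_add, fA a⁻¹ (A.inv_mem ha) v hv, e3]
        rw [l1, l2]; abel
      have hw1 : (b⁻¹ * a * b) • w = (a⁻¹ * b⁻¹ * a) • w := by
        have h1 := kB w hw
        set α := a⁻¹ • w - w with hα
        set j := w - (b⁻¹ • α - α) with hj
        have hαA : α ∈ NA := sub_mem_comm (A.inv_mem ha) w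
        have e1 : a⁻¹ • w = w + α := by rw [hα]; abel
        have e2 : a • w = w - α := by
          have : a • (a⁻¹ • w) = w := smul_inv_smul _ _
          rw [e1, smul_add, fA a ha α hαA] at this
          exact eq_sub_of_add_eq this
        have e3 : b⁻¹ • α = α + w - j := by rw [hj]; abel
        have l1 : (b⁻¹ * a * b) • w = w - (α + w - j) := by
          rw [mul_smul, mul_smul, fB b hb w hw, e2, smul_sub, fB b⁻¹ (B.inv_mem hb) w hw, e3]
        have l2 : (a⁻¹ * b⁻¹ * a) • w = -α + j := by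
          rw [mul_smul, mul_smul, e2, smul_sub, fB b⁻¹ (B.inv_mem hb) w hw, e3]
          have : w - (α + w - j) = -α + j := by abel
          rw [this, smul_add, smul_neg, fA a⁻¹ (A.inv_mem ha) α hαA, fI a⁻¹ j h1.1 h1.2]
        rw [l1, l2]; abel
      rw [smul_add, smul_add, hv1, hw1]
    have hz : (a⁻¹ * b⁻¹ * a)⁻¹ * (b⁻¹ * a * b) ∈ K := by
      intro m hm
      have : ((a⁻¹ * b⁻¹ * a)⁻¹ * (b⁻¹ * a * b)) • m = m := by
        rw [mul_smul, hsame m hm, inv_smul_smul]
      rw [this, sub_self]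
      exact ⟨AddSubgroup.zero_mem _, AddSubgroup.zero_mem _⟩
    have hzc := hKc hz
    -- both elements lie in the unipotent subgroup `A^b = B^a`
    have hC : conjBy A b⁻¹ ∈ unipotentSubgroups A B :=
      conjBy_mem_unipotentSubgroups (left_mem_unipotentSubgroups A B) (Subgroup.mem_sup_right (B.inv_mem hb))
    have m1 : b⁻¹ * a * b ∈ conjBy A b⁻¹ := by
      have := conj_mem_conjBy ha b⁻¹
      rwa [inv_inv] at this
    have m2 : a⁻¹ * b⁻¹ * a ∈ conjBy A b⁻¹ := by
      rw [hab']
      have := conj_mem_conjBy (B.inv_mem hb) a⁻¹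
      rwa [inv_inv] at this
    have := rankOne_centralizer_inf h hC (Subgroup.mul_mem _ (Subgroup.inv_mem _ m2) m1) hzc
    exact (inv_mul_eq_one.1 this).symm

end Cfsg.Agent.S5019
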