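import Cfsg.Statements.S5029
import Cfsg.Agent.H733.RootBasics

set_option autoImplicit false
open Cfsg Cfsg.Agent.H731 Cfsg.Agent.H733

namespace Cfsg.Agent.S5029

/-- Let S be a set of abstract root subgroups of G, A ∈ S having a rank one partner in S, and B ∈ S with C = ⁅A, B⁆ ∈ S. Then the members of S contained in AC are the conjugates of A by elements of B together with C, they partition AC, the members of S inside AC partition AC so that A is a line partner of C, and for every non-identity a ∈ A the map b ↦ a⁻¹ b⁻¹ a b is an isomorphism from B onto C. -/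
theorem result {G : Type*} [Group G] {S : Set (Subgroup G)} (hS : Cfsg.IsRootSubgroupSet S)
    {A B : Subgroup G} (hA : ¬ Cfsg.IsIsolatedIn (Cfsg.FAdj S) S A) (hAS : A ∈ S) (hB : B ∈ S) (hC : ⁅A, B⁆ ∈ S) :
    Cfsg.membersIn S (A ⊔ ⁅A, B⁆) = (fun b : G => Cfsg.conjBy A b) '' (B : Set G) ∪ {⁅A, B⁆} ∧
    Cfsg.IsSubgroupPartition (A ⊔ ⁅A, B⁆) (Cfsg.membersIn S (A ⊔ ⁅A, B⁆)) ∧
    A ∈ Cfsg.linePartners S ⁅A, B⁆ ∧
    ∀ a ∈ A, a ≠ 1 → ∃ φ : ↥B ≃* ↥⁅A, B⁆, ∀ b : ↥B, (φ b : G) = a⁻¹ * (b : G)⁻¹ * a * b := by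
  have hP := (not_isIsolatedIn_iff hAS).1 hA
  have h := (commutator_mem_iff hS hAS hB).1 hC
  refine ⟨rcc_membersIn hS hAS hP h, rcc_partition hS hAS hP h, rcc_linePartners hS hAS hP h, ?_⟩
  intro a ha ha1
  have hmem : ∀ b ∈ B, a⁻¹ * b⁻¹ * a * b ∈ ⁅A, B⁆ := by
    intro b hb
    have := comm_mem (A.inv_mem ha) (B.inv_mem hb)
    rwa [inv_inv, inv_inv] at this
  have hBc := fun b hb b' hb' => member_comm (A := B) (a := b) (a' := b') hS hB hb hb'
  let f : ↥B →* ↥⁅A, B⁆ :=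
    { toFun := fun b => ⟨a⁻¹ * (b : G)⁻¹ * a * b, hmem b b.2⟩
      map_one' := by ext; simp
      map_mul' := by
        intro b b'
        ext
        show a⁻¹ * ((b : G) * (b' : G))⁻¹ * a * ((b : G) * (b' : G)) =
          (a⁻¹ * (b : G)⁻¹ * a * b) * (a⁻¹ * (b' : G)⁻¹ * a * b')
        have h1 := rcc_comm_mul_right h (A.inv_mem ha) (B.inv_mem b.2) (B.inv_mem b'.2)
        rw [inv_inv, inv_inv, inv_inv, ← mul_inv_rev, ← hBc b b.2 b' b'.2, inv_inv] at h1
        exact h1 }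
  have hf : Function.Bijective f := by
    constructor
    · intro b b' hbb
      have h1 : a⁻¹ * (b : G)⁻¹ * a * b = a⁻¹ * (b' : G)⁻¹ * a * b' := congrArg Subtype.val hbb
      have h2 := rcc_inj_right (fun x hx y hy hxy => rcc_commute_elem hS hAS hP h hx hy hxy) h
        (A.inv_mem ha) (inv_ne_one.2 ha1) (B.inv_mem b.2) (B.inv_mem b'.2) (by
          rw [inv_inv, inv_inv, inv_inv]; exact h1)
      exact Subtype.ext (inv_inj.1 h2)
    · rintro ⟨c, hc⟩
      obtain ⟨b, hb, h1⟩ := rcc_exists_right h (A.inv_mem ha) (inv_ne_one.2 ha1) hc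
      refine ⟨⟨b⁻¹, B.inv_mem hb⟩, Subtype.ext ?_⟩
      show a⁻¹ * (b⁻¹)⁻¹ * a * b⁻¹ = c
      rw [← h1]; simp
  exact ⟨MulEquiv.ofBijective f hf, fun b => rfl⟩

end Cfsg.Agent.S5029
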