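import Cfsg.Statements.S5035
import Cfsg.Agent.H733.Connected

set_option autoImplicit false
open Cfsg Cfsg.Agent.H731 Cfsg.Agent.H733

namespace Cfsg.Agent.S5035

/-- Let S be a set of abstract root subgroups of G whose graph of rank one pairs is connected, and f a homomorphism from G onto a group H. Then either the images of the members of S form a set of abstract root subgroups of H whose graph of rank one pairs is again connected, or H equals the image of a member of S. -/
theorem result {G H : Type*} [Group G] [Group H] {S : Set (Subgroup G)} (hS : Cfsg.IsRootSubgroupSet S)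
    (hc : Cfsg.IsConnectedFamily (Cfsg.FAdj S) S) (f : G →* H) (hf : Function.Surjective f) :
    (Cfsg.IsRootSubgroupSet ((fun A : Subgroup G => A.map f) '' S) ∧
      Cfsg.IsConnectedFamily (Cfsg.FAdj ((fun A : Subgroup G => A.map f) '' S)) ((fun A : Subgroup G => A.map f) '' S)) ∨
    ∃ A ∈ S, A.map f = ⊤ := by
  by_cases hne : ∀ A ∈ S, A.map f ≠ ⊥
  · left
    refine ⟨image_rootSubgroupSet hS f hf hne, ?_⟩
    rintro _ ⟨A, hA, rfl⟩ _ ⟨B, hB, rfl⟩
    exact image_reach f (hc A hA B hB)
  · right
    push Not at hne
    obtain ⟨A, hA, hAbot⟩ := hne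
    refine ⟨A, hA, ?_⟩
    have hall : ∀ B ∈ S, B ≤ f.ker := by
      intro B hB
      obtain ⟨g, rfl⟩ := reach_exists_conj' (hc A hA B hB)
      rw [← Subgroup.map_eq_bot_iff, map_conjBy, hAbot, conjBy_bot]
    have hker : f.ker = ⊤ := le_of_forall_member hS hall
    rw [eq_top_iff, ← Subgroup.map_top_of_surjective f hf, ← hker]
    have h1 : f.ker.map f = ⊥ := (Subgroup.map_eq_bot_iff _).2 le_rfl
    rw [h1]
    exact bot_le

end Cfsg.Agent.S5035
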