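import Cfsg.Statements.S5047
import Cfsg.Agent.H737.RootSim

set_option autoImplicit false
open Cfsg

namespace Cfsg.Agent.S5047

/-- Let G be a finite group generated by a set D of root involutions whose odd-order-product graph is connected, a ∈ D, and b a member of D different from a, commuting with a, with ab ∈ D, but not having the same commuting members as a. Then some member x of D with bx of order 4 has ax of order 3. -/
theorem result {G : Type*} [Group G] [Finite G] {D : Set G} (hD : Cfsg.IsRootInvolutionSet D)
    (hc : Cfsg.IsConnectedSet (Cfsg.OddAdj D) D) {a b : G} (ha : a ∈ D) (hb : b ∈ Cfsg.productPartners D a)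
    (hbE : b ∉ Cfsg.sameCommutingClass D a) : ∃ x ∈ Cfsg.fourPartners D b, orderOf (a * x) = 3 := by
  obtain ⟨⟨hbD, hba, hbne⟩, hbaD⟩ := hb
  have hab : Commute a b := (show Commute b a from hba).symm
  have habD : a * b ∈ D := by rw [hab.eq]; exact hbaD
  have haa := H737.sq_of_mem hD ha
  have hbb := H737.sq_of_mem hD hbD
  have hns : ¬ H737.SimR D a b := by
    intro hs
    exact hbE ⟨hbD, (H737.sim_iff_commutingMembers hD hc ha hbD).2 hs⟩
  obtain ⟨u, huD, hua, hub, hbu, hbeq⟩ := H737.exists_commutator_eq hD hc ha hbD hab habD hns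
  have huu := H737.sq_of_mem hD huD
  have hauD : a * u * a ∈ D := H737.conj_mem' hD huD ha
  have hns2 : ¬ H737.SimR D b u := by
    intro hs
    have h1 := (H737.sim_iff_commutingMembers hD hc hbD huD).2 hs
    have h2 : a ∈ commutingMembers D b := ⟨ha, hab⟩
    rw [h1] at h2
    exact H737.not_commute_of_order_four hD huD ha hua (show Commute a u from h2.2).symm
  obtain ⟨y, hyD, hyb, hyu, huy, hueq⟩ :=
    H737.exists_commutator_eq hD hc hbD huD hub.symm (by rw [hbu]; exact hauD) hns2
  have hyy := H737.sq_of_mem hD hyD
  have hu1 : u ≠ 1 := H737.ne_one_of_mem hD huD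
  have hubne : u ≠ b := by
    rintro rfl
    exact H737.not_commute_of_order_four hD huD ha hua hab.symm
  -- `y` moves `b` to `u b` and fixes `u`; `a` moves `u` to `b u` and fixes `b`
  have e1 : y * b * y = u * b := by
    have : u * b = y * b * y * (b * b) := by nth_rw 1 [hueq]; group
    rw [this, hbb, mul_one]
  have e2 : a * u * a = b * u := hbu.symm
  have e3 : y * u * y = u := by rw [hyu.eq, mul_assoc, hyy, mul_one]
  have e4 : a * b * a = b := by rw [hab.eq, mul_assoc, haa, mul_one]
  -- the action of `ρ = a y`
  have r1 : a * y * b * (y * a) = u := by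
    calc a * y * b * (y * a) = a * (y * b * y) * a := by group
      _ = a * (u * b) * a := by rw [e1]
      _ = a * u * 1 * b * a := by group
      _ = a * u * (a * a) * b * a := by rw [haa]
      _ = (a * u * a) * (a * b * a) := by group
      _ = b * u * b := by rw [e2, e4]
      _ = u * (b * b) := by rw [← hub.eq]; group
      _ = u := by rw [hbb, mul_one]
  have r2 : a * y * u * (y * a) = b * u := by
    calc a * y * u * (y * a) = a * (y * u * y) * a := by group
      _ = b * u := by rw [e3, e2]
  have rmul : ∀ g k : G, a * y * (g * k) * (y * a) = (a * y * g * (y * a)) * (a * y * k * (y * a)) := by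
    intro g k
    have hya : (y * a) * (a * y) = 1 := by
      calc y * a * (a * y) = y * (a * a) * y := by group
        _ = 1 := by rw [haa, mul_one, hyy]
    calc a * y * (g * k) * (y * a) = a * y * g * 1 * k * (y * a) := by group
      _ = a * y * g * ((y * a) * (a * y)) * k * (y * a) := by rw [hya]
      _ = _ := by group
  have r3 : a * y * (b * u) * (y * a) = b := by
    rw [rmul, r1, r2, ← mul_assoc, hub.eq, mul_assoc, huu, mul_one]
  have hya : (y * a) = (a * y)⁻¹ := by
    rw [mul_inv_rev, H737.inv_of_sq haa, H737.inv_of_sq hyy]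
  have hopp : H737.Opp a y := by
    rcases H737.opp_trichotomy hD ha hyD with h1 | h1 | h1
    · exfalso
      have h2 : a * y * (a * y * b * (y * a)) * (y * a) = b * u := by rw [r1, r2]
      have h3 : a * y * (a * y * b * (y * a)) * (y * a) = b := by
        have h4 : a * y * (a * y) = 1 := by
          calc a * y * (a * y) = a * (y * a) * y := by group
            _ = a * (a * y) * y := by rw [h1.eq]
            _ = (a * a) * (y * y) := by group
            _ = 1 := by rw [haa, hyy, one_mul]
        have h5 : y * a * (y * a) = 1 := by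
          calc y * a * (y * a) = (a * y * (a * y))⁻¹ := by rw [hya]; group
            _ = 1 := by rw [h4, inv_one]
        calc a * y * (a * y * b * (y * a)) * (y * a)
            = (a * y * (a * y)) * b * (y * a * (y * a)) := by group
          _ = b := by rw [h4, h5, one_mul, mul_one]
      rw [h2] at h3
      exact hu1 (by simpa using h3)
    · exact h1
    · exfalso
      have h4 : (a * y) ^ 4 = 1 := by rw [← h1.1, pow_orderOf_eq_one]
      have h5 : (a * y) ^ 4 * b * ((a * y) ^ 4)⁻¹ = u := by
        have : (a * y) ^ 4 * b * ((a * y) ^ 4)⁻¹ =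
            a * y * (a * y * (a * y * (a * y * b * (y * a)) * (y * a)) * (y * a)) * (y * a) := by
          rw [hya, pow_succ, pow_succ, pow_succ, pow_one]; group
        rw [this, r1, r2, r3, r1]
      rw [h4] at h5
      apply hubne
      rw [← h5]; group
  -- `(a y)^3` is trivial
  have hw : y * a * y * a * y ∈ D := by
    have h1 := H737.conj_mem' hD hyD ha
    have h2 := H737.conj_mem' hD h1 hyD
    have : y * a * y * a * y = y * (a * y * a) * y := by group
    rw [this]; exact h2
  have hwb : Commute (y * a * y * a * y) b := by
    have h5 : (a * y) ^ 3 * b * ((a * y) ^ 3)⁻¹ = b := by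
      have : (a * y) ^ 3 * b * ((a * y) ^ 3)⁻¹ =
          a * y * (a * y * (a * y * b * (y * a)) * (y * a)) * (y * a) := by
        rw [hya, pow_succ, pow_succ, pow_one]; group
      rw [this, r1, r2, r3]
    have h6 : Commute ((a * y) ^ 3) b := by
      show (a * y) ^ 3 * b = b * (a * y) ^ 3
      calc (a * y) ^ 3 * b = ((a * y) ^ 3 * b * ((a * y) ^ 3)⁻¹) * (a * y) ^ 3 := by group
        _ = b * (a * y) ^ 3 := by rw [h5]
    have h7 : y * a * y * a * y = a * (a * y) ^ 3 := by
      rw [pow_succ, pow_succ, pow_one]
      calc y * a * y * a * y = 1 * (y * a * y * a * y) := by group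
        _ = (a * a) * (y * a * y * a * y) := by rw [haa]
        _ = _ := by group
    rw [h7]
    exact hab.mul_left h6
  have hcube : (a * y) ^ 3 = 1 := by
    by_contra hne
    have h1 : H737.Opp (y * a * y * a * y) a := by
      refine ⟨?_, ?_⟩
      · intro h2
        apply hne
        calc (a * y) ^ 3 = a * (y * a * y * a * y) := by
              rw [pow_succ, pow_succ, pow_one]; group
          _ = 1 := by rw [h2, haa]
      · have h3 : y * a * y * a * y * a = ((a * y)⁻¹) ^ 3 := by
          rw [← hya, pow_succ, pow_succ, pow_one]; group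
        rw [h3]
        refine Odd.of_dvd_nat ?_ (orderOf_pow_dvd 3)
        rw [orderOf_inv]
        exact hopp.2
    exact H737.not_commute_of_opp hD ha hbD hab habD hw h1 hwb
  refine ⟨y, ⟨hyD, ?_⟩, ?_⟩
  · rw [H737.orderOf_mul_comm' hbb hyy]; exact hyb
  · have h1 : orderOf (a * y) ∣ 3 := orderOf_dvd_of_pow_eq_one hcube
    rcases (Nat.dvd_prime Nat.prime_three).1 h1 with h2 | h2
    · exfalso
      apply hopp.1
      have h3 : a * y = 1 := orderOf_eq_one_iff.1 h2
      calc a = a * (y * y) := by rw [hyy, mul_one]
        _ = (a * y) * y := by group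
        _ = y := by rw [h3, one_mul]
    · exact h2

end Cfsg.Agent.S5047
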