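import Cfsg.Statements.S5049
import Cfsg.Agent.H737.RootInv
import Cfsg.Agent.Lib.Cores

set_option autoImplicit false
open Cfsg

namespace Cfsg.Agent.S5049

/-- Let G be a finite group generated by a set D of odd transpositions (root involutions with no product of order 4), Q = O₂(G), and for a ∈ D let Q_a be the commutator subgroup of Q with a. Then every member of D commuting with a centralizes Q_a; and for b ∈ D with ab of odd order greater than 1, the centralizer of ab in Q is the intersection of the centralizers of a and b in Q. -/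
theorem result {G : Type*} [Group G] [Finite G] {D : Set G} (hD : Cfsg.IsOddTranspositionSet D) {a : G} (ha : a ∈ D) :
    (∀ e ∈ Cfsg.commutingMembers D a, ∀ q ∈ ⁅Cfsg.pCore 2 G, Subgroup.zpowers a⁆, e * q = q * e) ∧
    (∀ b ∈ Cfsg.oddPartners D a,
      Cfsg.pCore 2 G ⊓ Subgroup.centralizer {a * b} = Cfsg.pCore 2 G ⊓ Subgroup.centralizer {a} ⊓ Subgroup.centralizer {b}) := by
  obtain ⟨h, hno4⟩ := hD
  have hnormal : (pCore 2 G).Normal := Cfsg.Agent.Lib.Cores.pCore_normal 2
  have h2 : IsPGroup 2 ↥(pCore 2 G) := Cfsg.Agent.Lib.Cores.pCore_isPGroup 2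
  have haa := H737.sq_of_mem h ha
  have hainv := H737.inv_of_mem h ha
  -- members commuting with `a` commute with `q a q⁻¹`
  have key : ∀ a ∈ D, ∀ e ∈ D, Commute e a → ∀ q ∈ pCore 2 G, Commute e (q * a * q⁻¹) := by
    intro a ha e he hea q hq
    have haa := H737.sq_of_mem h ha
    have hee := H737.sq_of_mem h he
    have haq : q * a * q⁻¹ ∈ D := h.conj_mem a ha q
    -- the square of `e * a^q` lies in `O₂`
    have h3 : (e * (q * a * q⁻¹)) ^ 2 ∈ pCore 2 G := by
      have m1 : q * a * q⁻¹ * a⁻¹ ∈ pCore 2 G := by
        have : q * a * q⁻¹ * a⁻¹ = q * (a * q⁻¹ * a⁻¹) := by group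
        rw [this]
        exact mul_mem hq (hnormal.conj_mem _ (inv_mem hq) a)
      set m : G := q * a * q⁻¹ * a⁻¹ with hm
      have e1 : q * a * q⁻¹ = m * a := by rw [hm]; group
      have e2 : (e * (m * a)) ^ 2 =
          (e * m * e⁻¹) * ((e * a * e) * m * (e * a * e)⁻¹) * (e * a * (e * a)) := by
        rw [pow_two]; group
      have e3 : e * a * (e * a) = 1 := by
        calc e * a * (e * a) = e * (a * e) * a := by group
          _ = e * (e * a) * a := by rw [hea.eq]
          _ = (e * e) * (a * a) := by group
          _ = 1 := by rw [hee, haa, one_mul]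
      rw [e1, e2, e3, mul_one]
      exact mul_mem (hnormal.conj_mem m m1 e) (hnormal.conj_mem m m1 (e * a * e))
    obtain ⟨k, hk⟩ := h2 ⟨_, h3⟩
    have hk' : ((e * (q * a * q⁻¹)) ^ 2) ^ 2 ^ k = 1 := by
      have := congrArg Subtype.val hk
      simpa using this
    rw [← pow_mul, ← pow_succ'] at hk'
    have h4 : orderOf (e * (q * a * q⁻¹)) ∣ 2 ^ (k + 1) := orderOf_dvd_of_pow_eq_one hk'
    rcases H737.opp_trichotomy h he haq with h5 | h5 | h5
    · exact h5
    · exfalso
      have h6 : Nat.Coprime (orderOf (e * (q * a * q⁻¹))) (2 ^ (k + 1)) :=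
        Nat.Coprime.pow_right _ h5.2.coprime_two_right
      have h7 : orderOf (e * (q * a * q⁻¹)) = 1 := Nat.Coprime.eq_one_of_dvd h6 h4
      have h8 : e * (q * a * q⁻¹) = 1 := orderOf_eq_one_iff.1 h7
      apply h5.1
      have h9 := H737.sq_of_mem h haq
      calc e = e * ((q * a * q⁻¹) * (q * a * q⁻¹)) := by rw [h9, mul_one]
        _ = (e * (q * a * q⁻¹)) * (q * a * q⁻¹) := by group
        _ = q * a * q⁻¹ := by rw [h8, one_mul]
    · exact absurd h5.1 (hno4 e he _ haq)
  refine ⟨?_, ?_⟩
  · rintro e ⟨he, hea⟩ q hq
    -- `e` centralizes the generators of `[Q, a]`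
    have h3 : ⁅pCore 2 G, Subgroup.zpowers a⁆ ≤ Subgroup.centralizer {e} := by
      rw [Subgroup.commutator_le]
      intro g hg x hx
      rw [Subgroup.mem_centralizer_singleton_iff]
      obtain ⟨n, rfl⟩ := Subgroup.mem_zpowers_iff.1 hx
      have h4 : Commute e ((g * a * g⁻¹) ^ n) := (key a ha e he hea g hg).zpow_right n
      have h5 : Commute e ((a ^ n)⁻¹) := ((show Commute e a from hea).zpow_right n).inv_right
      have h6 := h4.mul_right h5
      rw [conj_zpow] at h6
      rw [commutatorElement_def]
      exact h6.symm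
    have h4 := h3 hq
    rw [Subgroup.mem_centralizer_singleton_iff] at h4
    exact h4.symm
  · rintro b ⟨hb, hba, hodd⟩
    have hbb := H737.sq_of_mem h hb
    have hopp : H737.Opp a b := ⟨fun hh => hba hh.symm, hodd⟩
    ext q
    simp only [Subgroup.mem_inf, Subgroup.mem_centralizer_singleton_iff]
    constructor
    · rintro ⟨hq, hqab⟩
      -- `t = [q, a]`
      have e1 : q * (a * b) * q⁻¹ = a * b := by rw [hqab, mul_inv_cancel_right]
      set t : G := q * a * q⁻¹ * a with ht
      have hta : q * a * q⁻¹ = t * a := by rw [ht, mul_assoc _ a a, haa, mul_one]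
      have ha1 : Commute a (q * a * q⁻¹) := key a ha a ha (Commute.refl a) q hq
      have hb1 : Commute b (q * b * q⁻¹) := key b hb b hb (Commute.refl b) q hq
      have hat : Commute a t := by rw [ht]; exact ha1.mul_right (Commute.refl a)
      have htt : t * t = 1 := by
        have h5 : (q * a * q⁻¹) * (q * a * q⁻¹) = 1 := by
          calc q * a * q⁻¹ * (q * a * q⁻¹) = q * (a * a) * q⁻¹ := by group
            _ = 1 := by rw [haa]; group
        rw [hta] at h5
        calc t * t = t * t * (a * a) := by rw [haa, mul_one]
          _ = t * (t * a) * a := by group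
          _ = t * (a * t) * a := by rw [hat.eq]
          _ = t * a * (t * a) := by group
          _ = 1 := h5
      -- `b^q = t b`
      have hqb : q * b * q⁻¹ = t * b := by
        have h5 : (q * a * q⁻¹) * (q * b * q⁻¹) = a * b := by rw [← e1]; group
        rw [hta] at h5
        calc q * b * q⁻¹ = (t * a)⁻¹ * (t * a * (q * b * q⁻¹)) := by group
          _ = (t * a)⁻¹ * (a * b) := by rw [h5]
          _ = a * t * a * b := by
            rw [mul_inv_rev, H737.inv_of_sq haa, H737.inv_of_sq htt]; group
          _ = t * a * a * b := by rw [hat.eq]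
          _ = t * (a * a) * b := by group
          _ = t * b := by rw [haa, mul_one]
      have hbt : Commute b t := by
        have h5 : t = (q * b * q⁻¹) * b := by rw [hqb, mul_assoc, hbb, mul_one]
        rw [h5]
        exact hb1.mul_right (Commute.refl b)
      have ht1 : t = 1 := by
        by_contra hne
        refine H737.not_odd_mul_two h (h.conj_mem a ha q) hb (x := a * b) (t := t) hodd ?_ htt hne
          (hat.mul_left hbt) ?_
        · intro h5
          apply hopp.1
          calc a = a * (b * b) := by rw [hbb, mul_one]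
            _ = (a * b) * b := by group
            _ = b := by rw [h5, one_mul]
        · calc q * a * q⁻¹ * b = t * a * b := by rw [hta]
            _ = a * t * b := by rw [hat.eq]
            _ = a * (t * b) := by group
            _ = a * (b * t) := by rw [hbt.eq]
            _ = a * b * t := by group
      rw [ht1, one_mul] at hta hqb
      refine ⟨⟨hq, ?_⟩, ?_⟩
      · calc q * a = (q * a * q⁻¹) * q := by group
          _ = a * q := by rw [hta]
      · calc q * b = (q * b * q⁻¹) * q := by group
          _ = b * q := by rw [hqb]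
    · rintro ⟨⟨hq, hqa⟩, hqb⟩
      refine ⟨hq, ?_⟩
      calc q * (a * b) = (q * a) * b := by group
        _ = a * (q * b) := by rw [hqa]; group
        _ = a * b * q := by rw [hqb]; group

end Cfsg.Agent.S5049
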