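import Cfsg.Statements.S5050
import Cfsg.Agent.H738.Final

set_option autoImplicit false
open Cfsg

namespace Cfsg.Agent.S5050

/-- Let G be a finite group generated by a class D of odd transpositions whose commuting graph is connected, with some product of two different commuting members again in D. Then for every d ∈ D and every x ∈ D with dx of odd order greater than 1, some member of D commutes with both d and x. -/
theorem result {G : Type*} [Group G] [Finite G] {D : Set G} (hD : Cfsg.IsOddTranspositionSet D) (hcl : Cfsg.IsRootInvolutionClass D)
    (hc : Cfsg.IsConnectedSet (Cfsg.CommAdj D) D) (hDD : (D ∩ Cfsg.commutingProducts D).Nonempty)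
    {d x : G} (hd : d ∈ D) (hx : x ∈ Cfsg.oddPartners D d) : ∃ e ∈ D, e * d = d * e ∧ e * x = x * e := by
  exact H738.s5050 H738.rankOneR1 hD hcl hc hDD hd hx

end Cfsg.Agent.S5050
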