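import Cfsg.Statements.S5052
import Cfsg.Agent.H738.Ident2

set_option autoImplicit false
open Cfsg

namespace Cfsg.Agent.S5052

/-- Let G be a finite group with O₂(G) = 1 and trivial centre, generated by a class D of odd transpositions whose commuting graph is connected, with some product of two different commuting members again in D. Then for each d ∈ D the members of D with the same commuting members as d, together with 1, form a subgroup E(d); and for every x ∈ D with dx of odd order greater than 1, the subgroup generated by E(d) and x is isomorphic to L₂(q) where q is the order of E(d). -/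
theorem result {G : Type*} [Group G] [Finite G] {D : Set G} (hD : Cfsg.IsOddTranspositionSet D) (hcl : Cfsg.IsRootInvolutionClass D)
    (hO : Cfsg.pCore 2 G = ⊥) (hZ : Subgroup.center G = ⊥) (hDD : (D ∩ Cfsg.commutingProducts D).Nonempty)
    (hc : Cfsg.IsConnectedSet (Cfsg.CommAdj D) D) {d : G} (hd : d ∈ D) :
    (Cfsg.sameCommutingSubgroup D d : Set G) = Cfsg.sameCommutingClass D d ∪ {1} ∧
    ∀ x ∈ Cfsg.oddPartners D d, ∃ (F : Type) (_ : Field F) (_ : Fintype F),
      Fintype.card F = Nat.card ↥(Cfsg.sameCommutingSubgroup D d) ∧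
      Nonempty (↥(Subgroup.closure (Cfsg.sameCommutingClass D d ∪ {x})) ≃* Matrix.ProjectiveSpecialLinearGroup (Fin 2) F) := by
  have h := H738.hyp_of hD hcl hDD
  unfold sameCommutingSubgroup
  rw [H738.sameCommutingClass_eq]
  constructor
  · obtain ⟨x, hx, hdx⟩ := H738.exists_noncomm h hZ hd
    exact H738.HX.closure_coe ⟨h, hO, hd, hx, hdx⟩
  · intro x hx
    have hq : H738.HX D d x := ⟨h, hO, hd, hx.1,
      fun h1 => H738.not_commute_of_oddPartner h.ot hd hx h1.symm⟩
    obtain ⟨F, iF, iF', h1, h2⟩ := hq.main hc
    exact ⟨F, iF, iF', h1.trans hq.card_root, h2⟩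

end Cfsg.Agent.S5052
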