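import Cfsg.Statements.S5053
import Cfsg.Agent.H733.RootNd4

set_option autoImplicit false
open Cfsg Cfsg.Agent

namespace Cfsg.Agent.S5053

/-- Let G be a finite group generated by a non-degenerate conjugacy class D of root involutions (some two different members commute, some two have product of odd order, some two have product of order 4) and T a weak TI-subset of D: a subset with more than one element, different from D, whose conjugate by any member of D equals T or is disjoint from it. Then T generates an abelian subgroup. -/
theorem result {G : Type*} [Group G] [Finite G] {D : Set G} (hD : Cfsg.IsNondegenerateRootInvolutionSet D)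
    (hcl : Cfsg.IsRootInvolutionClass D)     {T : Set G} (hT : Cfsg.IsWeakTISubsetOfElements D T) : IsMulCommutative ↥(Subgroup.closure T) := by
  have h := hD.1
  obtain ⟨hTD, ⟨p, hp, -⟩, hTne, hconj⟩ := hT
  -- members commuting with a member of `T` normalize `T`
  have hN : ∀ d ∈ D, ∀ y ∈ T, Commute d y → ∀ t ∈ T, d * t * d⁻¹ ∈ T := by
    intro d hd y hy hdy t ht
    rcases hconj d hd with h1 | h1
    · rw [← h1]; exact ⟨t, ht, rfl⟩
    · exfalso
      have h2 : (fun t => d * t * d⁻¹) y = y := by
        show d * y * d⁻¹ = y
        rw [hdy.eq, mul_inv_cancel_right]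
      exact (Set.disjoint_left.1 h1) ⟨y, hy, h2⟩ hy
  -- no opposite pairs
  have hodd : ∀ a ∈ T, ∀ b ∈ T, ¬ H737.Opp b a := by
    intro a ha b hb hab
    have htop := H733.closure_eq_top hD hcl (hTD ha) (hTD hb) hab
    have hall : ∀ g : G, ∀ t, t ∈ T ↔ g * t * g⁻¹ ∈ T := by
      intro g
      have hg : g ∈ Subgroup.closure (productPartners D a ∪ {b}) := by rw [htop]; trivial
      induction hg using Subgroup.closure_induction with
      | mem d hd =>
        have hdD : d ∈ D := by
          rcases hd with hd | hd
          · exact hd.1.1
          · rw [Set.mem_singleton_iff] at hd; rw [hd]; exact hTD hb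
        have hN' : ∀ t ∈ T, d * t * d⁻¹ ∈ T := by
          rcases hd with hd | hd
          · exact hN d hdD a ha (show Commute d a from hd.1.2.1)
          · rw [Set.mem_singleton_iff] at hd
            rw [hd]
            exact hN b (hTD hb) b hb (Commute.refl b)
        intro t
        refine ⟨hN' t, fun h1 => ?_⟩
        have h2 := hN' _ h1
        have hdd := H737.sq_of_mem h hdD
        have h3 : d * (d * t * d⁻¹) * d⁻¹ = t := by
          rw [H737.inv_of_sq hdd]
          calc d * (d * t * d) * d = (d * d) * t * (d * d) := by group
            _ = t := by rw [hdd, one_mul, mul_one]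
        rwa [h3] at h2
      | one => intro t; simp
      | mul x y _ _ ihx ihy =>
        intro t
        rw [ihy t, ihx (y * t * y⁻¹)]
        have : x * (y * t * y⁻¹) * x⁻¹ = x * y * t * (x * y)⁻¹ := by group
        rw [this]
      | inv x _ ihx =>
        intro t
        rw [ihx (x⁻¹ * t * x⁻¹⁻¹)]
        have : x * (x⁻¹ * t * x⁻¹⁻¹) * x⁻¹ = t := by group
        rw [this]
    apply hTne
    refine Set.Subset.antisymm hTD fun d hd => ?_
    obtain ⟨g, hg⟩ := hcl.2.2 p (hTD hp) d hd
    rw [hg]
    exact (hall g p).1 hp
  -- no pairs with product of order four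
  have hfour : ∀ a ∈ T, ∀ b ∈ T, orderOf (a * b) ≠ 4 := by
    intro a ha b hb h4
    have haD := hTD ha
    have hbD := hTD hb
    have haa := H737.sq_of_mem h haD
    have hbb := H737.sq_of_mem h hbD
    have hc : IsConnectedSet (OddAdj D) D := by
      obtain ⟨p, hp, q, hq, h1, h2⟩ := hD.2.2.1
      exact H733.odd_connected hcl ⟨p, hp, q, hq, h1, h2⟩
    have hncab := H737.not_commute_of_order_four h haD hbD h4
    obtain ⟨t, htdef⟩ : ∃ t, t = a * (b * (a * b)) := ⟨_, rfl⟩
    obtain ⟨htX, htX'⟩ := H733.order_four_partner h haD hbD h4
    rw [← htdef] at htX htX'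
    obtain ⟨htD, hat, hatne, hatD⟩ := H733.mem_productPartners.1 htX
    obtain ⟨-, hbt, hbtne, hbtD⟩ := H733.mem_productPartners.1 htX'
    have htt := H737.sq_of_mem h htD
    have htE : a ∉ sameCommutingClass D t := by
      intro h1
      have h2 : b ∈ commutingMembers D t := ⟨hbD, hbt.eq⟩
      rw [h1.2] at h2
      exact hncab (show Commute b a from h2.2).symm
    have haX : a ∈ productPartners D t :=
      H733.mem_productPartners.2 ⟨haD, hat.symm, hatne.symm, by rw [← hat.eq]; exact hatD⟩
    obtain ⟨x, hx, htx⟩ := S5047.result h hc htD haX htE
    have hox : H737.Opp t x := by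
      refine ⟨?_, by rw [htx]; decide⟩
      intro h8
      rw [h8, H737.sq_of_mem h hx.1, orderOf_one] at htx
      exact absurd htx (by decide)
    have htx3 : (t * x) ^ 3 = 1 := by rw [← htx, pow_orderOf_eq_one]
    obtain ⟨u, hu⟩ : ∃ u, u = a * (x * (a * x)) := ⟨_, rfl⟩
    obtain ⟨huD, hau, -, -, -, htutu⟩ := H733.sq_eq_partner h htD haD hx.1 hat.symm
      (by rw [← hat.eq]; exact hatD) hx.2 hox htx3 hu
    have huu := H737.sq_of_mem h huD
    -- `u` and `b` are opposite
    have hopp : H737.Opp b u := by
      rcases H737.opp_trichotomy h huD hbD with h1 | h1 | h1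
      · exfalso
        apply hncab
        rw [← htutu]
        exact (hbt.mul_right (h1.symm.mul_right (hbt.mul_right h1.symm))).symm
      · exact H737.Opp.symm' h huD hbD h1
      · exfalso
        obtain ⟨hwX, hwX'⟩ := H733.order_four_partner h huD hbD h1.1
        obtain ⟨w, hw⟩ : ∃ w, w = u * (b * (u * b)) := ⟨_, rfl⟩
        rw [← hw] at hwX hwX'
        obtain ⟨hwD, huw, -, -⟩ := H733.mem_productPartners.1 hwX
        obtain ⟨-, hbw, -, -⟩ := H733.mem_productPartners.1 hwX'
        have hww := H737.sq_of_mem h hwD
        -- `u b u = b w`, `u t u = t a`, `b a b = a t`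
        have e1 : u * b * u = b * w := by
          rw [hbw.eq, hw]
          calc u * b * u = u * b * u * (b * b) := by rw [hbb, mul_one]
            _ = _ := by group
        have e2 : u * t * u = t * a := by
          rw [← htutu]
          calc u * t * u = (t * t) * (u * t * u) := by rw [htt, one_mul]
            _ = _ := by group
        have e3 : b * a * b = a * t := by
          rw [htdef]
          calc b * a * b = (a * a) * (b * a * b) := by rw [haa, one_mul]
            _ = _ := by group
        have e4 : u * a * u = a := by rw [hau.symm.eq, mul_assoc, huu, mul_one]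
        -- conjugate the third relation by `u`
        have e5 : (b * w) * a * (b * w) = t := by
          calc (b * w) * a * (b * w) = (u * b * u) * (u * a * u) * (u * b * u) := by
                rw [e1, e4]
            _ = u * b * (u * u) * a * (u * u) * b * u := by group
            _ = u * (b * a * b) * u := by rw [huu]; group
            _ = u * a * t * u := by rw [e3]; group
            _ = u * a * (u * u) * t * u := by rw [huu]; group
            _ = (u * a * u) * (u * t * u) := by group
            _ = a * (t * a) := by rw [e4, e2]
            _ = t := by rw [hat.symm.eq, ← mul_assoc, haa, one_mul]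
        have e6 : w * a * w = t := by
          calc w * a * w = (b * b) * (w * a * w) * (b * b) := by rw [hbb]; group
            _ = b * ((b * w) * a * (w * b)) * b := by group
            _ = b * ((b * w) * a * (b * w)) * b := by rw [hbw.eq]
            _ = b * t * b := by rw [e5]
            _ = t := by rw [hbt.eq, mul_assoc, hbb, mul_one]
        have e7 : w * (a * t) * w = t := by
          calc w * (a * t) * w = w * (b * a * b) * w := by rw [e3]
            _ = (w * b) * a * (b * w) := by group
            _ = (b * w) * a * (b * w) := by rw [hbw.eq]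
            _ = t := e5
        have e8 : a * t = a := by
          have h2 : w * (a * t) * w = w * a * w := e7.trans e6.symm
          exact mul_left_cancel (mul_right_cancel h2)
        exact H737.ne_one_of_mem h htD (mul_eq_left.1 e8)
    have hub : u * b * u ∈ T := by
      have := hN u huD a ha hau.symm b hb
      rwa [H737.inv_of_sq huu] at this
    exact hodd _ hub b hb (H737.Opp.opp_conj_self hbb huu hopp)
  -- conclusion
  have hcomm : ∀ a ∈ T, ∀ b ∈ T, a * b = b * a := by
    intro a ha b hb
    rcases H737.opp_trichotomy h (hTD ha) (hTD hb) with h1 | h1 | h1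
    · exact h1
    · exact absurd h1 (hodd b hb a ha)
    · exact absurd h1.1 (hfour a ha b hb)
  exact Subgroup.isMulCommutative_closure hcomm

end Cfsg.Agent.S5053
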