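-- Proof of statement S5057 (row 5057).
import Cfsg.Statements.S5057

set_option autoImplicit false
open Cfsg

namespace Cfsg.Agent.S5057

/-- An even permutation of six points satisfies `x = 1`, `x ^ 2 = 1`, `x ^ 3 = 1`, `x ^ 4 = 1` or `x ^ 5 = 1`. -/
theorem pow_cases : ∀ x : Equiv.Perm (Fin 6), Equiv.Perm.sign x = 1 →
    x ^ 3 = 1 ∨ x ^ 4 = 1 ∨ x ^ 5 = 1 := by
  decide +kernel

theorem orderOf_cases (x : ↥(alternatingGroup (Fin 6))) :
    orderOf x = 1 ∨ orderOf x = 2 ∨ orderOf x = 3 ∨ orderOf x = 4 ∨ orderOf x = 5 := by
  have hx := pow_cases (x : Equiv.Perm (Fin 6)) (Equiv.Perm.mem_alternatingGroup.1 x.2)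
  have h1 : ∀ n : ℕ, (x : Equiv.Perm (Fin 6)) ^ n = 1 → orderOf x ∣ n := by
    intro n hn
    apply orderOf_dvd_of_pow_eq_one
    exact_mod_cast hn
  rcases hx with h | h | h
  · have h2 := h1 3 h
    have h3 := (Nat.dvd_prime Nat.prime_three).1 h2
    omega
  · have h2 := h1 4 h
    have h3 : orderOf x ≤ 4 := Nat.le_of_dvd (by norm_num) h2
    interval_cases h4 : orderOf x <;> simp_all
  · have h2 := h1 5 h
    have h3 := (Nat.dvd_prime Nat.prime_five).1 h2
    omega

/-- The involutions of the alternating group of degree 6 form one conjugacy class. -/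
theorem conj_all (a b : ↥(alternatingGroup (Fin 6))) (ha : orderOf a = 2) (hb : orderOf b = 2) :
    ∃ g : ↥(alternatingGroup (Fin 6)), b = g * a * g⁻¹ := by
  have key : ∀ x : Equiv.Perm (Fin 6), Equiv.Perm.sign x = 1 → x ^ 2 = 1 → x ≠ 1 →
      x.support.card = 4 := by decide +kernel
  have hne : ∀ c : ↥(alternatingGroup (Fin 6)), orderOf c = 2 →
      (c : Equiv.Perm (Fin 6)).support.card = 4 ∧ (c : Equiv.Perm (Fin 6)).cycleType = {2, 2} := by
    intro c hc
    have hc1 : (c : Equiv.Perm (Fin 6)) ^ 2 = 1 := by
      have := pow_orderOf_eq_one c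
      rw [hc] at this
      exact_mod_cast this
    have hc2 : (c : Equiv.Perm (Fin 6)) ≠ 1 := by
      intro h
      have : c = 1 := by exact_mod_cast h
      rw [this, orderOf_one] at hc
      omega
    have h4 := key (c : Equiv.Perm (Fin 6)) (Equiv.Perm.mem_alternatingGroup.1 c.2) hc1 hc2
    refine ⟨h4, ?_⟩
    have h5 : orderOf (c : Equiv.Perm (Fin 6)) = 2 := by
      rw [← hc]; exact Subgroup.orderOf_coe c
    have h6 : (c : Equiv.Perm (Fin 6)).cycleType =
        Multiset.replicate (Multiset.card (c : Equiv.Perm (Fin 6)).cycleType) 2 := by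
      rw [Multiset.eq_replicate]
      refine ⟨rfl, ?_⟩
      intro n hn
      have h7 : n ∣ 2 := by
        rw [← h5]
        exact Equiv.Perm.dvd_of_mem_cycleType hn
      have h8 := Equiv.Perm.two_le_of_mem_cycleType hn
      have h9 := Nat.le_of_dvd (by norm_num) h7
      omega
    have h10 := Equiv.Perm.sum_cycleType (c : Equiv.Perm (Fin 6))
    rw [h6, Multiset.sum_replicate, h4] at h10
    have h11 : Multiset.card (c : Equiv.Perm (Fin 6)).cycleType = 2 := by
      simp at h10
      omega
    rw [h6, h11]
    rfl
  have hc : IsConj (a : Equiv.Perm (Fin 6)) (b : Equiv.Perm (Fin 6)) := by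
    rw [Equiv.Perm.isConj_iff_cycleType_eq, (hne a ha).2, (hne b hb).2]
  have h := alternatingGroup.isConj_of hc (by rw [(hne a ha).1]; simp)
  rw [isConj_iff] at h
  obtain ⟨g, hg⟩ := h
  exact ⟨g, hg.symm⟩

/-- The involutions of the alternating group of degree 6 form a class of root involutions (a single conjugacy class of involutions generating the group, any two of which commute, have product of odd order, or have product of order 4 whose square is again an involution of the class), and the product of any two of them has order at most 5. -/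
theorem result :
    Cfsg.IsRootInvolutionClass {g : ↥(alternatingGroup (Fin 6)) | orderOf g = 2} ∧
    ∀ d ∈ {g : ↥(alternatingGroup (Fin 6)) | orderOf g = 2}, ∀ e ∈ {g : ↥(alternatingGroup (Fin 6)) | orderOf g = 2},
      orderOf (d * e) ≤ 5 := by
  have hconj : ∀ d : ↥(alternatingGroup (Fin 6)), orderOf d = 2 → ∀ g : ↥(alternatingGroup (Fin 6)),
      orderOf (g * d * g⁻¹) = 2 := by
    intro d hd g
    rw [← hd]
    exact orderOf_injective (MulAut.conj g).toMonoidHom (MulAut.conj g).injective d
  have hex : ∃ g : ↥(alternatingGroup (Fin 6)), orderOf g = 2 := by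
    refine ⟨⟨Equiv.swap 0 1 * Equiv.swap 2 3, Equiv.Perm.mem_alternatingGroup.2 (by decide)⟩, ?_⟩
    rw [orderOf_eq_prime_iff]
    constructor
    · decide
    · decide
  refine ⟨⟨⟨?_, ?_, ?_, ?_⟩, ?_, ?_⟩, ?_⟩
  · intro d hd; exact hd
  · have : IsSimpleGroup ↥(alternatingGroup (Fin 6)) := alternatingGroup.isSimpleGroup (by simp)
    obtain ⟨g, hg⟩ := hex
    have hn : (Subgroup.closure {g : ↥(alternatingGroup (Fin 6)) | orderOf g = 2}).Normal := by
      have : Subgroup.closure {g : ↥(alternatingGroup (Fin 6)) | orderOf g = 2} =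
          Subgroup.normalClosure {g : ↥(alternatingGroup (Fin 6)) | orderOf g = 2} := by
        apply le_antisymm
        · exact Subgroup.closure_le_normalClosure
        · rw [Subgroup.normalClosure, Subgroup.closure_le]
          intro x hx
          rw [Group.mem_conjugatesOfSet_iff] at hx
          obtain ⟨a, ha, hax⟩ := hx
          rw [isConj_iff] at hax
          obtain ⟨c, hc⟩ := hax
          apply Subgroup.subset_closure
          show orderOf x = 2
          rw [← hc]
          exact hconj a ha c
      rw [this]
      exact Subgroup.normalClosure_normal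
    rcases hn.eq_bot_or_eq_top with h | h
    · exfalso
      have h1 : g ∈ Subgroup.closure {g : ↥(alternatingGroup (Fin 6)) | orderOf g = 2} :=
        Subgroup.subset_closure hg
      rw [h, Subgroup.mem_bot] at h1
      rw [h1, orderOf_one] at hg
      omega
    · exact h
  · intro d hd g; exact hconj d hd g
  · intro a ha b hb
    have ha1 : a * a = 1 := by
      have := pow_orderOf_eq_one a
      rw [show orderOf a = 2 from ha, pow_two] at this
      exact this
    have hb1 : b * b = 1 := by
      have := pow_orderOf_eq_one b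
      rw [show orderOf b = 2 from hb, pow_two] at this
      exact this
    have hai : a⁻¹ = a := by
      rw [inv_eq_iff_mul_eq_one]; exact ha1
    have hbi : b⁻¹ = b := by
      rw [inv_eq_iff_mul_eq_one]; exact hb1
    rcases orderOf_cases (a * b) with h | h | h | h | h
    · right; left; rw [h]; decide
    · left
      have h1 := pow_orderOf_eq_one (a * b)
      rw [h, pow_two] at h1
      have h2 : (a * b)⁻¹ = a * b := by
        rw [inv_eq_iff_mul_eq_one]; exact h1
      rw [mul_inv_rev, hai, hbi] at h2
      exact h2.symm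
    · right; left; rw [h]; decide
    · right; right
      refine ⟨h, ?_⟩
      show orderOf ((a * b) ^ 2) = 2
      rw [orderOf_pow, h]
      decide
    · right; left; rw [h]; decide
  · exact hex
  · intro a ha b hb; exact conj_all a b ha hb
  · intro d _ e _
    rcases orderOf_cases (d * e) with h | h | h | h | h <;> omega

end Cfsg.Agent.S5057
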