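import Cfsg.Statements.S5061
import Cfsg.Agent.H740.BaerSuzuki

set_option autoImplicit false
open Cfsg

namespace Cfsg.Agent.S5061

/-- Let M be a finite-dimensional vector space over a field k, G ≤ GL(M), and 𝒲 a set of subgroups of G, invariant under conjugation by G, such that any two members of 𝒲 generate a subgroup acting unipotently on M (for some n all products of n endomorphisms g − 1 from it vanish). Then the subgroup generated by all members of 𝒲 acts unipotently on M and is normal in G. -/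
theorem result {k : Type*} [Field k] {M : Type*} [AddCommGroup M] [Module k M] [FiniteDimensional k M]
    {G : Subgroup (LinearMap.GeneralLinearGroup k M)} {W : Set (Subgroup (LinearMap.GeneralLinearGroup k M))} (hWG : ∀ A ∈ W, A ≤ G)
    (hWW : ∀ A ∈ W, ∀ B ∈ W, Cfsg.IsUnipotentOn (A ⊔ B)) (hWconj : ∀ A ∈ W, ∀ g ∈ G, Cfsg.conjBy A g ∈ W) :
    Cfsg.IsUnipotentOn (⨆ A ∈ W, A) ∧ ∀ g ∈ G, Cfsg.conjBy (⨆ A ∈ W, A) g = ⨆ A ∈ W, A := by
  refine ⟨H740.isUnipotentOn_iSup hWG hWW hWconj, ?_⟩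
  have hle : ∀ g ∈ G, Cfsg.conjBy (⨆ A ∈ W, A) g ≤ ⨆ A ∈ W, A := by
    intro g hg
    show (⨆ A ∈ W, A).map (MulAut.conj g).toMonoidHom ≤ _
    rw [Subgroup.map_iSup]
    refine iSup_le fun A => ?_
    rw [Subgroup.map_iSup]
    refine iSup_le fun hA => ?_
    exact le_iSup₂_of_le (Cfsg.conjBy A g) (hWconj A hA g hg) le_rfl
  intro g hg
  refine le_antisymm (hle g hg) ?_
  intro x hx
  refine ⟨g⁻¹ * x * g, ?_, ?_⟩
  · refine hle g⁻¹ (G.inv_mem hg) ⟨x, hx, ?_⟩
    show g⁻¹ * x * g⁻¹⁻¹ = g⁻¹ * x * g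
    rw [inv_inv]
  · show g * (g⁻¹ * x * g) * g⁻¹ = x
    group

end Cfsg.Agent.S5061
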