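import Cfsg.Statements.S5064
import Cfsg.Agent.H731.QuadT2

set_option autoImplicit false
universe u
open Cfsg

namespace Cfsg.Agent.S5064

open Polynomial Cfsg.Agent.H731

section aux

variable {k : Type*} [Field k] {M : Type*} [AddCommGroup M] [Module k M]

theorem map_TT {s r : M →ₗ[k] M} (hs : s * s = 0) (hr : r * r = 0) {σ τ : LinearMap.GeneralLinearGroup k M}
    (hσ : (σ : M →ₗ[k] M) - 1 = s) (hτ : (τ : M →ₗ[k] M) - 1 = r) :
    (TT s r hs hr).map (MonoidHom.snd _ _) = Subgroup.closure (Cfsg.scalarFamily σ ∪ Cfsg.scalarFamily τ) := by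
  unfold TT
  rw [MonoidHom.map_closure, Set.image_union]
  congr 2
  · ext g
    constructor
    · rintro ⟨_, ⟨c, rfl⟩, rfl⟩
      refine ⟨c, ?_⟩
      rw [hσ]; rfl
    · rintro ⟨c, hc⟩
      rw [hσ] at hc
      refine ⟨_, ⟨c, rfl⟩, ?_⟩
      exact Units.ext hc.symm
  · ext g
    constructor
    · rintro ⟨_, ⟨c, rfl⟩, rfl⟩
      refine ⟨c, ?_⟩
      rw [hτ]; rfl
    · rintro ⟨c, hc⟩
      rw [hτ] at hc
      refine ⟨_, ⟨c, rfl⟩, ?_⟩
      exact Units.ext hc.symm

theorem map_sub_one_prod (l : List (LinearMap.GeneralLinearGroup k M)) :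
    (l.map fun g => (g : M →ₗ[k] M) - 1).prod =
      (List.map (fun g : LinearMap.GeneralLinearGroup k M => (g : M →ₗ[k] M) - 1) l).prod := by
  congr 1
  induction l with
  | nil => rfl
  | cons a l ih => 
    rw [List.map_cons, ← ih]
    rfl

theorem word_zero {F : Type*} [Ring F] {s r : F} (hs : s * s = 0) {A B C D : F}
    (sA : s * A = A * s) (sB : s * B = B * s) (sC : s * C = C * s) (sD : s * D = D * s)
    (h0 : A * (s * r) + B * s + C * r + D * (r * s) = 0) :
    C * (s * r * s) = 0 ∧ A * (s * r * s) + C * (r * s) = 0 ∧ C * (s * r) + D * (s * r * s) = 0 := by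
  have ss : ∀ x, s * (s * x) = 0 := fun x => by rw [← mul_assoc, hs, zero_mul]
  have sA' : ∀ x, s * (A * x) = A * (s * x) := fun x => by rw [← mul_assoc, sA, mul_assoc]
  have sB' : ∀ x, s * (B * x) = B * (s * x) := fun x => by rw [← mul_assoc, sB, mul_assoc]
  have sC' : ∀ x, s * (C * x) = C * (s * x) := fun x => by rw [← mul_assoc, sC, mul_assoc]
  have sD' : ∀ x, s * (D * x) = D * (s * x) := fun x => by rw [← mul_assoc, sD, mul_assoc]
  refine ⟨?_, ?_, ?_⟩
  · have : s * (A * (s * r) + B * s + C * r + D * (r * s)) * s = C * (s * r * s) := by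
      simp only [mul_add, add_mul, mul_assoc, hs, ss, sA', sB', sC', sD', mul_zero, add_zero, zero_add]
    rw [← this, h0, mul_zero, zero_mul]
  · have : (A * (s * r) + B * s + C * r + D * (r * s)) * s = A * (s * r * s) + C * (r * s) := by
      simp only [add_mul, mul_assoc, hs, mul_zero, add_zero]
    rw [← this, h0, zero_mul]
  · have : s * (A * (s * r) + B * s + C * r + D * (r * s)) = C * (s * r) + D * (s * r * s) := by
      simp only [mul_add, mul_assoc, hs, ss, sA', sB', sC', sD', mul_zero, zero_add]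
    rw [← this, h0, mul_zero]

/-- if `z` is nilpotent the group generated by the pair acts unipotently -/
theorem unipotent_of_nilpotent {s r : M →ₗ[k] M} (hs : s * s = 0) (hr : r * r = 0) {σ τ : LinearMap.GeneralLinearGroup k M}
    (hσ : (σ : M →ₗ[k] M) - 1 = s) (hτ : (τ : M →ₗ[k] M) - 1 = r) (hn : IsNilpotent (zz s r)) :
    Cfsg.IsUnipotentOn (Subgroup.closure (Cfsg.scalarFamily σ ∪ Cfsg.scalarFamily τ)) := by
  obtain ⟨n, hn⟩ := hn
  have hse : s * (0 : M →ₗ[k] M) = 0 * s := by rw [mul_zero, zero_mul]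
  have hre : r * (0 : M →ₗ[k] M) = 0 * r := by rw [mul_zero, zero_mul]
  refine ⟨2 * n + 1, ?_⟩
  have key : ∀ l : List (LinearMap.GeneralLinearGroup k M),
      (∀ g ∈ l, g ∈ Subgroup.closure (Cfsg.scalarFamily σ ∪ Cfsg.scalarFamily τ)) →
      (l.map fun g => (g : M →ₗ[k] M) - 1).prod ∈ Lf s r 0 l.length := by
    intro l
    induction l with
    | nil => intro _; exact Lf_one s r 0
    | cons g l ih =>
      intro hl
      rw [map_sub_one_prod, List.map_cons, List.prod_cons, ← map_sub_one_prod, List.length_cons, add_comm]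
      apply Lf_mul
      · have hg := hl g (List.mem_cons_self)
        rw [← map_TT hs hr hσ hτ] at hg
        obtain ⟨x, hx, rfl⟩ := hg
        obtain ⟨a, b, c, d, hW⟩ := TT_Wd hs hr hx
        exact Wd_Lf hse hre hW
      · exact ih (fun g hg => hl g (List.mem_cons_of_mem _ hg))
  intro l hl hlen
  have h1 := key l hl
  rw [hlen] at h1
  have hbot := Nf_eq_bot (e := (0 : M →ₗ[k] M)) hs hr hse hre (n := n) (by rw [hn, zero_mul])
  ext v
  rw [LinearMap.zero_apply]
  have h2 := h1 0 v (by rw [Nf_zero, sub_zero]; exact ⟨v, rfl⟩)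
  rw [zero_add, hbot] at h2
  exact (Submodule.mem_bot k).1 h2

end aux

/-- Let k be a field of characteristic not 2 with k not of order 3, M a finite-dimensional k-vector space and G ≤ GL(M) such that (G, M) is a quadratic pair (M irreducible for G, and G generated by its quadratically acting elements σ whose scalar family 1 + c(σ − 1), c ∈ k, lies in G). Write 𝒬_d for the quadratic elements of G of minimal commutator rank, E(σ) for the subgroup generated by the members of 𝒬_d with the same fixed space and commutator space as σ, and Σ for the set of these subgroups. If σ, τ ∈ 𝒬_d and the subgroup H generated by their two scalar families does not act unipotently on M, then H is isomorphic to SL₂ over a simple algebraic extension k(λ) of k. -/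
theorem result {k : Type u} [Field k] (hk2 : ringChar k ≠ 2) (hk3 : Nat.card k ≠ 3)
    {M : Type u} [AddCommGroup M] [Module k M] [FiniteDimensional k M]
    {G : Subgroup (LinearMap.GeneralLinearGroup k M)} (hG : Cfsg.IsQuadraticPair G)
    {σ τ : LinearMap.GeneralLinearGroup k M} (hσ : σ ∈ Cfsg.minimalQuadraticElements G) (hτ : τ ∈ Cfsg.minimalQuadraticElements G)
    (hH : ¬ Cfsg.IsUnipotentOn (Subgroup.closure (Cfsg.scalarFamily σ ∪ Cfsg.scalarFamily τ))) :
    ∃ (K : Type u) (_ : Field K) (_ : Algebra k K) (lam : K), IsAlgebraic k lam ∧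
      IntermediateField.adjoin k ({lam} : Set K) = ⊤ ∧
      Nonempty (↥(Subgroup.closure (Cfsg.scalarFamily σ ∪ Cfsg.scalarFamily τ)) ≃* Matrix.SpecialLinearGroup (Fin 2) K) := by
  have hs : MRV G ((σ : M →ₗ[k] M) - 1) := mem_minimalQuadraticElements_iff.1 hσ
  have hr : MRV G ((τ : M →ₗ[k] M) - 1) := mem_minimalQuadraticElements_iff.1 hτ
  obtain ⟨s, hsdef⟩ : ∃ s, s = (σ : M →ₗ[k] M) - 1 := ⟨_, rfl⟩
  obtain ⟨r, hrdef⟩ : ∃ r, r = (τ : M →ₗ[k] M) - 1 := ⟨_, rfl⟩
  rw [← hsdef] at hs
  rw [← hrdef] at hr
  have hss := hs.1.1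
  have hrr := hr.1.1
  have hn : ¬ IsNilpotent (zz s r) := fun h => hH (unipotent_of_nilpotent hss hrr hsdef.symm hrdef.symm h)
  obtain ⟨E, W, n, hf, hes, hmax, hup, hlo, hRV⟩ := T2_full hk2 hk3 hs hr.1 hn
  have hne := hf.ne_zero hn
  have hse := s_ev (r := r) hss E
  have hre := r_ev (s := s) hrr E
  have her : ev s r E * r = r := by
    have h1 := (hRV 1).2
    rw [map_one, one_mul] at h1
    have h0 : ev s r E * r ≠ 0 := by
      intro h0
      apply hne
      have := hf.of_r hss hrr (p := 1) (by rw [map_one, one_mul]; exact h0)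
      rwa [map_one, one_mul] at this
    have hrk := hr.2.2 _ h1 h0
    have hle : LinearMap.range (ev s r E * r) ≤ LinearMap.range r := by
      rw [← hre]; exact range_mul_le _ _
    have heq := Submodule.eq_of_le_of_finrank_le hle hrk
    ext v
    have hv : r v ∈ LinearMap.range (ev s r E * r) := by rw [heq]; exact ⟨v, rfl⟩
    obtain ⟨w, hw⟩ := hv
    rw [Module.End.mul_apply, ← hw, ← Module.End.mul_apply, ← mul_assoc, hf.ee]
  letI : Field (k[X] ⧸ II s r E) := @Ideal.Quotient.field _ _ (II s r E) hmax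
  haveI : FiniteDimensional k (k[X] ⧸ II s r E) := finite_quot s r E (le_refl _)
  refine ⟨k[X] ⧸ II s r E, inferInstance, inferInstance, Ideal.Quotient.mk _ X, Algebra.IsAlgebraic.isAlgebraic _, ?_, ?_⟩
  · rw [eq_top_iff]
    intro y _
    obtain ⟨p, rfl⟩ := Ideal.Quotient.mk_surjective y
    have h1 : Ideal.Quotient.mk (II s r E) X ∈
        IntermediateField.adjoin k ({Ideal.Quotient.mk (II s r E) X} : Set (k[X] ⧸ II s r E)) :=
      IntermediateField.mem_adjoin_simple_self k _
    induction p using Polynomial.induction_on' with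
    | add p q hp hq => rw [map_add]; exact add_mem (hp trivial) (hq trivial)
    | monomial m a =>
      rw [← C_mul_X_pow_eq_monomial, map_mul, map_pow]
      exact mul_mem (IntermediateField.algebraMap_mem _ a) (pow_mem h1 m)
  -- the two homomorphisms
  let Γ := TT s r hss hrr
  let f2 : Γ →* Matrix.SpecialLinearGroup (Fin 2) (k[X] ⧸ II s r E) :=
    ((redm (II s r E)).comp (MonoidHom.fst _ _)).comp Γ.subtype
  let f1 : Γ →* LinearMap.GeneralLinearGroup k M := (MonoidHom.snd _ _).comp Γ.subtype
  have hf2 : Function.Surjective f2 := by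
    have hle : (⊤ : Subgroup (Matrix.SpecialLinearGroup (Fin 2) (k[X] ⧸ II s r E))) ≤ f2.range := by
      have hU : ∀ y, upR y ∈ f2.range := fun y => by
        obtain ⟨x, hx, hxy⟩ := hup y
        exact ⟨⟨x, hx⟩, hxy⟩
      have hL : ∀ y, loR y ∈ f2.range := fun y => by
        obtain ⟨x, hx, hxy⟩ := hlo y
        exact ⟨⟨x, hx⟩, hxy⟩
      have key : ∀ g : Matrix.SpecialLinearGroup (Fin 2) (k[X] ⧸ II s r E),
          (g : Matrix (Fin 2) (Fin 2) (k[X] ⧸ II s r E)) 1 0 ≠ 0 → g ∈ f2.range := by
        intro g hc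
        have hdet := slR_det g
        set c := (g : Matrix (Fin 2) (Fin 2) (k[X] ⧸ II s r E)) 1 0 with hcdef
        have e : g = upR (((g : Matrix (Fin 2) (Fin 2) (k[X] ⧸ II s r E)) 0 0 - 1) / c) * loR c *
            upR (((g : Matrix (Fin 2) (Fin 2) (k[X] ⧸ II s r E)) 1 1 - 1) / c) := by
          apply slR_ext <;> simp only [slR_mul, loR_00, loR_01, loR_10, loR_11, upR_00, upR_01, upR_10, upR_11]
          · field_simp; ring
          · field_simp; linear_combination -hdet
          · rw [← hcdef]; ring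
          · field_simp; ring
        rw [e]
        exact Subgroup.mul_mem _ (Subgroup.mul_mem _ (hU _) (hL _)) (hU _)
      intro g _
      by_cases hc : (g : Matrix (Fin 2) (Fin 2) (k[X] ⧸ II s r E)) 1 0 = 0
      · have hdet := slR_det g
        rw [hc, mul_zero, sub_zero] at hdet
        have hd : (g : Matrix (Fin 2) (Fin 2) (k[X] ⧸ II s r E)) 1 1 ≠ 0 := right_ne_zero_of_mul_eq_one hdet
        have h1 : g * loR 1 ∈ f2.range := by
          apply key
          rw [slR_mul, loR_00, loR_10, hc]
          simpa using hd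
        have h2 : g = (g * loR 1) * (loR 1)⁻¹ := by simp
        rw [h2]
        exact Subgroup.mul_mem _ h1 (Subgroup.inv_mem _ (hL _))
      · exact key g hc
    intro g
    exact hle (Subgroup.mem_top g)
  have hker : f1.ker = f2.ker := by
    ext ⟨x, hx⟩
    rw [MonoidHom.mem_ker, MonoidHom.mem_ker]
    change x.2 = 1 ↔ redm (II s r E) x.1 = 1
    obtain ⟨a, b, c, d, hW⟩ := TT_Wd hss hrr hx
    have hsE : s * ev s r E = s := by rw [hse, hes]
    have hrE : r * ev s r E = r := by rw [hre, her]
    have zs : s * r * s = zz s r * s := by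
      unfold zz; rw [add_mul, mul_assoc r s s, hss, mul_zero, add_zero]
    constructor
    · intro h1
      obtain ⟨x1, x2, x3, x4, x5⟩ := hW
      rw [h1, Units.val_one] at x5
      have h0 : ev s r a * (s * r) + ev s r b * s + ev s r c * r + ev s r d * (r * s) = 0 := by
        have : (1 : M →ₗ[k] M) + (ev s r a * (s * r) + ev s r b * s + ev s r c * r + ev s r d * (r * s)) = 1 + 0 := by
          rw [add_zero]
          conv_rhs => rw [x5]
          abel
        exact add_left_cancel this
      obtain ⟨k1, k2, k3⟩ := word_zero hss (s_ev hss _) (s_ev hss _) (s_ev hss _) (s_ev hss _) h0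
      have kill : ∀ {p : k[X]}, ev s r p * ev s r E = 0 → ev s r p * s = 0 ∧ ev s r p * r = 0 := by
        intro p hp
        constructor
        · calc ev s r p * s = (ev s r p * ev s r E) * s := by rw [mul_assoc, hes]
            _ = 0 := by rw [hp, zero_mul]
        · calc ev s r p * r = (ev s r p * ev s r E) * r := by rw [mul_assoc, her]
            _ = 0 := by rw [hp, zero_mul]
      have conv : ∀ {p : k[X]}, ev s r p * (s * r * s) = 0 → ev s r p * ev s r E = 0 := by
        intro p hp
        apply hf.cancelX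
        apply hf.of_s hss hrr
        rw [mul_assoc _ (ev s r E), hes, map_mul, ev_X, mul_assoc, ← zs]
        exact hp
      have hc : ev s r c * ev s r E = 0 := conv k1
      have ha : ev s r a * ev s r E = 0 := conv (by
        rw [← mul_assoc (ev s r c), (kill hc).2, zero_mul, add_zero] at k2; exact k2)
      have hd : ev s r d * ev s r E = 0 := conv (by
        rw [← mul_assoc (ev s r c), (kill hc).1, zero_mul, zero_add] at k3; exact k3)
      have hb : ev s r b * ev s r E = 0 := by
        apply hf.of_s hss hrr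
        rw [mul_assoc, hes]
        rw [← mul_assoc (ev s r a), (kill ha).1, (kill hc).2, ← mul_assoc (ev s r d), (kill hd).2, zero_mul, zero_mul,
          zero_add, add_zero, add_zero] at h0
        exact h0
      have eX : ∀ p : k[X], ev s r p * ev s r E = 0 → Ideal.Quotient.mk (II s r E) (p * X) = 0 := by
        intro p hp
        rw [Ideal.Quotient.eq_zero_iff_mem, mem_II, mul_comm p X, map_mul, mul_assoc, hp, mul_zero]
      apply slR_ext
      · rw [redm_apply, x1, oneR_00, map_add, eX a ha, map_one, add_zero]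
      · rw [redm_apply, x2, oneR_01, Ideal.Quotient.eq_zero_iff_mem, mem_II, hb]
      · rw [redm_apply, x3, oneR_10, eX c hc]
      · rw [redm_apply, x4, oneR_11, map_add, eX d hd, map_one, add_zero]
    · intro h1
      have h2 := word_up hss hrr hf hW (g := 0) (by rw [h1, map_zero, upR_zero])
      rw [map_zero, zero_mul, zero_mul, add_zero] at h2
      apply Units.ext
      rw [Units.val_one]
      have h3 : ((x.2 : M →ₗ[k] M) - 1) * ev s r E = (x.2 : M →ₗ[k] M) - 1 := by
        rw [hW.2.2.2.2]
        have e1 : 1 + ev s r a * (s * r) + ev s r b * s + ev s r c * r + ev s r d * (r * s) - 1 =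
            ev s r a * (s * r) + ev s r b * s + ev s r c * r + ev s r d * (r * s) := by abel
        rw [e1]
        simp only [add_mul, mul_assoc, hsE, hrE]
      rw [sub_mul, h2, one_mul, sub_self] at h3
      exact sub_eq_zero.1 h3.symm
  have hrange : f1.range = Subgroup.closure (Cfsg.scalarFamily σ ∪ Cfsg.scalarFamily τ) := by
    rw [← map_TT hss hrr hsdef.symm hrdef.symm]
    ext g
    constructor
    · rintro ⟨⟨x, hx⟩, rfl⟩
      exact ⟨x, hx, rfl⟩
    · rintro ⟨x, hx, rfl⟩
      exact ⟨⟨x, hx⟩, rfl⟩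
  refine ⟨?_⟩
  refine (MulEquiv.subgroupCongr hrange).symm.trans ?_
  refine (QuotientGroup.quotientKerEquivRange f1).symm.trans ?_
  refine (QuotientGroup.quotientMulEquivOfEq hker).trans ?_
  exact QuotientGroup.quotientKerEquivOfSurjective f2 hf2

end Cfsg.Agent.S5064
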