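import Cfsg.Statements.S5067
import Cfsg.Agent.H733.Chain

set_option autoImplicit false
open Cfsg Cfsg.Agent.H731 Cfsg.Agent.H733

namespace Cfsg.Agent.S5067

/-- Let P be a non-abelian nilpotent p-group (every element of p-power order; P possibly infinite) generated by two abelian subgroups E and F. Then the normal closure of E in P, and likewise that of F, has nilpotency class strictly smaller than that of P. -/
theorem result {P : Type*} [Group P] {p : ℕ} [Fact p.Prime] (hP : IsPGroup p P) [Group.IsNilpotent P]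
    (hna : ¬ IsMulCommutative P) {E F : Subgroup P} (hE : IsMulCommutative ↥E) (hF : IsMulCommutative ↥F) (hgen : E ⊔ F = ⊤) :
    Group.nilpotencyClass ↥(Subgroup.normalClosure (E : Set P)) < Group.nilpotencyClass P ∧
    Group.nilpotencyClass ↥(Subgroup.normalClosure (F : Set P)) < Group.nilpotencyClass P := by
  have key : ∀ (E F : Subgroup P), IsMulCommutative ↥E → IsMulCommutative ↥F → E ⊔ F = ⊤ →
      Group.nilpotencyClass ↥(Subgroup.normalClosure (E : Set P)) < Group.nilpotencyClass P := by
    intro E F hE hF hgen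
    set N := Subgroup.normalClosure (E : Set P) with hN
    have hEN : E ≤ N := Subgroup.subset_normalClosure
    have hEE : ⁅E, E⁆ = ⊥ := Subgroup.commutator_self_eq_bot_iff.2 hE
    have hFF : ⁅F, F⁆ = ⊥ := Subgroup.commutator_self_eq_bot_iff.2 hF
    -- `N ≤ E P'`
    have hNle : N ≤ E ⊔ ⁅(⊤ : Subgroup P), ⊤⁆ := by
      have : (E ⊔ ⁅(⊤ : Subgroup P), ⊤⁆).Normal := by
        refine ⟨fun x hx g => ?_⟩
        have h1 : g * x * g⁻¹ = (g * x * g⁻¹ * x⁻¹) * x := by simp [mul_assoc]
        rw [h1]
        exact Subgroup.mul_mem _ (Subgroup.mem_sup_right (comm_mem (Subgroup.mem_top g) (Subgroup.mem_top x))) hx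
      exact Subgroup.normalClosure_le_normal (SetLike.coe_subset_coe.2 le_sup_left)
    have hg2 : ∀ U : Subgroup P, U ≤ Subgroup.normalizer
        ((⁅⁅(⊤ : Subgroup P), (⊤ : Subgroup P)⁆, (⊤ : Subgroup P)⁆ : Subgroup P) : Set P) := fun U => by
      have hn : (⁅⁅(⊤ : Subgroup P), (⊤ : Subgroup P)⁆, (⊤ : Subgroup P)⁆).Normal := inferInstance
      rw [Subgroup.normalizer_eq_top_iff.2 hn]
      exact le_top
    -- `[N, N] ≤ γ₃(P)`
    have h1 : ⁅N, N⁆ ≤ ⁅⁅(⊤ : Subgroup P), (⊤ : Subgroup P)⁆, (⊤ : Subgroup P)⁆ := by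
      refine (Subgroup.commutator_mono hNle hNle).trans ?_
      refine commutator_sup_le (commutator_sup_le' (hEE.le.trans bot_le) ?_ (hg2 _) (hg2 _))
        (commutator_sup_le' ?_ ?_ (hg2 _) (hg2 _)) (hg2 _) (hg2 _)
      · exact Subgroup.commutator_mono le_rfl le_top
      · rw [Subgroup.commutator_comm]
        exact Subgroup.commutator_mono le_rfl le_top
      · exact Subgroup.commutator_mono le_rfl le_top
    have h2 : ∀ n, N.lowerCentralSeries (n + 1) ≤ (⊤ : Subgroup P).lowerCentralSeries (n + 2) := by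
      intro n
      induction n with
      | zero => exact h1
      | succ n ih =>
        rw [Subgroup.lowerCentralSeries_succ, Subgroup.lowerCentralSeries_succ (⊤ : Subgroup P) (n + 2)]
        exact Subgroup.commutator_mono ih le_top
    -- the class of `P` is at least two
    have hc : ¬ Group.nilpotencyClass P ≤ 1 := by
      intro h3
      apply hna
      rw [← Subgroup.lowerCentralSeries_eq_bot_iff_nilpotencyClass_le] at h3
      have h4 : ⁅(⊤ : Subgroup P), ⊤⁆ = ⊥ := h3
      rw [commutator_eq_bot_iff_forall] at h4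
      exact ⟨⟨fun a b => h4 a (Subgroup.mem_top a) b (Subgroup.mem_top b)⟩⟩
    obtain ⟨m, hm⟩ : ∃ m, Group.nilpotencyClass P = m + 2 :=
      ⟨Group.nilpotencyClass P - 2, by omega⟩
    have h3 : (⊤ : Subgroup P).lowerCentralSeries (m + 2) = ⊥ := by
      rw [Subgroup.lowerCentralSeries_eq_bot_iff_nilpotencyClass_le]
      exact hm.le
    have h4 : N.lowerCentralSeries (m + 1) = ⊥ := le_bot_iff.1 ((h2 m).trans h3.le)
    rw [hm]
    have h5 : (⊤ : Subgroup ↥N).lowerCentralSeries (m + 1) = ⊥ := by
      rw [← Subgroup.map_subtype_inj, Subgroup.map_bot, Subgroup.top_subtype_lowerCentralSeries]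
      exact h4
    rw [Subgroup.lowerCentralSeries_eq_bot_iff_nilpotencyClass_le] at h5
    omega
  exact ⟨key E F hE hF hgen, key F E hF hE (by rw [sup_comm]; exact hgen)⟩

end Cfsg.Agent.S5067
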