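import Cfsg.Statements.S5084
import Cfsg.Agent.H802.FusNorm
import Cfsg.Agent.H759.FusLift

set_option autoImplicit false
open Cfsg

namespace Cfsg.Agent.S5084

/-- In a saturated fusion system over a finite p-group S, a subgroup Q is central in the system if and only if Q ≤ S and no element of Q is conjugate in the system to any element other than itself. -/
theorem result {Ω : Type*} [Group Ω] {S : Subgroup Ω} [Finite S] (p : ℕ) [Fact p.Prime] (hS : IsPGroup p S) (F : Cfsg.FusionSystem S) (hF : F.IsSaturated p) (Q : Subgroup Ω) : F.IsCentral Q ↔ (Q ≤ S ∧ ∀ x ∈ Q, ∀ y : Ω, F.IsConjElt x y → y = x) := by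
  constructor
  · rintro ⟨hQS, h⟩
    refine ⟨hQS, ?_⟩
    rintro x hx y ⟨φ, hφ, rfl⟩
    obtain ⟨ψ, hψ, h1, h2⟩ := h _ φ hφ
    rw [← h1 ⟨x, Subgroup.mem_zpowers x⟩]
    exact h2 ⟨x, hx⟩
  · rintro ⟨hQS, h⟩
    -- maps of the system fix the elements of `Q`
    have hfix : ∀ (P : Subgroup Ω) (φ : P →* Ω), φ ∈ F.Hom P → ∀ x : P, (x : Ω) ∈ Q →
        φ x = x := by
      intro P φ hφ x hx
      refine h x hx _ ⟨_, Cfsg.Agent.H802.restrict_mem hφ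
        ((Subgroup.zpowers_le (H := P)).2 x.2), rfl⟩
    -- `Q` is centralized by `S`
    have hcent : ∀ s ∈ S, ∀ x ∈ Q, s * x * s⁻¹ = x := fun s hs x hx =>
      hfix S (conjHom S s) (F.conj_mem le_rfl hs) ⟨x, hQS hx⟩ hx
    have hcentIn : ∀ P : Subgroup Ω, P ≤ S → Q ≤ Cfsg.FusionSystem.centralizerIn S P := by
      intro P hP x hx
      refine ⟨hQS hx, Subgroup.mem_centralizer_iff.2 fun s hs => ?_⟩
      have h1 := hcent s (hP hs) x hx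
      calc s * x = s * x * s⁻¹ * s := by group
        _ = x * s := by rw [h1]
    -- a map onto a receptive subgroup extends over `Q`
    have hext : ∀ (P R : Subgroup Ω) (φ : P →* Ω), φ ∈ F.Hom P → φ.range = R → F.IsReceptive R →
        ∃ ψ ∈ F.Hom (P ⊔ Q), (∀ (x : Ω) (hx : x ∈ P) (hx' : x ∈ P ⊔ Q), ψ ⟨x, hx'⟩ = φ ⟨x, hx⟩) ∧
          ∀ (x : Ω) (_ : x ∈ Q) (hx' : x ∈ P ⊔ Q), ψ ⟨x, hx'⟩ = x := by
      intro P R φ hφ hφR hR
      obtain ⟨ψ, hψ, he⟩ := hR.2 P φ hφ hφR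
      have hPS : P ≤ S := (F.le_of_mem hφ).1
      have hle : P ⊔ Q ≤ Cfsg.FusionSystem.extender S P φ :=
        sup_le (Cfsg.Agent.H802.le_extender hPS (F.le_of_mem hφ).2)
          ((hcentIn P hPS).trans (Cfsg.Agent.H802.centralizerIn_le_extender S P φ))
      refine ⟨ψ.comp (Subgroup.inclusion hle), Cfsg.Agent.H802.restrict_mem hψ hle,
        fun x hx hx' => he x hx _, fun x hx hx' => ?_⟩
      exact hfix _ ψ hψ ⟨x, hle hx'⟩ hx
    refine ⟨hQS, fun P φ hφ => ?_⟩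
    have hφS : φ.range ≤ S := Cfsg.Agent.H802.range_le_of_mem hφ
    obtain ⟨R, ⟨β, hβ, hβR⟩, -, hR⟩ := hF φ.range hφS
    obtain ⟨β', hβ', hβ'1, hβ'2⟩ := hext _ R β hβ hβR hR
    obtain ⟨χ, hχ, hχe⟩ := Cfsg.Agent.H802.exists_comp hφ hβ (fun x => (⟨x, rfl⟩ : φ x ∈ φ.range))
    have hχR : χ.range = R := by
      rw [← hβR]
      ext z
      constructor
      · rintro ⟨x, rfl⟩
        exact ⟨_, (hχe x).symm⟩
      · rintro ⟨⟨_, x, rfl⟩, rfl⟩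
        exact ⟨x, hχe x⟩
    obtain ⟨χ', hχ', hχ'1, hχ'2⟩ := hext _ R χ hχ hχR hR
    -- `χ'` takes values in the range of `β'`
    have hval : ∀ x : (P ⊔ Q : Subgroup Ω), χ' x ∈ β'.range := by
      refine Cfsg.Agent.H759.hom_sup_mem (φ := χ') ?_ ?_
      · intro x hx hx'
        rw [hχ'1 x hx hx', hχe]
        have h1 : φ ⟨x, hx⟩ ∈ φ.range := ⟨_, rfl⟩
        exact ⟨⟨φ ⟨x, hx⟩, (le_sup_left : φ.range ≤ φ.range ⊔ Q) h1⟩, hβ'1 _ h1 _⟩
      · intro x hx hx'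
        rw [hχ'2 x hx hx']
        exact ⟨⟨x, (le_sup_right : Q ≤ φ.range ⊔ Q) hx⟩, hβ'2 _ hx _⟩
    obtain ⟨γ, hγ, -, hγ1, -⟩ := Cfsg.Agent.H802.exists_inv hβ' rfl
    obtain ⟨ψ, hψ, hψe⟩ := Cfsg.Agent.H802.exists_comp hχ' hγ hval
    refine ⟨ψ, hψ, fun x => ?_, fun x => hfix _ ψ hψ _ x.2⟩
    rw [hψe]
    have h1 : φ x ∈ φ.range := ⟨_, rfl⟩
    have h2 : (φ x : Ω) ∈ φ.range ⊔ Q := (le_sup_left : φ.range ≤ φ.range ⊔ Q) h1
    have h3 : χ' (Subgroup.inclusion le_sup_left x) = β' ⟨φ x, h2⟩ := by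
      rw [hβ'1 _ h1 h2, ← hχe x]
      exact hχ'1 x x.2 _
    have h4 : (⟨χ' (Subgroup.inclusion le_sup_left x), hval _⟩ : β'.range) =
        ⟨β' ⟨φ x, h2⟩, ⟨_, rfl⟩⟩ := Subtype.ext h3
    rw [h4]
    exact hγ1 ⟨φ x, h2⟩ _

end Cfsg.Agent.S5084
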