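import Cfsg.Statements.S5085

set_option autoImplicit false
open Cfsg

namespace Cfsg.Agent.S5085

/-- In any fusion system, a characteristic subgroup of a subgroup that is normal in the system is itself normal in the system. -/
theorem result {Ω : Type*} [Group Ω] {S : Subgroup Ω} (F : Cfsg.FusionSystem S) (Q U : Subgroup Ω) (hQ : F.IsNormal Q) (hUQ : U ≤ Q) (hU : (U.subgroupOf Q).Characteristic) : F.IsNormal U := by
  refine ⟨hUQ.trans hQ.1, fun P φ hφ => ?_⟩
  obtain ⟨ψ, hψ, hψP, hψQ⟩ := hQ.2 P φ hφ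
  have hle : P ⊔ U ≤ P ⊔ Q := sup_le_sup_left hUQ P
  -- the restriction of `ψ` to `P ⊔ U`
  have hmem : ψ.comp (Subgroup.inclusion hle) ∈ F.Hom (P ⊔ U) := by
    have h1 := F.conj_mem (P := P ⊔ U) (g := 1) (hle.trans (F.le_of_mem hψ).1) S.one_mem
    have h2 : ∀ x : (P ⊔ U : Subgroup Ω), conjHom (P ⊔ U) 1 x ∈ P ⊔ Q := fun x => by
      have h3 : conjHom (P ⊔ U) 1 x = x := by simp [conjHom]
      rw [h3]
      exact hle x.2
    have h3 := F.comp_mem h1 hψ h2
    have h4 : ψ.comp ((conjHom (P ⊔ U) 1).codRestrict (P ⊔ Q) h2) =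
        ψ.comp (Subgroup.inclusion hle) := by
      ext x
      show ψ _ = ψ _
      congr 1
      apply Subtype.ext
      show conjHom (P ⊔ U) 1 x = x
      simp [conjHom]
    rwa [h4] at h3
  refine ⟨_, hmem, fun x => ?_, ?_⟩
  · rw [← hψP x]
    rfl
  · -- the automorphism of `Q` induced by `ψ`
    have hinj := F.injective_of_mem hψ
    have hQQ : ∀ x : Q, ψ (Subgroup.inclusion le_sup_right x) ∈ Q := fun x => by
      have h1 : ψ (Subgroup.inclusion le_sup_right x) ∈ (Q.subgroupOf (P ⊔ Q)).map ψ :=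
        ⟨_, x.2, rfl⟩
      rwa [hψQ] at h1
    let f : Q →* Q := (ψ.comp (Subgroup.inclusion le_sup_right)).codRestrict Q hQQ
    have hf : Function.Bijective f := by
      constructor
      · intro x y hxy
        have h1 : ψ (Subgroup.inclusion le_sup_right x) = ψ (Subgroup.inclusion le_sup_right y) :=
          congrArg Subtype.val hxy
        exact Subgroup.inclusion_injective _ (hinj h1)
      · intro y
        have h1 : (y : Ω) ∈ (Q.subgroupOf (P ⊔ Q)).map ψ := by
          rw [hψQ]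
          exact y.2
        obtain ⟨x, hx, hxy⟩ := h1
        exact ⟨⟨x, hx⟩, Subtype.ext hxy⟩
    have hfix := hU.fixed (MulEquiv.ofBijective f hf)
    have hiff : ∀ x : Q, (x : Ω) ∈ U ↔ ψ (Subgroup.inclusion le_sup_right x) ∈ U := by
      intro x
      have h1 := SetLike.ext_iff.1 hfix x
      exact h1.symm
    ext y
    constructor
    · rintro ⟨x, hx, rfl⟩
      have hxU : (x : Ω) ∈ U := hx
      exact (hiff ⟨x, hUQ hxU⟩).1 hxU
    · intro hy
      have h1 : y ∈ (Q.subgroupOf (P ⊔ Q)).map ψ := by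
        rw [hψQ]
        exact hUQ hy
      obtain ⟨x, hx, rfl⟩ := h1
      have hxQ : (x : Ω) ∈ Q := hx
      have hxU : (x : Ω) ∈ U := (hiff ⟨x, hxQ⟩).2 hy
      exact ⟨⟨x, (le_sup_right : U ≤ P ⊔ U) hxU⟩, hxU, rfl⟩

end Cfsg.Agent.S5085
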