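import Cfsg.Statements.S5094
import Cfsg.Agent.H747.GroupCenter
import Cfsg.Agent.TwoFusion.IsolatedCenter
import Cfsg.Agent.S0215

set_option autoImplicit false
open Cfsg

namespace Cfsg.Agent.S5094

/-- Glauberman's Z*-Theorem in fusion language: for a finite group G with Sylow 2-subgroup S, the centre of the fusion system of G on S is the set of elements of S whose image in G/O(G) is central, O(G) being the largest normal subgroup of odd order. -/
theorem result {G : Type*} [Group G] [Finite G] (S : Sylow 2 G) : (Cfsg.groupFusionSystem (S : Subgroup G)).center = (S : Subgroup G) ⊓ (Subgroup.center (G ⧸ Cfsg.oddCore G)).comap (QuotientGroup.mk' (Cfsg.oddCore G)) := by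
  have hmem : ∀ x : G, (QuotientGroup.mk' (Cfsg.oddCore G)) x ∈ Subgroup.center (G ⧸ Cfsg.oddCore G) ↔
      ∀ g : G, x * g * x⁻¹ * g⁻¹ ∈ Cfsg.oddCore G := by
    intro x
    rw [Subgroup.mem_center_iff]
    constructor
    · intro h g
      rw [← QuotientGroup.ker_mk' (Cfsg.oddCore G), MonoidHom.mem_ker]
      have := h (QuotientGroup.mk' (Cfsg.oddCore G) g)
      rw [map_mul, map_mul, map_mul, map_inv, map_inv, ← this]
      group
    · intro h y
      obtain ⟨g, rfl⟩ := QuotientGroup.mk'_surjective (Cfsg.oddCore G) y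
      have := h g
      rw [← QuotientGroup.ker_mk' (Cfsg.oddCore G), MonoidHom.mem_ker] at this
      rw [map_mul, map_mul, map_mul, map_inv, map_inv] at this
      calc (QuotientGroup.mk' (Cfsg.oddCore G)) g * (QuotientGroup.mk' (Cfsg.oddCore G)) x
          = 1 * (QuotientGroup.mk' (Cfsg.oddCore G)) g * (QuotientGroup.mk' (Cfsg.oddCore G)) x := by
            group
        _ = (QuotientGroup.mk' (Cfsg.oddCore G)) x * (QuotientGroup.mk' (Cfsg.oddCore G)) g := by
            rw [← this]; group
  apply le_antisymm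
  · refine sSup_le ?_
    rintro Q (hQ : (Cfsg.groupFusionSystem (S : Subgroup G)).IsCentral Q)
    refine le_inf hQ.1 (fun x hx => ?_)
    rw [Subgroup.mem_comap, hmem]
    exact Cfsg.Agent.TwoFusion.IsolatedCenter.commutator_mem_oddCore
      (fun G _ _ P u h1 h2 h3 => Cfsg.Agent.S0215.result P u h1 h2 h3) (Nat.card G) G le_rfl S Q hQ.1
      (fun y hy g hg => Cfsg.Agent.H747.isolated_of_mem_isCentral hQ hy g hg) x hx
  · intro x hxx
    obtain ⟨hxS, hx⟩ := Subgroup.mem_inf.1 hxx
    rw [Subgroup.mem_comap, hmem] at hx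
    suffices hc : (Cfsg.groupFusionSystem (S : Subgroup G)).IsCentral (Subgroup.zpowers x) from
      (le_sSup (α := Subgroup G) (s := {Q : Subgroup G |
        (Cfsg.groupFusionSystem (S : Subgroup G)).IsCentral Q}) hc) (Subgroup.mem_zpowers x)
    refine Cfsg.Agent.H747.isCentral_zpowers_of_isolated S hxS (fun g hg => ?_)
    have h1 : x * g * x⁻¹ * g⁻¹ ∈ (S : Subgroup G) := by
      have h2 := (S : Subgroup G).mul_mem hxS ((S : Subgroup G).inv_mem hg)
      have h3 : x * (g * x * g⁻¹)⁻¹ = x * g * x⁻¹ * g⁻¹ := by group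
      rwa [h3] at h2
    have hdis : (S : Subgroup G) ⊓ Cfsg.oddCore G = ⊥ := by
      have hO : (Nat.card (Cfsg.oddCore G)).Coprime 2 := Cfsg.Agent.Lib.Cores.pPrimeCore_coprime 2
      obtain ⟨k, hk⟩ := S.2.exists_card_eq
      refine (Subgroup.disjoint_of_coprime_natCard ?_).eq_bot
      have hk' : Nat.card (S : Subgroup G) = 2 ^ k := hk
      rw [hk']
      exact Nat.Coprime.pow_left k hO.symm
    have h4 : x * g * x⁻¹ * g⁻¹ ∈ (S : Subgroup G) ⊓ Cfsg.oddCore G := ⟨h1, hx g⟩
    rw [hdis, Subgroup.mem_bot] at h4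
    calc g * x * g⁻¹ = (x * g * x⁻¹ * g⁻¹)⁻¹ * x := by group
      _ = x := by rw [h4]; group

end Cfsg.Agent.S5094
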