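import Cfsg.Statements.S5112
import Cfsg.Agent.H802.FusBasic
import Mathlib.GroupTheory.SpecificGroups.Dihedral
import Mathlib.GroupTheory.SpecificGroups.Quaternion

set_option autoImplicit false
open Cfsg

namespace Cfsg.Agent.S5112

/-- A finite group with a characteristic cyclic subgroup of order `2 ^ k` and index at most two: every
automorphism has order a power of two. -/
theorem pow_eq_one {S : Type*} [Group S] [Finite S] (c b : S) (k : ℕ)
    (hc : orderOf c = 2 ^ k) (hS : ∀ x : S, x ∈ Subgroup.zpowers c ∨ ∃ y ∈ Subgroup.zpowers c, x = y * b)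
    (hchar : ∀ α : MulAut S, α c ∈ Subgroup.zpowers c) (α : MulAut S) :
    α ^ (Nat.totient (2 ^ k) * 2 ^ k) = 1 := by
  classical
  obtain ⟨u, hu⟩ : ∃ u : ℕ, c ^ u = α c := by
    have := hchar α
    rw [← mem_powers_iff_mem_zpowers] at this
    exact this
  have hpow : ∀ j : ℕ, (α ^ j) c = c ^ (u ^ j) := by
    intro j
    induction j with
    | zero => simp
    | succ j ih =>
      rw [pow_succ', MulAut.mul_apply, ih, map_pow, ← hu, ← pow_mul, pow_succ']
  have hcop : Nat.Coprime u (2 ^ k) := by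
    have h1 := hpow (orderOf α)
    rw [pow_orderOf_eq_one, MulAut.one_apply] at h1
    have h2 : u ^ (orderOf α) ≡ 1 [MOD orderOf c] := by
      rw [← pow_eq_pow_iff_modEq, pow_one, ← h1]
    rw [hc] at h2
    have hpos : 0 < orderOf α := orderOf_pos α
    have h3 : Nat.Coprime (u ^ orderOf α) (2 ^ k) := by
      have := h2.gcd_eq
      rw [Nat.coprime_iff_gcd_eq_one, this]
      simp
    exact (Nat.coprime_pow_left_iff hpos u (2 ^ k)).mp h3
  set β := α ^ (Nat.totient (2 ^ k)) with hβ
  have hβc : β c = c := by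
    rw [hβ, hpow]
    have : u ^ (Nat.totient (2 ^ k)) ≡ 1 [MOD orderOf c] := by
      rw [hc]; exact Nat.ModEq.pow_totient hcop
    rw [← pow_eq_pow_iff_modEq, pow_one] at this
    exact this
  have hβC : ∀ y ∈ Subgroup.zpowers c, β y = y := by
    rintro _ ⟨i, rfl⟩
    simp [hβc]
  rw [pow_mul, ← hβ]
  by_cases hb : b ∈ Subgroup.zpowers c
  · have : β = 1 := by
      ext x
      rcases hS x with hx | ⟨y, hy, rfl⟩
      · exact hβC x hx
      · exact hβC _ (mul_mem hy hb)
    rw [this, one_pow]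
  · obtain ⟨v, hv, hvb⟩ : ∃ v ∈ Subgroup.zpowers c, β b = v * b := by
      rcases hS (β b) with h | h
      · exfalso
        apply hb
        have h2 := hβC _ h
        have := β.injective h2
        rw [this] at h
        exact h
      · exact h
    have hpb : ∀ j : ℕ, (β ^ j) b = v ^ j * b := by
      intro j
      induction j with
      | zero => simp
      | succ j ih =>
        rw [pow_succ', MulAut.mul_apply, ih, map_mul, map_pow, hβC v hv, hvb, ← mul_assoc, ← pow_succ]
    have hvo : v ^ (2 ^ k) = 1 := by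
      have : orderOf v ∣ orderOf c := by
        rw [← Nat.card_zpowers c]
        exact Subgroup.orderOf_dvd_natCard _ hv
      rw [← hc]
      exact orderOf_dvd_iff_pow_eq_one.mp this
    have hβp : ∀ (j : ℕ) (y : S), y ∈ Subgroup.zpowers c → (β ^ j) y = y := by
      intro j
      induction j with
      | zero => intro y _; simp
      | succ j ih => intro y hy; rw [pow_succ', MulAut.mul_apply, ih y hy, hβC y hy]
    ext x
    rcases hS x with hx | ⟨y, hy, rfl⟩
    · exact hβp _ x hx
    · rw [map_mul, hβp _ y hy, hpb, hvo, one_mul]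
      rfl

theorem isPGroup_mulAut {S : Type*} [Group S] [Finite S] (c b : S) (k : ℕ)
    (hc : orderOf c = 2 ^ k) (hS : ∀ x : S, x ∈ Subgroup.zpowers c ∨ ∃ y ∈ Subgroup.zpowers c, x = y * b)
    (hchar : ∀ α : MulAut S, α c ∈ Subgroup.zpowers c) : IsPGroup 2 (MulAut S) := by
  intro α
  have h := pow_eq_one c b k hc hS hchar α
  rcases Nat.eq_zero_or_pos k with hk | hk
  · subst hk
    refine ⟨0, ?_⟩
    simpa using h
  · refine ⟨k - 1 + k, ?_⟩
    rw [pow_add]
    rwa [Nat.totient_prime_pow Nat.prime_two hk, show (2 - 1 : ℕ) = 1 from rfl, mul_one] at h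

theorem isPGroup_dihedral (k : ℕ) (hk : 3 ≤ k) {S : Type*} [Group S] [Finite S]
    (e : S ≃* DihedralGroup (2 ^ k)) : IsPGroup 2 (MulAut S) := by
  have : Fact (1 < 2 ^ k) := ⟨Nat.one_lt_two_pow (by omega)⟩
  have h8 : 2 ^ 3 ≤ 2 ^ k := Nat.pow_le_pow_right (by norm_num) hk
  have hzp : ∀ i : ZMod (2 ^ k), e.symm (DihedralGroup.r i) ∈ Subgroup.zpowers (e.symm (DihedralGroup.r 1)) := by
    intro i
    refine ⟨(i.val : ℤ), ?_⟩
    have : NeZero (2 ^ k) := ⟨by positivity⟩
    simp only [zpow_natCast]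
    rw [← map_pow, DihedralGroup.r_one_pow, ZMod.natCast_zmod_val]
  apply isPGroup_mulAut (e.symm (DihedralGroup.r 1)) (e.symm (DihedralGroup.sr 0)) k
  · rw [MulEquiv.orderOf_eq, DihedralGroup.orderOf_r_one]
  · intro x
    obtain ⟨y, rfl⟩ := e.symm.surjective x
    rcases y with i | i
    · exact Or.inl (hzp i)
    · right
      refine ⟨e.symm (DihedralGroup.r (-i)), hzp _, ?_⟩
      rw [← map_mul, DihedralGroup.r_mul_sr]
      simp
  · intro α
    obtain ⟨y, hy⟩ := e.symm.surjective (α (e.symm (DihedralGroup.r 1)))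
    rcases y with i | i
    · rw [← hy]; exact hzp i
    · exfalso
      have h1 : orderOf (α (e.symm (DihedralGroup.r 1))) = 2 ^ k := by
        rw [MulEquiv.orderOf_eq, MulEquiv.orderOf_eq, DihedralGroup.orderOf_r_one]
      rw [← hy, MulEquiv.orderOf_eq, DihedralGroup.orderOf_sr] at h1
      omega

theorem isPGroup_quaternion (k : ℕ) (hk : 2 ≤ k) {S : Type*} [Group S] [Finite S]
    (e : S ≃* QuaternionGroup (2 ^ k)) : IsPGroup 2 (MulAut S) := by
  have h8 : 2 ^ 2 ≤ 2 ^ k := Nat.pow_le_pow_right (by norm_num) hk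
  have : NeZero (2 ^ k) := ⟨by positivity⟩
  have hzp : ∀ i : ZMod (2 * 2 ^ k), e.symm (QuaternionGroup.a i) ∈ Subgroup.zpowers (e.symm (QuaternionGroup.a 1)) := by
    intro i
    refine ⟨(i.val : ℤ), ?_⟩
    have : NeZero (2 * 2 ^ k) := ⟨by positivity⟩
    simp only [zpow_natCast]
    rw [← map_pow, QuaternionGroup.a_one_pow, ZMod.natCast_zmod_val]
  apply isPGroup_mulAut (e.symm (QuaternionGroup.a 1)) (e.symm (QuaternionGroup.xa 0)) (k + 1)
  · rw [MulEquiv.orderOf_eq, QuaternionGroup.orderOf_a_one, pow_succ']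
  · intro x
    obtain ⟨y, rfl⟩ := e.symm.surjective x
    rcases y with i | i
    · exact Or.inl (hzp i)
    · right
      refine ⟨e.symm (QuaternionGroup.a (-i)), hzp _, ?_⟩
      rw [← map_mul, QuaternionGroup.a_mul_xa]
      simp
  · intro α
    obtain ⟨y, hy⟩ := e.symm.surjective (α (e.symm (QuaternionGroup.a 1)))
    rcases y with i | i
    · rw [← hy]; exact hzp i
    · exfalso
      have h1 : orderOf (α (e.symm (QuaternionGroup.a 1))) = 2 * 2 ^ k := by
        rw [MulEquiv.orderOf_eq, MulEquiv.orderOf_eq, QuaternionGroup.orderOf_a_one]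
      rw [← hy, MulEquiv.orderOf_eq, QuaternionGroup.orderOf_xa] at h1
      omega

/-- If S is a dihedral or generalized quaternion 2-group of order at least 16, then in every saturated fusion system over S (at the prime 2) the automorphism group Aut_F(S) consists of the inner automorphisms of S. -/
theorem result {Ω : Type*} [Group Ω] {S : Subgroup Ω} [Finite S] (n : ℕ) (hn : 4 ≤ n) (hshape : Nonempty (S ≃* DihedralGroup (2 ^ (n - 1))) ∨ Nonempty (S ≃* QuaternionGroup (2 ^ (n - 2)))) (F : Cfsg.FusionSystem S) (hF : F.IsSaturated 2) : F.autGroup S = Cfsg.Inn S := by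
  have hA : IsPGroup 2 (MulAut S) := by
    rcases hshape with ⟨⟨e⟩⟩ | ⟨⟨e⟩⟩
    · exact isPGroup_dihedral (n - 1) (by omega) e
    · exact isPGroup_quaternion (n - 2) (by omega) e
  have hInn : autInducedBy S S = Cfsg.Inn S := by
    ext α
    rw [H802.mem_autInducedBy_iff]
    constructor
    · rintro ⟨g, hg, h⟩
      refine ⟨⟨g, hg⟩, ?_⟩
      ext x
      rw [h x]
      rfl
    · rintro ⟨g, rfl⟩
      exact ⟨g, g.2, fun x => rfl⟩
  obtain ⟨Q, hQ, ⟨-, R, hR⟩, -⟩ := hF S le_rfl
  have hQS : Q = S := by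
    obtain ⟨φ, hφ, hr⟩ := hQ
    have := H802.range_eq_of_mapsTo hφ (fun x => H802.hom_apply_mem hφ x)
    rw [← hr, this]
  subst hQS
  have hR2 : IsPGroup 2 (F.autGroup Q) := hA.to_subgroup _
  have hRtop : (R : Subgroup (F.autGroup Q)) = ⊤ := by
    have h1 : IsPGroup 2 (⊤ : Subgroup (F.autGroup Q)) := hR2.to_subgroup _
    exact (R.3 h1 le_top).symm
  rw [hRtop] at hR
  apply le_antisymm
  · rw [← hInn]
    rwa [eq_comm, Subgroup.subgroupOf_eq_top] at hR
  · rw [← hInn]
    exact H802.autInducedBy_le_autGroup F le_rfl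

end Cfsg.Agent.S5112
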