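import Cfsg.Statements.S5119
import Cfsg.Agent.H752.Inv

set_option autoImplicit false
open Cfsg

namespace Cfsg.Agent.S5119

/-- Let F be a saturated fusion system over a finite p-group S and E a subsystem of F over a subgroup T that is strongly closed in F. Then E is invariant in F (invariance under Aut_F(T) plus the Frattini condition) if and only if the strong invariance condition holds: for P ≤ Q ≤ T, every map φ of E from P into Q and every map ψ of F with source Q, the transported map ψ φ ψ⁻¹ on ψ(P) is a map of E. -/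
theorem result {Ω : Type*} [Group Ω] {S : Subgroup Ω} [Finite S] (p : ℕ) [Fact p.Prime] (hS : IsPGroup p S) (F : Cfsg.FusionSystem S) (hF : F.IsSaturated p) {T : Subgroup Ω} (E : Cfsg.FusionSystem T) (hE : E.IsSubsystemOf F) (hT : F.StronglyClosed T) : E.IsInvariantIn F ↔ ∀ (P Q : Subgroup Ω) (hPQ : P ≤ Q) (_ : Q ≤ T) (φ : P →* Ω) (_ : φ ∈ E.Hom P) (hφQ : ∀ x : P, φ x ∈ Q) (ψ : Q →* Ω) (_ : ψ ∈ F.Hom Q), ∃ χ ∈ E.Hom ((P.subgroupOf Q).map ψ), ∀ (x : P) (hx : ψ (Subgroup.inclusion hPQ x) ∈ (P.subgroupOf Q).map ψ), χ ⟨ψ (Subgroup.inclusion hPQ x), hx⟩ = ψ ⟨φ x, hφQ x⟩ := by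
  rw [H752.isInvariantIn_iff_strongInvC hS hF hE hT]
  constructor
  · intro h P Q hPQ hQT φ hφ hφQ ψ hψ
    classical
    have hB : ∀ y ∈ (P.subgroupOf Q).map ψ, ∃ x, x ∈ P ∧ H752.ex ψ x = y := by
      rintro _ ⟨x, hx, rfl⟩
      exact ⟨x, hx, H752.ex_coe (ψ : Q → Ω) x⟩
    choose! B hB1 hB2 using hB
    obtain ⟨χ, hχ, hχe⟩ := h P Q ((P.subgroupOf Q).map ψ) (H752.ex φ) (H752.ex ψ)
      (fun y => H752.ex ψ (H752.ex φ (B y))) hPQ hQT (H752.mp_ex hφ)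
      (fun x hx => by rw [H752.ex_apply _ hx]; exact hφQ ⟨x, hx⟩) (H752.mp_ex hψ)
      (fun y hy => ⟨B y, hB1 y hy, hB2 y hy, rfl⟩)
    refine ⟨χ, hχ, fun x hx => ?_⟩
    rw [hχe _ hx]
    have h7 : B (ψ (Subgroup.inclusion hPQ x)) = x := by
      refine (H752.mp_ex hψ).inj (hPQ (hB1 _ hx)) (hPQ x.2) ?_
      rw [hB2 _ hx]
      exact (H752.ex_apply (ψ : Q → Ω) (hPQ x.2)).symm
    show H752.ex ψ (H752.ex φ (B (ψ (Subgroup.inclusion hPQ x)))) = _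
    rw [h7, H752.ex_coe, H752.ex_apply _ (hφQ x)]
  · intro h P Q R f g k hPQ hQT hf hfQ hg hR
    obtain ⟨φ, hφ, hφf⟩ := hf
    obtain ⟨ψ, hψ, hψg⟩ := hg
    obtain ⟨χ, hχ, hχe⟩ := h P Q hPQ hQT φ hφ (fun x => by rw [hφf x x.2]; exact hfQ x x.2) ψ hψ
    have hRle : R ≤ (P.subgroupOf Q).map ψ := by
      intro y hy
      obtain ⟨x, hx, hxy, -⟩ := hR y hy
      exact ⟨⟨x, hPQ hx⟩, hx, by rw [hψg, hxy]⟩
    refine ((H752.mp_ex hχ).res hRle).congr fun y hy => ?_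
    obtain ⟨x, hx, hxy, hhy⟩ := hR y hy
    have h5 : ψ (Subgroup.inclusion hPQ ⟨x, hx⟩) = y := (hψg x (hPQ hx)).trans hxy
    have h6 := hχe ⟨x, hx⟩ (by rw [h5]; exact hRle hy)
    rw [hhy, H752.ex_apply _ (hRle hy)]
    have h8 : (⟨ψ (Subgroup.inclusion hPQ ⟨x, hx⟩), by rw [h5]; exact hRle hy⟩ :
      ((P.subgroupOf Q).map ψ : Subgroup Ω)) = ⟨y, hRle hy⟩ := Subtype.ext h5
    rw [h8] at h6
    rw [h6, hψg]
    congr 1
    exact (hφf x hx).symm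

end Cfsg.Agent.S5119
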