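import Cfsg.Statements.S5130
import Cfsg.Agent.H754.MpSat
import Cfsg.Agent.H755.FusAutomized
-- import your own Cfsg.Agent.* helpers here

set_option autoImplicit false
open Cfsg

namespace Cfsg.Agent.S5130

open Cfsg.FusionSystem Cfsg.Agent.H752 Cfsg.Agent.H754

variable {Ω : Type*} [Group Ω] {S A B : Subgroup Ω}

/-- The setting, symmetric in the two factors. -/
structure Setting (F : FusionSystem S) (A B : Subgroup Ω) : Prop where
  sA : F.StronglyClosed A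
  sB : F.StronglyClosed B
  comm : ∀ a ∈ A, ∀ b ∈ B, a * b = b * a
  inf : A ⊓ B = ⊥
  sup : A ⊔ B = S

theorem Setting.symm {F : FusionSystem S} (h : Setting F A B) : Setting F B A :=
  ⟨h.sB, h.sA, fun a ha b hb => (h.comm b hb a ha).symm, by rw [inf_comm]; exact h.inf,
    by rw [sup_comm]; exact h.sup⟩

variable {F : FusionSystem S}

/-- A map on `P ≤ A` extends to `P B`. -/
theorem Setting.lift (h : Setting F A B) [Finite S] {p : ℕ} [Fact p.Prime] (hS : IsPGroup p S)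
    (hF : F.IsSaturated p) {P : Subgroup Ω} (hP : P ≤ A) {f : Ω → Ω} (hf : Mp F P f) :
    ∃ g, Mp F (P ⊔ B) g ∧ (∀ x ∈ P, g x = f x) ∧ ∀ x ∈ B, g x ∈ B := by
  obtain ⟨φ, hφ, h1⟩ := id hf
  obtain ⟨ψ, hψ, h2⟩ := H759.exists_lift hS hF h.sB P φ hφ
  refine ⟨ex ψ, mp_ex hψ, fun x hx => ?_, fun x hx => ?_⟩
  · have hx' : x ∈ P ⊔ B := (le_sup_left : P ≤ _) hx
    have h3 := h2 ⟨x, hx⟩ hx'
    rw [ex_apply _ hx', ← h1 x hx]
    have h4 : ψ ⟨x, hx'⟩ ∈ A := by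
      have := mp_mem_of_stronglyClosed h.sA (mp_ex hψ) hx' (hP hx)
      rwa [ex_apply _ hx'] at this
    have h5 : φ ⟨x, hx⟩ ∈ A := by
      have := mp_mem_of_stronglyClosed h.sA hf hx (hP hx)
      rwa [← h1 x hx] at this
    have h6 : (φ ⟨x, hx⟩)⁻¹ * ψ ⟨x, hx'⟩ ∈ A ⊓ B := ⟨mul_mem (A.inv_mem h5) h4, h3⟩
    rw [h.inf, Subgroup.mem_bot] at h6
    exact (inv_mul_eq_one.1 h6).symm
  · exact mp_mem_of_stronglyClosed h.sB (mp_ex hψ) ((le_sup_right : B ≤ P ⊔ B) hx) hx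

/-- Normal form: a map on `P ≤ A` is an automorphism of `S` preserving `A` and `B` composed with a map which
extends to `P B` fixing `B`. -/
theorem Setting.frat (h : Setting F A B) [Finite S] {p : ℕ} [Fact p.Prime] (hS : IsPGroup p S)
    (hF : F.IsSaturated p) {P : Subgroup Ω} {g : Ω → Ω}
    (hg : Mp F (P ⊔ B) g) :
    ∃ b b' : Ω → Ω, Mp F S b ∧ Mp F S b' ∧ (∀ x ∈ S, b' (b x) = x) ∧ (∀ x ∈ S, b (b' x) = x) ∧
      (∀ x ∈ B, b' (g x) = x) := by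
  have hBg : Mp F B g := hg.res le_sup_right
  obtain ⟨b, hb, h1, -⟩ := h.symm.lift hS hF le_rfl hBg
  rw [sup_comm, h.sup] at hb
  obtain ⟨b', hb', h2, h3⟩ := exists_aut_inv (T := S) ⟨le_rfl, fun R hR φ hφ x =>
    (F.le_of_mem hφ).2 x⟩ hb
  refine ⟨b, b', hb, hb', h2, fun x hx => (h3 x hx).2, fun x hx => ?_⟩
  rw [← h1 x hx]
  exact h2 x (h.sB.1 hx)

/-- The maps of `R'`. -/
def MR (F : FusionSystem S) (A B P : Subgroup Ω) (f : Ω → Ω) : Prop :=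
  P ≤ A ∧ ∃ g, Mp F (P ⊔ B) g ∧ (∀ x ∈ P, g x = f x) ∧ ∀ x ∈ B, g x = x

theorem MR.mp {P : Subgroup Ω} {f : Ω → Ω} (h : MR F A B P f) : Mp F P f := by
  obtain ⟨-, g, hg, h1, -⟩ := h
  exact (hg.res le_sup_left).congr fun x hx => (h1 x hx).symm

variable {R R' : FusionSystem A}

theorem mp_R (hR : ∀ P : Subgroup Ω, P ≤ A → R.Hom P = F.Hom P) {P : Subgroup Ω} {f : Ω → Ω} :
    Mp R P f ↔ P ≤ A ∧ Mp F P f := by
  constructor
  · intro h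
    refine ⟨h.le, ?_⟩
    obtain ⟨φ, hφ, h1⟩ := id h
    rw [hR P h.le] at hφ
    exact ⟨φ, hφ, h1⟩
  · rintro ⟨hP, φ, hφ, h1⟩
    rw [← hR P hP] at hφ
    exact ⟨φ, hφ, h1⟩

theorem mp_R' (h : Setting F A B)
    (hR' : ∀ P : Subgroup Ω, P ≤ A → R'.Hom P = F.centralizerHom B P) {P : Subgroup Ω}
    {f : Ω → Ω} : Mp R' P f ↔ MR F A B P f := by
  constructor
  · intro h0
    refine ⟨h0.le, ?_⟩
    obtain ⟨φ, hφ, h1⟩ := id h0
    rw [hR' P h0.le] at hφ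
    obtain ⟨h2, -, -, ψ, hψ, h3, h4⟩ := hφ
    refine ⟨ex ψ, mp_ex hψ, fun x hx => ?_, fun x hx => ?_⟩
    · rw [ex_apply _ ((le_sup_left : P ≤ P ⊔ B) hx), ← h1 x hx]
      exact h3 ⟨x, hx⟩
    · rw [ex_apply _ ((le_sup_right : B ≤ P ⊔ B) hx)]
      exact h4 ⟨x, hx⟩
  · intro hM
    obtain ⟨φ, hφ, h1⟩ := hM.mp
    obtain ⟨hPA, g, ⟨ψ, hψ, h4⟩, h2, h3⟩ := hM
    refine ⟨φ, ?_, h1⟩
    rw [hR' P hPA]
    have hAc : A ≤ centralizerIn S B := by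
      refine le_inf h.sA.1 fun a ha => ?_
      rw [Subgroup.mem_centralizer_iff]
      intro b hb
      exact (h.comm a ha b hb).symm
    refine ⟨hφ, hPA.trans hAc, fun x => hAc ?_, ψ, hψ, fun x => ?_, fun x => ?_⟩
    · have := mp_mem_of_stronglyClosed h.sA ⟨φ, hφ, h1⟩ x.2 (hPA x.2)
      rwa [← h1 x x.2] at this
    · rw [h1 x x.2, ← h2 x x.2, ← h4 x ((le_sup_left : P ≤ P ⊔ B) x.2)]
      rfl
    · have h5 := h4 x ((le_sup_right : B ≤ P ⊔ B) x.2)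
      rw [h3 x x.2] at h5
      exact h5

/-- The subgroup `Q` of `A` is good if `Q B` is fully automized and receptive. -/
theorem receptive_aux (h : Setting F A B) {Q : Subgroup Ω} (hQA : Q ≤ A)
    (hQ : F.IsReceptive (Q ⊔ B)) {P N : Subgroup Ω} (hPA : P ≤ A) (hNA : N ≤ A) {f g : Ω → Ω}
    (hg : Mp F (P ⊔ B) g) (hgf : ∀ x ∈ P, g x = f x) (hgB : ∀ x ∈ B, g x ∈ B)
    (hgB' : ∀ y ∈ B, ∃ x ∈ B, g x = y)
    (hfQ : ∀ y, y ∈ Q ↔ ∃ x ∈ P, f x = y) (hPN : P ≤ N)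
    (hN : ∀ n ∈ N, n ∈ Subgroup.normalizer (P : Set Ω) ∧
      ∃ h ∈ A, ∀ x ∈ P, f (n * x * n⁻¹) = h * f x * h⁻¹) :
    ∃ k, Mp F (N ⊔ B) k ∧ (∀ x ∈ P, k x = f x) ∧ ∀ x ∈ B, k x = g x := by
  have hBN : ∀ (C : Subgroup Ω), C ≤ A → ∀ x, x ∈ C ⊔ B ↔ ∃ a ∈ C, ∃ b ∈ B, a * b = x := by
    intro C hC x
    refine H759.mem_sup_of_normalizes (fun c hc => ?_)
    exact H759.StronglyClosed.le_normalizer h.sB (h.sA.1 (hC hc))
  have hPB := hBN P hPA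
  have hgmul : ∀ a ∈ P, ∀ b ∈ B, g (a * b) = f a * g b := fun a ha b hb => by
    rw [hg.mul ((le_sup_left : P ≤ P ⊔ B) ha) ((le_sup_right : B ≤ P ⊔ B) hb), hgf a ha]
  have him : ∀ y, y ∈ Q ⊔ B ↔ ∃ x ∈ P ⊔ B, g x = y := by
    intro y
    rw [hBN Q hQA]
    constructor
    · rintro ⟨q, hq, b, hb, rfl⟩
      obtain ⟨x, hx, rfl⟩ := (hfQ q).1 hq
      obtain ⟨c, hc, rfl⟩ := hgB' b hb
      exact ⟨x * c, (hPB _).2 ⟨x, hx, c, hc, rfl⟩, hgmul x hx c hc⟩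
    · rintro ⟨x, hx, rfl⟩
      obtain ⟨a, ha, b, hb, rfl⟩ := (hPB x).1 hx
      exact ⟨f a, (hfQ _).2 ⟨a, ha, rfl⟩, g b, hgB b hb, (hgmul a ha b hb).symm⟩
  have hfA : ∀ x ∈ P, f x ∈ A := fun x hx => hQA ((hfQ _).2 ⟨x, hx, rfl⟩)
  obtain ⟨k, hk, hkg⟩ := mp_extend hQ hg him (N := N ⊔ B) (sup_le_sup_right hPN B) (by
    intro n hn
    refine ⟨(sup_le (hNA.trans h.sA.1) h.sB.1) hn, ?_, ?_⟩
    · have hN1 : N ≤ Subgroup.normalizer ((P ⊔ B : Subgroup Ω) : Set Ω) := by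
        intro m hm
        rw [Subgroup.mem_normalizer_iff]
        have hmB := H759.StronglyClosed.le_normalizer h.sB (h.sA.1 (hNA hm))
        have hmP := (hN m hm).1
        rw [Subgroup.mem_normalizer_iff] at hmB hmP
        intro x
        have key : ∀ (m : Ω), (∀ y, y ∈ P → m * y * m⁻¹ ∈ P) →
            (∀ y, y ∈ B → m * y * m⁻¹ ∈ B) → ∀ x, x ∈ P ⊔ B → m * x * m⁻¹ ∈ P ⊔ B := by
          intro m h1 h2 x hx
          obtain ⟨a, ha, b, hb, rfl⟩ := (hPB x).1 hx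
          refine (hPB _).2 ⟨m * a * m⁻¹, h1 a ha, m * b * m⁻¹, h2 b hb, by group⟩
        constructor
        · exact key m (fun y => (hmP y).1) (fun y => (hmB y).1) x
        · intro hx
          have h3 := key m⁻¹ (fun y hy => (hmP _).2 (by
              rw [inv_inv]; simpa [mul_assoc] using hy)) (fun y hy => (hmB _).2 (by
              rw [inv_inv]; simpa [mul_assoc] using hy)) _ hx
          simpa [mul_assoc] using h3
      exact (sup_le hN1 (le_sup_right.trans Subgroup.le_normalizer)) hn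
    · obtain ⟨m, hm, b, hb, rfl⟩ := (hBN N hNA n).1 hn
      obtain ⟨hmn, u, hu, hum⟩ := hN m hm
      refine ⟨u * g b, mul_mem (h.sA.1 hu) (h.sB.1 (hgB b hb)), fun x hx => ?_⟩
      obtain ⟨a, ha, c, hc, rfl⟩ := (hPB x).1 hx
      have hmA := hNA hm
      have haA := hPA ha
      have e1 : m * b * (a * c) * (m * b)⁻¹ = (m * a * m⁻¹) * (b * c * b⁻¹) := by
        have c1 : b * a = a * b := (h.comm a haA b hb).symm
        have c2 : b * c * b⁻¹ * m⁻¹ = m⁻¹ * (b * c * b⁻¹) :=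
          (h.comm _ (inv_mem hmA) _ (mul_mem (mul_mem hb hc) (inv_mem hb))).symm
        calc m * b * (a * c) * (m * b)⁻¹ = m * (b * a) * c * b⁻¹ * m⁻¹ := by group
          _ = m * a * (b * c * b⁻¹ * m⁻¹) := by rw [c1]; group
          _ = m * a * m⁻¹ * (b * c * b⁻¹) := by rw [c2]; group
      have h5 : m * a * m⁻¹ ∈ P := (Subgroup.mem_normalizer_iff.1 hmn a).1 ha
      have hcB : b * c * b⁻¹ ∈ B := mul_mem (mul_mem hb hc) (inv_mem hb)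
      rw [e1, hgmul _ h5 _ hcB, hgmul a ha c hc, hum a ha]
      have hgB3 : g (b * c * b⁻¹) = g b * g c * (g b)⁻¹ := by
        have hr := hg.res (le_sup_right : B ≤ P ⊔ B)
        rw [hr.mul (mul_mem hb hc) (inv_mem hb), hr.mul hb hc, hr.inv hb]
      rw [hgB3]
      have c3 : g b * f a = f a * g b := (h.comm _ (hfA a ha) _ (hgB b hb)).symm
      have c4 : g b * g c * (g b)⁻¹ * u⁻¹ = u⁻¹ * (g b * g c * (g b)⁻¹) :=
        (h.comm _ (inv_mem hu) _ (mul_mem (mul_mem (hgB b hb) (hgB c hc))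
          (inv_mem (hgB b hb)))).symm
      calc u * f a * u⁻¹ * (g b * g c * (g b)⁻¹) = u * f a * (u⁻¹ * (g b * g c * (g b)⁻¹)) := by group
        _ = u * (f a * g b) * g c * (g b)⁻¹ * u⁻¹ := by rw [← c4]; group
        _ = u * g b * (f a * g c) * (u * g b)⁻¹ := by rw [← c3]; group)
  exact ⟨k, hk, fun x hx => by rw [hkg x ((le_sup_left : P ≤ P ⊔ B) hx), hgf x hx],
    fun x hx => hkg x ((le_sup_right : B ≤ P ⊔ B) hx)⟩

/-- The image of a fully normalized subgroup under an automorphism of `S` in the system. -/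
theorem fullyNormalized_image [Finite S] {Q Q' : Subgroup Ω} (hQ : F.IsFullyNormalized Q)
    {b : Ω → Ω} (hb : Mp F S b) (hQ' : ∀ y, y ∈ Q' ↔ ∃ x ∈ Q, b x = y) :
    F.IsFullyNormalized Q' := by
  have hQS : Q ≤ S := hQ.1
  obtain ⟨c, hc, hc1, hc2⟩ := hb.exists_symm hQS hQ'
  have hcS : ∃ c', Mp F S c' ∧ (∀ x ∈ S, c' (b x) = x) ∧ ∀ y ∈ S, c' y ∈ S ∧ b (c' y) = y :=
    exists_aut_inv (T := S) ⟨le_rfl, fun R hR φ hφ x => (F.le_of_mem hφ).2 x⟩ hb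
  obtain ⟨b', hb', h1, h2⟩ := hcS
  have hQ'S : Q' ≤ S := by
    intro y hy
    obtain ⟨x, hx, rfl⟩ := (hQ' y).1 hy
    exact hb.mem (hQS hx)
  have hconj : F.IsConj Q Q' := by
    obtain ⟨φ, hφ, h3⟩ := hb.res hQS
    refine ⟨φ, hφ, ?_⟩
    ext y
    rw [hQ']
    constructor
    · rintro ⟨x, rfl⟩
      exact ⟨x, x.2, (h3 x x.2).symm⟩
    · rintro ⟨x, hx, rfl⟩
      exact ⟨⟨x, hx⟩, h3 x hx⟩
  refine ⟨hQ'S, fun R hR => (hQ.2 R (H802.isConj_trans hconj hR)).trans ?_⟩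
  have hfin : Finite (normalizerIn S Q') := H802.finite_of_le (inf_le_left)
  obtain ⟨φ, hφ, h3⟩ := hb
  refine H802.card_le_of_maps (F.injective_of_mem hφ) (inf_le_left : normalizerIn S Q ≤ S) ?_
  intro n hn
  have hnS : n ∈ S := hn.1
  rw [h3 n hnS]
  have hb : Mp F S b := ⟨φ, hφ, h3⟩
  refine ⟨hb.mem hnS, ?_⟩
  have hnn := Subgroup.mem_normalizer_iff.1 hn.2
  refine Subgroup.mem_normalizer_iff.2 fun y => ?_
  rw [hQ', hQ']
  constructor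
  · rintro ⟨x, hx, rfl⟩
    refine ⟨n * x * n⁻¹, (hnn x).1 hx, ?_⟩
    rw [hb.mul (mul_mem hnS (hQS hx)) (inv_mem hnS), hb.mul hnS (hQS hx), hb.inv hnS]
  · rintro ⟨x, hx, hxy⟩
    refine ⟨n⁻¹ * x * n, (hnn _).2 (by simpa [mul_assoc] using hx), ?_⟩
    rw [hb.mul (mul_mem (inv_mem hnS) (hQS hx)) hnS, hb.mul (inv_mem hnS) (hQS hx), hb.inv hnS,
      hxy]
    group

/-- Every subgroup `P` of `A` is conjugate in `R'` to a good one. -/
theorem exists_good (h : Setting F A B) [Finite S] {p : ℕ} [Fact p.Prime] (hS : IsPGroup p S)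
    (hF : F.IsSaturated p) {P : Subgroup Ω} (hP : P ≤ A) :
    ∃ (Q : Subgroup Ω) (f : Ω → Ω), MR F A B P f ∧ (∀ y, y ∈ Q ↔ ∃ x ∈ P, f x = y) ∧ Q ≤ A ∧
      F.IsFullyNormalized (Q ⊔ B) := by
  have hPB : P ⊔ B ≤ S := sup_le (hP.trans h.sA.1) h.sB.1
  obtain ⟨Q₁, ⟨φ, hφ, hr⟩, hQ₁⟩ := H802.exists_isFullyNormalized hS hF hPB
  have hg : Mp F (P ⊔ B) (ex φ) := mp_ex hφ
  obtain ⟨b, b', hb, hb', h1, h2, h3⟩ := h.frat hS hF hg
  have hk : Mp F (P ⊔ B) (fun x => b' (ex φ x)) := hg.comp hb' fun x hx => hg.mem hx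
  obtain ⟨Q, hQ, hQS, -⟩ := hk.exists_image (le_sup_left : P ≤ P ⊔ B)
  have hQA : Q ≤ A := by
    intro y hy
    obtain ⟨x, hx, rfl⟩ := (hQ y).1 hy
    exact mp_mem_of_stronglyClosed h.sA hk ((le_sup_left : P ≤ P ⊔ B) hx) (hP hx)
  refine ⟨Q, _, ⟨hP, _, hk, fun _ _ => rfl, h3⟩, hQ, hQA, ?_⟩
  refine fullyNormalized_image hQ₁ hb' fun y => ?_
  have hBN : ∀ (C : Subgroup Ω), C ≤ A → ∀ x, x ∈ C ⊔ B ↔ ∃ a ∈ C, ∃ b ∈ B, a * b = x := by
    intro C hC x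
    refine H759.mem_sup_of_normalizes (fun c hc => ?_)
    exact H759.StronglyClosed.le_normalizer h.sB (h.sA.1 (hC hc))
  rw [hBN Q hQA]
  constructor
  · rintro ⟨q, hq, c, hc, rfl⟩
    obtain ⟨x, hx, rfl⟩ := (hQ q).1 hq
    have hxP : x ∈ P ⊔ B := (le_sup_left : P ≤ P ⊔ B) hx
    have hcP : c ∈ P ⊔ B := (le_sup_right : B ≤ P ⊔ B) hc
    refine ⟨ex φ (x * c), ?_, ?_⟩
    · rw [← hr, ex_apply _ (mul_mem hxP hcP)]
      exact ⟨_, rfl⟩
    · have := hk.mul hxP hcP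
      rw [this, h3 c hc]
  · rintro ⟨z, hz, rfl⟩
    rw [← hr] at hz
    obtain ⟨⟨w, hw⟩, rfl⟩ := hz
    obtain ⟨x, hx, c, hc, rfl⟩ := (hBN P hP w).1 hw
    have hxP : x ∈ P ⊔ B := (le_sup_left : P ≤ P ⊔ B) hx
    have hcP : c ∈ P ⊔ B := (le_sup_right : B ≤ P ⊔ B) hc
    refine ⟨_, (hQ _).2 ⟨x, hx, rfl⟩, c, hc, ?_⟩
    have := hk.mul hxP hcP
    rw [h3 c hc] at this
    rw [← this, ex_apply _ hw]

/-- Good subgroups are fully automized in the full subsystem. -/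
theorem automized_aux (h : Setting F A B) [Finite S] {p : ℕ} [Fact p.Prime] (hS : IsPGroup p S)
    (hF : F.IsSaturated p) {Q : Subgroup Ω} (hQA : Q ≤ A) (hQ : F.IsFullyAutomized p (Q ⊔ B))
    (hR : ∀ P : Subgroup Ω, P ≤ A → R.Hom P = F.Hom P) : R.IsFullyAutomized p Q := by
  have hQBS : Q ⊔ B ≤ S := hQ.1
  have hAf : Finite A := H802.finite_of_le h.sA.1
  have hQf : Finite Q := H802.finite_of_le (hQA.trans h.sA.1)
  have hQBf : Finite (Q ⊔ B : Subgroup Ω) := H802.finite_of_le hQBS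
  have hAp : IsPGroup p A := hS.to_le h.sA.1
  have hBN : ∀ x, x ∈ Q ⊔ B ↔ ∃ a ∈ Q, ∃ b ∈ B, a * b = x := by
    intro x
    refine H759.mem_sup_of_normalizes (fun c hc => ?_)
    exact H759.StronglyClosed.le_normalizer h.sB (h.sA.1 (hQA hc))
  have hmeet : ∀ x ∈ Q ⊔ B, x ∈ A → x ∈ Q := by
    intro x hx hxA
    obtain ⟨a, ha, b, hb, rfl⟩ := (hBN x).1 hx
    have : b ∈ A ⊓ B := ⟨by
      have := mul_mem (A.inv_mem (hQA ha)) hxA
      rwa [inv_mul_cancel_left] at this, hb⟩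
    rw [h.inf, Subgroup.mem_bot] at this
    rw [this, mul_one]
    exact ha
  have hQQ : ∀ x ∈ Q, x ∈ Q ⊔ B := fun x hx => (le_sup_left : Q ≤ Q ⊔ B) hx
  refine ⟨hQA, ?_⟩
  have hch : ∀ α : F.autGroup (Q ⊔ B), ∃ β : R.autGroup Q, ∀ (x : Ω) (hx : x ∈ Q),
      (((β : MulAut Q) ⟨x, hx⟩ : Q) : Ω) = ((α : MulAut _) ⟨x, hQQ x hx⟩ : (Q ⊔ B : Subgroup Ω)) := by
    intro α
    have hm := (mp_iff_autGroup hQBS (α : MulAut _)).1 α.2
    have hm' : Mp R Q (ex fun x => (((α : MulAut _) x : (Q ⊔ B : Subgroup Ω)) : Ω)) :=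
      (mp_R hR).2 ⟨hQA, hm.res le_sup_left⟩
    obtain ⟨β, hβ, h1⟩ := hm'.exists_aut fun x hx => by
      refine hmeet _ ?_ (mp_mem_of_stronglyClosed h.sA hm (hQQ x hx) (hQA hx))
      rw [ex_apply _ (hQQ x hx)]
      exact ((α : MulAut (Q ⊔ B : Subgroup Ω)) ⟨x, hQQ x hx⟩).2
    refine ⟨⟨β, hβ⟩, fun x hx => ?_⟩
    rw [← h1 x hx, ex_apply _ (hQQ x hx)]
  choose r hr using hch
  have hval : ∀ (α : F.autGroup (Q ⊔ B)) (x : Q), (((r α : MulAut Q) x : Q) : Ω) =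
      ((α : MulAut _) ⟨x, hQQ x x.2⟩ : (Q ⊔ B : Subgroup Ω)) := fun α x => hr α x x.2
  let f : F.autGroup (Q ⊔ B) →* R.autGroup Q := MonoidHom.mk' r (by
    intro α β
    apply Subtype.ext
    apply MulEquiv.ext
    intro x
    apply Subtype.ext
    rw [hval]
    show _ = (((r α : MulAut Q) ((r β : MulAut Q) x) : Q) : Ω)
    rw [hval]
    have : (⟨(((r β : MulAut Q) x : Q) : Ω), hQQ _ ((r β : MulAut Q) x).2⟩ : (Q ⊔ B : Subgroup Ω)) =
        (β : MulAut _) ⟨x, hQQ x x.2⟩ := Subtype.ext (hval β x)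
    rw [this]
    rfl)
  have hsurj : Function.Surjective f := by
    intro β
    have hm := (mp_iff_autGroup hQA (β : MulAut Q)).1 β.2
    have hm' := ((mp_R hR).1 hm).2
    obtain ⟨g, hg, h1, h2⟩ := h.lift hS hF hQA hm'
    have hgQ : ∀ x ∈ Q, g x ∈ Q ⊔ B := fun x hx => by
      rw [h1 x hx, ex_apply _ hx]
      exact hQQ _ ((β : MulAut Q) _).2
    obtain ⟨α, hα, h3⟩ := hg.exists_aut (mp_sup_mem hg hgQ fun x hx =>
      (le_sup_right : B ≤ Q ⊔ B) (h2 x hx))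
    refine ⟨⟨α, hα⟩, ?_⟩
    apply Subtype.ext
    apply MulEquiv.ext
    intro x
    apply Subtype.ext
    show (((r ⟨α, hα⟩ : MulAut Q) x : Q) : Ω) = _
    rw [hval]
    show ((α _ : (Q ⊔ B : Subgroup Ω)) : Ω) = _
    rw [← h3 x (hQQ x x.2), h1 x x.2, ex_coe]
  obtain ⟨-, R₀, hR₀⟩ := hQ
  refine H755.exists_sylow_eq_of_map_le hsurj R₀ _ (H755.isPGroup_autS hAp R Q) ?_
  rintro _ ⟨α, hα, rfl⟩
  have hα' : (α : MulAut _) ∈ autInducedBy S (Q ⊔ B) := by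
    have : α ∈ (R₀ : Subgroup (F.autGroup (Q ⊔ B))) := hα
    rw [hR₀] at this
    exact this
  obtain ⟨s, hs, h1⟩ := (H802.mem_autInducedBy_iff S (Q ⊔ B) _).1 hα'
  show ((f α : R.autGroup Q) : MulAut Q) ∈ autInducedBy A Q
  rw [H802.mem_autInducedBy_iff]
  rw [← h.sup] at hs
  obtain ⟨a, ha, b, hb, rfl⟩ := (H759.mem_sup_of_normalizes (fun c hc =>
    H759.StronglyClosed.le_normalizer h.sB (h.sA.1 hc))).1 hs
  refine ⟨a, ha, fun x => ?_⟩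
  show (((r α : MulAut Q) x : Q) : Ω) = _
  rw [hval, h1]
  show a * b * (x : Ω) * (a * b)⁻¹ = _
  have : b * (x : Ω) = x * b := (h.comm _ (hQA x.2) b hb).symm
  calc a * b * (x : Ω) * (a * b)⁻¹ = a * (b * x) * b⁻¹ * a⁻¹ := by group
    _ = a * x * a⁻¹ := by rw [this]; group

theorem surj_B [Finite S] {P : Subgroup Ω} {g : Ω → Ω} (hBS : B ≤ S) (hg : Mp F (P ⊔ B) g)
    (hgB : ∀ x ∈ B, g x ∈ B) : ∀ y ∈ B, ∃ x ∈ B, g x = y := by
  have : Finite B := H802.finite_of_le hBS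
  intro y hy
  exact (hg.res (le_sup_right : B ≤ P ⊔ B)).surj hgB hy

theorem isConj_of_mp {T : Subgroup Ω} {E : FusionSystem T} {P Q : Subgroup Ω} {f : Ω → Ω}
    (hf : Mp E P f) (hQ : ∀ y, y ∈ Q ↔ ∃ x ∈ P, f x = y) : E.IsConj P Q := by
  obtain ⟨φ, hφ, h1⟩ := hf
  refine ⟨φ, hφ, ?_⟩
  ext y
  rw [hQ]
  constructor
  · rintro ⟨x, rfl⟩
    exact ⟨x, x.2, (h1 x x.2).symm⟩
  · rintro ⟨x, hx, rfl⟩
    exact ⟨⟨x, hx⟩, h1 x hx⟩

theorem R_saturated (h : Setting F A B) [Finite S] {p : ℕ} [Fact p.Prime] (hS : IsPGroup p S)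
    (hF : F.IsSaturated p) (hR : ∀ P : Subgroup Ω, P ≤ A → R.Hom P = F.Hom P) :
    R.IsSaturated p := by
  intro P hP
  obtain ⟨Q, f, hf, hQ, hQA, hQn⟩ := exists_good h hS hF hP
  obtain ⟨hQa, hQr⟩ := (H802.isFullyNormalized_iff hS hF).1 hQn
  refine ⟨Q, isConj_of_mp ((mp_R hR).2 ⟨hP, hf.mp⟩) hQ, automized_aux h hS hF hQA hQa hR, ?_⟩
  refine isReceptive_of_mp hQA fun P' N f' hf' hQ' hPN hN => ?_
  have hNA : N ≤ A := fun n hn => (hN n hn).1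
  have hPA : P' ≤ A := hPN.trans hNA
  obtain ⟨g, hg, h1, h2⟩ := h.lift hS hF hPA ((mp_R hR).1 hf').2
  obtain ⟨k, hk, h3, -⟩ := receptive_aux h hQA hQr hPA hNA hg h1 h2 (surj_B h.sB.1 hg h2) hQ' hPN
    fun n hn => ⟨(hN n hn).2.1, (hN n hn).2.2⟩
  exact ⟨k, (mp_R hR).2 ⟨hNA, hk.res le_sup_left⟩, h3⟩

theorem R'_saturated (h : Setting F A B) [Finite S] {p : ℕ} [Fact p.Prime] (hS : IsPGroup p S)
    (hF : F.IsSaturated p) (hR : ∀ P : Subgroup Ω, P ≤ A → R.Hom P = F.Hom P)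
    (hR' : ∀ P : Subgroup Ω, P ≤ A → R'.Hom P = F.centralizerHom B P) :
    R'.IsSaturated p := by
  have hAf : Finite A := H802.finite_of_le h.sA.1
  have hAp : IsPGroup p A := hS.to_le h.sA.1
  intro P hP
  obtain ⟨Q, f, hf, hQ, hQA, hQn⟩ := exists_good h hS hF hP
  obtain ⟨hQa, hQr⟩ := (H802.isFullyNormalized_iff hS hF).1 hQn
  refine ⟨Q, isConj_of_mp ((mp_R' h hR').2 hf) hQ, ?_, ?_⟩
  · refine H802.isFullyAutomized_of_le hAp (F := R) ?_ (automized_aux h hS hF hQA hQa hR)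
    intro P' φ hφ
    have h1 := ((mp_R' h hR').1 (mp_ex hφ))
    exact ((mp_R hR).2 ⟨h1.1, h1.mp⟩).mem_hom fun x hx => (ex_apply _ hx).symm
  · refine isReceptive_of_mp hQA fun P' N f' hf' hQ' hPN hN => ?_
    have hNA : N ≤ A := fun n hn => (hN n hn).1
    have hPA : P' ≤ A := hPN.trans hNA
    obtain ⟨-, g, hg, h1, h2⟩ := (mp_R' h hR').1 hf'
    have h2' : ∀ x ∈ B, g x ∈ B := fun x hx => by rw [h2 x hx]; exact hx
    obtain ⟨k, hk, h3, h4⟩ := receptive_aux h hQA hQr hPA hNA hg h1 h2' (surj_B h.sB.1 hg h2') hQ'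
      hPN fun n hn => ⟨(hN n hn).2.1, (hN n hn).2.2⟩
    exact ⟨k, (mp_R' h hR').2 ⟨hNA, k, hk, fun _ _ => rfl, fun x hx => (h4 x hx).trans (h2 x hx)⟩,
      h3⟩

/-- Invariance of the family `MR`. -/
theorem MR_inv (h : Setting F A B) [Finite S] {p : ℕ} [Fact p.Prime] (hS : IsPGroup p S)
    (hF : F.IsSaturated p) {P Q : Subgroup Ω} {f a k : Ω → Ω} (hf : MR F A B P f)
    (ha : Mp F A a) (hk : ∀ y ∈ Q, ∃ x ∈ P, a x = y ∧ k y = a (f x)) : MR F A B Q k := by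
  obtain ⟨hPA, g, hg, h1, h2⟩ := id hf
  obtain ⟨a₁, ha₁, h3, h4⟩ := h.lift hS hF le_rfl ha
  rw [h.sup] at ha₁
  have hBf : Finite B := H802.finite_of_le h.sB.1
  obtain ⟨b, hb, h5, h6⟩ := exists_aut_inv (T := S) ⟨le_rfl, fun R hR φ hφ x =>
    (F.le_of_mem hφ).2 x⟩ ha₁
  have hQA : Q ≤ A := by
    intro y hy
    obtain ⟨x, hx, rfl, -⟩ := hk y hy
    exact mp_mem_of_stronglyClosed h.sA ha (hPA hx) (hPA hx)
  have hQB : Q ⊔ B ≤ S := sup_le (hQA.trans h.sA.1) h.sB.1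
  have hbQ : ∀ y ∈ Q, b y ∈ P := by
    intro y hy
    obtain ⟨x, hx, rfl, -⟩ := hk y hy
    rw [← h3 x (hPA hx), h5 x (h.sA.1 (hPA hx))]
    exact hx
  have hbB : ∀ y ∈ B, b y ∈ B := fun y hy => mp_mem_of_stronglyClosed h.sB hb (h.sB.1 hy) hy
  have hb' : Mp F (Q ⊔ B) b := hb.res hQB
  have hc := hb'.comp hg (mp_sup_mem hb' (fun x hx => (le_sup_left : P ≤ P ⊔ B) (hbQ x hx))
    (fun x hx => (le_sup_right : B ≤ P ⊔ B) (hbB x hx)))
  have hd := hc.comp ha₁ fun x hx => hc.mem hx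
  refine ⟨hQA, _, hd, fun y hy => ?_, fun y hy => ?_⟩
  · obtain ⟨x, hx, rfl, hky⟩ := hk y hy
    show a₁ (g (b (a x))) = _
    have hfA : f x ∈ A := mp_mem_of_stronglyClosed h.sA hf.mp hx (hPA hx)
    rw [hky, ← h3 x (hPA hx), h5 x (h.sA.1 (hPA hx)), h1 x hx, h3 _ hfA]
  · show a₁ (g (b y)) = y
    rw [h2 _ (hbB y hy)]
    exact (h6 y (h.sB.1 hy)).2

/-- Frattini condition for the family `MR`. -/
theorem MR_frat (h : Setting F A B) [Finite S] {p : ℕ} [Fact p.Prime] (hS : IsPGroup p S)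
    (hF : F.IsSaturated p) {P : Subgroup Ω} (hPA : P ≤ A) {f : Ω → Ω} (hf : Mp F P f) :
    ∃ a, Mp F A a ∧ ∃ f₀, MR F A B P f₀ ∧ ∀ x ∈ P, f x = a (f₀ x) := by
  obtain ⟨g, hg, h1, h2⟩ := h.lift hS hF hPA hf
  obtain ⟨b, b', hb, hb', h3, h4, h5⟩ := h.frat hS hF hg
  have hk : Mp F (P ⊔ B) (fun x => b' (g x)) := hg.comp hb' fun x hx => hg.mem hx
  refine ⟨b, hb.res h.sA.1, _, ⟨hPA, _, hk, fun _ _ => rfl, h5⟩, fun x hx => ?_⟩
  show f x = b (b' (g x))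
  rw [h1 x hx, h4 _ (hf.mem hx)]

/-- Let F be a saturated fusion system over a finite p-group S that is the direct product of two subgroups S₁ and S₂, each strongly closed in F. Let R be the full subsystem of F over S₁ (all maps of F between subgroups of S₁) and R′ the subsystem over S₁ of those maps that extend to the subgroup generated with S₂ fixing S₂ elementwise. Then R and R′ are saturated, R′ is normal in F and in R, and R is weakly normal in F. -/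
theorem result {Ω : Type*} [Group Ω] {S : Subgroup Ω} [Finite S] (p : ℕ) [Fact p.Prime] (hS : IsPGroup p S) (F : Cfsg.FusionSystem S) (hF : F.IsSaturated p) (S₁ S₂ : Subgroup Ω) (hprod : Cfsg.IsInternalDirectProduct S₁ S₂ S) (h₁ : F.StronglyClosed S₁) (h₂ : F.StronglyClosed S₂) (R R' : Cfsg.FusionSystem S₁) (hR : ∀ P : Subgroup Ω, P ≤ S₁ → R.Hom P = F.Hom P) (hR' : ∀ P : Subgroup Ω, P ≤ S₁ → R'.Hom P = F.centralizerHom S₂ P) : R.IsSaturated p ∧ R'.IsSaturated p ∧ R'.IsNormalIn F p ∧ R'.IsNormalIn R p ∧ R.IsWeaklyNormalIn F p := by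
  obtain ⟨-, -, hcomm, hinf, hsup⟩ := hprod
  have h : Setting F S₁ S₂ := ⟨h₁, h₂, hcomm, hinf, hsup⟩
  have hAf : Finite S₁ := H802.finite_of_le h.sA.1
  have hRs := R_saturated h hS hF hR
  have hRs' := R'_saturated h hS hF hR hR'
  have hMR : ∀ (P : Subgroup Ω) (f : Ω → Ω), Mp R' P f ↔ MR F S₁ S₂ P f :=
    fun P f => mp_R' h hR'
  have hMRR : ∀ (P : Subgroup Ω) (f : Ω → Ω), Mp R P f ↔ P ≤ S₁ ∧ Mp F P f :=
    fun P f => mp_R hR
  have hsc : R.StronglyClosed S₁ := ⟨le_rfl, fun P hP φ hφ x => (R.le_of_mem hφ).2 x⟩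
  have hWF : R'.IsWeaklyNormalIn F p := by
    rw [isWeaklyNormalIn_iff]
    refine ⟨hRs', hF, isSubsystemOf_of_mp fun P f hf => ((hMR P f).1 hf).mp, h₁, ?_, ?_⟩
    · intro P Q f a k hf ha hk
      exact (hMR Q k).2 (MR_inv h hS hF ((hMR P f).1 hf) ha hk)
    · intro P f hPA hf
      obtain ⟨a, ha, f₀, hf₀, h1⟩ := MR_frat h hS hF hPA hf
      exact ⟨a, ha, f₀, (hMR P f₀).2 hf₀, h1⟩
  have hWR : R'.IsWeaklyNormalIn R p := by
    rw [isWeaklyNormalIn_iff]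
    refine ⟨hRs', hRs, isSubsystemOf_of_mp fun P f hf => ?_, hsc, ?_, ?_⟩
    · have h1 := (hMR P f).1 hf
      exact (hMRR P f).2 ⟨h1.1, h1.mp⟩
    · intro P Q f a k hf ha hk
      exact (hMR Q k).2 (MR_inv h hS hF ((hMR P f).1 hf) ((hMRR _ _).1 ha).2 hk)
    · intro P f hPA hf
      obtain ⟨a, ha, f₀, hf₀, h1⟩ := MR_frat h hS hF hPA ((hMRR _ _).1 hf).2
      exact ⟨a, (hMRR _ _).2 ⟨le_rfl, ha⟩, f₀, (hMR P f₀).2 hf₀, h1⟩
  have hext : ∀ a, Mp R' S₁ a → ∃ b, Mp F S b ∧ (∀ x ∈ S₁, b x = a x) ∧ ∀ x ∈ S₂, b x = x := by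
    intro a ha
    obtain ⟨-, g, hg, h1, h2⟩ := (hMR _ _).1 ha
    rw [hsup] at hg
    exact ⟨g, hg, h1, h2⟩
  have hcent : ∀ (b : Ω → Ω), Mp F S b → ∀ z ∈ S₁, z ∈ Subgroup.centralizer (S₁ : Set Ω) →
      b z ∈ S₁ ⊓ Subgroup.centralizer (S₁ : Set Ω) := by
    intro b hb z hz hzc
    have hm : ∀ x ∈ S₁, b x ∈ S₁ := fun x hx => mp_mem_of_stronglyClosed h₁ hb (h₁.1 hx) hx
    refine Subgroup.mem_inf.2 ⟨hm z hz, Subgroup.mem_centralizer_iff.2 ?_⟩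
    intro y hy
    obtain ⟨x, hx, rfl⟩ := (hb.res h₁.1).surj hm hy
    rw [← hb.mul (h₁.1 hx) (h₁.1 hz), ← hb.mul (h₁.1 hz) (h₁.1 hx),
      (Subgroup.mem_centralizer_iff.1 hzc) x hx]
  refine ⟨hRs, hRs', ?_, ?_, ?_⟩
  · refine isNormalIn_of_mp hWF fun a ha => ?_
    obtain ⟨b, hb, h1, h2⟩ := hext a ha
    refine ⟨b, hb.res (sup_le h₁.1 inf_le_left), h1, fun c hc => ?_⟩
    have hcS : c ∈ S := hc.1
    have hcc := (Subgroup.mem_centralizer_iff.1 hc.2)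
    rw [← hsup] at hcS
    obtain ⟨z, hz, s, hs, rfl⟩ := (H759.mem_sup_of_normalizes (fun c hc =>
      H759.StronglyClosed.le_normalizer h₂ (h₁.1 hc))).1 hcS
    have hzc : z ∈ Subgroup.centralizer (S₁ : Set Ω) := by
      rw [Subgroup.mem_centralizer_iff]
      intro y hy
      have h3 := hcc y hy
      have h4 := hcomm y hy s hs
      have h5 : y * z * s = z * y * s := by
        calc y * z * s = y * (z * s) := by group
          _ = z * (s * y) := by rw [h3]; group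
          _ = z * y * s := by rw [← h4]; group
      exact mul_right_cancel h5
    have h6 : (z * s)⁻¹ * b (z * s) = z⁻¹ * b z := by
      rw [hb.mul (h₁.1 hz) (h₂.1 hs), h2 s hs]
      have hz' := mul_mem (S₁.inv_mem hz) (hcent b hb z hz hzc).1
      have := hcomm _ hz' s hs
      calc (z * s)⁻¹ * (b z * s) = s⁻¹ * (z⁻¹ * b z * s) := by group
        _ = z⁻¹ * b z := by rw [this]; group
    rw [h6]
    exact mul_mem (inv_mem (⟨hz, hzc⟩ : z ∈ S₁ ⊓ Subgroup.centralizer (S₁ : Set Ω)))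
      (hcent b hb z hz hzc)
  · refine isNormalIn_of_mp hWR fun a ha => ?_
    obtain ⟨b, hb, h1, h2⟩ := hext a ha
    refine ⟨b, (hMRR _ _).2 ⟨sup_le le_rfl inf_le_left, ?_⟩, h1, fun c hc => ?_⟩
    · exact hb.res ((sup_le le_rfl inf_le_left : S₁ ⊔ centralizerIn S₁ S₁ ≤ S₁).trans h₁.1)
    · exact mul_mem (inv_mem (⟨hc.1, hc.2⟩ : c ∈ S₁ ⊓ Subgroup.centralizer (S₁ : Set Ω)))
        (hcent b hb c hc.1 hc.2)
  · rw [isWeaklyNormalIn_iff]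
    refine ⟨hRs, hF, isSubsystemOf_of_mp fun P f hf => ((hMRR P f).1 hf).2, h₁, ?_, ?_⟩
    · intro P Q f a k hf ha hk
      obtain ⟨hPA, hf'⟩ := (hMRR P f).1 hf
      obtain ⟨b, hb, h5, h6⟩ := exists_aut_inv h₁ ha
      have hQA : Q ≤ S₁ := by
        intro y hy
        obtain ⟨x, hx, rfl, -⟩ := hk y hy
        exact mp_mem_of_stronglyClosed h₁ ha (hPA hx) (hPA hx)
      refine (hMRR Q k).2 ⟨hQA, ?_⟩
      have hc := ((hb.res hQA).comp hf' fun y hy => by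
        obtain ⟨x, hx, rfl, -⟩ := hk y hy
        rw [h5 x (hPA hx)]
        exact hx).comp ha (fun y hy => by
        obtain ⟨x, hx, rfl, -⟩ := hk y hy
        rw [h5 x (hPA hx)]
        exact mp_mem_of_stronglyClosed h₁ hf' hx (hPA hx))
      refine hc.congr fun y hy => ?_
      obtain ⟨x, hx, rfl, hky⟩ := hk y hy
      rw [hky, h5 x (hPA hx)]
    · intro P f hPA hf
      exact ⟨fun x => x, mp_id F h₁.1, f, (hMRR _ _).2 ⟨hPA, hf⟩, fun _ _ => rfl⟩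

end Cfsg.Agent.S5130
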