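import Cfsg.Statements.S5159
import Cfsg.Agent.H760.SolvExt

set_option autoImplicit false
open Cfsg

namespace Cfsg.Agent.S5159

open Cfsg.FusionSystem Cfsg.Agent.H759 Cfsg.Agent.H760 in
/-- Let F be a saturated fusion system over a finite p-group S, E a normal subsystem over T, and D the factor system of F modulo T (read through any homomorphism on S with kernel T). Then F is solvable if and only if E and D are solvable (solvable, for a system over a subgroup S: for every subgroup R other than S that is strongly closed in F, the factor system of F modulo R has a nontrivial subgroup normal in it). -/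
theorem result {Ω : Type*} [Group Ω] {S : Subgroup Ω} [Finite S] (p : ℕ) [Fact p.Prime] (hS : IsPGroup p S) (F : Cfsg.FusionSystem S) (hF : F.IsSaturated p) {T : Subgroup Ω} (E : Cfsg.FusionSystem T) (hE : E.IsNormalIn F p) {Ω' : Type*} [Group Ω'] {S' : Subgroup Ω'} (θ : S →* Ω') (D : Cfsg.FusionSystem S') (hD : F.IsFactorSystem T θ D) : F.IsSolvableSystem ↔ (E.IsSolvableSystem ∧ D.IsSolvableSystem) := by
  have hinv : E.IsInvariantIn F := hE.1.2.2
  have hT : F.StronglyClosed T := hinv.2.1
  have hTS : T ≤ S := hT.1
  have : Finite T := Finite.of_injective _ (Subgroup.inclusion_injective hTS)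
  have hTp : IsPGroup p T := hS.to_le hTS
  have hr : θ.range = S' := hD.2.2.1
  have : Finite S' := by
    rw [← hr]
    exact Finite.of_surjective θ.rangeRestrict θ.rangeRestrict_surjective
  have hS'p : IsPGroup p S' := by
    have h1 : IsPGroup p θ.range := hS.of_surjective θ.rangeRestrict θ.rangeRestrict_surjective
    rwa [hr] at h1
  have hEs : E.IsSaturated p := hE.1.1
  have hDs : D.IsSaturated p := isSaturated_factor hS hF hT hD
  constructor
  · intro h
    have hc := hasChain_of_isSolvableSystem hS hF h ⊥ StronglyClosed.bot
    exact ⟨isSolvableSystem_of_hasChain hTp hEs (hasChain_sub hinv.1 hTS hc),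
      isSolvableSystem_of_hasChain hS'p hDs (hasChain_factor hD hc)⟩
  · rintro ⟨h1, h2⟩
    have hc1 := hasChain_of_isSolvableSystem hTp hEs h1 ⊥ StronglyClosed.bot
    have hc2 := hasChain_of_isSolvableSystem hS'p hDs h2 ⊥ StronglyClosed.bot
    exact isSolvableSystem_of_hasChain hS hF
      (hasChain_of_invariant hinv hc1 (hasChain_of_factor hS hF hT hD hc2))

end Cfsg.Agent.S5159
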