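import Cfsg.Statements.S5163
import Cfsg.Agent.H763.ClassSimple
import Cfsg.Agent.H802.FusGroup

set_option autoImplicit false
open Cfsg

namespace Cfsg.Agent.S5163

/-- For a finite field K of characteristic p and n ≥ 3, the p-fusion system of the projective special linear group PSL_n(K) on a Sylow p-subgroup is simple. -/
theorem result {K : Type*} [Field K] [Fintype K] (p : ℕ) [Fact p.Prime] [CharP K p] (n : ℕ) (hn : 3 ≤ n) (S : Sylow p (Matrix.ProjectiveSpecialLinearGroup (Fin n) K)) : (Cfsg.groupFusionSystem (S : Subgroup (Matrix.ProjectiveSpecialLinearGroup (Fin n) K))).IsSimple p := by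
  obtain ⟨k, rfl⟩ : ∃ k, n = k + 1 := ⟨n - 1, by omega⟩
  have h1 : IsSimpleGroup (Matrix.ProjectiveSpecialLinearGroup (Fin (k + 1)) K) := Cfsg.Agent.S0249.result _ hn
  have h2 : Finite (Matrix.ProjectiveSpecialLinearGroup (Fin (k + 1)) K) := Quotient.finite _
  exact (H763.ClassSimple.hasRank_PSL k).isSimple (by omega)
    (fun S => H802.groupFusionSystem_isSaturated S) S

end Cfsg.Agent.S5163
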