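import Cfsg.Statements.S5164
import Cfsg.Agent.H761.SylowAlt

set_option autoImplicit false
open Cfsg

namespace Cfsg.Agent.S5164

open Equiv Equiv.Perm Cfsg.Agent.H761 Cfsg.Agent.H761.Frame

/-- For n ≥ 6 and a prime p, a nontrivial Sylow p-subgroup of the alternating group of degree n is abelian if and only if n < p². -/
theorem result (n p : ℕ) (hn : 6 ≤ n) [Fact p.Prime] (S : Sylow p (alternatingGroup (Fin n))) (hS : (S : Subgroup (alternatingGroup (Fin n))) ≠ ⊥) : IsMulCommutative S ↔ n < p ^ 2 := by
  have hp : p.Prime := Fact.out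
  have hr : n % p < p := Nat.mod_lt _ hp.pos
  have hα : Fintype.card (Fin n) = p * Fintype.card (Fin (n / p)) + n % p := by
    rw [Fintype.card_fin, Fintype.card_fin]
    exact (Nat.div_add_mod n p).symm
  constructor
  · intro hcomm
    by_contra hlt
    push Not at hlt
    -- there are at least three blocks and at least `p` blocks
    have hm : p ≤ n / p := by
      rw [Nat.le_div_iff_mul_le hp.pos]
      nlinarith
    have hm3 : 3 ≤ n / p := by
      rcases hp.eq_two_or_odd' with h2 | h2
      · subst h2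
        omega
      · have : p ≠ 1 := hp.one_lt.ne'
        have : p ≠ 2 := by
          rintro rfl
          exact absurd h2 (by decide)
        have := hp.two_le
        omega
    -- a Sylow subgroup of the group of permutations of the blocks is not trivial
    obtain ⟨P⟩ : Nonempty (Sylow p (Perm (Fin (n / p)))) := inferInstance
    have hP : p ∣ Nat.card P := by
      rw [P.card_eq_multiplicity]
      apply dvd_pow_self
      have h1 : p ∣ Nat.card (Perm (Fin (n / p))) := by
        rw [Nat.card_perm, Nat.card_eq_fintype_card, Fintype.card_fin]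
        exact (Nat.Prime.dvd_factorial hp).2 hm
      exact (hp.factorization_pos_of_dvd Nat.card_pos.ne' h1).ne'
    obtain ⟨σ, hσ, hσ1⟩ : ∃ σ ∈ (P : Subgroup (Perm (Fin (n / p)))), σ ≠ 1 := by
      by_contra hc
      push Not at hc
      have h1 : (P : Subgroup (Perm (Fin (n / p)))) = ⊥ := by
        rw [Subgroup.eq_bot_iff_forall]
        exact hc
      have h2 : Nat.card P = 1 := by
        show Nat.card (P : Subgroup (Perm (Fin (n / p)))) = 1
        rw [h1, Subgroup.card_bot]
      rw [h2] at hP
      exact hp.one_lt.ne' (Nat.dvd_one.1 hP)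
    obtain ⟨i, hi⟩ : ∃ i, σ i ≠ i := by
      by_contra hc
      push Not at hc
      exact hσ1 (Equiv.ext hc)
    obtain ⟨j, hj⟩ : ∃ j, j ∉ ({i, σ i} : Finset (Fin (n / p))) := by
      by_contra hc
      push Not at hc
      have h1 : (Finset.univ : Finset (Fin (n / p))) ⊆ {i, σ i} := fun x _ => hc x
      have h2 := Finset.card_le_card h1
      rw [Finset.card_univ, Fintype.card_fin] at h2
      have h3 := Finset.card_le_two (a := i) (b := σ i)
      omega
    rw [Finset.mem_insert, Finset.mem_singleton, not_or] at hj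
    obtain ⟨ι, hι⟩ := exists_frame hr hα P S
    set f : Fin (n / p) → ZMod p := Pi.single i 1 - Pi.single j 1 with hf
    have hx : (⟨T ι (tr f), T_tr_sub_mem ι i j⟩ : alternatingGroup (Fin n)) ∈ S := by
      show _ ∈ (S : Subgroup (alternatingGroup (Fin n)))
      rw [hι, Subgroup.mem_subgroupOf]
      exact tr_mem_wr ι P f
    have hy : (⟨T ι (bl σ), T_bl_mem ι P.isPGroup' hσ⟩ : alternatingGroup (Fin n)) ∈ S := by
      show _ ∈ (S : Subgroup (alternatingGroup (Fin n)))
      rw [hι, Subgroup.mem_subgroupOf]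
      exact bl_mem_wr ι hσ
    have h1 := hcomm.is_comm.comm (⟨_, hx⟩ : S) ⟨_, hy⟩
    have h2 : T ι (tr f) * T ι (bl σ) = T ι (bl σ) * T ι (tr f) :=
      congrArg (fun z : S => ((z : alternatingGroup (Fin n)) : Perm (Fin n))) h1
    rw [← map_mul, ← map_mul] at h2
    have h3 := T_injective ι h2
    have h4 : (bl σ : Perm (Fin (n / p) × ZMod p)) * tr f * (bl σ)⁻¹ = tr f := by
      rw [mul_inv_eq_iff_eq_mul, h3]
    rw [bl_tr] at h4
    have h5 := congrFun (tr_injective h4) (σ i)
    rw [Function.comp_apply, symm_apply_apply, hf, Pi.sub_apply, Pi.sub_apply, Pi.single_eq_same,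
      Pi.single_eq_of_ne (Ne.symm hj.1), Pi.single_eq_of_ne hi, Pi.single_eq_of_ne (Ne.symm hj.2)] at h5
    simp at h5
  · intro hlt
    have hm : n / p < p := by
      rw [Nat.div_lt_iff_lt_mul hp.pos]
      nlinarith
    obtain ⟨P⟩ : Nonempty (Sylow p (Perm (Fin (n / p)))) := inferInstance
    have hP1 : (P : Subgroup (Perm (Fin (n / p)))) = ⊥ := by
      rw [← Subgroup.card_eq_one]
      show Nat.card P = 1
      rw [P.card_eq_multiplicity]
      have h1 : ¬ p ∣ Nat.card (Perm (Fin (n / p))) := by
        rw [Nat.card_perm, Nat.card_eq_fintype_card, Fintype.card_fin]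
        intro h
        have := (Nat.Prime.dvd_factorial hp).1 h
        omega
      rw [Nat.factorization_eq_zero_of_not_dvd h1, pow_zero]
    obtain ⟨ι, hι⟩ := exists_frame hr hα P S
    have key : ∀ x ∈ S, ∃ f : Fin (n / p) → ZMod p, (x : Perm (Fin n)) = T ι (tr f) := by
      intro x hx
      have h1 : x ∈ (S : Subgroup (alternatingGroup (Fin n))) := hx
      rw [hι, Subgroup.mem_subgroupOf] at h1
      obtain ⟨f, σ, hσ, h2⟩ := h1
      rw [hP1, Subgroup.mem_bot] at hσ
      exact ⟨f, by rw [h2, hσ, bl_one, mul_one]⟩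
    refine ⟨⟨fun x y => ?_⟩⟩
    obtain ⟨f, hf⟩ := key x x.2
    obtain ⟨g, hg⟩ := key y y.2
    apply Subtype.ext
    apply Subtype.ext
    show ((x : alternatingGroup (Fin n)) : Perm (Fin n)) * ((y : alternatingGroup (Fin n)) : Perm (Fin n)) =
      ((y : alternatingGroup (Fin n)) : Perm (Fin n)) * ((x : alternatingGroup (Fin n)) : Perm (Fin n))
    rw [hf, hg, ← map_mul, ← map_mul, tr_comm]

end Cfsg.Agent.S5164
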