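import Cfsg.Statements.S5165
import Cfsg.Agent.H761.OddE
import Cfsg.Agent.H761.OddClosed
import Cfsg.Agent.H799.SymSyl
import Cfsg.Agent.H187.FusSelfNorm
import Cfsg.Agent.ClosedAlt.Alt

set_option autoImplicit false
open Cfsg

namespace Cfsg.Agent.S5165

open Equiv Equiv.Perm Cfsg.Agent.H761 Cfsg.Agent.H761.Frame Cfsg.Agent.H802

theorem sylow_ne_bot (n p : ℕ) (hn : 6 ≤ n) [Fact p.Prime] (hnp : p ^ 2 ≤ n)
    (S : Sylow p (alternatingGroup (Fin n))) : (S : Subgroup (alternatingGroup (Fin n))) ≠ ⊥ := by
  have hp : p.Prime := Fact.out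
  intro h
  have h1 : Nat.card S = 1 := by
    show Nat.card (S : Subgroup (alternatingGroup (Fin n))) = 1
    rw [h, Subgroup.card_bot]
  rw [S.card_eq_multiplicity] at h1
  have h2 : p ∣ Nat.card (alternatingGroup (Fin n)) := by
    have h3 : 2 * Nat.card (alternatingGroup (Fin n)) = n.factorial := by
      have hnt : Nontrivial (Fin n) := Fin.nontrivial_iff_two_le.2 (by omega)
      rw [two_mul_nat_card_alternatingGroup, Nat.card_perm, Nat.card_eq_fintype_card, Fintype.card_fin]
    rcases hp.eq_two_or_odd' with h2 | h2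
    · subst h2
      have h4 : 4 ∣ n.factorial := Nat.dvd_factorial (by norm_num) (by omega)
      omega
    · have h4 : p ∣ n.factorial := (Nat.Prime.dvd_factorial hp).2 (by nlinarith [hp.two_le])
      rw [← h3] at h4
      rcases (Nat.Prime.dvd_mul hp).1 h4 with h5 | h5
      · have := (Nat.prime_dvd_prime_iff_eq hp Nat.prime_two).1 h5
        subst this
        exact absurd h2 (by decide)
      · exact h5
  have h3 := hp.factorization_pos_of_dvd Nat.card_pos.ne' h2
  have h4 := Nat.one_lt_pow h3.ne' hp.one_lt
  omega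

/-- For n ≥ 6, a prime p with p² ≤ n, and n congruent to 0 or 1 modulo p, the p-fusion system of the alternating group of degree n on a Sylow p-subgroup is simple. -/
theorem result (n p : ℕ) (hn : 6 ≤ n) [Fact p.Prime] (hnp : p ^ 2 ≤ n) (hb : n % p ≤ 1) (S : Sylow p (alternatingGroup (Fin n))) : (Cfsg.groupFusionSystem (S : Subgroup (alternatingGroup (Fin n)))).IsSimple p := by
  have hp : p.Prime := Fact.out
  have hne := sylow_ne_bot n p hn hnp S
  by_cases hp2 : p = 2
  · subst hp2
    refine Cfsg.Agent.H187.FusSelfNorm.isSimple S ?_ hne ?_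
    · intro g hg
      have h1 := Cfsg.Agent.H799.SymSyl.normalizer_alt (α := Fin n) (by rw [Fintype.card_fin]; exact hn) S
      have h2 : g ∈ Subgroup.normalizer ((S : Subgroup (alternatingGroup (Fin n))) : Set (alternatingGroup (Fin n))) := by
        have h3 : (S : Subgroup (alternatingGroup (Fin n))).map (MulAut.conj g).toMonoidHom =
            (S : Subgroup (alternatingGroup (Fin n))) := by
          apply Subgroup.eq_of_le_of_card_ge
          · rintro _ ⟨x, hx, rfl⟩
            exact hg x hx
          · rw [card_map_conj]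
        rw [Subgroup.mem_normalizer_iff]
        intro x
        refine ⟨fun hx => hg x hx, fun hx => ?_⟩
        have hx' : g * x * g⁻¹ ∈ (S : Subgroup (alternatingGroup (Fin n))).map (MulAut.conj g).toMonoidHom := by
          rw [h3]
          exact hx
        obtain ⟨y, hy, hyx⟩ := hx'
        have h4 : g * y * g⁻¹ = g * x * g⁻¹ := hyx
        have h5 : y = x := mul_left_cancel (mul_right_cancel h4)
        rw [← h5]
        exact hy
      rw [h1] at h2
      exact ⟨g, h2, fun _ _ => rfl⟩
    · intro T hT
      exact Cfsg.Agent.ClosedAlt.closed_alternating S T (Cfsg.Agent.H187.FusSelfNorm.stronglyClosed_iff.1 hT)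
  · have hodd : Odd p := hp.odd_of_ne_two hp2
    have hp3 : 3 ≤ p := by
      have := hp.two_le
      omega
    have hm : p ≤ n / p := by
      rw [Nat.le_div_iff_mul_le hp.pos]
      nlinarith
    have hr : n % p < p := Nat.mod_lt _ hp.pos
    obtain ⟨j, hj⟩ : ∃ j, n / p = p + j := ⟨n / p - p, by omega⟩
    have hI : Fintype.card (ZMod p ⊕ Fin j) = n / p := by
      rw [Fintype.card_sum, ZMod.card, Fintype.card_fin, hj]
    have hα : Fintype.card (Fin n) = p * Fintype.card (ZMod p ⊕ Fin j) + n % p := by
      rw [Fintype.card_fin, hI]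
      exact (Nat.div_add_mod n p).symm
    obtain ⟨P, hP⟩ := (isPGroup_shQ (J := Fin j) (p := p)).exists_le_sylow
    obtain ⟨ι, hι⟩ := exists_frame hr hα P S
    have hSyl : SylIn p (S : Subgroup (alternatingGroup (Fin n))) ⊤ := sylIn_top_of_sylow S
    have hout : ∀ y z : Fin n, y ∉ Set.range ι → z ∉ Set.range ι → y = z := by
      intro y z hy hz
      by_contra hyz
      have h1 : (Finset.univ.map ι).card = p * (n / p) := by
        rw [Finset.card_map, Finset.card_univ, Fintype.card_prod, hI, ZMod.card, mul_comm]
      have h2 : Disjoint (Finset.univ.map ι) {y, z} := by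
        rw [Finset.disjoint_left]
        intro a ha ha'
        rw [Finset.mem_map] at ha
        obtain ⟨x, -, rfl⟩ := ha
        rw [Finset.mem_insert, Finset.mem_singleton] at ha'
        rcases ha' with h | h
        · exact hy ⟨x, h⟩
        · exact hz ⟨x, h⟩
      have h3 : (Finset.univ.map ι ∪ {y, z}).card ≤ n := by
        have := Finset.card_le_univ (Finset.univ.map ι ∪ {y, z})
        rwa [Fintype.card_fin] at this
      rw [Finset.card_union_of_disjoint h2, h1, Finset.card_pair hyz] at h3
      have h4 := Nat.div_add_mod n p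
      omega
    refine isSimple_of_normalizer_le (Cfsg.Agent.H802.groupFusionSystem_isSaturated S) hne ?_ ?_
    · intro D hD
      have hD' := Cfsg.Agent.H187.FusSelfNorm.stronglyClosed_iff.1 hD
      exact closed_odd (I := ZMod p ⊕ Fin j) (S := S) hD' hp2 hr hα (by rw [hI]; omega)
    · intro E hE hEF
      exact normalizer_le_Nn hp2 hout hP P.isPGroup' hι hSyl hE hEF

end Cfsg.Agent.S5165
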