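import Cfsg.Statements.S5168
import Cfsg.Agent.H868.FusSimple
import Cfsg.Agent.H868.ClosedMM
import Cfsg.Agent.QTNorm.SporM22S

set_option autoImplicit false
open Cfsg

namespace Cfsg.Agent.S5168

/-- The 2-fusion system of the Mathieu group M₂₂ (as the explicit permutation group carved out of the automorphism group of the binary Golay code) on a Sylow 2-subgroup is simple: saturated, over a nontrivial 2-group, with no normal subsystem other than the trivial one and itself. -/
theorem result (S : Sylow 2 Cfsg.Spor.M22) : (Cfsg.groupFusionSystem (S : Subgroup Cfsg.Spor.M22)).IsSimple 2 := by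
  have hc := Cfsg.Agent.SporadicA.MathieuRecog.card_M22
  have hf : Finite Cfsg.Spor.M22 := Nat.finite_of_card_ne_zero (by rw [hc]; norm_num)
  refine Cfsg.Agent.H868.FusSimple.isSimple_of S ?_ (Cfsg.Agent.H868.ClosedMM.closed22 S) (Cfsg.Agent.QTNorm.selfN_M22 S)
  rw [hc]
  norm_num

end Cfsg.Agent.S5168
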