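import Cfsg.Statements.S5172
import Cfsg.Agent.H763.ClassSimple
import Cfsg.Agent.H802.FusGroup

set_option autoImplicit false
open Cfsg

namespace Cfsg.Agent.S5172

/-- For a finite field K with q² elements of characteristic p and n ≥ 4, the p-fusion system of the projective special unitary group PSU_n(q) (realised over K) on a Sylow p-subgroup is simple. -/
theorem result {K : Type*} [Field K] [Fintype K] (p q : ℕ) [Fact p.Prime] [CharP K p] (hK : Fintype.card K = q ^ 2) (n : ℕ) (hn : 4 ≤ n) (S : Sylow p (Cfsg.PSU n K q)) : (Cfsg.groupFusionSystem (S : Subgroup (Cfsg.PSU n K q))).IsSimple p := by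
  have h1 : IsSimpleGroup (Cfsg.PSU n K q) := Cfsg.Agent.S0283.result hK n (by omega) (by omega)
  have h2 : Finite (Cfsg.PSU n K q) := Quotient.finite _
  exact (H763.ClassSimple.hasRank_PSU (m := n / 2) hK (by omega) (by omega)).isSimple (by omega)
    (fun S => H802.groupFusionSystem_isSaturated S) S

end Cfsg.Agent.S5172
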