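import Cfsg.Statements.S5362
import Cfsg.Agent.H807.Quot
import Cfsg.Agent.H807.Ident
import Cfsg.Agent.H807.AutCases
import Cfsg.Agent.Fischer480.AllPieces

set_option autoImplicit false
open scoped MatrixGroups
open Cfsg

namespace Cfsg.Agent.S5362

open Cfsg.Agent.H807.Tri Cfsg.Agent.H807.Excl Cfsg.Agent.H807.Quot Cfsg.Agent.H807.AutCases

/-- the conclusion in terms of an isomorphism of `L` with a central quotient -/
theorem finish {G : Type*} [Group G] [Finite G] {D : Set G} {L : Subgroup G} (C : Cfg D L) [L.Normal] {p : ℕ}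
    (hp : p = 2 ∨ p = 3) [Fact p.Prime] {N : ℕ} (hN : 7 ≤ N) (h2 : p = 2 → Even N)
    (Q : QuadraticForm (ZMod p) (Fin N → ZMod p)) (hQ : Cfsg.Agent.LieClassical.OrthCore.Nondeg Q)
    (e : ↥L ≃* POmega (ZMod p) (⇑Q)) :
    Nonempty (G ⧸ L ≃* Equiv.Perm (Fin 3)) ∧ (Nonempty (L ≃* Cfsg.Omega (ZMod 2) (Cfsg.quadFormPlus 4 (ZMod 2))) ∨ Nonempty (L ≃* Cfsg.POmega (ZMod 3) (Cfsg.quadFormPlus 4 (ZMod 3)))) := by
  have h6 := six_dvd C
  rcases aut_cases p hN h2 Q hQ with e' | ⟨k, hk⟩
  · obtain ⟨e'⟩ := e'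
    have e1 := e.trans e'
    rcases hp with rfl | rfl
    · have h7 := card_quot_dvd C (c := 6) (by
        rw [card_mulAut_congr e1, Nat.card_congr e1.toEquiv]; exact card_aut_two)
      obtain ⟨e2⟩ := omega_eight_two
      exact ⟨equiv_of_card C (Nat.dvd_antisymm h7 h6), Or.inl ⟨e1.trans e2⟩⟩
    · have h7 := card_quot_dvd C (c := 24) (by
        rw [card_mulAut_congr e1, Nat.card_congr e1.toEquiv]; exact card_aut_three)
      obtain ⟨k, hk⟩ := card_dvd C
      refine ⟨equiv_of_card C ?_, Or.inr ⟨e1⟩⟩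
      obtain ⟨m, hm⟩ := h6
      rw [hm] at h7 hk ⊢
      have h8 : m ∣ 4 := by
        have : 6 * m ∣ 6 * 4 := h7
        exact Nat.dvd_of_mul_dvd_mul_left (by norm_num) this
      have h9 : m ∣ 3 ^ k := by
        have h10 : 2 * (3 * m) ∣ 2 * 3 ^ k := by
          have : 2 * (3 * m) = 6 * m := by ring
          rw [this]; exact hk
        have h11 := Nat.dvd_of_mul_dvd_mul_left (by norm_num) h10
        exact (Dvd.intro_left 3 rfl).trans h11
      have h12 : Nat.Coprime 4 (3 ^ k) := Nat.Coprime.pow_right _ (by norm_num)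
      have h13 := Nat.dvd_gcd h8 h9
      rw [h12] at h13
      have h14 := Nat.dvd_one.1 h13
      omega
  · exfalso
    have h7 := card_quot_dvd C (c := 2 ^ k) (by
        rw [card_mulAut_congr e, Nat.card_congr e.toEquiv]; exact hk)
    have h8 : 3 ∣ 2 ^ k := (by norm_num : 3 ∣ 6).trans (h6.trans h7)
    have h9 := Nat.prime_three.dvd_of_dvd_pow h8
    omega

/-- Let D be a conjugacy class of 3-transpositions generating the finite group G, with trivial centre and trivial largest normal 2- and 3-subgroups, and suppose the commuting graph of D is not connected. Let F be the generalized Fitting subgroup of G. Then G/F is isomorphic to the symmetric group of degree 3, and F is isomorphic either to the commutator subgroup of the isometry group of the hyperbolic quadratic form in dimension 8 over the field with two elements, or to the commutator subgroup of the isometry group of the hyperbolic quadratic form in dimension 8 over the field with three elements modulo its centre. -/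
theorem result {G : Type*} [Group G] [Finite G] {D : Set G} (hD : Cfsg.IsThreeTranspositionClass D) (hZ : Subgroup.center G = ⊥) (h2 : Cfsg.pCore 2 G = ⊥) (h3 : Cfsg.pCore 3 G = ⊥) (hdisc : ¬ (Cfsg.commutingGraph D).Connected) (F : Subgroup G) [F.Normal] (hF : F = Cfsg.generalizedFittingSubgroup G) : Nonempty (G ⧸ F ≃* Equiv.Perm (Fin 3)) ∧ (Nonempty (F ≃* Cfsg.Omega (ZMod 2) (Cfsg.quadFormPlus 4 (ZMod 2))) ∨ Nonempty (F ≃* Cfsg.POmega (ZMod 3) (Cfsg.quadFormPlus 4 (ZMod 3)))) := by
  have C := exists_cfg hD hZ h2 h3 hdisc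
  rw [← hF] at C
  obtain ⟨d, hd, -⟩ := hD.2.1
  rcases Cfsg.Agent.Fischer480.AllPieces.inList (C.fgroup hd) with
    ⟨n, hn, h⟩ | ⟨n, hn, h⟩ | ⟨n, hn, h⟩ | ⟨n, hn, h⟩ | ⟨n, hn, h⟩ | h | h | h
  · exact (not_isSym C hd hn h).elim
  · exact (not_isSp C hd hn h).elim
  · rcases Nat.eq_or_lt_of_le hn with rfl | hn'
    · exact (Cfsg.Agent.H807.IdO.not_isO_three C hd h).elim
    · have : Fact (Nat.Prime 2) := ⟨Nat.prime_two⟩
      obtain ⟨Q, hQ, ⟨e⟩⟩ := Cfsg.Agent.H807.Ident.pomega_of_isO C hd hn h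
      exact finish C (Or.inl rfl) (by omega) (fun _ => even_two_mul n) Q hQ e
  · exact (not_isU C hd hn h).elim
  · rcases Nat.eq_or_lt_of_le hn with rfl | hn'
    · exact (Cfsg.Agent.H807.IdR.not_isR_six C hd h).elim
    · have : Fact (Nat.Prime 3) := ⟨Nat.prime_three⟩
      obtain ⟨Q, hQ, ⟨e⟩⟩ := Cfsg.Agent.H807.Ident.pomega_of_isR C hd hn h
      exact finish C (Or.inr rfl) (by omega) (fun h => absurd h (by norm_num)) Q hQ e
  · exact (not_isT6 C hd h).elim
  · exact (not_isT7 C hd h).elim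
  · exact (not_isT8 C hd h).elim

end Cfsg.Agent.S5362
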