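import Cfsg.Statements.S5363

set_option autoImplicit false
open Cfsg

namespace Cfsg.Agent.S5363

/-- In the dihedral group generated by two involutions `a`, `b` with `orderOf (a * b) = 2 * m`, the element
`a * (a * b) ^ m` is conjugate to `a` or `b`. -/
theorem mul_pow_mem {G : Type*} [Group G] {D : Set G}
    (hconj : ∀ g : G, ∀ d ∈ D, g * d * g⁻¹ ∈ D) {a b : G} (ha : a ∈ D) (hb : b ∈ D)
    (ha2 : a * a = 1) (hb2 : b * b = 1) (m : ℕ) : a * (a * b) ^ m ∈ D := by
  have haI : a⁻¹ = a := inv_eq_of_mul_eq_one_right ha2
  have hbI : b⁻¹ = b := inv_eq_of_mul_eq_one_right hb2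
  have hA : ∀ k : ℕ, ((a * b) ^ k)⁻¹ * a = a * (a * b) ^ k := by
    intro k
    have h1 : a * (a * b) * a⁻¹ = (a * b)⁻¹ := by
      rw [mul_inv_rev, haI, hbI, ← mul_assoc, ha2, one_mul]
    have h2 : a * (a * b) ^ k * a⁻¹ = ((a * b) ^ k)⁻¹ := by
      rw [← conj_pow, h1, inv_pow]
    rw [← h2]
    group
  have hB : ∀ k : ℕ, ((a * b) ^ k)⁻¹ * b = b * (a * b) ^ k := by
    intro k
    have h1 : b * (a * b) * b⁻¹ = (a * b)⁻¹ := by
      rw [mul_inv_rev, haI, hbI, mul_assoc, mul_assoc, hb2, mul_one]
    have h2 : b * (a * b) ^ k * b⁻¹ = ((a * b) ^ k)⁻¹ := by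
      rw [← conj_pow, h1, inv_pow]
    rw [← h2]
    group
  rcases Nat.even_or_odd' m with ⟨k, rfl | rfl⟩
  · have := hconj ((a * b) ^ k)⁻¹ a ha
    rw [hA, inv_inv] at this
    rw [two_mul, pow_add, ← mul_assoc]
    exact this
  · have := hconj ((a * b) ^ k)⁻¹ b hb
    rw [hB, inv_inv] at this
    have h : a * (a * b) ^ (2 * k + 1) = b * (a * b) ^ k * (a * b) ^ k := by
      rw [pow_succ', two_mul, pow_add]
      calc a * (a * b * ((a * b) ^ k * (a * b) ^ k)) = (a * a) * (b * (a * b) ^ k * (a * b) ^ k) := by
            simp only [mul_assoc]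
        _ = _ := by rw [ha2, one_mul]
    rw [h]
    exact this

/-- Let D be a conjugation-invariant set of involutions of a finite group G. Then every product of two members of D has odd order or order 2 if and only if, for every a in D and every b in D different from a and commuting with a, the members of D commuting with a b are exactly those commuting with both a and b. -/
theorem result {G : Type*} [Group G] [Finite G] {D : Set G} (hinv : ∀ d ∈ D, orderOf d = 2) (hconj : ∀ g : G, ∀ d ∈ D, g * d * g⁻¹ ∈ D) : (∀ a ∈ D, ∀ b ∈ D, Odd (orderOf (a * b)) ∨ orderOf (a * b) = 2) ↔ ∀ a ∈ D, ∀ b ∈ D, b ≠ a → Commute a b → {y : G | y ∈ D ∧ Commute (a * b) y} = {y : G | y ∈ D ∧ Commute a y} ∩ {y : G | y ∈ D ∧ Commute b y} := by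
  have hsq : ∀ x ∈ D, x * x = 1 := fun x hx => by
    have := pow_orderOf_eq_one x
    rwa [hinv x hx, pow_two] at this
  have hinv' : ∀ x ∈ D, x⁻¹ = x := fun x hx => inv_eq_of_mul_eq_one_right (hsq x hx)
  have hcomm : ∀ x ∈ D, ∀ y ∈ D, (x * y) ^ 2 = 1 → Commute x y := by
    intro x hx y hy h
    have hx1 := hinv' x hx
    have hy1 := hinv' y hy
    rw [pow_two] at h
    have h2 := eq_inv_of_mul_eq_one_left h
    rw [mul_inv_rev, hx1, hy1] at h2
    exact h2
  constructor
  · intro h a ha b hb hba hab
    ext y
    simp only [Set.mem_ofPred_eq, Set.mem_inter_iff]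
    constructor
    · rintro ⟨hy, hc⟩
      suffices hay : Commute a y by
        refine ⟨⟨hy, hay⟩, hy, ?_⟩
        have hbe : b = a * (a * b) := by rw [← mul_assoc, hsq a ha, one_mul]
        rw [hbe]
        exact hay.mul_left hc
      rcases h a ha y hy with h1 | h1
      · -- odd order
        set z := a * b with hz
        have haz : Commute a z := (Commute.refl a).mul_right hab
        have hz2 : z * z = 1 := by
          rw [hz]
          calc a * b * (a * b) = a * (b * a) * b := by group
            _ = a * (a * b) * b := by rw [hab.eq]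
            _ = (a * a) * (b * b) := by group
            _ = 1 := by rw [hsq a ha, hsq b hb, one_mul]
        -- z commutes with a*y
        have hzay : Commute (a * y) z := haz.mul_left hc.symm
        -- y * z ∈ D
        obtain ⟨k, hk⟩ := h1
        -- (a*y)^(2k+1) = 1; conj of a by (a*y)^k...
        have hpow : (a * y) ^ (2 * k + 1) = 1 := by rw [← hk]; exact pow_orderOf_eq_one _
        have hay1 : a * (a * y) * a⁻¹ = (a * y)⁻¹ := by
          rw [mul_inv_rev, hinv' a ha, hinv' y hy, ← mul_assoc, hsq a ha, one_mul]
        have hconja : (a * y) ^ k * a * ((a * y) ^ k)⁻¹ = y := by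
          have h2 : a * (a * y) ^ k * a⁻¹ = ((a * y) ^ k)⁻¹ := by
            rw [← conj_pow, hay1, inv_pow]
          have h3 : a * ((a * y) ^ k)⁻¹ = (a * y) ^ k * a := by
            rw [← h2, hinv' a ha]
            calc a * (a * (a * y) ^ k * a) = (a * a) * ((a * y) ^ k * a) := by group
              _ = _ := by rw [hsq a ha, one_mul]
          rw [mul_assoc, h3, ← mul_assoc, ← pow_add, ← two_mul]
          have h4 : (a * y) ^ (2 * k) = y * a := by
            have h5 : (a * y) ^ (2 * k) * (a * y) = 1 := by rw [← pow_succ]; exact hpow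
            rw [eq_inv_of_mul_eq_one_left h5, mul_inv_rev, hinv' a ha, hinv' y hy]
          rw [h4, mul_assoc, hsq a ha, mul_one]
        have hbz : b = a * z := by rw [hz, ← mul_assoc, hsq a ha, one_mul]
        have hyz : y * z ∈ D := by
          have h6 := hconj ((a * y) ^ k) b hb
          have h7 : (a * y) ^ k * b * ((a * y) ^ k)⁻¹ = y * z := by
            have h8 : Commute ((a * y) ^ k)⁻¹ z := (hzay.pow_left k).inv_left
            calc (a * y) ^ k * b * ((a * y) ^ k)⁻¹
                = (a * y) ^ k * a * (z * ((a * y) ^ k)⁻¹) := by rw [hbz]; group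
              _ = (a * y) ^ k * a * (((a * y) ^ k)⁻¹ * z) := by rw [h8.eq]
              _ = ((a * y) ^ k * a * ((a * y) ^ k)⁻¹) * z := by group
              _ = y * z := by rw [hconja]
          rw [h7] at h6
          exact h6
        -- order of a * (y*z)
        have hz1 : z ≠ 1 := by
          intro h0
          apply hba
          have : a * b = 1 := h0
          have h9 := eq_inv_of_mul_eq_one_right this
          rw [h9, hinv' a ha]
        have hord : (a * (y * z)) ^ (2 * k + 1) = z := by
          rw [← mul_assoc, hzay.mul_pow, hpow, one_mul, pow_succ, pow_mul, pow_two, hz2, one_pow, one_mul]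
        rcases h a ha (y * z) hyz with h10 | h10
        · -- odd order impossible
          exfalso
          apply hz1
          have h11 : orderOf z ∣ orderOf (a * (y * z)) := by
            conv_lhs => rw [← hord]
            exact orderOf_pow_dvd _
          have h12 : orderOf z ∣ 2 := orderOf_dvd_of_pow_eq_one (by rw [pow_two, hz2])
          have h13 : Odd (orderOf z) := Odd.of_dvd_nat h10 h11
          rcases (Nat.dvd_prime Nat.prime_two).mp h12 with h14 | h14
          · exact orderOf_eq_one_iff.mp h14
          · rw [h14] at h13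
            exact absurd h13 (by decide)
        · have h11 : (a * (y * z)) ^ 2 = 1 := by rw [← h10]; exact pow_orderOf_eq_one _
          rw [← mul_assoc, hzay.mul_pow, pow_two z, hz2, mul_one] at h11
          exact hcomm a ha y hy h11
      · exact hcomm a ha y hy (by rw [← h1]; exact pow_orderOf_eq_one _)
    · rintro ⟨⟨hy, h1⟩, -, h2⟩
      exact ⟨hy, h1.mul_left h2⟩
  · intro h a ha b hb
    rcases Nat.even_or_odd' (orderOf (a * b)) with ⟨m, hm | hm⟩
    · right
      have hpos : 0 < orderOf (a * b) := orderOf_pos _
      by_contra hne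
      set z := (a * b) ^ m with hz
      have hz2 : z * z = 1 := by
        rw [hz, ← pow_add, ← two_mul, ← hm]
        exact pow_orderOf_eq_one _
      have hz1 : z ≠ 1 := by
        intro h0
        have h1 := orderOf_dvd_of_pow_eq_one h0
        have h2 := Nat.le_of_dvd (by omega) h1
        omega
      have hazD : a * z ∈ D := mul_pow_mem hconj ha hb (hsq a ha) (hsq b hb) m
      have hza : Commute a z := by
        have h1 : a * (a * b) * a⁻¹ = (a * b)⁻¹ := by
          rw [mul_inv_rev, hinv' a ha, hinv' b hb, ← mul_assoc, hsq a ha, one_mul]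
        have h2 : a * (a * b) ^ m * a⁻¹ = ((a * b) ^ m)⁻¹ := by
          rw [← conj_pow, h1, inv_pow]
        have h3 : z⁻¹ = z := inv_eq_of_mul_eq_one_right hz2
        have h4 : a * z * a⁻¹ = z := by rw [hz, h2, ← hz, h3]
        exact mul_inv_eq_iff_eq_mul.mp h4
      have hzab : Commute z (a * b) := (Commute.refl (a * b)).pow_left m
      have hzb : Commute z b := by
        have : b = a * (a * b) := by rw [← mul_assoc, hsq a ha, one_mul]
        rw [this]
        exact hza.symm.mul_right hzab
      have hne2 : a * z ≠ a := by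
        intro h0
        exact hz1 (mul_eq_left.mp h0)
      have h5 := h a ha (a * z) hazD hne2 ((Commute.refl a).mul_right hza)
      have h6 : b ∈ {y : G | y ∈ D ∧ Commute (a * (a * z)) y} := by
        refine ⟨hb, ?_⟩
        rw [← mul_assoc, hsq a ha, one_mul]
        exact hzb
      rw [h5] at h6
      have h7 : Commute a b := h6.1.2
      apply hne
      have h8 : (a * b) ^ 2 = 1 := by
        rw [h7.mul_pow, pow_two, pow_two, hsq a ha, hsq b hb, one_mul]
      have h9 : orderOf (a * b) ∣ 2 := orderOf_dvd_of_pow_eq_one h8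
      rcases (Nat.dvd_prime Nat.prime_two).mp h9 with h10 | h10
      · omega
      · exact h10
    · left
      exact ⟨m, hm⟩

end Cfsg.Agent.S5363
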