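import Cfsg.Statements.S5364

set_option autoImplicit false
open Cfsg

namespace Cfsg.Agent.S5364

/-- Let D be a conjugation-invariant set of involutions of a finite group G and t an involution in the centre of G such that d t does not lie in D for any d in D. If the images of the members of D in G modulo the subgroup generated by t satisfy the 3-transposition order conditions (each has order 2 and any two have product of order at most 3), then so do the members of D. -/
theorem result {G : Type*} [Group G] [Finite G] {D : Set G} (hinv : ∀ d ∈ D, orderOf d = 2) (hconj : ∀ g : G, ∀ d ∈ D, g * d * g⁻¹ ∈ D) (t : G) (ht : orderOf t = 2) (htZ : t ∈ Subgroup.center G) (hDt : ∀ d ∈ D, d * t ∉ D) [(Subgroup.zpowers t).Normal] (himg : Cfsg.IsThreeTranspositionSet ((QuotientGroup.mk : G → G ⧸ Subgroup.zpowers t) '' D)) : Cfsg.IsThreeTranspositionSet D := by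
  refine ⟨hinv, fun d hd e he => ?_⟩
  have hsq : ∀ x ∈ D, x * x = 1 := fun x hx => by
    have := pow_orderOf_eq_one x
    rwa [hinv x hx, pow_two] at this
  have hinv' : ∀ x ∈ D, x⁻¹ = x := fun x hx => inv_eq_of_mul_eq_one_right (hsq x hx)
  have htt : t * t = 1 := by
    have := pow_orderOf_eq_one t
    rwa [ht, pow_two] at this
  have hmem : ∀ x : G, x ∈ Subgroup.zpowers t → x = 1 ∨ x = t := by
    intro x hx
    obtain ⟨k, rfl⟩ := Subgroup.mem_zpowers_iff.mp hx
    rcases Int.even_or_odd' k with ⟨m, rfl | rfl⟩
    · left
      rw [zpow_mul]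
      norm_num [pow_two, htt, zpow_ofNat]
    · right
      rw [zpow_add, zpow_mul]
      norm_num [pow_two, htt, zpow_ofNat]
  have hde := himg.2 _ ⟨d, hd, rfl⟩ _ ⟨e, he, rfl⟩
  have hd1 := hsq d hd
  have he1 := hsq e he
  have h1 : ((d : G ⧸ Subgroup.zpowers t) * (e : G ⧸ Subgroup.zpowers t)) = ((d * e : G) : G ⧸ Subgroup.zpowers t) := rfl
  rcases hde with h | h
  · have h2 : (((d * e) ^ 2 : G) : G ⧸ Subgroup.zpowers t) = 1 := h
    rw [QuotientGroup.eq_one_iff] at h2
    rcases hmem _ h2 with h3 | h3
    · exact Or.inl h3
    · exfalso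
      apply hDt d hd
      have := hconj e d hd
      rw [hinv' e he] at this
      have h4 : d * t = e * d * e := by
        rw [← h3, pow_two]
        calc d * (d * e * (d * e)) = (d * d) * (e * d * e) := by group
          _ = e * d * e := by rw [hd1, one_mul]
      rw [h4]
      exact this
  · have h2 : (((d * e) ^ 3 : G) : G ⧸ Subgroup.zpowers t) = 1 := h
    rw [QuotientGroup.eq_one_iff] at h2
    rcases hmem _ h2 with h3 | h3
    · exact Or.inr h3
    · exfalso
      apply hDt d hd
      have := hconj (e * d) e he
      rw [mul_inv_rev, hinv' e he, hinv' d hd] at this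
      have h4 : d * t = e * d * e * (d * e) := by
        rw [← h3]
        calc d * (d * e) ^ 3 = (d * d) * (e * d * e * (d * e)) := by
              simp only [pow_succ, pow_zero, one_mul, mul_assoc]
          _ = _ := by rw [hd1, one_mul]
      rw [h4]
      exact this

end Cfsg.Agent.S5364
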