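import Cfsg.Statements.S5366

set_option autoImplicit false
open Cfsg

namespace Cfsg.Agent.S5366

open Cfsg.LineSystem

section Base

variable {X : Type*} {L : Set (Set X)}

/-- a line with two distinct points `x, y` is `{x, y, z}` for a third point -/
theorem exists_third (h3 : ∀ l ∈ L, l.ncard = 3) {l : Set X} (hl : l ∈ L) {x y : X} (hxy : x ≠ y)
    (hx : x ∈ l) (hy : y ∈ l) : ∃ z, z ≠ x ∧ z ≠ y ∧ l = {x, y, z} := by
  obtain ⟨p, q, r, hpq, hpr, hqr, rfl⟩ := Set.ncard_eq_three.1 (h3 l hl)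
  simp only [Set.mem_insert_iff, Set.mem_singleton_iff] at hx hy
  rcases hx with rfl | rfl | rfl <;> rcases hy with rfl | rfl | rfl
  all_goals first | exact absurd rfl hxy | skip
  · exact ⟨r, hpr.symm, hqr.symm, rfl⟩
  · refine ⟨q, hpq.symm, hqr, ?_⟩
    ext u; simp only [Set.mem_insert_iff, Set.mem_singleton_iff]; tauto
  · refine ⟨r, hqr.symm, hpr.symm, ?_⟩
    ext u; simp only [Set.mem_insert_iff, Set.mem_singleton_iff]; tauto
  · refine ⟨p, hpq, hpr, ?_⟩
    ext u; simp only [Set.mem_insert_iff, Set.mem_singleton_iff]; tauto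
  · refine ⟨q, hqr, hpq.symm, ?_⟩
    ext u; simp only [Set.mem_insert_iff, Set.mem_singleton_iff]; tauto
  · refine ⟨p, hpr, hpq, ?_⟩
    ext u; simp only [Set.mem_insert_iff, Set.mem_singleton_iff]; tauto

theorem third_unique (hpl : IsPartialLinear L) {x y z z' : X} (hxy : x ≠ y) (hzx : z ≠ x)
    (hzy : z ≠ y) (_ : z' ≠ x) (_ : z' ≠ y)
    (h : ({x, y, z} : Set X) ∈ L) (h' : ({x, y, z'} : Set X) ∈ L) : z = z' := by
  have he := hpl _ h _ h' x y hxy (by simp) (by simp) (by simp) (by simp)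
  have : z ∈ ({x, y, z'} : Set X) := by rw [← he]; simp
  simp only [Set.mem_insert_iff, Set.mem_singleton_iff] at this
  rcases this with h1 | h1 | h1
  · exact absurd h1 hzx
  · exact absurd h1 hzy
  · exact h1

/-- `lineMap` on a collinear point -/
theorem lineMap_eq (hpl : IsPartialLinear L) {x y z : X} (hxy : x ≠ y) (hzx : z ≠ x)
    (hzy : z ≠ y) (h : ({x, y, z} : Set X) ∈ L) : lineMap L x y = z := by
  have hex : ∃ z : X, z ≠ x ∧ z ≠ y ∧ x ≠ y ∧ ({x, y, z} : Set X) ∈ L := ⟨z, hzx, hzy, hxy, h⟩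
  unfold lineMap
  rw [dif_pos hex]
  have hs := hex.choose_spec
  exact third_unique hpl hxy hs.1 hs.2.1 hzx hzy hs.2.2.2 h

/-- `lineMap` on a line through `x` -/
theorem lineMap_mem (hpl : IsPartialLinear L) (h3 : ∀ l ∈ L, l.ncard = 3) {l : Set X} (hl : l ∈ L)
    {x y : X} (hxy : x ≠ y) (hx : x ∈ l) (hy : y ∈ l) :
    lineMap L x y ∈ l ∧ lineMap L x y ≠ x ∧ lineMap L x y ≠ y ∧ l = {x, y, lineMap L x y} := by
  obtain ⟨z, hzx, hzy, rfl⟩ := exists_third h3 hl hxy hx hy
  rw [lineMap_eq hpl hxy hzx hzy hl]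
  exact ⟨by simp, hzx, hzy, rfl⟩

/-- `lineMap` on a non-collinear point -/
theorem lineMap_not {x y : X} (h : ∀ l ∈ L, x ∈ l → y ∈ l → x = y) : lineMap L x y = y := by
  unfold lineMap
  rw [dif_neg]
  rintro ⟨z, _, _, hxy, hl⟩
  exact hxy (h _ hl (by simp) (by simp))

theorem lineMap_self (x : X) : lineMap L x x = x := by
  unfold lineMap
  rw [dif_neg]
  rintro ⟨z, _, _, hxy, _⟩
  exact hxy rfl

theorem lineMap_lineMap (hpl : IsPartialLinear L) (h3 : ∀ l ∈ L, l.ncard = 3) (x y : X) :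
    lineMap L x (lineMap L x y) = y := by
  by_cases hxy : x = y
  · subst hxy; rw [lineMap_self, lineMap_self]
  by_cases h : ∃ l ∈ L, x ∈ l ∧ y ∈ l
  · obtain ⟨l, hl, hx, hy⟩ := h
    obtain ⟨h1, h2, h4, h5⟩ := lineMap_mem hpl h3 hl hxy hx hy
    refine lineMap_eq hpl h2.symm (Ne.symm hxy) h4.symm ?_
    rw [h5] at hl
    convert hl using 1
    ext u; simp only [Set.mem_insert_iff, Set.mem_singleton_iff]; tauto
  · have : lineMap L x y = y := lineMap_not fun l hl hx hy => absurd ⟨l, hl, hx, hy⟩ h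
    rw [this, this]

/-- the symmetric third point map -/
theorem lineMap_comm (hpl : IsPartialLinear L) (h3 : ∀ l ∈ L, l.ncard = 3) {l : Set X} (hl : l ∈ L)
    {x y : X} (hxy : x ≠ y) (hx : x ∈ l) (hy : y ∈ l) : lineMap L x y = lineMap L y x := by
  obtain ⟨h1, h2, h4, h5⟩ := lineMap_mem hpl h3 hl hxy hx hy
  obtain ⟨h1', h2', h4', h5'⟩ := lineMap_mem hpl h3 hl hxy.symm hy hx
  refine third_unique hpl hxy h2 h4 h4' h2' (h5 ▸ hl) ?_
  rw [h5'] at hl
  convert hl using 1
  ext u; simp only [Set.mem_insert_iff, Set.mem_singleton_iff]; tauto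

/-- the permutation `t(x)` -/
noncomputable def tPerm (hpl : IsPartialLinear L) (h3 : ∀ l ∈ L, l.ncard = 3) (x : X) :
    Equiv.Perm X where
  toFun := lineMap L x
  invFun := lineMap L x
  left_inv := lineMap_lineMap hpl h3 x
  right_inv := lineMap_lineMap hpl h3 x

end Base

/-- A line system in which each point has a "third point map" that respects lines. -/
def HasThird {Y : Type*} (M : Set (Set Y)) : Prop :=
  ∀ x : Y, ∃ τ : Y → Y, (∀ q, (∀ m ∈ M, x ∈ m → q ∈ m → x = q) → τ q = q) ∧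
    (∀ m ∈ M, x ∈ m → ∀ q ∈ m, q ≠ x → τ q ∈ m ∧ τ q ≠ x ∧ τ q ≠ q) ∧ (τ x = x) ∧
    ∀ m ∈ M, τ '' m ∈ M

/-- the transposition on the points of the dual affine plane -/
def dualMap (s : DualAffinePoint) (t : DualAffinePoint) : DualAffinePoint :=
  if h : (symmDiff s.1 t.1).card = 2 then ⟨symmDiff s.1 t.1, h⟩ else t

theorem hasThird_dual : HasThird dualAffinePlaneTwo := by
  intro s
  refine ⟨dualMap s, ?_, ?_, ?_, ?_⟩
  · intro q hq
    have hq' : ∀ i : Fin 4, i ∉ s.1 → i ∉ q.1 → s = q := by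
      intro i h1 h2
      exact hq _ ⟨i, rfl⟩ h1 h2
    have key : ∀ s q : DualAffinePoint, (∀ i : Fin 4, i ∉ s.1 → i ∉ q.1 → s = q) →
      dualMap s q = q := by decide
    exact key s q hq'
  · rintro _ ⟨i, rfl⟩ hs q hq hne
    have hs' : i ∉ s.1 := hs
    have hq' : i ∉ q.1 := hq
    have key1 : ∀ s q : DualAffinePoint, ∀ i : Fin 4, i ∉ s.1 → i ∉ q.1 → q ≠ s →
      (i ∉ (dualMap s q).1) := by decide
    have key2 : ∀ s q : DualAffinePoint, ∀ i : Fin 4, i ∉ s.1 → i ∉ q.1 → q ≠ s →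
      (dualMap s q ≠ s) := by decide
    have key3 : ∀ s q : DualAffinePoint, ∀ i : Fin 4, i ∉ s.1 → i ∉ q.1 → q ≠ s →
      (dualMap s q ≠ q) := by decide
    exact ⟨key1 s q i hs' hq' hne, key2 s q i hs' hq' hne, key3 s q i hs' hq' hne⟩
  · revert s; decide
  · rintro _ ⟨i, rfl⟩
    have key : ∀ s : DualAffinePoint, ∀ i : Fin 4, ∃ j : Fin 4, ∀ t : DualAffinePoint,
      (i ∉ (dualMap s t).1 ↔ j ∉ t.1) := by decide
    have hinv : ∀ s t : DualAffinePoint, dualMap s (dualMap s t) = t := by decide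
    obtain ⟨j, hj⟩ := key s i
    refine ⟨j, ?_⟩
    ext t
    simp only [Set.mem_image, Set.mem_ofPred_eq]
    constructor
    · rintro ⟨u, hu, rfl⟩
      rw [← hj, hinv]
      exact hu
    · intro ht
      exact ⟨dualMap s t, (hj t).2 ht, hinv s t⟩

theorem hasThird_affine : HasThird affinePlaneThree := by
  intro x
  refine ⟨fun y => -x - y, ?_, ?_, ?_, ?_⟩
  · intro q hq
    by_cases hxq : x = q
    · subst hxq
      have h3 : (3 : ZMod 3) = 0 := by decide
      show -x - x = x
      have : (3 : ZMod 3) • x = 0 := by rw [h3, zero_smul]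
      have h2 : x + x + x = 0 := by
        rw [← this]; ext i; simp only [Pi.add_apply, Pi.smul_apply, smul_eq_mul]; ring
      rw [sub_eq_iff_eq_add, neg_eq_iff_add_eq_zero]
      rw [← h2]; abel
    · exfalso
      apply hxq
      apply hq {z | ∃ c : ZMod 3, z = x + c • (q - x)} ⟨x, q - x, sub_ne_zero.2 (Ne.symm hxq), rfl⟩
      · exact ⟨0, by simp⟩
      · exact ⟨1, by simp⟩
  · rintro _ ⟨v, w, hw, rfl⟩ ⟨c, hc⟩ q ⟨d, hd⟩ hne
    have hcd : c ≠ d := by rintro rfl; exact hne (by rw [hc, hd])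
    have h3 : ∀ z : ZMod 3, z + z + z = 0 := by decide
    have h3' : ∀ z : Fin 2 → ZMod 3, z + z + z = 0 := fun z => by ext i; exact h3 _
    refine ⟨⟨-c - d, ?_⟩, ?_, ?_⟩
    · show -x - q = v + (-c - d) • w
      rw [hc, hd]
      have := h3' v
      rw [sub_smul, neg_smul]
      have h5 : v = -v - v := by
        rw [eq_sub_iff_add_eq, eq_neg_iff_add_eq_zero]; exact this
      calc -(v + c • w) - (v + d • w) = (-v - v) + (-(c • w) - d • w) := by abel
        _ = v + (-(c • w) - d • w) := by rw [← h5]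
    · intro h
      apply hne
      have h' : -x - q = x := h
      rw [sub_eq_iff_eq_add, neg_eq_iff_add_eq_zero] at h'
      have h4 := h3' x
      have : x + (x + q) = x + x + x := by rw [h', h4]
      have h6 : x + (x + q) = x + (x + x) := by rw [this]; abel
      exact add_left_cancel (add_left_cancel h6)
    · intro h
      apply hne
      have h' : -x - q = q := h
      rw [sub_eq_iff_eq_add, neg_eq_iff_add_eq_zero] at h'
      have h4 := h3' q
      have h6 : x + (q + q) = q + (q + q) := by rw [h', ← add_assoc, h4]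
      exact (add_right_cancel h6).symm
  · show -x - x = x
    have h3 : ∀ z : ZMod 3, z + z + z = 0 := by decide
    have h3' : ∀ z : Fin 2 → ZMod 3, z + z + z = 0 := fun z => by ext i; exact h3 _
    rw [sub_eq_iff_eq_add, neg_eq_iff_add_eq_zero]
    rw [← h3' x]; abel
  · rintro _ ⟨v, w, hw, rfl⟩
    refine ⟨-x - v, -w, neg_ne_zero.2 hw, ?_⟩
    ext z
    simp only [Set.mem_image, Set.mem_ofPred_eq]
    constructor
    · rintro ⟨_, ⟨c, rfl⟩, rfl⟩
      exact ⟨c, by rw [smul_neg]; abel⟩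
    · rintro ⟨c, rfl⟩
      exact ⟨v + c • w, ⟨c, rfl⟩, by rw [smul_neg]; abel⟩

section Auto

variable {X : Type*} {L : Set (Set X)}

/-- transport of the third point map -/
theorem image_mem_of_iso (hpl : IsPartialLinear L) (h3 : ∀ l ∈ L, l.ncard = 3)
    {S : Set X} (hS : IsSubspace L S) {Y : Type*} {M : Set (Set Y)} (hM : HasThird M)
    (hiso : Isomorphic (restrict L S) M) {x : X} (hx : x ∈ S) {l : Set X} (hl : l ∈ L)
    (hlS : l ⊆ S) : lineMap L x '' l ∈ L := by
  obtain ⟨e, he⟩ := hiso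
  obtain ⟨τ, h1, h2, h4, h5⟩ := hM (e ⟨x, hx⟩)
  -- the map on S
  have key : ∀ p : S, lineMap L x (p : X) = (e.symm (τ (e p)) : S) := by
    intro p
    by_cases hxp : x = (p : X)
    · have : p = ⟨x, hx⟩ := Subtype.ext hxp.symm
      rw [this, h4, Equiv.symm_apply_apply, lineMap_self]
    by_cases hcol : ∃ m ∈ L, x ∈ m ∧ (p : X) ∈ m
    · obtain ⟨m, hm, hxm, hpm⟩ := hcol
      have hmS : m ⊆ S := hS m hm x hx p p.2 hxp hxm hpm
      have hmr : {y : S | (y : X) ∈ m} ∈ restrict L S := ⟨m, hm, hmS, rfl⟩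
      have hmM := (he _).1 hmr
      have hxM : e ⟨x, hx⟩ ∈ e '' {y : S | (y : X) ∈ m} := ⟨⟨x, hx⟩, hxm, rfl⟩
      have hpM : e p ∈ e '' {y : S | (y : X) ∈ m} := ⟨p, hpm, rfl⟩
      have hpx : e p ≠ e ⟨x, hx⟩ := fun h => hxp (by rw [e.injective h])
      obtain ⟨h6, h7, h8⟩ := h2 _ hmM hxM _ hpM hpx
      obtain ⟨u, hu, hue⟩ := h6
      rw [← hue, Equiv.symm_apply_apply]
      have hux : (u : X) ≠ x := by
        intro h
        apply h7
        rw [← hue]
        congr 1
        exact Subtype.ext h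
      have hup : (u : X) ≠ p := by
        intro h
        apply h8
        rw [← hue]
        congr 1
        exact Subtype.ext h
      obtain ⟨g1, g2, g3, g4⟩ := lineMap_mem hpl h3 hm hxp hxm hpm
      have hum : (u : X) ∈ m := hu
      rw [g4] at hum
      simp only [Set.mem_insert_iff, Set.mem_singleton_iff] at hum
      rcases hum with h | h | h
      · exact absurd h hux
      · exact absurd h hup
      · exact h.symm
    · rw [lineMap_not fun m hm hxm hpm => absurd ⟨m, hm, hxm, hpm⟩ hcol]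
      rw [h1 (e p), Equiv.symm_apply_apply]
      intro m hm hxm hpm
      exfalso
      apply hcol
      have hm' : m = e '' (e ⁻¹' m) := by rw [Set.image_preimage_eq _ e.surjective]
      have hmr : e ⁻¹' m ∈ restrict L S := (he _).2 (hm' ▸ hm)
      obtain ⟨k, hk, hkS, hkm⟩ := hmr
      refine ⟨k, hk, ?_, ?_⟩
      · have : (⟨x, hx⟩ : S) ∈ e ⁻¹' m := hxm
        rw [hkm] at this
        exact this
      · have : p ∈ e ⁻¹' m := hpm
        rw [hkm] at this
        exact this
  have hlr : {y : S | (y : X) ∈ l} ∈ restrict L S := ⟨l, hl, hlS, rfl⟩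
  have hlM := h5 _ ((he _).1 hlr)
  set m := τ '' (e '' {y : S | (y : X) ∈ l}) with hmdef
  have hm' : m = e '' (e ⁻¹' m) := by rw [Set.image_preimage_eq _ e.surjective]
  have hmr : e ⁻¹' m ∈ restrict L S := (he _).2 (hm' ▸ hlM)
  obtain ⟨k, hk, hkS, hkm⟩ := hmr
  have : lineMap L x '' l = k := by
    ext z
    constructor
    · rintro ⟨y, hy, rfl⟩
      have := key ⟨y, hlS hy⟩
      change lineMap L x y = _ at this
      rw [this]
      have h6 : e.symm (τ (e ⟨y, hlS hy⟩)) ∈ e ⁻¹' m := by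
        show e (e.symm _) ∈ m
        rw [Equiv.apply_symm_apply]
        exact ⟨_, ⟨_, hy, rfl⟩, rfl⟩
      rw [hkm] at h6
      exact h6
    · intro hz
      have h6 : (⟨z, hkS hz⟩ : S) ∈ e ⁻¹' m := by rw [hkm]; exact hz
      obtain ⟨_, ⟨y, hy, rfl⟩, h7⟩ := h6
      refine ⟨y, hy, ?_⟩
      rw [key y, h7, Equiv.symm_apply_apply]
  rw [this]
  exact hk

theorem span_isSubspace (A : Set X) : IsSubspace L (span L A) := by
  intro l hl x hx y hy hxy hxl hyl
  intro z hz
  rw [span, Set.mem_sInter]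
  intro T hT
  rw [span, Set.mem_sInter] at hx hy
  exact hT.2 l hl x (hx T hT) y (hy T hT) hxy hxl hyl hz

theorem subset_span (A : Set X) : A ⊆ span L A := by
  intro z hz
  rw [span, Set.mem_sInter]
  intro T hT
  exact hT.1 hz

theorem image_line (hL : IsFischerSpace L) (x : X) {l : Set X} (hl : l ∈ L) :
    lineMap L x '' l ∈ L := by
  obtain ⟨hpl, h3, hplane⟩ := hL
  by_cases hcol : ∃ y ∈ l, ∃ m ∈ L, x ∈ m ∧ y ∈ m ∧ x ≠ y
  · obtain ⟨y, hy, m, hm, hxm, hym, hxy⟩ := hcol
    by_cases hlm : l = m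
    · subst hlm
      have : lineMap L x '' l = l := by
        ext z
        constructor
        · rintro ⟨u, hu, rfl⟩
          by_cases hxu : x = u
          · subst hxu; rw [lineMap_self]; exact hxm
          · exact (lineMap_mem hpl h3 hl hxu hxm hu).1
        · intro hz
          refine ⟨lineMap L x z, ?_, lineMap_lineMap hpl h3 x z⟩
          by_cases hxz : x = z
          · subst hxz; rw [lineMap_self]; exact hxm
          · exact (lineMap_mem hpl h3 hl hxz hxm hz).1
      rw [this]; exact hl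
    · have hsub := subset_span (L := L) (l ∪ m)
      rcases hplane l hl m hm hlm ⟨y, hy, hym⟩ with h | h
      · exact image_mem_of_iso hpl h3 (span_isSubspace _) hasThird_dual h
          (hsub (Or.inr hxm)) hl fun z hz => hsub (Or.inl hz)
      · exact image_mem_of_iso hpl h3 (span_isSubspace _) hasThird_affine h
          (hsub (Or.inr hxm)) hl fun z hz => hsub (Or.inl hz)
  · have : lineMap L x '' l = l := by
      have hfix : ∀ u ∈ l, lineMap L x u = u := by
        intro u hu
        apply lineMap_not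
        intro m hm hxm hum
        by_contra hxu
        exact hcol ⟨u, hu, m, hm, hxm, hum, hxu⟩
      ext z
      constructor
      · rintro ⟨u, hu, rfl⟩
        rw [hfix u hu]; exact hu
      · intro hz
        exact ⟨z, hz, hfix z hz⟩
    rw [this]; exact hl

theorem isIso_tPerm (hL : IsFischerSpace L) (x : X) :
    IsIso L L (tPerm hL.1 hL.2.1 x) := by
  intro l
  constructor
  · intro hl
    exact image_line hL x hl
  · intro hl
    have := image_line hL x hl
    have h2 : lineMap L x '' (tPerm hL.1 hL.2.1 x '' l) = l := by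
      rw [← Set.image_comp]
      have : (lineMap L x ∘ tPerm hL.1 hL.2.1 x) = id := by
        funext z
        exact lineMap_lineMap hL.1 hL.2.1 x z
      rw [this, Set.image_id]
    rw [h2] at this
    exact this

/-- automorphisms permute the `t(x)` -/
theorem conj_lineMap (hpl : IsPartialLinear L) (h3 : ∀ l ∈ L, l.ncard = 3) {σ : Equiv.Perm X}
    (hσ : IsIso L L σ) (x y : X) : σ (lineMap L x y) = lineMap L (σ x) (σ y) := by
  by_cases hxy : x = y
  · subst hxy; rw [lineMap_self, lineMap_self]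
  by_cases hcol : ∃ m ∈ L, x ∈ m ∧ y ∈ m
  · obtain ⟨m, hm, hxm, hym⟩ := hcol
    obtain ⟨g1, g2, g3, g4⟩ := lineMap_mem hpl h3 hm hxy hxm hym
    symm
    refine lineMap_eq hpl (fun h => hxy (σ.injective h)) (fun h => g2 (σ.injective h))
      (fun h => g3 (σ.injective h)) ?_
    have := (hσ m).1 hm
    rw [g4] at this
    rw [Set.image_insert_eq, Set.image_insert_eq, Set.image_singleton] at this
    exact this
  · rw [lineMap_not fun m hm hxm hpm => absurd ⟨m, hm, hxm, hpm⟩ hcol]
    rw [lineMap_not]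
    intro m hm hxm hym
    exfalso
    apply hcol
    refine ⟨σ ⁻¹' m, ?_, hxm, hym⟩
    rw [hσ, Set.image_preimage_eq _ σ.surjective]
    exact hm

theorem tPerm_conj (hL : IsFischerSpace L) (x y : X) :
    tPerm hL.1 hL.2.1 x * tPerm hL.1 hL.2.1 y * tPerm hL.1 hL.2.1 x =
      tPerm hL.1 hL.2.1 (lineMap L x y) := by
  ext z
  show lineMap L x (lineMap L y (lineMap L x z)) = lineMap L (lineMap L x y) z
  have := conj_lineMap hL.1 hL.2.1 (isIso_tPerm hL x) y (lineMap L x z)
  change lineMap L x (lineMap L y (lineMap L x z)) =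
    lineMap L (lineMap L x y) (lineMap L x (lineMap L x z)) at this
  rw [this, lineMap_lineMap hL.1 hL.2.1]

theorem tPerm_sq (hL : IsFischerSpace L) (x : X) :
    tPerm hL.1 hL.2.1 x * tPerm hL.1 hL.2.1 x = 1 := by
  ext z
  exact lineMap_lineMap hL.1 hL.2.1 x z

theorem tPerm_ne_one (hL : IsFischerSpace L) (hnd : IsNondegenerate L) (x : X) :
    tPerm hL.1 hL.2.1 x ≠ 1 := by
  intro h
  obtain ⟨l, hl, hx⟩ := hnd x
  have h3 := hL.2.1 l hl
  obtain ⟨p, q, r, hpq, hpr, hqr, rfl⟩ := Set.ncard_eq_three.1 h3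
  have : ∃ y ∈ ({p, q, r} : Set X), x ≠ y := by
    by_cases hxp : x = p
    · exact ⟨q, by simp, by rw [hxp]; exact hpq⟩
    · exact ⟨p, by simp, hxp⟩
  obtain ⟨y, hy, hxy⟩ := this
  have h5 := lineMap_mem hL.1 hL.2.1 hl hxy hx hy
  apply h5.2.2.1
  have := congrArg (fun σ : Equiv.Perm X => σ y) h
  exact this

end Auto

/-- Let L be a nondegenerate Fischer space on the point type X (every point on a line). Then for every point x the map t(x) — sending a point collinear with x to the third point of their common line and fixing every other point — is a permutation of X of order 2 and an automorphism of the line system; and the set of all t(x) satisfies the 3-transposition order conditions in the permutation group of X (any two have product of order at most 3). -/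
theorem result {X : Type*} (L : Set (Set X)) (hL : Cfsg.IsFischerSpace L) (hnd : Cfsg.LineSystem.IsNondegenerate L) : (∀ x : X, ∃ σ : Equiv.Perm X, ⇑σ = Cfsg.LineSystem.lineMap L x ∧ orderOf σ = 2 ∧ Cfsg.LineSystem.IsIso L L σ) ∧ Cfsg.IsThreeTranspositionSet {σ : Equiv.Perm X | ∃ x : X, ⇑σ = Cfsg.LineSystem.lineMap L x} := by
  have hord : ∀ x, orderOf (tPerm hL.1 hL.2.1 x) = 2 := fun x =>
    orderOf_eq_prime (by rw [pow_two]; exact tPerm_sq hL x) (tPerm_ne_one hL hnd x)
  refine ⟨fun x => ⟨tPerm hL.1 hL.2.1 x, rfl, hord x, isIso_tPerm hL x⟩, ?_, ?_⟩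
  · rintro σ ⟨x, hx⟩
    have : σ = tPerm hL.1 hL.2.1 x := by
      ext z; rw [hx]; rfl
    rw [this]; exact hord x
  · rintro σ ⟨x, hx⟩ τ ⟨y, hy⟩
    have h1 : σ = tPerm hL.1 hL.2.1 x := by
      ext z; rw [hx]; rfl
    have h2 : τ = tPerm hL.1 hL.2.1 y := by
      ext z; rw [hy]; rfl
    rw [h1, h2]
    have hsx := tPerm_sq hL x
    have hsy := tPerm_sq hL y
    have hcx := tPerm_conj hL x y
    have hcy := tPerm_conj hL y x
    by_cases hxy : x = y
    · left
      rw [hxy, hsy, one_pow]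
    by_cases hcol : ∃ m ∈ L, x ∈ m ∧ y ∈ m
    · right
      obtain ⟨m, hm, hxm, hym⟩ := hcol
      have hc := lineMap_comm hL.1 hL.2.1 hm hxy hxm hym
      rw [← hc, ← hcx] at hcy
      calc (tPerm hL.1 hL.2.1 x * tPerm hL.1 hL.2.1 y) ^ 3
          = (tPerm hL.1 hL.2.1 x * tPerm hL.1 hL.2.1 y * tPerm hL.1 hL.2.1 x) *
            (tPerm hL.1 hL.2.1 y * tPerm hL.1 hL.2.1 x * tPerm hL.1 hL.2.1 y) := by
              simp only [pow_succ, pow_zero, one_mul, mul_assoc]
        _ = tPerm hL.1 hL.2.1 (lineMap L x y) * tPerm hL.1 hL.2.1 (lineMap L x y) := by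
              rw [hcy, hcx]
        _ = 1 := tPerm_sq hL _
    · left
      have hxy' : lineMap L x y = y :=
        lineMap_not fun m hm hxm hpm => absurd ⟨m, hm, hxm, hpm⟩ hcol
      rw [hxy'] at hcx
      calc (tPerm hL.1 hL.2.1 x * tPerm hL.1 hL.2.1 y) ^ 2
          = (tPerm hL.1 hL.2.1 x * tPerm hL.1 hL.2.1 y * tPerm hL.1 hL.2.1 x) *
            tPerm hL.1 hL.2.1 y := by
              simp only [pow_succ, pow_zero, one_mul, mul_assoc]
        _ = 1 := by rw [hcx, hsy]

end Cfsg.Agent.S5366
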