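-- Proof of statement S5369.
import Cfsg.Statements.S5369
import Cfsg.Agent.H805.PrimCase

set_option autoImplicit false
open scoped MatrixGroups
open Cfsg

namespace Cfsg.Agent.S5369

/-- Let D be a conjugation-invariant generating set of 3-transpositions of the finite group G on which G acts primitively by conjugation, with trivial centre; let d be a member of D commuting with some other member of D (width at least 2), and let H be the subgroup generated by the members of D other than d commuting with d; suppose the largest normal 3-subgroup and the largest normal 2-subgroup of H are central in H. Then one of the following holds: G is isomorphic to a symmetric group of degree at least 7 with D going to the transpositions; G is isomorphic to the full isometry group of a hyperbolic or elliptic quadratic form in dimension at least 6 over the field with two elements with D going to the orthogonal transvections; G is isomorphic to the reflection group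 of a non-degenerate quadratic form in dimension at least 5 over the field with three elements for one non-zero norm, modulo its centre, with D going to the images of those reflections; or G with D is of type M(22), M(23) or M(24). -/
theorem result {G : Type*} [Group G] [Finite G] {D : Set G} (hD : Cfsg.IsThreeTranspositionGroup D) (hprim : Cfsg.IsPrimitiveUnderConj D) (hZ : Subgroup.center G = ⊥) (d : G) (hd : d ∈ D) (hw : ∃ b ∈ D, b ≠ d ∧ Commute d b) (h3 : Cfsg.pCore 3 ↥(Subgroup.closure {y : G | y ∈ D ∧ y ≠ d ∧ Commute d y}) ≤ Subgroup.center ↥(Subgroup.closure {y : G | y ∈ D ∧ y ≠ d ∧ Commute d y})) (h2 : Cfsg.pCore 2 ↥(Subgroup.closure {y : G | y ∈ D ∧ y ≠ d ∧ Commute d y}) ≤ Subgroup.center ↥(Subgroup.closure {y : G | y ∈ D ∧ y ≠ d ∧ Commute d y})) : (∃ n : ℕ, 7 ≤ n ∧ ∃ e : G ≃* Equiv.Perm (Fin n), e '' D = {σ : Equiv.Perm (Fin n) | σ.IsSwap}) ∨ ((∃ m : ℕ, 3 ≤ m ∧ ∃ e : G ≃* ↥(Cfsg.isometryGroup (ZMod 2) (Cfsg.quadFormPlus m (ZMod 2))), e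 '' D = {g : ↥(Cfsg.isometryGroup (ZMod 2) (Cfsg.quadFormPlus m (ZMod 2))) | (((g : GL (Fin m ⊕ Fin m) (ZMod 2)) : Matrix (Fin m ⊕ Fin m) (Fin m ⊕ Fin m) (ZMod 2)) - 1).rank = 1}) ∨ (∃ m : ℕ, 2 ≤ m ∧ ∃ e : G ≃* ↥(Cfsg.isometryGroup (ZMod 2) (Cfsg.quadFormMinus m (ZMod 2) 1 1)), e '' D = {g : ↥(Cfsg.isometryGroup (ZMod 2) (Cfsg.quadFormMinus m (ZMod 2) 1 1)) | (((g : GL ((Fin m ⊕ Fin m) ⊕ Fin 2) (ZMod 2)) : Matrix ((Fin m ⊕ Fin m) ⊕ Fin 2) ((Fin m ⊕ Fin m) ⊕ Fin 2) (ZMod 2)) - 1).rank = 1})) ∨ (∃ n : ℕ, 5 ≤ n ∧ ∃ Q : QuadraticForm (ZMod 3) (Fin n → ZMod 3), (QuadraticMap.polarBilin Q).Nondegenerate ∧ ∃ c : ZMod 3, c ≠ 0 ∧ ∃ e : G ≃* ↥(Cfsg.reflectionSubgroup (⇑Q) c) ⧸ Subgroup.center ↥(Cfsg.reflectionSubgroup (⇑Q) c), e '' D = (QuotientGroup.mk : ↥(Cfsg.reflectionSubgroup (⇑Q) c) → _) '' {g : ↥(Cfsg.reflectionSubgroup (⇑Q) c) | (g : ↥(Cfsg.isometryGroup (ZMod 3) (⇑Q))) ∈ Cfsg.reflectionsOfNorm (⇑Q) c}) ∨ (Cfsg.IsOfTypeM22 G D ∨ Cfsg.IsOfTypeM23 G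 D ∨ Cfsg.IsOfTypeM24 G D) := by
  have hC := Cfsg.Agent.H805.PrimCase.class_of_prim hD hprim
  have hw' : ∃ a ∈ D, ∃ b ∈ D, a ≠ b ∧ Commute a b := by
    obtain ⟨b, hb, hbd, hdb⟩ := hw
    exact ⟨d, hd, b, hb, hbd.symm, hdb⟩
  have hs := Cfsg.Agent.H805.PrimSimple.simple_of_primitive hC hZ hw' hprim
  rcases Cfsg.Agent.H805.FG.fgroup_or_three hC hZ hs with F | ⟨e, he⟩
  · have R := Cfsg.Agent.Fischer891.Cases.rk_of_fgroup F
    have fd := R.fd
    have I := Cfsg.Agent.TSp.OrdersT.inh F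
    have ht := Cfsg.Agent.Fischer160.Piece.thinLines_of_pCore R hd h2
    rcases Cfsg.Agent.Fischer480.AllPieces.inList F with ⟨n, hn, h⟩ | ⟨n, hn, h⟩ | ⟨n, hn, h⟩ |
      ⟨n, hn, h⟩ | ⟨n, hn, h⟩ | h | h | h
    · have h5 : n ≠ 5 := by
        rintro rfl
        exact Cfsg.Agent.H805.PrimCase.not_symFive fd hd h3 h
      have h6 : n ≠ 6 := by
        rintro rfl
        exact Cfsg.Agent.H805.PrimCase.not_symSix ht h
      exact Or.inl ⟨n, by omega, Cfsg.Agent.H805.MSym.exists_iso_perm fd hZ hn h⟩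
    · exact absurd h (Cfsg.Agent.H805.PrimCase.not_sp ht hw')
    · exact Or.inr (Or.inl (Cfsg.Agent.H805.MOrth.exists_iso_orth fd hZ hn h))
    · exact absurd h (Cfsg.Agent.H805.PrimCase.not_isU ht hw')
    · exact Or.inr (Or.inr (Or.inl
        ⟨n, by omega, Cfsg.Agent.H805.Main.exists_iso_isR fd hZ hn h⟩))
    · exact Or.inr (Or.inr (Or.inr (Or.inl (Cfsg.Agent.H805.MTypes.m22_of_isT6 I h))))
    · exact Or.inr (Or.inr (Or.inr (Or.inr (Or.inl
        (Cfsg.Agent.H805.MTypes.m23_of_isT7 I h)))))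
    · exact Or.inr (Or.inr (Or.inr (Or.inr (Or.inr
        (Cfsg.Agent.H805.MTwentyFour.m24_of_isT8 I h)))))
  · exfalso
    obtain ⟨a, ha, b, hb, hab, hcom⟩ := hw'
    have h1 : (e a).IsSwap := by
      have : e a ∈ e '' D := ⟨a, ha, rfl⟩
      rw [he] at this
      exact this
    have h2 : (e b).IsSwap := by
      have : e b ∈ e '' D := ⟨b, hb, rfl⟩
      rw [he] at this
      exact this
    have h3 : e a * e b = e b * e a := by rw [← map_mul, hcom.eq, map_mul]
    have h4 : e a = e b := by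
      obtain ⟨i, j, hij, h5⟩ := h1
      obtain ⟨k, l, hkl, h6⟩ := h2
      rw [h5, h6] at h3 ⊢
      clear h5 h6
      revert i j k l
      decide
    exact hab (e.injective h4)

end Cfsg.Agent.S5369
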