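import Cfsg.Statements.S5380
import Cfsg.Agent.S1719
import Cfsg.Agent.SuzThree.Final
import Cfsg.Agent.H811.CovMain
import Cfsg.Agent.H811.SuzCov
import Cfsg.Agent.H811.SuzYZero
import Cfsg.Agent.H811.PsuH
import Cfsg.Agent.ChevalleyStructure.FieldIso

set_option autoImplicit false
open Cfsg

namespace Cfsg.Agent.S5380

/-- Let G be a finite group of Suzuki sporadic type (involution z with generalized Fitting subgroup Q of its centralizer C extraspecial of order 2^7, C/Q the commutator subgroup of the isometry group of the elliptic quadratic form in dimension 6 over the field with two elements, z not weakly closed in Q), and let Y be a subgroup of C of order 3 whose commutator subgroup with Q is non-abelian of order 8 (a quaternion group). Then the centralizer of Y in G is quasisimple, its quotient by Y is isomorphic to the projective special unitary group of dimension 4 over the field with nine elements, and the centralizer of Y has index 2 in the normalizer of Y.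 -/
theorem result {G : Type*} [Group G] [Finite G] (z : G) (hz : orderOf z = 2) (Q : Subgroup (Subgroup.centralizer ({z} : Set G))) [Q.Normal] (hF : Cfsg.generalizedFittingSubgroup (Subgroup.centralizer ({z} : Set G)) = Q) (hQ : Cfsg.IsExtraspecial 2 Q) (hcard : Nat.card Q = 2 ^ 7) (e : (Subgroup.centralizer ({z} : Set G)) ⧸ Q ≃* Cfsg.Omega (ZMod 2) (Cfsg.quadFormMinus 2 (ZMod 2) 1 1)) (hnwc : ∃ g : G, (∃ hq : g * z * g⁻¹ ∈ Subgroup.centralizer ({z} : Set G), (⟨g * z * g⁻¹, hq⟩ : Subgroup.centralizer ({z} : Set G)) ∈ Q) ∧ g * z * g⁻¹ ≠ z) (Y : Subgroup (Subgroup.centralizer ({z} : Set G))) (hY : Nat.card Y = 3) (hQY : Nat.card ↥⁅Q, Y⁆ = 8) (hQYna : ¬ IsMulCommutative ↥⁅Q, Y⁆) [((Y.map (Subgroup.subtype (Subgroup.centralizer ({z} : Set G)))).subgroupOf (Subgroup.centralizer ((Y.map (Subgroup.subtype (Subgroup.centralizer ({z} : Set G)))) : Set G))).Normal] (K : Type) [Field K] [Fintype K] (hK : Fintype.card K = 9) : Cfsg.IsQuasisimple ↥(Subgroup.centralizer ((Y.map (Subgroup.subtype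 (Subgroup.centralizer ({z} : Set G)))) : Set G)) ∧ Nonempty (↥(Subgroup.centralizer ((Y.map (Subgroup.subtype (Subgroup.centralizer ({z} : Set G)))) : Set G)) ⧸ (Y.map (Subgroup.subtype (Subgroup.centralizer ({z} : Set G)))).subgroupOf (Subgroup.centralizer ((Y.map (Subgroup.subtype (Subgroup.centralizer ({z} : Set G)))) : Set G)) ≃* Cfsg.PSU 4 K 3) ∧ (Subgroup.centralizer ((Y.map (Subgroup.subtype (Subgroup.centralizer ({z} : Set G)))) : Set G)).relIndex (Subgroup.normalizer ((Y.map (Subgroup.subtype (Subgroup.centralizer ({z} : Set G)))) : Set G)) = 2 := by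
  have hS := Cfsg.Agent.S1719.result z hz Q hF hQ hcard e hnwc
  obtain ⟨ψ₀⟩ := hS
  obtain ⟨ψ, hψ⟩ := Cfsg.Agent.SuzThree.Final.exists_iso_X z hz Q hF hQ hcard e Y hY hQY ψ₀
  obtain ⟨F, i1, i2, hF9, ⟨f⟩⟩ := Cfsg.Agent.H811.PsuH.psu
  obtain ⟨h1, ⟨h2⟩⟩ := Cfsg.Agent.H811.CovMain.main_of ψ hψ Cfsg.Agent.H811.SuzCov.cov
    Cfsg.Agent.LThreeCo1Twelve.Gam.simple Cfsg.Agent.LThreeCo1Twelve.Gam.not_comm Cfsg.Agent.H811.SuzYZero.mem_comm
  refine ⟨h1, ⟨(h2.trans f).trans (Cfsg.Agent.ChevalleyStructure.FieldIso.PSUEquiv 4 3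
    (FiniteField.ringEquivOfCardEq (by rw [hF9, hK])))⟩, ?_⟩
  exact Cfsg.Agent.H811.CovMain.relIndex_of ψ hψ Cfsg.Agent.CpAutSuz.Local.orderOf_y0 Cfsg.Agent.H811.SuzYZero.inv_y0

end Cfsg.Agent.S5380
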