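import Cfsg.Statements.S5382
import Cfsg.Agent.H379.J2CentU

set_option autoImplicit false
open Cfsg

namespace Cfsg.Agent.S5382

/-- Let G be a finite group of Hall–Janko type: it has more than one class of involutions and an involution z whose centralizer C has generalized Fitting subgroup Q extraspecial of order 32 with C/Q isomorphic to the commutator subgroup of the isometry group of the elliptic quadratic form in dimension 4 over the field with two elements (the alternating group of degree 5), with z not weakly closed in Q. Then for every involution t not conjugate to z, the centralizer of t is isomorphic to the direct product of an elementary abelian group of order 4 and the alternating group of degree 5, and the normalizer of the largest normal 2-subgroup of that centralizer is isomorphic to the direct product of the alternating groups of degrees 4 and 5. -/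
theorem result {G : Type*} [Group G] [Finite G] (z : G) (hz : orderOf z = 2) (Q : Subgroup (Subgroup.centralizer ({z} : Set G))) [Q.Normal] (hF : Cfsg.generalizedFittingSubgroup (Subgroup.centralizer ({z} : Set G)) = Q) (hQ : Cfsg.IsExtraspecial 2 Q) (hcard : Nat.card Q = 2 ^ 5) (e : (Subgroup.centralizer ({z} : Set G)) ⧸ Q ≃* Cfsg.Omega (ZMod 2) (Cfsg.quadFormMinus 1 (ZMod 2) 1 1)) (hnwc : ∃ g : G, (∃ hq : g * z * g⁻¹ ∈ Subgroup.centralizer ({z} : Set G), (⟨g * z * g⁻¹, hq⟩ : Subgroup.centralizer ({z} : Set G)) ∈ Q) ∧ g * z * g⁻¹ ≠ z) (hcl : ∃ x y : G, orderOf x = 2 ∧ orderOf y = 2 ∧ ¬ IsConj x y) (t : G) (ht : orderOf t = 2) (htz : ¬ IsConj t z) : Nonempty (↥(Subgroup.centralizer ({t} : Set G)) ≃* (Multiplicative (ZMod 2) × Multiplicative (ZMod 2)) × alternatingGroup (Fin 5)) ∧ Nonempty (↥(Subgroup.normalizer (((Cfsg.pCore 2 ↥(Subgroup.centralizer ({t} : Set G))).map (Subgroup.subtype (Subgroup.centralizer ({t} : Set G))) : Subgroup G) : Set G)) ≃* alternatingGroup (Fin 4) × alternatingGroup (Fin 5))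 := by
  obtain ⟨u, F⟩ := Cfsg.Agent.J2Type.Setup.fus_of_type z hz Q hF hQ hcard e hnwc hcl
  have htu : IsConj u t := (F.cover t ht).resolve_left fun h => htz h.symm
  obtain ⟨c, rfl⟩ := isConj_iff.1 htu
  obtain ⟨f, U, V, H0, Fu⟩ := Cfsg.Agent.J2Type.CentU.main F
  obtain ⟨d, hd, hdV, hdH⟩ := Cfsg.Agent.J2Type.ThreeA.exists_d F Fu
  have h60 := Cfsg.Agent.J2Type.ThreeA.card_H0 F Fu
  have D : Cfsg.Agent.H379.J2CentU.Dec u d V H0 :=
    { tV := Fu.uV
      t1 := fun h => Fu.str.notMem (h ▸ one_mem _)
      cV := Fu.cardV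
      sq := fun x hx => Cfsg.Agent.J2Type.Cent5.sq_V F Fu hx
      eH := Cfsg.Agent.J2Type.Cent5.exists_equiv F Fu h60
      comm := fun a ha b hb => Cfsg.Agent.J2Type.Cent5.V_comm F Fu h60 ha hb
      disj := fun x hx hx' => Cfsg.Agent.J2Type.Cent5.V_inf_H0 Fu hx hx'
      dec := fun x hx => Cfsg.Agent.J2Type.Cent5.exists_mul Fu (Subgroup.mem_centralizer_singleton_iff.2 hx)
      dV := hdV
      dH := hdH
      d3 := hd }
  have D' := D.conj c
  constructor
  · obtain ⟨e1⟩ := Cfsg.Agent.H379.J2CentU.equiv_cent D'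
    obtain ⟨e2⟩ := D'.eH
    have hk := Cfsg.Agent.H379.J2CentU.V_klein D'
    have hk2 : IsKleinFour (Multiplicative (ZMod 2) × Multiplicative (ZMod 2)) :=
      { card_four := by rw [Nat.card_prod]; simp
        exponent_two := by
          rw [Monoid.exponent_prod]
          simp [Monoid.exponent_multiplicative] }
    obtain ⟨e3⟩ := IsKleinFour.nonempty_mulEquiv (G₁ := ↥(V.map (MulAut.conj c).toMonoidHom)) (G₂ := Multiplicative (ZMod 2) × Multiplicative (ZMod 2))
    exact ⟨e1.trans (e3.prodCongr e2)⟩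
  · rw [Cfsg.Agent.H379.J2CentU.pCore_eq D']
    obtain ⟨e1⟩ := Cfsg.Agent.H379.J2CentU.equiv_N D'
    obtain ⟨e2⟩ := Cfsg.Agent.H379.J2CentU.equiv_W D'
    obtain ⟨e3⟩ := D'.eH
    exact ⟨e1.trans (e2.prodCongr e3)⟩

end Cfsg.Agent.S5382
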