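-- Statement S5395 (row 5395).
import Cfsg.Statements.S5395
import Cfsg.Agent.Transfer.ExtraspecialProduct
import Cfsg.Agent.Transfer.Extraspecial

set_option autoImplicit false
open scoped Pointwise
open Cfsg

namespace Cfsg.Agent.S5395

open Cfsg.Agent.Transfer.Extraspecial
open scoped commutatorElement

/-- The commutator map of an element as a homomorphism to the centre. -/
def comHom {E : Type*} [Group E] (hE : Cfsg.IsExtraspecial 2 E) (g : E) : E →* Subgroup.center E where
  toFun x := ⟨g * x * g⁻¹ * x⁻¹, comm_mem_center hE g x⟩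
  map_one' := by ext; simp
  map_mul' x y := by
    apply Subtype.ext
    have h1 := Subgroup.mem_center_iff.1 (comm_mem_center hE g y) x
    rw [commutatorElement_def] at h1
    change g * (x * y) * g⁻¹ * (x * y)⁻¹ = (g * x * g⁻¹ * x⁻¹) * (g * y * g⁻¹ * y⁻¹)
    calc g * (x * y) * g⁻¹ * (x * y)⁻¹
        = g * x * g⁻¹ * (g * y * g⁻¹ * y⁻¹) * x⁻¹ := by group
      _ = g * x * g⁻¹ * x⁻¹ * (x * (g * y * g⁻¹ * y⁻¹)) * x⁻¹ := by group
      _ = (g * x * g⁻¹ * x⁻¹) * (g * y * g⁻¹ * y⁻¹) := by rw [h1]; group

/-- The displacement of a central automorphism as a homomorphism to the centre. -/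
def dispHom {E : Type*} [Group E] (φ : E ≃* E) (hφ : ∀ x : E, φ x * x⁻¹ ∈ Subgroup.center E) :
    E →* Subgroup.center E where
  toFun x := ⟨φ x * x⁻¹, hφ x⟩
  map_one' := by ext; simp
  map_mul' x y := by
    apply Subtype.ext
    have h1 := Subgroup.mem_center_iff.1 (hφ y) x
    change φ (x * y) * (x * y)⁻¹ = (φ x * x⁻¹) * (φ y * y⁻¹)
    calc φ (x * y) * (x * y)⁻¹ = φ x * (φ y * y⁻¹) * x⁻¹ := by rw [map_mul]; group
      _ = φ x * x⁻¹ * (x * (φ y * y⁻¹)) * x⁻¹ := by group
      _ = (φ x * x⁻¹) * (φ y * y⁻¹) := by rw [h1]; group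

/-- For a finite extraspecial 2-group E, an automorphism of E that induces the identity on E modulo its centre is inner (so these automorphisms form exactly the inner automorphism group, an elementary abelian 2-group of order |E|/2). -/
theorem result {E : Type*} [Group E] [Finite E] (hE : Cfsg.IsExtraspecial 2 E) (φ : E ≃* E) (hφ : ∀ x : E, φ x * x⁻¹ ∈ Subgroup.center E) : ∃ g : E, ∀ x : E, φ x = g * x * g⁻¹ := by
  have hp : (Nat.card (Subgroup.center E)).Prime := by rw [hE.2]; exact Nat.prime_two
  let Ψ : E ⧸ Subgroup.center E → (E →* Subgroup.center E) := fun q => comHom hE (Quotient.out q)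
  have hΨ : Function.Injective Ψ := by
    intro q r hqr
    rw [← QuotientGroup.out_eq' q, ← QuotientGroup.out_eq' r, QuotientGroup.eq,
      Subgroup.mem_center_iff]
    intro y
    have h1 : Ψ q y = Ψ r y := by rw [hqr]
    have h2 := congrArg Subtype.val h1
    have h3 : Quotient.out q * y * (Quotient.out q)⁻¹ * y⁻¹ =
      Quotient.out r * y * (Quotient.out r)⁻¹ * y⁻¹ := h2
    have h4 := mul_right_cancel h3
    calc y * ((Quotient.out q)⁻¹ * Quotient.out r)
        = (Quotient.out q)⁻¹ * (Quotient.out q * y * (Quotient.out q)⁻¹) * Quotient.out r := by group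
      _ = (Quotient.out q)⁻¹ * (Quotient.out r * y * (Quotient.out r)⁻¹) * Quotient.out r := by
          rw [h4]
      _ = (Quotient.out q)⁻¹ * Quotient.out r * y := by group
  have hcard : Nat.card (E →* Subgroup.center E) ≤ Nat.card (E ⧸ Subgroup.center E) := by
    refine (Cfsg.Agent.Transfer.ExtraspecialProduct.card_monoidHom_le (E := E)
      (Z := Subgroup.center E) hp).trans (le_of_eq ?_)
    rw [← Subgroup.index_eq_card, ← hE.1.2.2]
    rfl
  have hfin : Finite (E →* Subgroup.center E) := by
    apply Finite.of_injective (fun f : E →* Subgroup.center E => (f : E → Subgroup.center E))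
    exact DFunLike.coe_injective
  have hbij := hΨ.bijective_of_nat_card_le hcard
  obtain ⟨q, hq⟩ := hbij.2 (dispHom φ hφ)
  refine ⟨Quotient.out q, fun x => ?_⟩
  have h1 : Ψ q x = dispHom φ hφ x := by rw [hq]
  have h2 := congrArg Subtype.val h1
  have h3 : Quotient.out q * x * (Quotient.out q)⁻¹ * x⁻¹ = φ x * x⁻¹ := h2
  exact (mul_right_cancel h3).symm

end Cfsg.Agent.S5395
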