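-- Statement S5396 (row 5396).
import Cfsg.Statements.S5396
import Cfsg.Agent.H866.ExtraModel

set_option autoImplicit false
open scoped Pointwise
open Cfsg

namespace Cfsg.Agent.S5396

open Cfsg.Agent.H866.ExtraModel

/-- For every n ≥ 1 there exist finite extraspecial 2-groups of order 2^(2n+1) whose 2-rank (the largest rank of an elementary abelian subgroup) is n, and ones whose 2-rank is n + 1 (so for each such order there are two non-isomorphic extraspecial 2-groups, told apart by their 2-rank). -/
theorem result (n : ℕ) (hn : 1 ≤ n) : ∀ r ∈ ({n, n + 1} : Set ℕ), ∃ (E : Type) (_ : Group E) (_ : Finite E), Cfsg.IsExtraspecial 2 E ∧ Nat.card E = 2 ^ (2 * n + 1) ∧ sSup {k : ℕ | ∃ A : Subgroup E, Cfsg.IsElementaryAbelian 2 A ∧ Nat.card A = 2 ^ k} = r := by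
  intro r hr
  have hM : Model n r := by
    rcases hr with rfl | hr
    · obtain ⟨m, rfl⟩ : ∃ m, r = m + 1 := ⟨r - 1, by omega⟩
      exact model_minus m
    · rw [Set.mem_singleton_iff] at hr
      subst hr
      exact model_plus n
  have hr1 : 1 ≤ r := by
    rcases hr with rfl | hr
    · exact hn
    · rw [Set.mem_singleton_iff] at hr
      omega
  obtain ⟨E, gE, fE, hE, hcard, hrk⟩ := hM
  exact ⟨E, gE, fE, extraspecial_of hE hcard hn, hcard, sSup_rank hcard hr1 hrk⟩

end Cfsg.Agent.S5396
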