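import Cfsg.Statements.S5403
-- import your own Cfsg.Agent.* helpers here
import Cfsg.Agent.H817.JTwoHyp
import Cfsg.Agent.S1620

set_option autoImplicit false
open Cfsg

namespace Cfsg.Agent.S5403

open Subgroup Cfsg.Agent.MFive Cfsg.Agent.MFive.JTwo
open Cfsg.Agent.SporadicA Cfsg.Agent.SporadicA.Co0Mono Cfsg.Agent.SporadicA.Co1Simple
open Cfsg.Agent.LThreeMB

/-- the subgroup of order five -/
def A : Subgroup ↥Cfsg.Co0 := zpowers (Oct.e 0)

theorem cent_le : centralizer (A : Set ↥Cfsg.Co0) ≤ centralizer ({Oct.e 0} : Set ↥Cfsg.Co0) := by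
  apply centralizer_le
  rintro _ rfl
  exact mem_zpowers _

theorem le_cent : centralizer ({Oct.e 0} : Set ↥Cfsg.Co0) ≤ centralizer (A : Set ↥Cfsg.Co0) := by
  intro g hg
  rw [mem_centralizer_singleton_iff] at hg
  rw [mem_centralizer_iff]
  rintro _ ⟨k, rfl⟩
  have : Commute g (Oct.e 0) := hg
  exact (this.zpow_right k).symm

/-- the map onto the quotient -/
noncomputable def F : ↥(centralizer (A : Set ↥Cfsg.Co0)) →* XX s1 := f.comp (inclusion cent_le)

theorem F_surj : Function.Surjective F := by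
  intro q
  obtain ⟨d, hd⟩ := surj q
  exact ⟨⟨d, le_cent d.2⟩, hd⟩

theorem center_iff (x : ↥Cfsg.Co0) : x ∈ center ↥Cfsg.Co0 ↔ x = 1 ∨ x = signCo0 allOne := by
  rw [← CoOneType.ClosingFacts.mk_eq_one]
  exact (QuotientGroup.eq_one_iff x).symm

theorem F_ker : F.ker = (A ⊔ center ↥Cfsg.Co0).subgroupOf (centralizer (A : Set ↥Cfsg.Co0)) := by
  ext ⟨d, hd⟩
  rw [MonoidHom.mem_ker, mem_subgroupOf]
  have h1 : F ⟨d, hd⟩ = f ⟨d, cent_le hd⟩ := rfl
  rw [h1, ker]
  show _ ↔ d ∈ A ⊔ center ↥Cfsg.Co0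
  rw [mem_sup_of_normal_right]
  constructor
  · rintro ⟨k, h | h⟩
    · refine ⟨Oct.e 0 ^ k, ⟨k, by simp⟩, 1, one_mem _, ?_⟩
      rw [mul_one]
      exact (congrArg Subtype.val h).symm
    · refine ⟨Oct.e 0 ^ k, ⟨k, by simp⟩, signCo0 allOne, (center_iff _).2 (Or.inr rfl), ?_⟩
      have h2 : d = signCo0 allOne * Oct.e 0 ^ k := congrArg Subtype.val h
      rw [h2]
      exact (CoOneType.SignFacts.sign_allOne_comm _)
  · rintro ⟨a, ⟨k, rfl⟩, c, hc, h⟩
    obtain ⟨n, hn⟩ : ∃ n : ℕ, Oct.e 0 ^ n = Oct.e 0 ^ k := by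
      have h1 : Oct.e 0 ^ k ∈ Subgroup.zpowers (Oct.e 0) := ⟨k, rfl⟩
      have : Finite ↥Cfsg.Co0 := finite_co0
      rw [← mem_powers_iff_mem_zpowers] at h1
      exact h1
    refine ⟨n, ?_⟩
    rw [center_iff] at hc
    rcases hc with rfl | rfl
    · left
      apply Subtype.ext
      show d = Oct.e 0 ^ n
      rw [hn, ← h, mul_one]
    · right
      apply Subtype.ext
      show d = signCo0 allOne * Oct.e 0 ^ n
      rw [hn, ← h]
      exact (CoOneType.SignFacts.sign_allOne_comm _)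

theorem card_A : Nat.card A = 5 := by
  rw [A, Nat.card_zpowers]
  have : Fact (Nat.Prime 5) := ⟨Nat.prime_five⟩
  exact orderOf_eq_prime JR.pow_five JR.ne_one

/-- A simple section of the automorphism group of the Leech lattice satisfying the Hall–Janko-type hypothesis (the group so obtained is the Hall–Janko group; that identification is not part of this statement): there is a subgroup A of order 5 of that automorphism group such that the centralizer of A modulo the subgroup generated by A and the centre of the automorphism group is a non-abelian simple group satisfying the large extraspecial hypothesis of minus type in dimension 4 — an involution whose centralizer has extraspecial generalized Fitting subgroup of order 32 with quotient the commutator subgroup of the isometry group of the elliptic quadratic form in dimension 4 over the field with two elements (the alternating group of degree 5), the involution not weakly closed in that extraspecial group. -/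
theorem result : ∃ A : Subgroup ↥Cfsg.Co0, Nat.card A = 5 ∧ ∃ (hn : ((A ⊔ Subgroup.center ↥Cfsg.Co0).subgroupOf (Subgroup.centralizer (A : Set ↥Cfsg.Co0))).Normal), ∃ (S : Type) (_ : Group S) (_ : Finite S), Nonempty (S ≃* ↥(Subgroup.centralizer (A : Set ↥Cfsg.Co0)) ⧸ (A ⊔ Subgroup.center ↥Cfsg.Co0).subgroupOf (Subgroup.centralizer (A : Set ↥Cfsg.Co0))) ∧ IsSimpleGroup S ∧ ¬ IsMulCommutative S ∧ ∃ z : S, orderOf z = 2 ∧ ∃ (Q : Subgroup (Subgroup.centralizer ({z} : Set S))) (_ : Q.Normal), Cfsg.generalizedFittingSubgroup (Subgroup.centralizer ({z} : Set S)) = Q ∧ Cfsg.IsExtraspecial 2 Q ∧ Nat.card Q = 2 ^ 5 ∧ Nonempty ((Subgroup.centralizer ({z} : Set S)) ⧸ Q ≃* Cfsg.Omega (ZMod 2) (Cfsg.quadFormMinus 1 (ZMod 2) 1 1)) ∧ ∃ g : S, (∃ hq : g * z * g⁻¹ ∈ Subgroup.centralizer ({z} : Set S), (⟨g * z * g⁻¹, hq⟩ : Subgroup.centralizer ({z} : Set S)) ∈ Q) ∧ g * z * g⁻¹ ≠ z := by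
  have hnn : ((A ⊔ Subgroup.center ↥Cfsg.Co0).subgroupOf (Subgroup.centralizer (A : Set ↥Cfsg.Co0))).Normal := by
    rw [← F_ker]; infer_instance
  have : Finite ↥Cfsg.Co0 := finite_co0
  obtain ⟨h2, hQn, hex, h32, hC, h60, hnwc⟩ := H817.JTwoHyp.facts data elts
  obtain ⟨eJ⟩ := iso_e0
  obtain ⟨hJ, a, b, hab⟩ := S1620.result
  have hfin : Finite (XX s1) := Finite.of_surjective f surj
  have h60' := h60 hQn
  obtain ⟨hF, hO⟩ := H817.JTwoHyp.quot_fstar _ hex h32 hC h60'
  refine ⟨A, card_A, hnn, XX s1, inferInstance, hfin, ?_, ?_, ?_, _, h2, _, hQn, hF, hex, h32, hO, hnwc⟩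
  · exact ⟨((QuotientGroup.quotientMulEquivOfEq F_ker).symm.trans
      (QuotientGroup.quotientKerEquivOfSurjective F F_surj)).symm⟩
  · exact eJ.isSimpleGroup
  · intro hc
    apply hab
    obtain ⟨x, rfl⟩ := eJ.surjective a
    obtain ⟨y, rfl⟩ := eJ.surjective b
    rw [← map_mul, ← map_mul]
    exact congrArg eJ (hc.is_comm.comm x y)

end Cfsg.Agent.S5403
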