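import Cfsg.Statements.S5406
import Cfsg.Agent.H819.Base

set_option autoImplicit false
open Cfsg

namespace Cfsg.Agent.S5406

/-- Let G be a finite group of Monster type at the involution z with Q the extraspecial normal subgroup of order 2^25 of C = C_G(z) (so C/Q is identified with the first Conway group with Q modulo its centre the Leech lattice modulo 2, and z is not weakly closed in Q). Then C acts transitively by conjugation on the conjugates of z that lie in Q and differ from z. -/
theorem result {G : Type*} [Group G] [Finite G] (z : G) (Q : Subgroup (Subgroup.centralizer ({z} : Set G))) [Q.Normal] (hM : Cfsg.IsOfMonsterType z Q) (s t : G) (hsQ : ∃ hsc : s ∈ Subgroup.centralizer ({z} : Set G), (⟨s, hsc⟩ : Subgroup.centralizer ({z} : Set G)) ∈ Q) (htQ : ∃ htc : t ∈ Subgroup.centralizer ({z} : Set G), (⟨t, htc⟩ : Subgroup.centralizer ({z} : Set G)) ∈ Q) (hs : IsConj z s) (ht : IsConj z t) (hs1 : s ≠ z) (ht1 : t ≠ z) : ∃ h ∈ Subgroup.centralizer ({z} : Set G), h * s * h⁻¹ =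 t := by
  obtain ⟨eta, pi, h⟩ := Cfsg.Agent.H819.Base.chart_of hM
  have hf := Cfsg.Agent.H819.Base.fused_of hM
  have hsQ' := Cfsg.Agent.H819.Base.mem_map.2 hsQ
  have htQ' := Cfsg.Agent.H819.Base.mem_map.2 htQ
  have h1 := (Cfsg.Agent.H819.Base.type_four_iff h hf hsQ').2 ⟨hs, hs1⟩
  have h2 := (Cfsg.Agent.H819.Base.type_four_iff h hf htQ').2 ⟨ht, ht1⟩
  obtain ⟨c, hcz, hc⟩ := Cfsg.Agent.H819.Base.conj_of_type h (Or.inr (Or.inr rfl)) hsQ' htQ' h1 h2
  exact ⟨c, Subgroup.mem_centralizer_singleton_iff.2 hcz, hc⟩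

end Cfsg.Agent.S5406
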