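import Cfsg.Statements.S5412
import Cfsg.Agent.H819.TypeTwoC

set_option autoImplicit false
open Cfsg

namespace Cfsg.Agent.S5412

open Cfsg.Agent.LThreeMB (XX Zx self)

theorem zx_eq {G : Type*} [Group G] (t : G) :
    (Subgroup.zpowers t).subgroupOf (Subgroup.centralizer ({t} : Set G)) = Zx t := by
  ext x
  rw [Subgroup.mem_subgroupOf, Zx, Subgroup.mem_zpowers_iff, Subgroup.mem_zpowers_iff]
  constructor
  · rintro ⟨i, hi⟩; exact ⟨i, Subtype.ext hi⟩
  · rintro ⟨i, hi⟩; exact ⟨i, congrArg Subtype.val hi⟩

theorem transfer {G : Type*} [Group G] (t : G) (hX : IsOfBabyMonsterType (XX t))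
    (N : Subgroup ↥(Subgroup.centralizer ({t} : Set G))) (hN : N = Zx t) [hn : N.Normal] :
    IsOfBabyMonsterType (↥(Subgroup.centralizer ({t} : Set G)) ⧸ N) := by
  subst hN
  exact hX

/-- Let G be a finite group of Monster type at the involution z with Q the extraspecial normal subgroup of order 2^25 of C = C_G(z) (so C/Q is identified with the first Conway group with Q modulo its centre the Leech lattice modulo 2, and z is not weakly closed in Q). Let t be an involution of Q not conjugate to z in G. Then the centralizer of t modulo the subgroup generated by t is a group of Baby Monster type (an involution whose centralizer D has generalized Fitting subgroup R extraspecial of order 2^23 with D/R identified with the second Conway group acting on R modulo its centre as on the vectors of the Leech lattice modulo 2 orthogonal to a short vector, modulo that vector; the involution not weakly closed in R). -/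
theorem result {G : Type*} [Group G] [Finite G] (z : G) (Q : Subgroup (Subgroup.centralizer ({z} : Set G))) [Q.Normal] (hM : Cfsg.IsOfMonsterType z Q) (t : G) (htQ : ∃ htc : t ∈ Subgroup.centralizer ({z} : Set G), (⟨t, htc⟩ : Subgroup.centralizer ({z} : Set G)) ∈ Q) (ht2 : orderOf t = 2) (ht : ¬ IsConj z t) [hn : ((Subgroup.zpowers t).subgroupOf (Subgroup.centralizer ({t} : Set G))).Normal] : Cfsg.IsOfBabyMonsterType (↥(Subgroup.centralizer ({t} : Set G)) ⧸ (Subgroup.zpowers t).subgroupOf (Subgroup.centralizer ({t} : Set G))) := by
  obtain ⟨eta, pi, h⟩ := Cfsg.Agent.H819.Base.chart_of hM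
  have hf := Cfsg.Agent.H819.Base.fused_of hM
  have htQ' := Cfsg.Agent.H819.Base.mem_map.2 htQ
  have h1 := (Cfsg.Agent.H819.Base.type_two_iff h hf htQ').2 ⟨ht2, ht⟩
  exact transfer t (Cfsg.Agent.H819.TypeTwo.main h hf htQ' h1) _ (zx_eq t)

end Cfsg.Agent.S5412
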