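import Cfsg.Statements.S5419
import Cfsg.Agent.S5542

set_option autoImplicit false
open Cfsg

namespace Cfsg.Agent.S5419

/-- There is a finite simple group of Monster type: a non-abelian finite simple group with an involution z whose centralizer C has generalized Fitting subgroup Q extraspecial of order 2^25, with an identification of C/Q with the first Conway group under which Q modulo its centre is the Leech lattice modulo 2 as a module, and with some conjugate of z other than z lying in Q. -/
theorem result : ∃ (G : Type) (_ : Group G) (_ : Finite G), IsSimpleGroup G ∧ ¬ IsMulCommutative G ∧ Cfsg.IsGroupOfMonsterType G := by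
  have hs : IsSimpleGroup Spor.Monster := H849.MonsterBase.simple_M
  refine ⟨Spor.Monster, inferInstance, H849.MonsterBase.finite_M, hs, ?_, S5542.result⟩
  intro hc
  let _ : CommGroup Spor.Monster := { (inferInstance : Group Spor.Monster) with mul_comm := fun a b => hc.is_comm.comm a b }
  have hp : (Nat.card Spor.Monster).Prime := IsSimpleGroup.prime_card
  rw [Cfsg.Agent.MonsterP.Equiv.isM.2] at hp
  exact absurd hp (by norm_num)

end Cfsg.Agent.S5419
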