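import Cfsg.Statements.S5420
import Cfsg.Agent.H823.OddKill
import Cfsg.Agent.Lib.Cores

set_option autoImplicit false
open Cfsg

namespace Cfsg.Agent.S5420

/-- Let Q be an extraspecial 2-subgroup of the finite group G whose centralizer in G is its centre Z and which is normal in the centralizer of Z. If Z lies in the largest normal 2-subgroup of G, then Q is a large extraspecial 2-subgroup of G: it normalizes no non-trivial subgroup of G of odd order. -/
theorem result {G : Type*} [Group G] [Finite G] (Q : Subgroup G) (hL1 : Cfsg.IsExtraspecial 2 ↥Q) (hL2 : Subgroup.centralizer (Q : Set G) = ((Subgroup.center ↥Q).map Q.subtype)) (hL3 : Subgroup.centralizer (((Subgroup.center ↥Q).map Q.subtype) : Set G) ≤ Subgroup.normalizer (Q : Set G)) (hZ : ((Subgroup.center ↥Q).map Q.subtype) ≤ Cfsg.pCore 2 G) : Cfsg.IsLargeExtraspecial Q := by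
  obtain ⟨z, hz, hz2⟩ := Cfsg.Agent.H823.exists_gen hL1
  have h := Cfsg.Agent.H823.large_of hL1 hL2 hL3 hz hz2
  refine ⟨hL1, hL2, hL3, fun K hK hn => ?_⟩
  have hzP : z ∈ Cfsg.pCore 2 G := hZ (by rw [hz]; exact Subgroup.mem_zpowers z)
  have hN : (Cfsg.pCore 2 G).Normal := Cfsg.Agent.Lib.Cores.pCore_normal 2
  rw [eq_bot_iff]
  intro k hk
  rw [Subgroup.mem_bot]
  refine Cfsg.Agent.H823.eq_one_of_comm h hK hn hk ?_
  have h1 : k * z * k⁻¹ * z⁻¹ ∈ Cfsg.pCore 2 G := mul_mem (hN.conj_mem z hzP k) (inv_mem hzP)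
  have h2 : k * z * k⁻¹ * z⁻¹ ∈ K := by
    have h3 : z * k⁻¹ * z⁻¹ ∈ K := (Subgroup.mem_normalizer_iff.1 (hn h.z_mem) _).1 (inv_mem hk)
    have h4 : k * z * k⁻¹ * z⁻¹ = k * (z * k⁻¹ * z⁻¹) := by group
    rw [h4]; exact mul_mem hk h3
  have h3 := Cfsg.Agent.H823.eq_one_of_mem (Cfsg.Agent.Lib.Cores.pCore_isPGroup 2) hK h1 h2
  calc k * z = (k * z * k⁻¹ * z⁻¹) * (z * k) := by group
    _ = z * k := by rw [h3, one_mul]

end Cfsg.Agent.S5420
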