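import Cfsg.Statements.S5421
import Cfsg.Agent.H823.OddKill
import Cfsg.Agent.Lib.Cores

set_option autoImplicit false
open Cfsg

namespace Cfsg.Agent.S5421

/-- Let Q be an extraspecial 2-subgroup of the finite group G whose centralizer in G is its centre Z and which is normal in the centralizer of Z. If some involution b of Q outside Z has Z inside the largest normal 2-subgroup of the centralizer of b, then Q is a large extraspecial 2-subgroup of G. -/
theorem result {G : Type*} [Group G] [Finite G] (Q : Subgroup G) (hL1 : Cfsg.IsExtraspecial 2 ↥Q) (hL2 : Subgroup.centralizer (Q : Set G) = ((Subgroup.center ↥Q).map Q.subtype)) (hL3 : Subgroup.centralizer (((Subgroup.center ↥Q).map Q.subtype) : Set G) ≤ Subgroup.normalizer (Q : Set G)) (b : G) (hbQ : b ∈ Q) (hbZ : b ∉ ((Subgroup.center ↥Q).map Q.subtype)) (hb : orderOf b = 2) (hZ : ((Subgroup.center ↥Q).map Q.subtype) ≤ (Cfsg.pCore 2 ↥(Subgroup.centralizer ({b} : Set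 G))).map (Subgroup.centralizer ({b} : Set G)).subtype) : Cfsg.IsLargeExtraspecial Q := by
  obtain ⟨z, hz, hz2⟩ := Cfsg.Agent.H823.exists_gen hL1
  have h := Cfsg.Agent.H823.large_of hL1 hL2 hL3 hz hz2
  refine ⟨hL1, hL2, hL3, fun K hK hn => ?_⟩
  rw [hz] at hbZ
  obtain ⟨⟨y, hyC⟩, hyP, hyz⟩ := hZ (by rw [hz]; exact Subgroup.mem_zpowers z)
  have hyz' : y = z := hyz
  subst hyz'
  have hN : (Cfsg.pCore 2 ↥(Subgroup.centralizer ({b} : Set G))).Normal := Cfsg.Agent.Lib.Cores.pCore_normal 2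
  have hb2 : b * b = 1 := by rw [← pow_two, ← hb]; exact pow_orderOf_eq_one b
  refine Cfsg.Agent.H823.eq_bot_of_comm h hK hn hbQ hb2 (fun h' => hbZ (h' ▸ one_mem _))
    (fun h' => hbZ (h' ▸ Subgroup.mem_zpowers _)) ?_
  intro k hk hkb
  have hkC : k ∈ Subgroup.centralizer ({b} : Set G) := Subgroup.mem_centralizer_singleton_iff.2 hkb
  have h1 : (⟨k, hkC⟩ : Subgroup.centralizer ({b} : Set G)) * ⟨y, hyC⟩ * (⟨k, hkC⟩)⁻¹ * (⟨y, hyC⟩)⁻¹ ∈
      Cfsg.pCore 2 ↥(Subgroup.centralizer ({b} : Set G)) := mul_mem (hN.conj_mem _ hyP _) (inv_mem hyP)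
  have h2 : k * y * k⁻¹ * y⁻¹ ∈ K := by
    have h3 : y * k⁻¹ * y⁻¹ ∈ K := (Subgroup.mem_normalizer_iff.1 (hn h.z_mem) _).1 (inv_mem hk)
    have h4 : k * y * k⁻¹ * y⁻¹ = k * (y * k⁻¹ * y⁻¹) := by group
    rw [h4]; exact mul_mem hk h3
  exact Cfsg.Agent.H823.eq_one_of_mem (P := (Cfsg.pCore 2 ↥(Subgroup.centralizer ({b} : Set G))).map
    (Subgroup.centralizer ({b} : Set G)).subtype) ((Cfsg.Agent.Lib.Cores.pCore_isPGroup 2).map _) hK ⟨_, h1, rfl⟩ h2

end Cfsg.Agent.S5421
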