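import Cfsg.Statements.S5422
import Cfsg.Agent.H823.OddKill
import Cfsg.Agent.H823.PairS3

set_option autoImplicit false
open Cfsg

namespace Cfsg.Agent.S5422

open Cfsg.Agent.Co2Type.Quad Cfsg.Agent.LargeExtra.Base Cfsg.Agent.H823

variable {G : Type*} [Group G] {Q A : Subgroup G} {z a : G}

theorem actT_surjective (p : Pair Q z A a) : Function.Surjective (actT p) := by
  intro σ
  obtain ⟨x, hx⟩ := actX_surjective p ((eT p).symm.permCongrHom σ)
  refine ⟨Subgroup.inclusion (X_le_normV p) x, ?_⟩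
  apply ((eT p).symm.permCongrHom).injective
  rw [← hx]; rfl

theorem actT_ker (p : Pair Q z A a) : (actT p).ker =
    (Subgroup.centralizer ((Subgroup.closure ({z, a} : Set G) : Subgroup G) : Set G)).subgroupOf
      (Subgroup.normalizer ((Subgroup.closure ({z, a} : Set G) : Subgroup G) : Set G)) := by
  ext n
  rw [MonoidHom.mem_ker, Subgroup.mem_subgroupOf, mem_cV]
  constructor
  · intro h
    have h1 : ∀ v : TT z a, (n : G) * v * (n : G)⁻¹ = v := by
      intro v
      rw [← actT_apply p, h]; rfl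
    exact ⟨mul_inv_eq_iff_eq_mul.1 (h1 ⟨z, Or.inl rfl⟩), mul_inv_eq_iff_eq_mul.1 (h1 ⟨a, Or.inr (Or.inl rfl)⟩)⟩
  · rintro ⟨h1, h2⟩
    ext v
    show (actT p n v : G) = v
    rw [actT_apply]
    obtain ⟨v, rfl | rfl | rfl⟩ := v
    · show (n : G) * v * (n : G)⁻¹ = v
      rw [h1]; group
    · show (n : G) * v * (n : G)⁻¹ = v
      rw [h2]; group
    · show (n : G) * (a * z) * (n : G)⁻¹ = a * z
      rw [← mul_assoc, h2, mul_assoc a, h1]; group

theorem card_perm (p : Pair Q z A a) : Nat.card (Equiv.Perm (TT z a)) = 6 := by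
  rw [Nat.card_congr ((eT p).symm.permCongrHom).toEquiv, Nat.card_eq_fintype_card, Fintype.card_perm]
  rfl

theorem relIndex_eq (p : Pair Q z A a) :
    (Subgroup.centralizer ((Subgroup.closure ({z, a} : Set G) : Subgroup G) : Set G)).relIndex
      (Subgroup.normalizer ((Subgroup.closure ({z, a} : Set G) : Subgroup G) : Set G)) = 6 := by
  rw [Subgroup.relIndex, ← actT_ker p, Subgroup.index_ker, MonoidHom.range_eq_top.2 (actT_surjective p)]
  rw [Subgroup.card_top]
  exact card_perm p

/-- Let Q be an extraspecial 2-subgroup of the finite group G whose centralizer in G is its centre Z and which is normal in the centralizer of Z; suppose Q has width at least 2 (order 2^(2w+1) with w ≥ 2) and g is an element of G not normalizing Z with g Z g⁻¹ inside Q. Then Z lies inside g Q g⁻¹; writing V for the subgroup generated by Z and g Z g⁻¹ (a four-group), the normalizer of V induces on V its full automorphism group, that is, the centralizer of V has index 6 in the normalizer of V; and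 Q is a large extraspecial 2-subgroup of G. -/
theorem result {G : Type*} [Group G] [Finite G] (Q : Subgroup G) (hL1 : Cfsg.IsExtraspecial 2 ↥Q) (hL2 : Subgroup.centralizer (Q : Set G) = ((Subgroup.center ↥Q).map Q.subtype)) (hL3 : Subgroup.centralizer (((Subgroup.center ↥Q).map Q.subtype) : Set G) ≤ Subgroup.normalizer (Q : Set G)) (w : ℕ) (hw : 2 ≤ w) (hcard : Nat.card ↥Q = 2 ^ (2 * w + 1)) (g : G) (hg : g ∉ Subgroup.normalizer (((Subgroup.center ↥Q).map Q.subtype) : Set G)) (hZg : (((Subgroup.center ↥Q).map Q.subtype)).map (MulAut.conj g).toMonoidHom ≤ Q) : ((Subgroup.center ↥Q).map Q.subtype) ≤ (Q).map (MulAut.conj g).toMonoidHom ∧ (Subgroup.centralizer ((((Subgroup.center ↥Q).map Q.subtype) ⊔ (((Subgroup.center ↥Q).map Q.subtype)).map (MulAut.conj g).toMonoidHom : Subgroup G) : Set G)).relIndex (Subgroup.normalizer ((((Subgroup.center ↥Q).map Q.subtype) ⊔ (((Subgroup.center ↥Q).map Q.subtype)).map (MulAut.conj g).toMonoidHom : Subgroup G) : Set G)) = 6 ∧ Cfsg.IsLargeExtraspecial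 Q := by
  obtain ⟨z, hz, hz2⟩ := exists_gen hL1
  have h := large_of hL1 hL2 hL3 hz hz2
  have hgz : g * z * g⁻¹ ∈ Q := hZg ⟨z, by rw [hz]; exact Subgroup.mem_zpowers z, rfl⟩
  have hne : g * z * g⁻¹ ≠ z := by
    intro h'
    apply hg
    rw [hz, Subgroup.mem_normalizer_iff]
    have h1 : g * z = z * g := mul_inv_eq_iff_eq_mul.1 h'
    intro x
    have hzp : ∀ k : ℤ, g * z ^ k * g⁻¹ = z ^ k := by
      intro k
      rw [← conj_zpow, h']
    constructor
    · rintro ⟨k, rfl⟩
      exact ⟨k, (hzp k).symm⟩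
    · rintro ⟨k, hk⟩
      refine ⟨k, ?_⟩
      have hk' : z ^ k = g * x * g⁻¹ := hk
      show z ^ k = x
      rw [← hzp k] at hk'
      exact mul_left_cancel (mul_right_cancel hk')
  have p := pair_of_conj h hgz hne
  have hV : (Subgroup.center ↥Q).map Q.subtype ⊔ ((Subgroup.center ↥Q).map Q.subtype).map (MulAut.conj g).toMonoidHom =
      Subgroup.closure ({z, g * z * g⁻¹} : Set G) := by
    rw [hz, MonoidHom.map_zpowers, Subgroup.zpowers_eq_closure, Subgroup.zpowers_eq_closure, ← Subgroup.closure_union,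
      Set.singleton_union]
    rfl
  refine ⟨?_, ?_, hL1, hL2, hL3, ?_⟩
  · rw [hz, Subgroup.zpowers_le]; exact p.z_mem
  · rw [hV]; exact relIndex_eq p
  · intro K hK hn
    refine eq_bot_of_comm h hK hn hgz p.la.z_sq p.la.z_ne p.ne ?_
    intro k hk hkb
    have h1 : k * z * k⁻¹ * z⁻¹ ∈ Q.map (MulAut.conj g).toMonoidHom :=
      mul_mem (p.la.conj_mem k hkb z p.z_mem) (inv_mem p.z_mem)
    have h2 : k * z * k⁻¹ * z⁻¹ ∈ K := by
      have h3 : z * k⁻¹ * z⁻¹ ∈ K := (Subgroup.mem_normalizer_iff.1 (hn h.z_mem) _).1 (inv_mem hk)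
      have h4 : k * z * k⁻¹ * z⁻¹ = k * (z * k⁻¹ * z⁻¹) := by group
      rw [h4]; exact mul_mem hk h3
    exact eq_one_of_mem (isPGroup p.la) hK h1 h2

end Cfsg.Agent.S5422
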