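import Cfsg.Statements.S5423
import Cfsg.Agent.H822.Holo

set_option autoImplicit false
open Cfsg

namespace Cfsg.Agent.S5423

open Cfsg.Agent.Co2Type.Quad Cfsg.Agent.H822.Bridge Cfsg.Agent.H822.SLTrans Cfsg.Agent.H822.Aff

/-- Let G be a finite group that is the split extension of an elementary abelian normal subgroup U of order 2^(n+1), n ≥ 1, by its full automorphism group: U has a complement M in G whose conjugation action on U is faithful and realizes every automorphism of U. Let Z be a subgroup of U of order 2 and Q the largest normal 2-subgroup of the centralizer C of Z. Then Q is extraspecial of order 2^(2n+1) with an elementary abelian subgroup of order 2^(n+1) (plus type), Q is a large extraspecial 2-subgroup of G, and C is the split extension of Q by the general linear group of degree n over the field with two elements. -/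
theorem result {G : Type*} [Group G] [Finite G] (n : ℕ) (hn : 1 ≤ n) (U M : Subgroup G) [U.Normal] (hU : Cfsg.IsElementaryAbelian 2 U) (hUcard : Nat.card ↥U = 2 ^ (n + 1)) (hUM : U ⊓ M = ⊥) (hUM' : U ⊔ M = ⊤) (hfaith : ∀ m ∈ M, (∀ u ∈ U, m * u * m⁻¹ = u) → m = 1) (hfull : ∀ φ : ↥U ≃* ↥U, ∃ m ∈ M, ∀ u : ↥U, ((φ u : ↥U) : G) = m * u * m⁻¹) (Z : Subgroup G) (hZU : Z ≤ U) (hZ : Nat.card ↥Z = 2) (Q : Subgroup G) (hQ : Q = (Cfsg.pCore 2 ↥(Subgroup.centralizer (Z : Set G))).map (Subgroup.centralizer (Z : Set G)).subtype) : Cfsg.IsExtraspecial 2 ↥Q ∧ Nat.card ↥Q = 2 ^ (2 * n + 1) ∧ (∃ E : Subgroup G, E ≤ Q ∧ Cfsg.IsElementaryAbelian 2 E ∧ Nat.card ↥E = 2 ^ (n + 1)) ∧ Cfsg.IsLargeExtraspecial Q ∧ ∃ K : Subgroup G, K ≤ Subgroup.centralizer (Z : Set G) ∧ Q ⊓ K = ⊥ ∧ Q ⊔ K = Subgroup.centralizer (Z : Set G) ∧ Nonempty (↥K ≃* Matrix.GeneralLinearGroup (Fin n) (ZMod 2)) := by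
  classical
  have hcomm : ∀ a ∈ U, ∀ b ∈ U, a * b = b * a := fun a ha b hb =>
    congrArg Subtype.val (hU.1.is_comm.comm (⟨a, ha⟩ : U) ⟨b, hb⟩)
  -- the involution of `Z`
  obtain ⟨z, hz1, hzz, hZe⟩ : ∃ z : G, z ≠ 1 ∧ z * z = 1 ∧ Z = Subgroup.zpowers z := by
    obtain ⟨a, b, hab, huniv⟩ := Nat.card_eq_two_iff.1 hZ
    have ha : ∀ w : Z, w = a ∨ w = b := by
      intro w
      have : w ∈ ({a, b} : Set Z) := by rw [huniv]; trivial
      simpa using this
    obtain ⟨z, hz1, hz⟩ : ∃ z : Z, z ≠ 1 ∧ ∀ w, w = 1 ∨ w = z := by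
      rcases ha 1 with h | h
      · exact ⟨b, by rw [h]; exact hab.symm, by rw [h]; exact ha⟩
      · exact ⟨a, by rw [h]; exact hab, by rw [h]; exact fun w => (ha w).symm⟩
    have hz2 : z * z = 1 := by
      rcases hz (z * z) with h | h
      · exact h
      · exact absurd (mul_eq_left.1 h) hz1
    refine ⟨z, fun h => hz1 (Subtype.ext h), congrArg Subtype.val hz2, ?_⟩
    apply le_antisymm
    · intro w hw
      rcases hz ⟨w, hw⟩ with h | h
      · have h' : w = 1 := congrArg Subtype.val h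
        rw [h']; exact one_mem _
      · have h' : w = z := congrArg Subtype.val h
        rw [h']; exact Subgroup.mem_zpowers _
    · rw [Subgroup.zpowers_le]; exact z.2
  have hzU : z ∈ U := hZU (by rw [hZe]; exact Subgroup.mem_zpowers z)
  have hCZ : Subgroup.centralizer (Z : Set G) = Subgroup.centralizer ({z} : Set G) := by
    ext g
    rw [Subgroup.mem_centralizer_iff, Subgroup.mem_centralizer_singleton_iff]
    constructor
    · intro h
      exact (h z (by rw [hZe]; exact Subgroup.mem_zpowers z)).symm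
    · intro h y hy
      rw [hZe] at hy
      rcases (mem_zpowers_iff_of_sq hzz).1 hy with h' | h'
      · rw [h', one_mul, mul_one]
      · rw [h']; exact h.symm
  rw [hCZ] at hQ ⊢
  obtain ⟨e, he, hez⟩ := Cfsg.Agent.H822.Coord.exists_coord (U := U)
    (fun a b => Subtype.ext (hcomm a a.2 b b.2))
    (fun a => Subtype.ext (by have := hU.2 a a.2; rw [pow_two] at this; exact this)) hUcard
    (z := ⟨z, hzU⟩) (fun h => hz1 (congrArg Subtype.val h))
  let H : Hol U M n z :=
    { nU := inferInstance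
      comm := hcomm
      inf := hUM
      sup := hUM'
      faith := hfaith
      full := hfull
      e := e
      e_mul := he
      hz := hzU
      e_z := hez }
  have hQ' : Q = H.pre (QQ n) := by rw [hQ]; exact H.core_pre hn
  subst hQ'
  have hlarge := H.large_sub hn hU.2 hUcard
  obtain ⟨h1, h2, h3⟩ := H.compl
  refine ⟨hlarge.1, ?_, ⟨U, H.U_le hn hU.2, hU, hUcard⟩, hlarge, H.pre (KK n), h1, h2, h3,
    ⟨(H.kPreEquiv.trans (kEquiv n)).trans (slEquivGl n)⟩⟩
  rw [H.card_pre (H.QQ_le), card_QQ]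

end Cfsg.Agent.S5423
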