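import Cfsg.Statements.S5425
import Cfsg.Agent.H822.Octad

set_option autoImplicit false
open Cfsg

namespace Cfsg.Agent.S5425

open scoped Pointwise
open Cfsg.Agent.Co2Type.Quad Cfsg.Agent.H822.Bridge Cfsg.Agent.H822.SLTrans Cfsg.Agent.H822.Aff
open Cfsg.Agent.H822.Octad Cfsg.Agent.H822.Transfer Cfsg.Agent.SporadicA.OctadFix

theorem exists_other {G : Type*} [Group G] (U : Subgroup G) (z : G) (hU : 2 < Nat.card U) :
    ∃ b ∈ U, b ≠ 1 ∧ b ≠ z := by
  have : Finite U := Nat.finite_of_card_ne_zero (by omega)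
  by_contra hcon
  push Not at hcon
  have h3 : Nat.card U ≤ Nat.card (({1, z} : Set G)) := by
    refine Nat.card_le_card_of_injective
      (fun x : U => (⟨x, by
        by_cases h : (x : G) = 1
        · simp [h]
        · have := hcon x x.2 h; simp [this]⟩ : ({1, z} : Set G))) ?_
    intro x y hxy
    have hxy' := congrArg (fun t : (({1, z} : Set G)) => (t : G)) hxy
    exact Subtype.ext hxy'
  have h4 : Nat.card (({1, z} : Set G)) ≤ 2 := by
    rw [Nat.card_coe_set_eq]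
    refine (Set.ncard_insert_le _ _).trans ?_
    rw [Set.ncard_singleton]
  omega

/-- In the Mathieu group of degree 24 (the automorphism group of the length-24 binary Golay code, acting on the 24 coordinates), let z be an involution whose fixed points form an octad (the support of a code word of weight 8), and let Q be the largest normal 2-subgroup of the centralizer C of z. Then Q is extraspecial of order 2^7 with an elementary abelian subgroup of order 16 (plus type), Q is a large extraspecial 2-subgroup, and C is the split extension of Q by the special linear group of degree 3 over the field with two elements. -/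
theorem result (z : ↥Cfsg.M24) (hz : orderOf z = 2) (hfix : (Finset.univ.filter fun p : Cfsg.GolayPt => (z : Equiv.Perm Cfsg.GolayPt) p = p) ∈ Cfsg.octads) (Q : Subgroup ↥Cfsg.M24) (hQ : Q = (Cfsg.pCore 2 ↥(Subgroup.centralizer ({z} : Set ↥Cfsg.M24))).map (Subgroup.centralizer ({z} : Set ↥Cfsg.M24)).subtype) : Cfsg.IsExtraspecial 2 ↥Q ∧ Nat.card ↥Q = 2 ^ 7 ∧ (∃ E : Subgroup ↥Cfsg.M24, E ≤ Q ∧ Cfsg.IsElementaryAbelian 2 E ∧ Nat.card ↥E = 2 ^ 4) ∧ Cfsg.IsLargeExtraspecial Q ∧ ∃ K : Subgroup ↥Cfsg.M24, K ≤ Subgroup.centralizer ({z} : Set ↥Cfsg.M24) ∧ Q ⊓ K = ⊥ ∧ Q ⊔ K = Subgroup.centralizer ({z} : Set ↥Cfsg.M24) ∧ Nonempty (↥K ≃* Matrix.SpecialLinearGroup (Fin 3) (ZMod 2)) := by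
  classical
  set o : Finset Cfsg.GolayPt := Finset.univ.filter fun p : Cfsg.GolayPt => (z : Equiv.Perm Cfsg.GolayPt) p = p
    with hodef
  have hmo : ∀ x, x ∈ o ↔ (z : Equiv.Perm Cfsg.GolayPt) x = x := by
    intro x; rw [hodef, Finset.mem_filter]; simp
  have hz1 : z ≠ 1 := by
    rintro rfl
    rw [orderOf_one] at hz
    exact absurd hz (by norm_num)
  -- a point off the octad
  obtain ⟨p, hp⟩ : ∃ p, p ∉ o := by
    by_contra hcon
    push Not at hcon
    apply hz1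
    apply Subtype.ext
    ext x
    rw [(hmo x).1 (hcon x)]; rfl
  have hzfix : (z : Equiv.Perm Cfsg.GolayPt) ∈ fixOct o := mem_fixOct.2 ⟨z.2, fun x hx => (hmo x).1 hx⟩
  let z' : Yo o := ⟨z, fix_le o hzfix⟩
  have hz'U : z' ∈ Uo o := Subgroup.mem_subgroupOf.2 hzfix
  have hz'1 : z' ≠ 1 := fun h => hz1 (Subtype.ext (congrArg (fun t : Yo o => (t : Equiv.Perm Cfsg.GolayPt)) h))
  let ι : ↥(Yo o) →* ↥Cfsg.M24 := Subgroup.inclusion inf_le_left
  have hι : Function.Injective ι := Subgroup.inclusion_injective inf_le_left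
  have hιz : ι z' = z := rfl
  -- elements preserving `o` are in the range
  have hran : ∀ g : ↥Cfsg.M24, (∀ x, (g : Equiv.Perm Cfsg.GolayPt) x ∈ o ↔ x ∈ o) → g ∈ ι.range := by
    intro g hg
    exact ⟨⟨g, mem_Yo.2 ⟨g.2, hg⟩⟩, rfl⟩
  -- elements of `U` fix exactly `o`
  have hfixU : ∀ b ∈ Uo o, b ≠ 1 → ∀ x, (b : Equiv.Perm Cfsg.GolayPt) x = x ↔ x ∈ o := by
    intro b hb hb1 x
    constructor
    · intro hx
      by_contra hxo
      apply hb1
      apply Subtype.ext
      exact (existsUnique_fixOct hfix hxo hxo).unique ⟨Subgroup.mem_subgroupOf.1 hb, hx⟩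
        ⟨one_mem _, rfl⟩
    · intro hx
      exact mem_Uo.1 hb x hx
  have hcomm : ∀ b ∈ Uo o, b ≠ 1 → ∀ g : ↥Cfsg.M24, g * ι b = ι b * g → g ∈ ι.range := by
    intro b hb hb1 g hg
    apply hran
    intro x
    rw [← hfixU b hb hb1, ← hfixU b hb hb1]
    have h1 : (g : Equiv.Perm Cfsg.GolayPt) ((b : Equiv.Perm Cfsg.GolayPt) x) =
        (b : Equiv.Perm Cfsg.GolayPt) ((g : Equiv.Perm Cfsg.GolayPt) x) :=
      congrArg (fun t : ↥Cfsg.M24 => (t : Equiv.Perm Cfsg.GolayPt) x) hg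
    rw [← h1]
    exact (g : Equiv.Perm Cfsg.GolayPt).injective.eq_iff
  have hC : ∀ g : ↥Cfsg.M24, g * ι z' = ι z' * g → g ∈ ι.range := hcomm z' hz'U hz'1
  -- the holomorph
  obtain ⟨e, he, hez⟩ := Cfsg.Agent.H822.Coord.exists_coord (U := Uo o) (n := 3)
    (fun a b => Subtype.ext (comm_Uo hfix a a.2 b b.2))
    (fun a => Subtype.ext (sq_Uo hfix a.2)) (card_Uo hfix)
    (z := ⟨z', hz'U⟩) (fun h => hz'1 (congrArg Subtype.val h))
  let H : Hol (Uo o) (Mo o p) 3 z' :=
    { nU := normal_Uo hfix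
      comm := comm_Uo hfix
      inf := inf_UM hfix hp
      sup := sup_UM hfix hp
      faith := faith_UM hfix hp
      full := full_UM hfix hp
      e := e
      e_mul := he
      hz := hz'U
      e_z := hez }
  have hU2 : ∀ u ∈ Uo o, u ^ 2 = 1 := fun u hu => by rw [pow_two]; exact sq_Uo hfix hu
  have hcore := core_map hι hC
  rw [hιz, H.core_pre (by norm_num)] at hcore
  have hQ' : Q = (H.pre (QQ 3)).map ι := by rw [hQ]; exact hcore
  subst hQ'
  have hL := large_map hι hC H.large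
  rw [hιz] at hL
  have hUle := H.U_le (by norm_num) hU2
  obtain ⟨b, hbU, hb1, hbz⟩ := exists_other (Uo o) z' (by rw [card_Uo hfix]; norm_num)
  have hlarge : Cfsg.IsLargeExtraspecial ((H.pre (QQ 3)).map ι) := by
    refine isLarge_of_core (b := ι b) hL ⟨b, hUle hbU, rfl⟩ ?_ ?_ (P := (Uo o).map ι) ?_ ⟨z', hz'U, rfl⟩ ?_ ?_
    · intro h; exact hb1 (hι (h.trans (map_one ι).symm))
    · intro h; exact hbz (hι (h.trans hιz.symm))
    · rintro ⟨_, ⟨u, hu, rfl⟩⟩
      refine ⟨1, ?_⟩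
      apply Subtype.ext
      show (ι u) ^ (2 ^ 1) = 1
      rw [pow_one, ← map_pow, hU2 u hu, map_one]
    · rintro g hg _ ⟨x, hx, rfl⟩
      obtain ⟨g, rfl⟩ := hcomm b hbU hb1 g hg
      exact ⟨g * x * g⁻¹, (normal_Uo hfix).conj_mem x hx g, by simp⟩
    · rw [← map_mul, sq_Uo hfix hbU, map_one]
  have hmc := map_cent hι hC
  rw [hιz] at hmc
  obtain ⟨c1, c2, c3⟩ := H.compl
  have hUel : Cfsg.IsElementaryAbelian 2 (Uo o) := by
    refine ⟨⟨⟨fun a b => Subtype.ext (comm_Uo hfix a a.2 b b.2)⟩⟩, hU2⟩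
  refine ⟨hlarge.1, ?_, ⟨(Uo o).map ι, Subgroup.map_mono hUle, elAb_map 2 hUel, ?_⟩, hlarge,
    (H.pre (KK 3)).map ι, ?_, ?_, ?_, ?_⟩
  · rw [card_map hι, H.card_pre (H.QQ_le), card_QQ]
  · rw [card_map hι, card_Uo hfix]
  · rw [← hmc]; exact Subgroup.map_mono c1
  · rw [← Subgroup.map_inf _ _ _ hι, c2, Subgroup.map_bot]
  · rw [← Subgroup.map_sup, c3, hmc]
  · exact ⟨(((H.pre (KK 3)).equivMapOfInjective ι hι).symm.trans H.kPreEquiv).trans (kEquiv 3)⟩

end Cfsg.Agent.S5425
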