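import Cfsg.Statements.S5426
import Cfsg.Agent.H822.StructureTwo

set_option autoImplicit false
open Cfsg

namespace Cfsg.Agent.S5426

open Cfsg.Agent.Co2Type.Quad Cfsg.Agent.H822.Bridge Cfsg.Agent.H822.Structure
open Cfsg.Agent.SignalizersComponents.Components

/-- Let Q be a large extraspecial 2-subgroup of the finite group G (extraspecial; centralizer equal to its centre; normal in the centralizer of its centre; normalizing no non-trivial subgroup of odd order) with centre generated by z, and let M be the normal closure of z in G. Then one of the following holds: Q is normal in G; or M is abelian and the generalized Fitting subgroup of G is its largest normal 2-subgroup; or M is the generalized Fitting subgroup of G and is a non-abelian simple group; or M is the generalized Fitting subgroup of G and is the direct product of a non-abelian simple subgroup L and its conjugate u L u⁻¹ by some u in Q (the two meet trivially and commute elementwise), with z = z₁ (u z₁ u⁻¹) for some z₁ in L whose centralizer in L is a Sylow 2-subgroup of L with Frattini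 subgroup inside the subgroup generated by z₁, and Q is not the largest normal 2-subgroup of the centralizer of z. -/
theorem result {G : Type*} [Group G] [Finite G] (Q : Subgroup G) (hQ : Cfsg.IsLargeExtraspecial Q) (z : G) (hz : ((Subgroup.center ↥Q).map Q.subtype) = Subgroup.zpowers z) (M : Subgroup G) (hM : M = Subgroup.normalClosure ({z} : Set G)) : Q.Normal ∨ (IsMulCommutative ↥M ∧ Cfsg.generalizedFittingSubgroup G = Cfsg.pCore 2 G) ∨ (M = Cfsg.generalizedFittingSubgroup G ∧ IsSimpleGroup ↥M ∧ ¬ IsMulCommutative ↥M) ∨ (M = Cfsg.generalizedFittingSubgroup G ∧ ∃ (L : Subgroup G) (u : G), u ∈ Q ∧ IsSimpleGroup ↥L ∧ ¬ IsMulCommutative ↥L ∧ L ⊓ (L).map (MulAut.conj u).toMonoidHom = ⊥ ∧ (∀ x ∈ L, ∀ y ∈ (L).map (MulAut.conj u).toMonoidHom, x * y = y * x) ∧ L ⊔ (L).map (MulAut.conj u).toMonoidHom = M ∧ ∃ z₁ ∈ L, z = z₁ * (u * z₁ * u⁻¹) ∧ (∃ R : Sylow 2 ↥L, (R : Subgroup ↥L) = (Subgroup.centralizer ({z₁} : Set G)).subgroupOf L ∧ (frattini ↥(R : Subgroup ↥L)).map ((L.subtype).comp (R : Subgroup ↥L).subtype) ≤ Subgroup.zpowers z₁) ∧ Q ≠ (Cfsg.pCore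 2 ↥(Subgroup.centralizer ({z} : Set G))).map (Subgroup.centralizer ({z} : Set G)).subtype) := by
  classical
  have hLg : Large Q z := large_of_zpowers Q hQ.1 hQ.2.1 hQ.2.2.1 hz
  have hO : NoOdd Q := hQ.2.2.2
  subst hM
  by_cases hcore : Cfsg.pCore 2 G = ⊥
  · -- `O₂(G) = 1`
    obtain ⟨L, hL⟩ := exists_component hO hcore hLg
    have hMl := normalClosure_eq hLg hO hcore
    have hF := genFitting_eq (G := G) hO hcore
    by_cases hall : ∀ u ∈ Q, L.map (MulAut.conj u).toMonoidHom = L
    · -- one component
      right; right; left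
      have hlL : Cfsg.layer G = L := by
        apply le_antisymm
        · rw [layer_le_iff]
          intro K hK
          obtain ⟨q, hq, rfl⟩ := transitive hLg hO hcore hL hK
          rw [hall q hq]
        · exact component_le_layer hL
      rw [hMl, hF, hlL]
      exact ⟨rfl, component_isSimple hO hcore hL, not_comm hL⟩
    · -- two components
      right; right; right
      push Not at hall
      obtain ⟨u, hu, hne⟩ := hall
      have s : Sit Q z L u := ⟨hLg, hO, hcore, hL, hu, hne⟩
      obtain ⟨z₁, hz₁, hzz⟩ := s.exists_z₁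
      refine ⟨by rw [hMl, hF], L, u, hu, component_isSimple hO hcore hL, not_comm hL, ?_, ?_, ?_,
        z₁, hz₁, hzz, s.exists_sylow hz₁ hzz, s.ne_core⟩
      · rw [eq_bot_iff]
        intro x hx
        rw [Subgroup.mem_bot]
        exact s.eq_one_of_mem_both hx.1 hx.2
      · intro x hx y hy
        exact comm_of_ne hL (isComponent_conj u hL) (fun h => hne h.symm) hx hy
      · rw [hMl]; exact s.layer_eq.symm
  · -- `O₂(G) ≠ 1`
    right; left
    obtain ⟨h1, h2⟩ := case_core hLg hO hcore
    exact ⟨⟨⟨fun a b => Subtype.ext (h1 a a.2 b b.2)⟩⟩, h2⟩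

end Cfsg.Agent.S5426
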