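import Cfsg.Statements.S5427
import Cfsg.Agent.S5426

set_option autoImplicit false
open Cfsg

namespace Cfsg.Agent.S5427

open Cfsg.Agent.Co2Type.Quad Cfsg.Agent.LargeExtra.Base Cfsg.Agent.H822.Bridge Cfsg.Agent.H822.Structure
open Cfsg.Agent.SignalizersComponents.Components

/-- Let z be an involution of the finite group G whose centralizer C has generalized Fitting subgroup Q, an extraspecial 2-group of width at least 2 (order 2^(2w+1), w ≥ 2). Let K be a subgroup of G such that the subgroup U generated by the K-conjugates of z is abelian and C is generated by the C-conjugates of U. Suppose that either some K-conjugate of z other than z lies in Q, or some element u of U ∩ Q outside the subgroup generated by z has z in the largest normal 2-subgroup of its centralizer. Then G is simple and Q is a large extraspecial 2-subgroup of G. -/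
theorem result {G : Type*} [Group G] [Finite G] (z : G) (hz : orderOf z = 2) (Q : Subgroup G) (hQC : Q ≤ Subgroup.centralizer ({z} : Set G)) (hF : (Cfsg.generalizedFittingSubgroup ↥(Subgroup.centralizer ({z} : Set G))).map (Subgroup.centralizer ({z} : Set G)).subtype = Q) (hQ : Cfsg.IsExtraspecial 2 ↥Q) (w : ℕ) (hw : 2 ≤ w) (hcard : Nat.card ↥Q = 2 ^ (2 * w + 1)) (K U : Subgroup G) (hU : U = Subgroup.closure {x : G | ∃ k ∈ K, x = k * z * k⁻¹}) (hUab : IsMulCommutative ↥U) (hgen : Subgroup.closure {x : G | ∃ c ∈ Subgroup.centralizer ({z} : Set G), ∃ u ∈ U, x = c * u * c⁻¹} = Subgroup.centralizer ({z} : Set G)) (h3 : (∃ k ∈ K, k * z * k⁻¹ ∈ Q ∧ k * z * k⁻¹ ≠ z) ∨ ∃ u ∈ U ⊓ Q, u ∉ Subgroup.zpowers z ∧ (∃ hz' : z ∈ Subgroup.centralizer ({u} : Set G), (⟨z, hz'⟩ : ↥(Subgroup.centralizer ({u} : Set G))) ∈ Cfsg.pCore 2 ↥(Subgroup.centralizer ({u} : Set G)))) : IsSimpleGroup G ∧ Cfsg.IsLargeExtraspecial Q := by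
  classical
  have h2f : Fact (Nat.Prime 2) := ⟨Nat.prime_two⟩
  set C := Subgroup.centralizer ({z} : Set G) with hC
  -- `Large Q z`
  have hE : Cfsg.IsExtraspecial 2 ↥(Cfsg.generalizedFittingSubgroup ↥C) := by
    have e : ↥(Cfsg.generalizedFittingSubgroup ↥C) ≃* ↥Q :=
      ((Cfsg.generalizedFittingSubgroup ↥C).equivMapOfInjective C.subtype C.subtype_injective).trans
        (MulEquiv.subgroupCongr hF)
    exact Cfsg.Agent.J2.ExtQuot.isExtraspecial_of_equiv e.symm hQ
  have hLg : Large Q z := by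
    have := large_of_genFitting z hz hE
    rw [← hC, hF] at this
    exact this
  -- elements of `U`
  have hzU : ∀ k ∈ K, k * z * k⁻¹ ∈ U := fun k hk => by
    rw [hU]; exact Subgroup.subset_closure ⟨k, hk, rfl⟩
  have hUsq : ∀ x ∈ U, x * x = 1 := by
    intro x hx
    rw [hU] at hx
    have hcomm : ∀ a ∈ U, ∀ b ∈ U, a * b = b * a := fun a ha b hb =>
      congrArg Subtype.val (hUab.is_comm.comm (⟨a, ha⟩ : U) ⟨b, hb⟩)
    have h1 : x ∈ U ∧ x * x = 1 := by
      induction hx using Subgroup.closure_induction with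
      | mem x hx =>
        obtain ⟨k, hk, rfl⟩ := hx
        refine ⟨hzU k hk, ?_⟩
        calc k * z * k⁻¹ * (k * z * k⁻¹) = k * (z * z) * k⁻¹ := by group
          _ = 1 := by rw [hLg.z_sq]; group
      | one => exact ⟨one_mem _, one_mul _⟩
      | mul x y _ _ hx hy =>
        refine ⟨mul_mem hx.1 hy.1, ?_⟩
        calc x * y * (x * y) = x * (y * x) * y := by group
          _ = x * (x * y) * y := by rw [hcomm _ hy.1 _ hx.1]
          _ = (x * x) * (y * y) := by group
          _ = 1 := by rw [hx.2, hy.2, one_mul]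
      | inv x _ hx =>
        refine ⟨inv_mem hx.1, ?_⟩
        rw [← mul_inv_rev, hx.2, inv_one]
    exact h1.2
  -- `Q` is large
  have hlarge : Cfsg.IsLargeExtraspecial Q := by
    rcases h3 with ⟨k, hk, hkQ, hkz⟩ | ⟨u, hu, huz, hz', hzc⟩
    · have p := pair_of_conj hLg hkQ hkz
      exact isLarge_of_core hLg hkQ p.la.z_ne hkz (isPGroup p.la) p.z_mem p.la.conj_mem p.la.z_sq
    · have hu1 : u ≠ 1 := fun h => huz (by rw [h]; exact one_mem _)
      have huz1 : u ≠ z := fun h => huz (by rw [h]; exact Subgroup.mem_zpowers z)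
      refine isLarge_of_core hLg hu.2 hu1 huz1
        (P := (Cfsg.pCore 2 ↥(Subgroup.centralizer ({u} : Set G))).map
          (Subgroup.centralizer ({u} : Set G)).subtype)
        ((Cfsg.Agent.Lib.Cores.pCore_isPGroup 2).map _) ⟨_, hzc, rfl⟩ ?_ (hUsq u hu.1)
      rintro g hg _ ⟨x, hx, rfl⟩
      have hgC : g ∈ Subgroup.centralizer ({u} : Set G) := Subgroup.mem_centralizer_singleton_iff.2 hg
      have hn : (Cfsg.pCore 2 ↥(Subgroup.centralizer ({u} : Set G))).Normal :=
        Cfsg.Agent.Lib.Cores.pCore_normal 2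
      exact ⟨⟨g, hgC⟩ * x * ⟨g, hgC⟩⁻¹, hn.conj_mem x hx _, rfl⟩
  refine ⟨?_, hlarge⟩
  have hcz := center_eq_zpowers hLg
  have hCle : ∀ M : Subgroup G, M.Normal → z ∈ M → C ≤ M := by
    intro M hM hzM
    have hUM : U ≤ M := by
      rw [hU, Subgroup.closure_le]
      rintro _ ⟨k, -, rfl⟩
      exact hM.conj_mem z hzM k
    rw [← hgen, Subgroup.closure_le]
    rintro _ ⟨c, -, u, hu, rfl⟩
    exact hM.conj_mem u (hUM hu) c
  have hQnc : ∃ x ∈ Q, ∃ y ∈ Q, x * y ≠ y * x := by
    by_contra hcon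
    push Not at hcon
    have h1 : ∀ x ∈ Q, x = 1 ∨ x = z := fun x hx => hLg.cent x hx fun y hy => hcon x hx y hy
    have h2 : Nat.card Q ≤ 2 := by
      have h3 : Nat.card Q ≤ Nat.card (({1, z} : Set G)) := by
        refine Nat.card_le_card_of_injective
          (fun x : Q => (⟨x, by rcases h1 x x.2 with h | h <;> simp [h]⟩ : ({1, z} : Set G))) ?_
        intro x y hxy
        have hxy' := congrArg (fun t : (({1, z} : Set G)) => (t : G)) hxy
        exact Subtype.ext hxy'
      have h4 : Nat.card (({1, z} : Set G)) = 2 := by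
        rw [Nat.card_coe_set_eq, Set.ncard_pair hLg.z_ne.symm]
      omega
    rw [hcard] at h2
    have h3 : 2 ^ (2 * 2 + 1) ≤ 2 ^ (2 * w + 1) := Nat.pow_le_pow_right (by norm_num) (by omega)
    omega
  have hzM : z ∈ Subgroup.normalClosure ({z} : Set G) :=
    Subgroup.subset_normalClosure (Set.mem_singleton z)
  have hMn : (Subgroup.normalClosure ({z} : Set G)).Normal := Subgroup.normalClosure_normal
  rcases Cfsg.Agent.S5426.result Q hlarge z hcz _ rfl with h | h | h | h
  · -- `Q` normal
    exfalso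
    have hzc : ∀ g : G, g * z * g⁻¹ = z := by
      intro g
      have h1 : g * z * g⁻¹ = 1 ∨ g * z * g⁻¹ = z := by
        refine hLg.cent _ (h.conj_mem z hLg.z_mem g) fun y hy => ?_
        have h2 : g⁻¹ * y * g ∈ Q := by
          have := h.conj_mem y hy g⁻¹
          rwa [inv_inv] at this
        have h3 := hLg.comm_z _ h2
        calc g * z * g⁻¹ * y = g * (z * (g⁻¹ * y * g)) * g⁻¹ := by group
          _ = g * ((g⁻¹ * y * g) * z) * g⁻¹ := by rw [h3]
          _ = y * (g * z * g⁻¹) := by group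
      rcases h1 with h1 | h1
      · exfalso
        apply hLg.z_ne
        calc z = g⁻¹ * (g * z * g⁻¹) * g := by group
          _ = 1 := by rw [h1]; group
      · exact h1
    rcases h3 with ⟨k, hk, hkQ, hkz⟩ | ⟨u, hu, huz, hz', hzc'⟩
    · exact hkz (hzc k)
    · apply huz
      have h1 : U ≤ Subgroup.zpowers z := by
        rw [hU, Subgroup.closure_le]
        rintro _ ⟨k, -, rfl⟩
        rw [hzc k]
        exact Subgroup.mem_zpowers z
      exact h1 hu.1
  · -- `M` abelian
    exfalso
    obtain ⟨x, hx, y, hy, hxy⟩ := hQnc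
    have h1 := hCle _ hMn hzM
    apply hxy
    exact congrArg Subtype.val (h.1.is_comm.comm (⟨x, h1 (hQC hx)⟩ : Subgroup.normalClosure ({z} : Set G))
      ⟨y, h1 (hQC hy)⟩)
  · -- simple
    obtain ⟨-, hs, hna⟩ := h
    have h1 := hCle _ hMn hzM
    have htop : Subgroup.normalClosure ({z} : Set G) = ⊤ := by
      obtain ⟨T, hT⟩ := (isPGroup hLg).exists_le_sylow
      have hTz := Cfsg.Agent.LargeExtra.TwoCentral.le_centralizer_of_two hLg T.2 hT
      have h2 := Sylow.normalizer_sup_eq_top' T (hTz.trans h1)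
      rw [← top_le_iff, ← h2]
      refine sup_le ?_ le_rfl
      intro n hn
      apply h1
      have hzT : z ∈ (T : Subgroup G) := hT hLg.z_mem
      have hn : n ∈ Subgroup.normalizer ((T : Subgroup G) : Set G) := hn
      rw [Subgroup.mem_normalizer_iff] at hn
      have h3 : n * z * n⁻¹ = 1 ∨ n * z * n⁻¹ = z := by
        refine eq_of_centralizes hLg fun y hy => ?_
        have hyT : n⁻¹ * y * n ∈ (T : Subgroup G) := by
          rw [hn]
          have e : n * (n⁻¹ * y * n) * n⁻¹ = y := by group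
          rw [e]; exact hT hy
        have h4 := Subgroup.mem_centralizer_singleton_iff.1 (hTz hyT)
        calc n * z * n⁻¹ * y = n * (z * (n⁻¹ * y * n)) * n⁻¹ := by group
          _ = n * ((n⁻¹ * y * n) * z) * n⁻¹ := by rw [h4]
          _ = y * (n * z * n⁻¹) := by group
      rw [hC, Subgroup.mem_centralizer_singleton_iff]
      rcases h3 with h3 | h3
      · exfalso
        apply hLg.z_ne
        calc z = n⁻¹ * (n * z * n⁻¹) * n := by group
          _ = 1 := by rw [h3]; group
      · calc n * z = (n * z * n⁻¹) * n := by group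
          _ = z * n := by rw [h3]
    rw [htop] at hs
    exact Subgroup.topEquiv.symm.isSimpleGroup
  · -- two components
    exfalso
    obtain ⟨-, L, u, -, -, -, -, -, -, z₁, -, -, -, hne⟩ := h
    apply hne
    rw [← hF]
    congr 1
    have hgn : (Cfsg.generalizedFittingSubgroup ↥C).Normal := Cfsg.Agent.S1755.gfs_normal C
    apply le_antisymm
    · refine Cfsg.Agent.Lib.Cores.le_pCore hgn ?_
      intro x
      obtain ⟨n, hn⟩ := isPGroup hLg ⟨((x : C) : G), by rw [← hF]; exact ⟨_, x.2, rfl⟩⟩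
      have hn' := congrArg (fun t : Q => (t : G)) hn
      exact ⟨n, Subtype.ext (Subtype.ext hn')⟩
    · exact Cfsg.Agent.LargeExtra.TwoCentral.le_of_normal_two
        (Cfsg.Agent.Lib.Cores.pCore_normal 2) (Cfsg.Agent.Lib.Cores.pCore_isPGroup 2)

end Cfsg.Agent.S5427
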