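import Cfsg.Statements.S5428
import Cfsg.Agent.H822.Quot

set_option autoImplicit false
open Cfsg

namespace Cfsg.Agent.S5428

open Cfsg.Agent.Co2Type.Quad Cfsg.Agent.LargeExtra.Base Cfsg.Agent.H822.Bridge Cfsg.Agent.H822.Structure
open Cfsg.Agent.H822.Quot

/-- Let z be an involution of the finite group G whose centralizer C has generalized Fitting subgroup Q extraspecial (as a 2-group), let A be a subgroup of C of odd order, and let R be the centralizer of A in Q; suppose R has order at least 32, the largest normal subgroup of odd order of the centralizer of the subgroup generated by A and R lies in A, the order of that centralizer is not divisible by 4, and g is an element of G with g z g⁻¹ in R but outside the centre Z of Q. Let M be the subgroup generated by A and the centralizer of A (A is normal in it). Then: the centralizer in M of the subgroup generated by R and A, joined with A, equals the subgroup generated by A and Z; the image of R in M/A is a large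 extraspecial 2-subgroup of M/A; and g z g⁻¹ is conjugate to z inside the subgroup generated by R and the centralizer of A in g Q g⁻¹. -/
theorem result {G : Type*} [Group G] [Finite G] (z : G) (hz : orderOf z = 2) (Q : Subgroup G) (hQC : Q ≤ Subgroup.centralizer ({z} : Set G)) (hF : (Cfsg.generalizedFittingSubgroup ↥(Subgroup.centralizer ({z} : Set G))).map (Subgroup.centralizer ({z} : Set G)).subtype = Q) (hQ : Cfsg.IsExtraspecial 2 ↥Q) (A : Subgroup G) (hA : A ≤ Subgroup.centralizer ({z} : Set G)) (hAodd : Odd (Nat.card ↥A)) (R : Subgroup G) (hR : R = Q ⊓ Subgroup.centralizer (A : Set G)) (hR32 : 32 ≤ Nat.card ↥R) (hO : (Cfsg.oddCore ↥(Subgroup.centralizer ((A ⊔ R : Subgroup G) : Set G))).map (Subgroup.centralizer ((A ⊔ R : Subgroup G) : Set G)).subtype ≤ A) (h4 : ¬ 4 ∣ Nat.card ↥(Subgroup.centralizer ((A ⊔ R : Subgroup G) : Set G))) (g : G) (hgR : g * z * g⁻¹ ∈ R) (hgZ : g * z * g⁻¹ ∉ ((Subgroup.center ↥Q).map Q.subtype)) (M : Subgroup G) (hM : M = Subgroup.centralizer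 (A : Set G) ⊔ A) [hn : (A.subgroupOf M).Normal] : (M ⊓ Subgroup.centralizer ((R ⊔ A : Subgroup G) : Set G)) ⊔ A = A ⊔ ((Subgroup.center ↥Q).map Q.subtype) ∧ Cfsg.IsLargeExtraspecial ((R.subgroupOf M).map (QuotientGroup.mk' (A.subgroupOf M))) ∧ ∃ x ∈ R ⊔ ((Q).map (MulAut.conj g).toMonoidHom ⊓ Subgroup.centralizer (A : Set G)), x * (g * z * g⁻¹) * x⁻¹ = z := by
  classical
  have h2f : Fact (Nat.Prime 2) := ⟨Nat.prime_two⟩
  -- `Large Q z`
  have hE : Cfsg.IsExtraspecial 2 ↥(Cfsg.generalizedFittingSubgroup ↥(Subgroup.centralizer ({z} : Set G))) := by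
    have e : ↥(Cfsg.generalizedFittingSubgroup ↥(Subgroup.centralizer ({z} : Set G))) ≃* ↥Q :=
      ((Cfsg.generalizedFittingSubgroup ↥(Subgroup.centralizer ({z} : Set G))).equivMapOfInjective
        (Subgroup.centralizer ({z} : Set G)).subtype
        (Subgroup.centralizer ({z} : Set G)).subtype_injective).trans (MulEquiv.subgroupCongr hF)
    exact Cfsg.Agent.J2.ExtQuot.isExtraspecial_of_equiv e.symm hQ
  have hLg : Large Q z := by
    have := large_of_genFitting z hz hE
    rw [hF] at this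
    exact this
  have hAz : ∀ a ∈ A, a * z = z * a := fun a ha => Subgroup.mem_centralizer_singleton_iff.1 (hA ha)
  set CA := Subgroup.centralizer (A : Set G) with hCA
  have hCM : CA ≤ M := by rw [hM]; exact le_sup_left
  have hAM : A ≤ M := by rw [hM]; exact le_sup_right
  have hzC : z ∈ CA := by
    rw [hCA, Subgroup.mem_centralizer_iff]; exact hAz
  have hzM : z ∈ M := hCM hzC
  have hzR : z ∈ R := by rw [hR]; exact ⟨hLg.z_mem, hzC⟩
  have hRQ : R ≤ Q := by rw [hR]; exact inf_le_left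
  have hRC : R ≤ CA := by rw [hR]; exact inf_le_right
  have hQA : ∀ x ∈ Q, x ∈ A → x = 1 := fun x hx hxA =>
    eq_one_of_pow hAodd hxA (n := 2) (pow_four_eq hLg hx)
  -- the centraliser `X` of `A R`
  set X := Subgroup.centralizer ((A ⊔ R : Subgroup G) : Set G) with hXdef
  have hmemX : ∀ c : G, c ∈ X ↔ c ∈ CA ∧ ∀ r ∈ R, c * r = r * c := by
    intro c
    constructor
    · intro hc
      rw [hXdef, Subgroup.mem_centralizer_iff] at hc
      refine ⟨Subgroup.mem_centralizer_iff.2 fun a ha => hc a (Subgroup.mem_sup_left ha), fun r hr => ?_⟩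
      exact (hc r (Subgroup.mem_sup_right hr)).symm
    · rintro ⟨h1, h2⟩
      have h3 : A ⊔ R ≤ Subgroup.centralizer ({c} : Set G) := by
        refine sup_le ?_ ?_
        · intro a ha
          exact Subgroup.mem_centralizer_singleton_iff.2 (Subgroup.mem_centralizer_iff.1 h1 a ha)
        · intro r hr
          exact Subgroup.mem_centralizer_singleton_iff.2 (h2 r hr).symm
      rw [hXdef, Subgroup.mem_centralizer_iff]
      intro y hy
      exact Subgroup.mem_centralizer_singleton_iff.1 (h3 hy)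
  have hzX : z ∈ X := (hmemX z).2 ⟨hzC, fun r hr => (hLg.comm_z r (hRQ hr)).symm⟩
  have hXA : ∀ c ∈ X, c ∈ A ∨ c * z ∈ A := by
    intro c hc
    have hcent : ∀ x : X, x * (⟨z, hzX⟩ : X) = ⟨z, hzX⟩ * x := fun x =>
      Subtype.ext (((hmemX x).1 x.2).2 z hzR)
    rcases central_two (X := X) ⟨z, hzX⟩ (fun h => hLg.z_ne (congrArg Subtype.val h))
      (Subtype.ext hLg.z_sq) hcent h4 ⟨c, hc⟩ with h | h
    · left; exact hO ⟨_, h, rfl⟩
    · right; exact hO ⟨_, h, rfl⟩
  have hX' : ∀ c : G, c ∈ Subgroup.centralizer (A : Set G) →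
      (∀ r ∈ Q ⊓ Subgroup.centralizer (A : Set G), c * r = r * c) → c ∈ A ∨ c * z ∈ A := by
    intro c hc h1
    exact hXA c ((hmemX c).2 ⟨hc, fun r hr => h1 r (by rw [← hCA, ← hR]; exact hr)⟩)
  have hZ : ((Subgroup.center ↥Q).map Q.subtype) = Subgroup.zpowers z := center_eq_zpowers hLg
  -- the conjugate
  set b := g * z * g⁻¹ with hb
  have hbQ : b ∈ Q := hRQ hgR
  have hbC : b ∈ CA := hRC hgR
  rw [center_eq hLg] at hgZ
  push Not at hgZ
  obtain ⟨hb1, hbz⟩ := hgZ
  have p : Pair Q z (Q.map (MulAut.conj g).toMonoidHom) b := pair_of_conj hLg hbQ hbz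
  have hAb : ∀ a ∈ A, a * b = b * a := fun a ha => Subgroup.mem_centralizer_iff.1 hbC a ha
  -- the large subgroup of the quotient
  have hLq := large_quot (M := M) hLg hAz hAodd hM hzM hX'
  have hRim : (R.subgroupOf M).map (QuotientGroup.mk' (A.subgroupOf M)) =
      im A M (Q ⊓ Subgroup.centralizer (A : Set G)) := by rw [hR]; rfl
  refine ⟨?_, ?_, ?_⟩
  · -- the centraliser
    rw [hZ]
    have hXe : Subgroup.centralizer ((R ⊔ A : Subgroup G) : Set G) = X := by rw [hXdef, sup_comm]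
    rw [hXe]
    apply le_antisymm
    · refine sup_le ?_ le_sup_left
      intro c hc
      rcases hXA c hc.2 with h | h
      · exact Subgroup.mem_sup_left h
      · have e : c = (c * z) * z := by rw [mul_assoc, hLg.z_sq, mul_one]
        rw [e]
        exact mul_mem (Subgroup.mem_sup_left h) (Subgroup.mem_sup_right (Subgroup.mem_zpowers z))
    · refine sup_le le_sup_right ?_
      rw [Subgroup.zpowers_le]
      exact Subgroup.mem_sup_left ⟨hzM, hzX⟩
  · rw [hRim]
    have hbM : b ∈ M := hCM hbC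
    have hb' : cl A M ⟨b, hbM⟩ ∈ im A M (Q ⊓ Subgroup.centralizer (A : Set G)) :=
      mem_im.2 ⟨⟨b, hbM⟩, ⟨hbQ, hbC⟩, rfl⟩
    refine isLarge_of_core hLq hb' ?_ ?_
      (P := im A M ((Q.map (MulAut.conj g).toMonoidHom) ⊓ CA))
      (im_two ((isPGroup p.la).to_le inf_le_left)) ?_ ?_ ?_
    · intro h
      exact hb1 (hQA b hbQ (cl_eq_one.1 h))
    · intro h
      rw [cl_eq] at h
      have h1 : b * z⁻¹ = 1 := hQA _ (mul_mem hbQ (inv_mem hLg.z_mem)) h
      exact hbz (mul_inv_eq_one.1 h1)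
    · exact mem_im.2 ⟨⟨z, hzM⟩, ⟨p.z_mem, hzC⟩, rfl⟩
    · intro c hc x hx
      obtain ⟨m, rfl⟩ := cl_surj c
      obtain ⟨r, hr, rfl⟩ := mem_im.1 hx
      have h1 : (m : G) * b = b * m :=
        lift_comm (t := ⟨b, hbM⟩) (n := 1) hAodd (by rw [pow_one, pow_two]; exact p.la.z_sq) hAb hc
      refine mem_im.2 ⟨m * r * m⁻¹, ⟨p.la.conj_mem m h1 _ hr.1, ?_⟩, rfl⟩
      refine conj_mem_centralizer ?_ hr.2
      exact sup_normalizes (hM ▸ m.2 : (m : G) ∈ Subgroup.centralizer (A : Set G) ⊔ A)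
    · rw [← cl_mul, cl_eq_one]
      show b * b ∈ A
      rw [p.la.z_sq]; exact one_mem A
  · -- conjugacy
    obtain ⟨c₁, h1Q, h1A, h1⟩ := exists_conj_fixed hLg hAodd hAz hbQ hAb hb1 hbz
    obtain ⟨c₂, h2Q, h2A, h2⟩ := exists_conj_fixed p.la hAodd hAb p.z_mem hAz hLg.z_ne p.ne.symm
    refine ⟨c₂⁻¹ * c₁, mul_mem (Subgroup.mem_sup_right (inv_mem ⟨h2Q, h2A⟩))
      (Subgroup.mem_sup_left (by rw [hR]; exact ⟨h1Q, h1A⟩)), ?_⟩
    calc c₂⁻¹ * c₁ * b * (c₂⁻¹ * c₁)⁻¹ = c₂⁻¹ * (c₁ * b * c₁⁻¹) * c₂ := by group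
      _ = c₂⁻¹ * (b * z) * c₂ := by rw [h1]
      _ = c₂⁻¹ * (z * b) * c₂ := by rw [p.comm_za]
      _ = c₂⁻¹ * (c₂ * z * c₂⁻¹) * c₂ := by rw [h2]
      _ = z := by group

end Cfsg.Agent.S5428
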