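import Cfsg.Statements.S5429
import Cfsg.Agent.H823.Converse
import Cfsg.Agent.LargeExtra.TwoCentral

set_option autoImplicit false
open Cfsg

namespace Cfsg.Agent.S5429

open Cfsg.Agent.Co2Type.Quad Cfsg.Agent.LargeExtra.Base Cfsg.Agent.LargeExtra.TwoCentral Cfsg.Agent.H823

variable {G : Type*} [Group G] {Q : Subgroup G} {z t : G}

/-- a noncentral element of `Q` is conjugate to its product with `z` -/
theorem isConj_mul (h : Large Q z) (htQ : t ∈ Q) (ht1 : t ≠ 1) (htz : t ≠ z) : ∃ y ∈ Q, y * t * y⁻¹ = t * z := by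
  obtain ⟨y, hy, h1⟩ := exists_not_comm h htQ ht1 htz
  refine ⟨y, hy, ?_⟩
  rw [h1]
  have h2 : y * z = z * y := h.comm_z y hy
  calc t * y * z * y⁻¹ = t * (y * z) * y⁻¹ := by group
    _ = t * (z * y) * y⁻¹ := by rw [h2]
    _ = t * z := by group

/-- `z` is not conjugate to `z t` -/
theorem not_conj_mul (h : Large Q z) (htQ : t ∈ Q) (ht1 : t ≠ 1) (htz : ¬ IsConj z t) (m : G) :
    m * z * m⁻¹ ≠ z * t := by
  intro hm
  obtain ⟨y, -, hy⟩ := isConj_mul h htQ ht1 (fun h' => htz (h' ▸ IsConj.refl _))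
  apply htz
  rw [isConj_iff]
  refine ⟨y⁻¹ * m, ?_⟩
  have h1 : t * z = z * t := h.comm_z t htQ
  calc y⁻¹ * m * z * (y⁻¹ * m)⁻¹ = y⁻¹ * (m * z * m⁻¹) * y := by group
    _ = y⁻¹ * (y * t * y⁻¹) * y := by rw [hm, ← h1, hy]
    _ = t := by group

section quot

variable (P : Subgroup G) [hn : ((Subgroup.zpowers t).subgroupOf (Subgroup.centralizer ({t} : Set G))).Normal]

theorem mem_zpowers_t (ht2 : t * t = 1) (x : G) : x ∈ Subgroup.zpowers t ↔ x = 1 ∨ x = t := by
  constructor
  · rintro ⟨k, rfl⟩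
    rcases Int.even_or_odd' k with ⟨m, rfl | rfl⟩
    · left
      show t ^ (2 * m) = 1
      rw [zpow_mul, zpow_ofNat, pow_two, ht2, one_zpow]
    · right
      show t ^ (2 * m + 1) = t
      rw [zpow_add, zpow_mul, zpow_ofNat, pow_two, ht2, one_zpow, zpow_one, one_mul]
  · rintro (rfl | rfl)
    · exact one_mem _
    · exact Subgroup.mem_zpowers _

/-- equality in the quotient `C(t) / ⟨t⟩` -/
theorem mk_eq (ht2 : t * t = 1) (x y : ↥(Subgroup.centralizer ({t} : Set G))) :
    QuotientGroup.mk' ((Subgroup.zpowers t).subgroupOf (Subgroup.centralizer ({t} : Set G))) x =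
      QuotientGroup.mk' ((Subgroup.zpowers t).subgroupOf (Subgroup.centralizer ({t} : Set G))) y ↔
      (x : G) = y ∨ (x : G) = y * t := by
  rw [eq_comm, QuotientGroup.mk'_apply, QuotientGroup.mk'_apply, QuotientGroup.eq, Subgroup.mem_subgroupOf,
    mem_zpowers_t ht2]
  constructor
  · rintro (h | h)
    · left; exact (inv_mul_eq_one.1 h).symm
    · right
      have h' : (y : G)⁻¹ * x = t := h
      calc (x : G) = y * ((y : G)⁻¹ * x) := by group
        _ = y * t := by rw [h']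
  · rintro (h | h)
    · left
      show (y : G)⁻¹ * x = 1
      rw [h]; group
    · right
      show (y : G)⁻¹ * x = t
      rw [h]; group

theorem mk_mem (ht2 : t * t = 1) (htP : t ∈ P) (x : ↥(Subgroup.centralizer ({t} : Set G))) :
    QuotientGroup.mk' ((Subgroup.zpowers t).subgroupOf (Subgroup.centralizer ({t} : Set G))) x ∈
      ((P.subgroupOf (Subgroup.centralizer ({t} : Set G))).map
        (QuotientGroup.mk' ((Subgroup.zpowers t).subgroupOf (Subgroup.centralizer ({t} : Set G))))) ↔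
      (x : G) ∈ P := by
  constructor
  · rintro ⟨y, hy, hxy⟩
    have hy' : (y : G) ∈ P := Subgroup.mem_subgroupOf.1 hy
    rcases (mk_eq ht2 y x).1 hxy with h | h
    · rw [← h]; exact hy'
    · have : (x : G) = y * t⁻¹ := by rw [h]; group
      rw [this]; exact mul_mem hy' (inv_mem htP)
  · intro hx
    exact ⟨x, Subgroup.mem_subgroupOf.2 hx, rfl⟩

/-- the image of `C_Q(t)` in `C(t)/⟨t⟩` is `Large` -/
theorem large_quot (h : Large Q z) (htQ : t ∈ Q) (ht2 : t * t = 1) (ht1 : t ≠ 1) (htz : ¬ IsConj z t)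
    (hP : P = Q ⊓ Subgroup.centralizer ({t} : Set G))
    (hCP : ∀ c ∈ Subgroup.centralizer ({z} : Set G),
      (∀ x ∈ P, ∃ y ∈ Subgroup.closure ({t, z} : Set G), c * x * c⁻¹ = x * y) → c ∈ Q)
    (hzt : z ∈ Subgroup.centralizer ({t} : Set G)) :
    Large ((P.subgroupOf (Subgroup.centralizer ({t} : Set G))).map
        (QuotientGroup.mk' ((Subgroup.zpowers t).subgroupOf (Subgroup.centralizer ({t} : Set G)))))
      (QuotientGroup.mk' ((Subgroup.zpowers t).subgroupOf (Subgroup.centralizer ({t} : Set G))) ⟨z, hzt⟩) := by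
  have htz' : t ≠ z := fun h' => htz (h' ▸ IsConj.refl _)
  have hzt' : z * t = t * z := (h.comm_z t htQ).symm
  have htP : t ∈ P := by
    rw [hP]; exact ⟨htQ, Subgroup.mem_centralizer_singleton_iff.2 rfl⟩
  have hmP : ∀ x, x ∈ P ↔ x ∈ Q ∧ x * t = t * x := by
    intro x
    rw [hP, Subgroup.mem_inf, Subgroup.mem_centralizer_singleton_iff]
  have hct : ∀ x : ↥(Subgroup.centralizer ({t} : Set G)), (x : G) * t = t * x := fun x =>
    Subgroup.mem_centralizer_singleton_iff.1 x.2
  have hsurj := QuotientGroup.mk'_surjective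
    ((Subgroup.zpowers t).subgroupOf (Subgroup.centralizer ({t} : Set G)))
  have hmk := mk_eq (G := G) (t := t) ht2
  have hmem := mk_mem (G := G) P ht2 htP
  revert hsurj hmk hmem
  generalize QuotientGroup.mk' ((Subgroup.zpowers t).subgroupOf (Subgroup.centralizer ({t} : Set G))) = π
  intro hsurj hmk hmem
  -- elements of the quotient commuting with `z̄`
  have hcz : ∀ m : ↥(Subgroup.centralizer ({t} : Set G)), π m * π ⟨z, hzt⟩ = π ⟨z, hzt⟩ * π m → (m : G) * z = z * m := by
    intro m hm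
    rw [← map_mul, ← map_mul] at hm
    rcases (hmk _ _).1 hm with h1 | h1
    · exact h1
    · exfalso
      have h1' : (m : G) * z = z * m * t := h1
      apply not_conj_mul h htQ ht1 htz m
      rw [h1', mul_assoc z, hct m]; group
  refine ⟨(hmem _).2 ((hmP z).2 ⟨h.z_mem, hzt'⟩), ?_, ?_, ?_, ?_, ?_, ?_, ?_, ?_⟩
  · intro h1
    rw [← map_one π] at h1
    rcases (hmk _ _).1 h1 with h2 | h2
    · exact h.z_ne h2
    · apply htz'
      have h2' : z = 1 * t := h2
      rw [h2', one_mul]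
  · rw [← map_mul, ← map_one π]
    exact (hmk _ _).2 (Or.inl h.z_sq)
  · intro x hx
    obtain ⟨x, rfl⟩ := hsurj x
    have hx' := (hmP _).1 ((hmem x).1 hx)
    rw [← map_mul, ← map_mul]
    exact (hmk _ _).2 (Or.inl (h.comm_z x hx'.1))
  · intro m hm x hx
    obtain ⟨m, rfl⟩ := hsurj m
    obtain ⟨x, rfl⟩ := hsurj x
    have hx' := (hmP _).1 ((hmem x).1 hx)
    rw [← map_mul, ← map_inv, ← map_mul, hmem, hmP]
    exact ⟨h.conj_mem m (hcz m hm) x hx'.1, hct (m * x * m⁻¹)⟩
  · intro x hx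
    obtain ⟨x, rfl⟩ := hsurj x
    have hx' := (hmP _).1 ((hmem x).1 hx)
    rw [← map_mul, ← map_one π]
    rcases h.sq x hx'.1 with h1 | h1
    · left; exact (hmk _ _).2 (Or.inl h1)
    · right; exact (hmk _ _).2 (Or.inl h1)
  · intro x hx y hy
    obtain ⟨x, rfl⟩ := hsurj x
    obtain ⟨y, rfl⟩ := hsurj y
    have hx' := (hmP _).1 ((hmem x).1 hx)
    have hy' := (hmP _).1 ((hmem y).1 hy)
    rw [← map_mul, ← map_mul, ← map_mul]
    rcases h.comm x hx'.1 y hy'.1 with h1 | h1
    · left; exact (hmk _ _).2 (Or.inl h1)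
    · right; exact (hmk _ _).2 (Or.inl h1)
  · intro x hx hc
    obtain ⟨x, rfl⟩ := hsurj x
    have hx' := (hmP _).1 ((hmem x).1 hx)
    rw [← map_one π]
    have h1 : ∀ r ∈ Q, r * t = t * r → r * (x : G) = x * r := by
      intro r hr hrt
      have hrC : r ∈ Subgroup.centralizer ({t} : Set G) := Subgroup.mem_centralizer_singleton_iff.2 hrt
      have h2 := hc (π ⟨r, hrC⟩) ((hmem _).2 ((hmP r).2 ⟨hr, hrt⟩))
      rw [← map_mul, ← map_mul] at h2
      rcases (hmk _ _).1 h2 with h3 | h3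
      · exact h3.symm
      · have h3' : (x : G) * r = r * x * t := h3
        rcases h.comm x hx'.1 r hr with h4 | h4
        · exact h4.symm
        · exfalso
          apply htz'
          rcases h.comm r hr x hx'.1 with h5 | h5
          · rw [h5] at h3'
            exact absurd (mul_eq_left.1 h3'.symm) ht1
          · -- `r x = x r z`, `x r = r x t`
            rw [h5] at h3'
            -- `x r = x r z t`
            have h6 : z * t = 1 := by
              have : (x : G) * r * 1 = (x : G) * r * (z * t) := by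
                rw [mul_one, ← mul_assoc]; exact h3'
              exact (mul_left_cancel this).symm
            rw [eq_inv_of_mul_eq_one_right h6, h.z_inv]
    rcases eq_of_cent h htQ hx'.1 h1 with h2 | h2 | h2 | h2
    · left; exact (hmk _ _).2 (Or.inl h2)
    · right; exact (hmk _ _).2 (Or.inl h2)
    · left
      refine (hmk _ _).2 (Or.inr ?_)
      show (x : G) = 1 * t
      rw [h2, one_mul]
    · right
      refine (hmk _ _).2 (Or.inr ?_)
      show (x : G) = z * t
      rw [h2, hzt']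
  · intro m hm hc
    obtain ⟨m, rfl⟩ := hsurj m
    have hmz := hcz m hm
    rw [hmem, hmP]
    refine ⟨hCP m (Subgroup.mem_centralizer_singleton_iff.2 hmz) ?_, hct m⟩
    intro x hx
    have hx' := (hmP x).1 hx
    have hxC : x ∈ Subgroup.centralizer ({t} : Set G) := Subgroup.mem_centralizer_singleton_iff.2 hx'.2
    have h2 := hc (π ⟨x, hxC⟩) ((hmem _).2 hx)
    rw [← map_mul, ← map_mul] at h2
    rcases (hmk _ _).1 h2 with h3 | h3
    · have h3' : (m : G) * x = x * m := h3
      exact ⟨1, one_mem _, by rw [h3']; group⟩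
    · have h3' : (m : G) * x = x * m * t := h3
      refine ⟨t, Subgroup.subset_closure (by simp), ?_⟩
      rw [h3', mul_assoc x, hct m]; group

end quot

/-- some element of `C_Q(t)` moves `a` to `a z` -/
theorem exists_move {A : Subgroup G} {a : G} (p : Pair Q z A a) (htQ : t ∈ Q) (ht1 : t ≠ 1) (htz : ¬ IsConj z t) :
    ∃ c ∈ Q, c * t = t * c ∧ c * a * c⁻¹ = a * z := by
  have haz : IsConj z a := by
    obtain ⟨g, hg, -⟩ := p.isConj
    exact isConj_iff.2 ⟨g, hg⟩
  have htz' : t ≠ z := fun h' => htz (h' ▸ IsConj.refl _)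
  by_contra hcon
  push Not at hcon
  have h1 : ∀ r ∈ Q, r * t = t * r → r * a = a * r := by
    intro r hr hrt
    rcases p.lz.comm r hr a p.a_mem with h2 | h2
    · exact h2
    · exfalso
      apply hcon r hr hrt
      rw [h2]
      have h3 : r * z = z * r := p.lz.comm_z r hr
      calc a * r * z * r⁻¹ = a * (r * z) * r⁻¹ := by group
        _ = a * (z * r) * r⁻¹ := by rw [h3]
        _ = a * z := by group
  rcases eq_of_cent p.lz htQ p.a_mem h1 with h2 | h2 | h2 | h2
  · exact p.la.z_ne h2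
  · exact p.ne h2
  · exact htz (h2 ▸ haz)
  · obtain ⟨y, -, hy⟩ := isConj_mul p.lz htQ ht1 htz'
    apply htz
    refine haz.trans ?_
    rw [h2, ← hy]
    exact (isConj_iff.2 ⟨y, rfl⟩ : IsConj t (y * t * y⁻¹)).symm

/-- Let z be an involution of the finite group G with centralizer C whose generalized Fitting subgroup Q is extraspecial of width at least 3 (order 2^(2w+1), w ≥ 3); let g be an element of G with g z g⁻¹ in Q but outside the centre Z of Q, and t an involution lying in both Q and g Q g⁻¹ that is not conjugate to z; write P for the centralizer of t in Q and suppose that the elements of C acting trivially by conjugation on P modulo the subgroup generated by t and z are exactly the elements of Q. Then the image of P in the centralizer of t modulo the subgroup generated by t is a large extraspecial 2-subgroup there, and g z g⁻¹ is conjugate to z inside the subgroup generated by P and the centralizer of t in g Q g⁻¹. -/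
theorem result {G : Type*} [Group G] [Finite G] (z : G) (hz : orderOf z = 2) (Q : Subgroup G) (hQC : Q ≤ Subgroup.centralizer ({z} : Set G)) (hF : (Cfsg.generalizedFittingSubgroup ↥(Subgroup.centralizer ({z} : Set G))).map (Subgroup.centralizer ({z} : Set G)).subtype = Q) (hQ : Cfsg.IsExtraspecial 2 ↥Q) (w : ℕ) (hw : 3 ≤ w) (hcard : Nat.card ↥Q = 2 ^ (2 * w + 1)) (g : G) (hgQ : g * z * g⁻¹ ∈ Q) (hgZ : g * z * g⁻¹ ∉ ((Subgroup.center ↥Q).map Q.subtype)) (t : G) (ht : orderOf t = 2) (htQ : t ∈ Q ⊓ (Q).map (MulAut.conj g).toMonoidHom) (htz : ¬ IsConj z t) (P : Subgroup G) (hP : P = Q ⊓ Subgroup.centralizer ({t} : Set G)) (hCP : ∀ c ∈ Subgroup.centralizer ({z} : Set G), (∀ x ∈ P, ∃ y ∈ Subgroup.closure ({t, z} : Set G), c * x * c⁻¹ = x * y) ↔ c ∈ Q) [hn : ((Subgroup.zpowers t).subgroupOf (Subgroup.centralizer ({t} : Set G))).Normal] : Cfsg.IsLargeExtraspecial ((P.subgroupOf (Subgroup.centralizer ({t} : Set G))).map (QuotientGroup.mk' ((Subgroup.zpowers t).subgroupOf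 (Subgroup.centralizer ({t} : Set G))))) ∧ ∃ x ∈ P ⊔ ((Q).map (MulAut.conj g).toMonoidHom ⊓ Subgroup.centralizer ({t} : Set G)), x * (g * z * g⁻¹) * x⁻¹ = z := by
  -- `Large Q z`
  have hL : Large Q z := by
    have hE : Cfsg.IsExtraspecial 2 ↥(Cfsg.generalizedFittingSubgroup ↥(Subgroup.centralizer ({z} : Set G))) := by
      refine Cfsg.Agent.J2.ExtQuot.isExtraspecial_of_equiv ?_ hQ
      rw [← hF]
      exact (Subgroup.equivMapOfInjective _ _ (Subgroup.subtype_injective _)).symm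
    have h1 := large_of_genFitting z hz hE
    rwa [hF] at h1
  have hne : g * z * g⁻¹ ≠ z := by
    intro h
    apply hgZ
    rw [h, center_map hL]
    exact Subgroup.mem_zpowers z
  have p := pair_of_conj hL hgQ hne
  set A := Q.map (MulAut.conj g).toMonoidHom with hA
  set a := g * z * g⁻¹ with ha
  obtain ⟨htQ, htA⟩ := htQ
  have haz : IsConj z a := isConj_iff.2 ⟨g, rfl⟩
  have hta : ¬ IsConj a t := fun h => htz (haz.trans h)
  have ht2 : t * t = 1 := by rw [← pow_two, ← ht]; exact pow_orderOf_eq_one t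
  have ht1 : t ≠ 1 := by
    intro h; rw [h, orderOf_one] at ht; exact absurd ht (by norm_num)
  have hzt : z * t = t * z := (hL.comm_z t htQ).symm
  have hat : a * t = t * a := (p.la.comm_z t htA).symm
  have hztC : z ∈ Subgroup.centralizer ({t} : Set G) := Subgroup.mem_centralizer_singleton_iff.2 hzt
  have hatC : a ∈ Subgroup.centralizer ({t} : Set G) := Subgroup.mem_centralizer_singleton_iff.2 hat
  obtain ⟨c, hcQ, hct, hca⟩ := exists_move p htQ ht1 htz
  obtain ⟨b, hbA, hbt, hbz⟩ := exists_move p.symm htA ht1 hta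
  have hcP : c ∈ P := by rw [hP]; exact ⟨hcQ, Subgroup.mem_centralizer_singleton_iff.2 hct⟩
  have haP : a ∈ P := by rw [hP]; exact ⟨hgQ, hatC⟩
  have htP : t ∈ P := by rw [hP]; exact ⟨htQ, Subgroup.mem_centralizer_singleton_iff.2 rfl⟩
  constructor
  · have hLq := large_quot P hL htQ ht2 ht1 htz hP (fun c hc => (hCP c hc).1) hztC
    have hmk := mk_eq (G := G) (t := t) ht2
    have hmem := mk_mem (G := G) P ht2 htP
    have hsurj := QuotientGroup.mk'_surjective
      ((Subgroup.zpowers t).subgroupOf (Subgroup.centralizer ({t} : Set G)))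
    have hcC : c ∈ Subgroup.centralizer ({t} : Set G) := Subgroup.mem_centralizer_singleton_iff.2 hct
    refine isLarge_of hLq ?_ ?_
    · -- the image has more than two elements
      intro h2
      have h3 := hLq.card_center
      have h4 : Subgroup.center ↥((P.subgroupOf (Subgroup.centralizer ({t} : Set G))).map
          (QuotientGroup.mk' ((Subgroup.zpowers t).subgroupOf (Subgroup.centralizer ({t} : Set G))))) = ⊤ := by
        apply Subgroup.eq_top_of_card_eq
        rw [h3, h2]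
      have h5 : (⟨_, (hmem ⟨a, hatC⟩).2 haP⟩ : ↥((P.subgroupOf (Subgroup.centralizer ({t} : Set G))).map
          (QuotientGroup.mk' ((Subgroup.zpowers t).subgroupOf (Subgroup.centralizer ({t} : Set G)))))) ∈
          Subgroup.center _ := h4 ▸ Subgroup.mem_top _
      have h6 := congrArg Subtype.val (Subgroup.mem_center_iff.1 h5 ⟨_, (hmem ⟨c, hcC⟩).2 hcP⟩)
      have h7 : QuotientGroup.mk' ((Subgroup.zpowers t).subgroupOf (Subgroup.centralizer ({t} : Set G)))
          (⟨c, hcC⟩ * ⟨a, hatC⟩) =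
          QuotientGroup.mk' ((Subgroup.zpowers t).subgroupOf (Subgroup.centralizer ({t} : Set G)))
          (⟨a, hatC⟩ * ⟨c, hcC⟩) := by
        rw [map_mul, map_mul]; exact h6
      rcases (hmk _ _).1 h7 with h8 | h8
      · have h8' : c * a = a * c := h8
        rw [mul_inv_eq_iff_eq_mul.2 h8'] at hca
        exact hL.z_ne (mul_eq_left.1 hca.symm)
      · have h8' : c * a = a * c * t := h8
        have h9 : a * t = a * z := by
          rw [← hca, h8']
          calc a * t = a * (c * t) * c⁻¹ := by rw [hct]; group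
            _ = a * c * t * c⁻¹ := by group
        exact htz (mul_left_cancel h9 ▸ IsConj.refl _)
    · -- odd subgroups
      intro K hK hKn
      have hinv := fun (k : ↥(Subgroup.centralizer ({t} : Set G)) ⧸
        (Subgroup.zpowers t).subgroupOf (Subgroup.centralizer ({t} : Set G))) (hk : k ∈ K) =>
          inverts hLq hK hKn hk
      have haK := hKn ((hmem ⟨a, hatC⟩).2 haP)
      have hcK := hKn ((hmem ⟨c, hcC⟩).2 hcP)
      have hPa : IsPGroup 2 A := isPGroup p.la
      have hta' : t ≠ a := fun h' => hta (h' ▸ IsConj.refl _)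
      have hct' : ∀ x : ↥(Subgroup.centralizer ({t} : Set G)), (x : G) * t = t * x := fun x =>
        Subgroup.mem_centralizer_singleton_iff.1 x.2
      clear_value a A
      revert hinv haK hcK hKn hmk hmem hsurj hLq
      generalize QuotientGroup.mk' ((Subgroup.zpowers t).subgroupOf (Subgroup.centralizer ({t} : Set G))) = π
      intro hLq hmk hmem hsurj hKn hinv haK hcK
      have hsq1 : ∀ k ∈ K, k * k = 1 → k = 1 := by
        intro k hk hkk
        have h2 : orderOf k ∣ 2 := orderOf_dvd_of_pow_eq_one (by rw [pow_two]; exact hkk)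
        have h3 : orderOf k ∣ Nat.card K := by
          have := orderOf_dvd_natCard (⟨k, hk⟩ : K)
          rwa [← Subgroup.orderOf_coe] at this
        rw [← orderOf_eq_one_iff]
        exact Nat.eq_one_of_dvd_coprimes (Nat.coprime_two_left.2 hK) h2 h3
      -- `C_K(ā) = 1`
      have h1 : ∀ k ∈ K, k * π ⟨a, hatC⟩ = π ⟨a, hatC⟩ * k → k = 1 := by
        intro k hk hka
        obtain ⟨m, rfl⟩ := hsurj k
        rw [← map_mul, ← map_mul] at hka
        have hma : (m : G) * a = a * m := by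
          rcases (hmk _ _).1 hka with h2 | h2
          · exact h2
          · exfalso
            have h2' : (m : G) * a = a * m * t := h2
            apply not_conj_mul p.la htA ht1 hta m
            rw [h2', mul_assoc a, hct' m]; group
        have hy : (m : G) * z * (m : G)⁻¹ * z⁻¹ ∈ A :=
          mul_mem (p.la.conj_mem m hma z p.z_mem) (inv_mem p.z_mem)
        obtain ⟨n, hn⟩ := hPa ⟨_, hy⟩
        have hn' : ((m : G) * z * (m : G)⁻¹ * z⁻¹) ^ 2 ^ n = 1 := congrArg Subtype.val hn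
        have hn'' : (m * ⟨z, hztC⟩ * m⁻¹ * ⟨z, hztC⟩⁻¹ : ↥(Subgroup.centralizer ({t} : Set G))) ^ 2 ^ n = 1 :=
          Subtype.ext hn'
        have h3 : π (m * ⟨z, hztC⟩ * m⁻¹ * ⟨z, hztC⟩⁻¹) = π m * π m := by
          have h4 := hinv (π m)⁻¹ (inv_mem hk)
          rw [inv_inv] at h4
          rw [map_mul, map_mul, map_mul, map_inv, map_inv]
          calc π m * π ⟨z, hztC⟩ * (π m)⁻¹ * (π ⟨z, hztC⟩)⁻¹
              = π m * (π ⟨z, hztC⟩ * (π m)⁻¹ * (π ⟨z, hztC⟩)⁻¹) := by group
            _ = π m * π m := by rw [h4]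
        have h5 : (π m * π m) ^ 2 ^ n = 1 := by rw [← h3, ← map_pow, hn'', map_one]
        have h6 : orderOf (π m * π m) ∣ 2 ^ n := orderOf_dvd_of_pow_eq_one h5
        have h7 : orderOf (π m * π m) ∣ Nat.card K := by
          have := orderOf_dvd_natCard (⟨π m * π m, mul_mem hk hk⟩ : K)
          rwa [← Subgroup.orderOf_coe] at this
        apply hsq1 _ hk
        rw [← orderOf_eq_one_iff]
        exact Nat.eq_one_of_dvd_coprimes (Nat.Coprime.pow_left _ (Nat.coprime_two_left.2 hK)) h6 h7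
      have haa : π ⟨a, hatC⟩ * π ⟨a, hatC⟩ = 1 := by
        rw [← map_mul, ← map_one π]
        exact (hmk _ _).2 (Or.inl p.la.z_sq)
      -- `ā` inverts `K`
      have h2 : ∀ k ∈ K, π ⟨a, hatC⟩ * k * (π ⟨a, hatC⟩)⁻¹ = k⁻¹ := by
        intro k hk
        obtain ⟨d, hd, l, hl, h3, h4, rfl⟩ := Cfsg.Agent.Lib.KleinGen.exists_centralizer_mul_inverted K hK
          (π ⟨a, hatC⟩) haa (fun k hk => (Subgroup.mem_normalizer_iff.1 haK k).1 hk) hk
        have h5 : d = 1 := h1 d hd h3.symm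
        rw [h5, one_mul]; exact h4
      have hcaz : π ⟨c, hcC⟩ * π ⟨a, hatC⟩ * (π ⟨c, hcC⟩)⁻¹ = π ⟨a, hatC⟩ * π ⟨z, hztC⟩ := by
        rw [← map_mul, ← map_inv, ← map_mul, ← map_mul]
        exact (hmk _ _).2 (Or.inl hca)
      rw [eq_bot_iff]
      intro k hk
      rw [Subgroup.mem_bot]
      apply hsq1 k hk
      -- `ā` centralises `K`
      have h3 : π ⟨c, hcC⟩ * k * (π ⟨c, hcC⟩)⁻¹ ∈ K := (Subgroup.mem_normalizer_iff.1 hcK k).1 hk
      have h4 : (π ⟨a, hatC⟩ * π ⟨z, hztC⟩) * (π ⟨c, hcC⟩ * k * (π ⟨c, hcC⟩)⁻¹) *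
          (π ⟨a, hatC⟩ * π ⟨z, hztC⟩)⁻¹ = π ⟨c, hcC⟩ * k * (π ⟨c, hcC⟩)⁻¹ := by
        calc (π ⟨a, hatC⟩ * π ⟨z, hztC⟩) * (π ⟨c, hcC⟩ * k * (π ⟨c, hcC⟩)⁻¹) * (π ⟨a, hatC⟩ * π ⟨z, hztC⟩)⁻¹
            = π ⟨a, hatC⟩ * (π ⟨z, hztC⟩ * (π ⟨c, hcC⟩ * k * (π ⟨c, hcC⟩)⁻¹) * (π ⟨z, hztC⟩)⁻¹) *
              (π ⟨a, hatC⟩)⁻¹ := by group
          _ = π ⟨a, hatC⟩ * (π ⟨c, hcC⟩ * k * (π ⟨c, hcC⟩)⁻¹)⁻¹ * (π ⟨a, hatC⟩)⁻¹ := by rw [hinv _ h3]
          _ = π ⟨c, hcC⟩ * k * (π ⟨c, hcC⟩)⁻¹ := by rw [h2 _ (inv_mem h3), inv_inv]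
      rw [← hcaz] at h4
      have h5 : π ⟨a, hatC⟩ * k * (π ⟨a, hatC⟩)⁻¹ = k := by
        calc π ⟨a, hatC⟩ * k * (π ⟨a, hatC⟩)⁻¹
            = (π ⟨c, hcC⟩)⁻¹ * (π ⟨c, hcC⟩ * π ⟨a, hatC⟩ * (π ⟨c, hcC⟩)⁻¹ * (π ⟨c, hcC⟩ * k * (π ⟨c, hcC⟩)⁻¹) *
                (π ⟨c, hcC⟩ * π ⟨a, hatC⟩ * (π ⟨c, hcC⟩)⁻¹)⁻¹) * π ⟨c, hcC⟩ := by group
          _ = (π ⟨c, hcC⟩)⁻¹ * (π ⟨c, hcC⟩ * k * (π ⟨c, hcC⟩)⁻¹) * π ⟨c, hcC⟩ := by rw [h4]
          _ = k := by group
      rw [h2 k hk] at h5
      calc k * k = k⁻¹ * k := by rw [h5]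
        _ = 1 := inv_mul_cancel k
  · -- the last part
    refine ⟨b * c, mul_mem (Subgroup.mem_sup_right ⟨hbA, Subgroup.mem_centralizer_singleton_iff.2 hbt⟩)
      (Subgroup.mem_sup_left hcP), ?_⟩
    have hba : b * a * b⁻¹ = a := by
      rw [p.la.comm_z b hbA]; group
    calc b * c * a * (b * c)⁻¹ = b * (c * a * c⁻¹) * b⁻¹ := by group
      _ = (b * a * b⁻¹) * (b * z * b⁻¹) := by rw [hca]; group
      _ = a * (z * a) := by rw [hba, hbz]
      _ = z := by rw [← p.comm_za, ← mul_assoc, p.la.z_sq, one_mul]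

end Cfsg.Agent.S5429
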