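import Cfsg.Statements.S5430
import Cfsg.Agent.H823.PairS3

set_option autoImplicit false
open Cfsg

namespace Cfsg.Agent.S5430

/-- Let Q be a large extraspecial 2-subgroup of the finite group G (extraspecial; centralizer equal to its centre; normal in the centralizer of its centre; normalizing no non-trivial subgroup of odd order) with centre generated by z, an involution, of width w ≥ 2 (order 2^(2w+1)); let g be an element outside the centralizer H of z with g z g⁻¹ in Q; write V for the subgroup generated by z and g z g⁻¹, X for the subgroup generated by Q and g Q g⁻¹, R for the subgroup generated by the centralizer of z in g Q g⁻¹ and the centralizer of g z g⁻¹ in Q, and E for the intersection of Q and g Q g⁻¹. Then R is the centralizer of V in X and is the largest normal 2-subgroup of X, and X/R is isomorphic to the symmetric group of degree 3; moreover the normalizer of V is the product of X and the centralizer of V in H, X is normal in it, and modulo R it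 is the direct product of X/R and of the centralizer of V in H modulo R. -/
theorem result {G : Type*} [Group G] [Finite G] (Q : Subgroup G) (hQ : Cfsg.IsLargeExtraspecial Q) (z : G) (hz : ((Subgroup.center ↥Q).map Q.subtype) = Subgroup.zpowers z) (hz2 : orderOf z = 2) (w : ℕ) (hw : 2 ≤ w) (hcard : Nat.card ↥Q = 2 ^ (2 * w + 1)) (g : G) (hgH : g ∉ Subgroup.centralizer ({z} : Set G)) (hgQ : g * z * g⁻¹ ∈ Q) (V X R E : Subgroup G) (hV : V = Subgroup.closure ({z, g * z * g⁻¹} : Set G)) (hX : X = Q ⊔ (Q).map (MulAut.conj g).toMonoidHom) (hR : R = ((Q).map (MulAut.conj g).toMonoidHom ⊓ Subgroup.centralizer ({z} : Set G)) ⊔ (Q ⊓ Subgroup.centralizer ({g * z * g⁻¹} : Set G))) (hE : E = Q ⊓ (Q).map (MulAut.conj g).toMonoidHom) : R = X ⊓ Subgroup.centralizer (V : Set G) ∧ R = (Cfsg.pCore 2 ↥X).map X.subtype ∧ (∃ h : (R.subgroupOf X).Normal, Nonempty (↥X ⧸ R.subgroupOf X ≃* Equiv.Perm (Fin 3))) ∧ Subgroup.normalizer (V : Set G) = X ⊔ (Subgroup.centralizer ({z} : Set G) ⊓ Subgroup.centralizer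 (V : Set G)) ∧ (∀ y ∈ Subgroup.normalizer (V : Set G), ∀ x ∈ X, y * x * y⁻¹ ∈ X) ∧ R ≤ Subgroup.centralizer ({z} : Set G) ⊓ Subgroup.centralizer (V : Set G) ∧ (∀ x ∈ X, ∀ c ∈ Subgroup.centralizer ({z} : Set G) ⊓ Subgroup.centralizer (V : Set G), x * c * x⁻¹ * c⁻¹ ∈ R) ∧ X ⊓ (Subgroup.centralizer ({z} : Set G) ⊓ Subgroup.centralizer (V : Set G)) = R := by
  have hL := Cfsg.Agent.H823.large_of_isLarge hQ hz hz2
  have hne : g * z * g⁻¹ ≠ z := by
    intro h
    apply hgH
    rw [Subgroup.mem_centralizer_singleton_iff]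
    exact mul_inv_eq_iff_eq_mul.1 h
  have p := Cfsg.Agent.LargeExtra.Base.pair_of_conj hL hgQ hne
  have hR' : R = Cfsg.Agent.H823.RR Q (Q.map (MulAut.conj g).toMonoidHom) z (g * z * g⁻¹) := hR
  clear hR hE hgH hw hcard
  subst hV hX hR'
  refine ⟨(Cfsg.Agent.H823.X_inf_cV p).symm, Cfsg.Agent.H823.R_eq_pCore p, Cfsg.Agent.H823.quot_equiv p,
    Cfsg.Agent.H823.normV_eq p, fun y hy x hx => Cfsg.Agent.H823.X_normal p hy hx, ?_, ?_, ?_⟩
  · intro x hx
    have h1 := Cfsg.Agent.H823.RR_le_cV p hx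
    exact ⟨Subgroup.mem_centralizer_singleton_iff.2 h1.1, Cfsg.Agent.H823.mem_cV.2 h1⟩
  · rintro x hx c ⟨-, hc⟩
    obtain ⟨h1, h2⟩ := Cfsg.Agent.H823.mem_cV.1 hc
    have h3 := inv_mem (Cfsg.Agent.H823.comm_cV_X p h1 h2 hx)
    have e : (c * x * c⁻¹ * x⁻¹)⁻¹ = x * c * x⁻¹ * c⁻¹ := by group
    rwa [e] at h3
  · rw [← Cfsg.Agent.H823.X_inf_cV p]
    apply le_antisymm
    · rintro x ⟨hx, -, hc⟩
      exact ⟨hx, hc⟩
    · rintro x ⟨hx, hc⟩
      exact ⟨hx, Subgroup.mem_centralizer_singleton_iff.2 (Cfsg.Agent.H823.mem_cV.1 hc).1, hc⟩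

end Cfsg.Agent.S5430
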