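import Cfsg.Statements.S5432
import Cfsg.Agent.H823.ExtraOut
import Cfsg.Agent.LargeExtra.Siegel
import Cfsg.Agent.GenOrth.Normal
import Cfsg.Agent.AutOrth.Main

set_option autoImplicit false
open Cfsg

namespace Cfsg.Agent.S5432

open Cfsg.Agent.Co2Type.Quad Cfsg.Agent.H823 Cfsg.Agent.LargeExtra.Siegel
open Cfsg.Agent.LieClassical.OrthFourCommon

theorem aniso_two {a b : ZMod 2} (h : Cfsg.Agent.GenOrth.Aniso a b) : a = 1 ∧ b = 1 := by
  have key : ∀ a b : ZMod 2, (∀ z w : ZMod 2, z ^ 2 + a * z * w + b * w ^ 2 = 0 → z = 0 ∧ w = 0) → a = 1 ∧ b = 1 := by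
    decide
  exact key a b h

variable {E : Type*} [Group E] [Finite E] {z : E}

omit [Finite E] in
theorem card_V (h : Large (⊤ : Subgroup E) z) {n : ℕ} (hcard : Nat.card E = 2 ^ (2 * n + 1)) :
    Nat.card h.V = 2 ^ (2 * n) := by
  have h1 := h.card_eq
  rw [Subgroup.card_top, hcard, pow_succ, mul_comm] at h1
  exact (Nat.eq_of_mul_eq_mul_left two_pos h1).symm

theorem finrank_V (h : Large (⊤ : Subgroup E) z) {n : ℕ} (hcard : Nat.card E = 2 ^ (2 * n + 1)) :
    Module.finrank (ZMod 2) h.V = 2 * n := by
  have : Module.Finite (ZMod 2) h.V := Module.Finite.of_finite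
  have h1 := card_V h hcard
  rw [Module.natCard_eq_pow_finrank (K := ZMod 2) (V := h.V), Nat.card_zmod] at h1
  exact Nat.pow_right_injective le_rfl h1

theorem card_of_finrank (h : Large (⊤ : Subgroup E) z) (W : Submodule (ZMod 2) h.V) :
    Nat.card W = 2 ^ Module.finrank (ZMod 2) W := by
  have : Module.Finite (ZMod 2) h.V := Module.Finite.of_finite
  rw [Module.natCard_eq_pow_finrank (K := ZMod 2) (V := W), Nat.card_zmod]

/-- the image of an elementary abelian subgroup in `V` -/
def imV (h : Large (⊤ : Subgroup E) z) (A : Subgroup E) : Submodule (ZMod 2) h.V where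
  carrier := {v | ∃ a ∈ A, prE h a = v}
  zero_mem' := ⟨1, one_mem _, prE_one h⟩
  add_mem' := by
    rintro _ _ ⟨a, ha, rfl⟩ ⟨b, hb, rfl⟩
    exact ⟨a * b, mul_mem ha hb, prE_mul h a b⟩
  smul_mem' := by
    rintro c _ ⟨a, ha, rfl⟩
    have hc : c = 0 ∨ c = 1 := by revert c; decide
    rcases hc with rfl | rfl
    · exact ⟨1, one_mem _, by rw [zero_smul]; exact prE_one h⟩
    · exact ⟨a, ha, by rw [one_smul]⟩

/-- an elementary abelian subgroup of order `2 ^ (n + 1)` gives a totally singular subspace of dimension `≥ n` -/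
theorem exists_sing (h : Large (⊤ : Subgroup E) z) {n : ℕ} {A : Subgroup E} (hA : Cfsg.IsElementaryAbelian 2 A)
    (hcA : Nat.card A = 2 ^ (n + 1)) :
    (∀ w ∈ imV h A, h.q w = 0) ∧ n ≤ Module.finrank (ZMod 2) (imV h A) := by
  classical
  constructor
  · rintro _ ⟨a, ha, rfl⟩
    refine h.q_eq_zero.2 ?_
    show a * a = 1
    rw [← pow_two]; exact hA.2 a ha
  · have h1 : Nat.card A ≤ 2 * Nat.card (imV h A) := by
      -- the map `A → imV` has fibres of size at most two
      let f : A → ZMod 2 × imV h A := fun a => (if (a : E) = repE h (prE h a) then 0 else 1, ⟨prE h a, a, a.2, rfl⟩)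
      have hf : Function.Injective f := by
        intro a b hab
        have h2 : prE h (a : E) = prE h b := congrArg (fun p => (p.2 : h.V)) hab
        have h3 : (if (a : E) = repE h (prE h a) then (0 : ZMod 2) else 1) =
          (if (b : E) = repE h (prE h b) then 0 else 1) := congrArg Prod.fst hab
        rw [← h2] at h3
        apply Subtype.ext
        have ha := (prE_eq h).1 (prE_repE h (prE h (a : E)))
        have hb := (prE_eq h).1 ((prE_repE h (prE h (a : E))).trans h2)
        have hzz : ∀ x y : E, x = y * z → y = x * z := by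
          intro x y hxy
          rw [hxy, mul_assoc, h.z_sq, mul_one]
        by_cases h4 : (a : E) = repE h (prE h a)
        · rw [if_pos h4] at h3
          by_cases h5 : (b : E) = repE h (prE h a)
          · rw [h4, h5]
          · rw [if_neg h5] at h3
            exact absurd h3 (by decide)
        · rw [if_neg h4] at h3
          by_cases h5 : (b : E) = repE h (prE h a)
          · rw [if_pos h5] at h3
            exact absurd h3 (by decide)
          · have ha' : repE h (prE h (a : E)) = a * z := ha.resolve_left fun h' => h4 h'.symm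
            have hb' : repE h (prE h (a : E)) = b * z := hb.resolve_left fun h' => h5 h'.symm
            exact mul_right_cancel (ha'.symm.trans hb')
      have h2 := Nat.card_le_card_of_injective f hf
      rwa [Nat.card_prod, Nat.card_zmod] at h2
    rw [hcA, card_of_finrank, ← pow_succ'] at h1
    have := (Nat.pow_le_pow_iff_right (le_refl 2)).1 h1
    omega

/-- a totally singular subspace of dimension `n` gives an elementary abelian subgroup of order `2 ^ (n + 1)` -/
theorem exists_elem (h : Large (⊤ : Subgroup E) z) {n : ℕ} (W : Submodule (ZMod 2) h.V) (hW : ∀ w ∈ W, h.q w = 0)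
    (hn : Module.finrank (ZMod 2) W = n) :
    ∃ A : Subgroup E, Cfsg.IsElementaryAbelian 2 A ∧ Nat.card A = 2 ^ (n + 1) := by
  classical
  let A : Subgroup E :=
    { carrier := {x | prE h x ∈ W}
      one_mem' := by show prE h 1 ∈ W; rw [prE_one]; exact W.zero_mem
      mul_mem' := by
        intro x y hx hy
        show prE h (x * y) ∈ W
        rw [prE_mul]; exact W.add_mem hx hy
      inv_mem' := by
        intro x hx
        show prE h x⁻¹ ∈ W
        have : prE h x⁻¹ = - prE h x := h.pr_inv ⟨x, _⟩
        rw [this]; exact W.neg_mem hx }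
  refine ⟨A, ⟨⟨⟨?_⟩⟩, ?_⟩, ?_⟩
  · rintro ⟨x, hx⟩ ⟨y, hy⟩
    apply Subtype.ext
    show x * y = y * x
    have h1 : h.b (prE h x) (prE h y) = 0 := by
      have h2 := h.q_add' (prE h x) (prE h y)
      rw [hW _ hx, hW _ hy, hW _ (W.add_mem hx hy)] at h2
      simpa using h2.symm
    exact (h.b_pr ⟨x, _⟩ ⟨y, _⟩).1 h1
  · intro x hx
    rw [pow_two]
    exact h.q_eq_zero.1 (hW _ hx)
  · -- count
    let e : A ≃ ZMod 2 × W :=
      { toFun := fun a => (if (a : E) = repE h (prE h a) then 0 else 1, ⟨prE h a, a.2⟩)
        invFun := fun p => ⟨repE h p.2 * (if p.1 = 0 then 1 else z), by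
          show prE h _ ∈ W
          have : prE h (repE h p.2 * (if p.1 = 0 then 1 else z)) = p.2 := by
            rw [prE_mul, prE_repE]
            split_ifs
            · rw [prE_one, add_zero]
            · rw [(prE_eq_zero h).2 (Or.inr rfl), add_zero]
          rw [this]; exact p.2.2⟩
        left_inv := by
          rintro ⟨a, ha⟩
          apply Subtype.ext
          show repE h (prE h a) * (if (if a = repE h (prE h a) then (0 : ZMod 2) else 1) = 0 then 1 else z) = a
          by_cases h4 : a = repE h (prE h a)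
          · rw [if_pos h4, if_pos rfl, mul_one]; exact h4.symm
          · rw [if_neg h4, if_neg (by decide)]
            have ha := (prE_eq h).1 (prE_repE h (prE h a))
            have ha' : repE h (prE h a) = a * z := ha.resolve_left fun h' => h4 h'.symm
            rw [ha', mul_assoc, h.z_sq, mul_one]
        right_inv := by
          rintro ⟨c, w, hw⟩
          have hpr : prE h (repE h w * (if c = 0 then 1 else z)) = w := by
            rw [prE_mul, prE_repE]
            split_ifs
            · rw [prE_one, add_zero]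
            · rw [(prE_eq_zero h).2 (Or.inr rfl), add_zero]
          apply Prod.ext
          · show (if repE h w * (if c = 0 then 1 else z) = repE h (prE h (repE h w * (if c = 0 then 1 else z)))
              then (0 : ZMod 2) else 1) = c
            rw [hpr]
            by_cases hc : c = 0
            · rw [if_pos hc, mul_one, if_pos rfl, hc]
            · rw [if_neg hc, if_neg (fun h' => h.z_ne (mul_eq_left.1 h'))]
              have key : ∀ c : ZMod 2, c ≠ 0 → 1 = c := by decide
              exact key c hc
          · exact Subtype.ext hpr }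
    rw [Nat.card_congr e, Nat.card_prod, Nat.card_zmod, card_of_finrank, hn, pow_succ']

/-- the two types of quadratic spaces over the field with two elements -/
theorem types (h : Large (⊤ : Subgroup E) z) {n : ℕ} (hn : 1 ≤ n) (hcard : Nat.card E = 2 ^ (2 * n + 1)) :
    (∃ j : (Fin n ⊕ Fin n → ZMod 2) ≃ₗ[ZMod 2] h.V, ∀ x, h.q (j x) = Cfsg.quadFormPlus n (ZMod 2) x) ∨
    (∃ j : ((Fin (n - 1) ⊕ Fin (n - 1)) ⊕ Fin 2 → ZMod 2) ≃ₗ[ZMod 2] h.V,
      ∀ x, h.q (j x) = Cfsg.quadFormMinus (n - 1) (ZMod 2) 1 1 x) := by
  have : Module.Finite (ZMod 2) h.V := Module.Finite.of_finite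
  have hnd : Cfsg.Agent.LieClassical.OrthCore.Nondeg (qf h) := by
    intro x hx
    apply h.b_nondeg
    intro y
    rw [← polar_qf]; exact hx y
  have hone : ∀ c : ZMod 2, c ≠ 0 → c = 1 := by decide
  rcases Cfsg.Agent.GenOrth.normal_form (2 * n) hnd (finrank_V h hcard) with
    ⟨k, hk, -⟩ | ⟨k, hk, c, hc, j, hj⟩ | ⟨k, hk, a, b, hab, c, hc, j, hj⟩
  · omega
  · left
    obtain rfl : k = n := by omega
    refine ⟨j, fun x => ?_⟩
    have := hj x
    rw [hone c hc, one_mul] at this
    exact this
  · right
    obtain ⟨rfl, rfl⟩ := aniso_two hab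
    obtain rfl : k = n - 1 := by omega
    refine ⟨j, fun x => ?_⟩
    have := hj x
    rw [hone c hc, one_mul] at this
    exact this

/-- Let E be an extraspecial 2-group of order 2^(2n+1), n ≥ 1. If E contains an elementary abelian subgroup of order 2^(n+1) (plus type), then its outer automorphism group is isomorphic to the full isometry group of the hyperbolic quadratic form in dimension 2n over the field with two elements; otherwise (minus type) it is isomorphic to the full isometry group of the elliptic quadratic form in dimension 2n over that field. -/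
theorem result {E : Type*} [Group E] [Finite E] (hE : Cfsg.IsExtraspecial 2 E) (n : ℕ) (hn : 1 ≤ n) (hcard : Nat.card E = 2 ^ (2 * n + 1)) : ((∃ A : Subgroup E, Cfsg.IsElementaryAbelian 2 A ∧ Nat.card ↥A = 2 ^ (n + 1)) → Nonempty (Cfsg.Out E ≃* Cfsg.isometryGroup (ZMod 2) (Cfsg.quadFormPlus n (ZMod 2)))) ∧ ((¬ ∃ A : Subgroup E, Cfsg.IsElementaryAbelian 2 A ∧ Nat.card ↥A = 2 ^ (n + 1)) → Nonempty (Cfsg.Out E ≃* Cfsg.isometryGroup (ZMod 2) (Cfsg.quadFormMinus (n - 1) (ZMod 2) 1 1))) := by
  obtain ⟨z, h⟩ := large_top hE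
  obtain ⟨e⟩ := out_equiv h
  have : Module.Finite (ZMod 2) h.V := Module.Finite.of_finite
  rcases types h hn hcard with ⟨j, hj⟩ | ⟨j, hj⟩
  · -- plus type
    obtain ⟨e'⟩ := exists_isometryGroup_equiv j (Cfsg.quadFormPlus n (ZMod 2)) h.q hj
    refine ⟨fun _ => ⟨e.trans e'.symm⟩, fun hno => ?_⟩
    exfalso
    apply hno
    -- the subspace `y = 0`
    let l : (Fin n → ZMod 2) →ₗ[ZMod 2] (Fin n ⊕ Fin n → ZMod 2) :=
      { toFun := fun v => Sum.elim v 0
        map_add' := by
          intro v w; funext i
          rcases i with i | i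
          · rfl
          · show (0 : ZMod 2) = 0 + 0
            rw [add_zero]
        map_smul' := by
          intro c v; funext i
          rcases i with i | i
          · rfl
          · show (0 : ZMod 2) = c * 0
            rw [mul_zero] }
    have hl : Function.Injective l := by
      intro v w hvw
      funext i
      exact congrFun hvw (Sum.inl i)
    refine exists_elem h (LinearMap.range (j.toLinearMap.comp l)) ?_ ?_
    · rintro _ ⟨v, rfl⟩
      show h.q (j (l v)) = 0
      rw [hj, Cfsg.quadFormPlus]
      apply Finset.sum_eq_zero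
      intro i _
      show v i * 0 = 0
      exact mul_zero _
    · have hinj : Function.Injective (j.toLinearMap.comp l) := fun v w hvw => hl (j.injective hvw)
      rw [LinearMap.finrank_range_of_inj hinj]
      simp
  · -- minus type
    obtain ⟨e'⟩ := exists_isometryGroup_equiv j (Cfsg.quadFormMinus (n - 1) (ZMod 2) 1 1) h.q hj
    refine ⟨fun ⟨A, hA, hcA⟩ => ?_, fun _ => ⟨e.trans e'.symm⟩⟩
    exfalso
    obtain ⟨h1, h2⟩ := exists_sing h hA hcA
    have h3 : Cfsg.Agent.ClassicalGeometry.OrthAut1.TS (Cfsg.Agent.LieClassical.QuadForms.minusForm (n - 1) (ZMod 2) 1 1)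
        ((imV h A).comap j.toLinearMap) := by
      intro w hw
      have h4 := h1 _ (Submodule.mem_comap.1 hw)
      have h5 : h.q (j w) = 0 := h4
      rw [hj] at h5
      rw [← h5, ← Cfsg.Agent.LieClassical.QuadForms.coe_minusForm]
    have h4 := Cfsg.Agent.AutOrth.Main.finrank_le_of_TS_minus (n - 1) (1 : ZMod 2) 1 (by decide) h3
    have h5 : Module.finrank (ZMod 2) ((imV h A).comap j.toLinearMap) = Module.finrank (ZMod 2) (imV h A) :=
      (LinearEquiv.ofSubmodule' j (imV h A)).finrank_eq
    omega

end Cfsg.Agent.S5432
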