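import Cfsg.Statements.S5433
import Cfsg.Agent.H823.Core

set_option autoImplicit false
open Cfsg

namespace Cfsg.Agent.S5433

/-- Let Q be a large extraspecial 2-subgroup of the finite group G (extraspecial; centralizer equal to its centre; normal in the centralizer of its centre; normalizing no non-trivial subgroup of odd order), and L a normal subgroup of G containing Q. Then G is the product of L and the normalizer of Q. -/
theorem result {G : Type*} [Group G] [Finite G] (Q : Subgroup G) (hQ : Cfsg.IsLargeExtraspecial Q) (L : Subgroup G) [L.Normal] (hQL : Q ≤ L) : L ⊔ Subgroup.normalizer (Q : Set G) = ⊤ := by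
  obtain ⟨z, hz, hz2⟩ := Cfsg.Agent.H823.exists_gen hQ.1
  have h := Cfsg.Agent.H823.large_of_isLarge hQ hz hz2
  have hp : IsPGroup 2 Q := Cfsg.Agent.LargeExtra.Base.isPGroup h
  have : Fact (Nat.Prime 2) := ⟨Nat.prime_two⟩
  have hp' : IsPGroup 2 (Q.subgroupOf L) :=
    hp.of_equiv (Subgroup.subgroupOfEquivOfLe hQL).symm
  obtain ⟨P, hP⟩ := hp'.exists_le_sylow
  have hfr := Sylow.normalizer_sup_eq_top P
  rw [eq_top_iff, ← hfr, sup_comm]
  apply sup_le_sup_left
  set P' : Subgroup G := (P : Subgroup L).map L.subtype with hP'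
  have hQP : Q ≤ P' := by
    intro x hx
    exact ⟨⟨x, hQL hx⟩, hP (Subgroup.mem_subgroupOf.2 hx), rfl⟩
  have hpP : IsPGroup 2 P' := P.2.map L.subtype
  have hcen : ∀ y ∈ P', (∀ x ∈ P', x * y = y * x) → y = 1 ∨ y = z := by
    intro y hy hc
    have h1 : y ∈ Q := h.self y (hc z (hQP h.z_mem)).symm (fun x hx => (hc x (hQP hx)).symm)
    exact h.cent y h1 (fun x hx => (hc x (hQP hx)).symm)
  have : Nontrivial P' := ⟨⟨z, hQP h.z_mem⟩, 1, fun he => h.z_ne (congrArg Subtype.val he)⟩
  have := hpP.center_nontrivial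
  obtain ⟨⟨y, hy⟩, hy1⟩ := exists_ne (1 : Subgroup.center P')
  have hyc : ∀ x ∈ P', x * (y : G) = y * x := by
    intro x hx
    exact congrArg Subtype.val (Subgroup.mem_center_iff.1 hy ⟨x, hx⟩)
  have hyz : (y : G) = z := by
    rcases hcen y y.2 hyc with h1 | h1
    · exact absurd (Subtype.ext (Subtype.ext h1)) hy1
    · exact h1
  rw [hyz] at hyc
  intro g hg
  have hg' : ∀ x, x ∈ P' ↔ g * x * g⁻¹ ∈ P' := Subgroup.mem_normalizer_iff.1 hg
  have h1 : g * z * g⁻¹ = 1 ∨ g * z * g⁻¹ = z := by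
    refine hcen _ ((hg' z).1 (hQP h.z_mem)) ?_
    intro x hx
    have h2 : g⁻¹ * x * g ∈ P' := by
      rw [hg']
      have : g * (g⁻¹ * x * g) * g⁻¹ = x := by group
      rw [this]; exact hx
    have h3 := hyc _ h2
    calc x * (g * z * g⁻¹) = g * ((g⁻¹ * x * g) * z) * g⁻¹ := by group
      _ = g * (z * (g⁻¹ * x * g)) * g⁻¹ := by rw [h3]
      _ = g * z * g⁻¹ * x := by group
  have h2 : g * z = z * g := by
    rcases h1 with h1 | h1
    · exact absurd (by simpa using h1) h.z_ne
    · exact mul_inv_eq_iff_eq_mul.1 h1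
  have hgi : g⁻¹ * z = z * g⁻¹ := by
    calc g⁻¹ * z = g⁻¹ * (z * g) * g⁻¹ := by group
      _ = g⁻¹ * (g * z) * g⁻¹ := by rw [h2]
      _ = z * g⁻¹ := by group
  rw [Subgroup.mem_normalizer_iff]
  intro x
  constructor
  · intro hx; exact h.conj_mem g h2 x hx
  · intro hx
    have h3 := h.conj_mem g⁻¹ hgi _ hx
    have : g⁻¹ * (g * x * g⁻¹) * g⁻¹⁻¹ = x := by group
    rwa [this] at h3

end Cfsg.Agent.S5433
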