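import Cfsg.Statements.S5434
import Cfsg.Agent.S0026
import Cfsg.Agent.J2.ExtQuot
import Cfsg.Agent.Transfer.Extraspecial

set_option autoImplicit false
open Cfsg

namespace Cfsg.Agent.S5434

set_option linter.unusedSectionVars false

open Subgroup

section

variable {G : Type*} [Group G] [Finite G] (Q : Subgroup G) (hE : Cfsg.IsExtraspecial 2 ↥Q)

theorem mem_Z (z : G) : z ∈ (Subgroup.center ↥Q).map Q.subtype ↔ z ∈ Q ∧ ∀ q ∈ Q, q * z = z * q := by
  constructor
  · rintro ⟨y, hy, rfl⟩
    refine ⟨y.2, fun q hq => ?_⟩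
    exact congrArg (fun t : Q => (t : G)) ((Subgroup.mem_center_iff.1 hy) ⟨q, hq⟩)
  · rintro ⟨h1, h2⟩
    refine ⟨⟨z, h1⟩, ?_, rfl⟩
    show (⟨z, h1⟩ : Q) ∈ Subgroup.center ↥Q
    rw [Subgroup.mem_center_iff]
    intro r
    exact Subtype.ext (h2 r r.2)

include hE in
theorem eq_of_ne_one {u v : G} (hu : u ∈ (Subgroup.center ↥Q).map Q.subtype)
    (hv : v ∈ (Subgroup.center ↥Q).map Q.subtype) (hu1 : u ≠ 1) (hv1 : v ≠ 1) : u = v := by
  obtain ⟨a, ha, rfl⟩ := hu
  obtain ⟨b, hb, rfl⟩ := hv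
  have hcard : Nat.card (Subgroup.center ↥Q) = 2 := hE.2
  obtain ⟨y, _, hy2⟩ := (Nat.card_eq_two_iff' (1 : Subgroup.center ↥Q)).1 hcard
  have e1 := hy2 ⟨a, ha⟩ (by
    intro h
    apply hu1
    have : a = 1 := congrArg (fun t : Subgroup.center ↥Q => (t : ↥Q)) h
    rw [this]; rfl)
  have e2 := hy2 ⟨b, hb⟩ (by
    intro h
    apply hv1
    have : b = 1 := congrArg (fun t : Subgroup.center ↥Q => (t : ↥Q)) h
    rw [this]; rfl)
  have : a = b := congrArg (fun t : Subgroup.center ↥Q => (t : ↥Q)) (e1.trans e2.symm)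
  rw [this]

include hE in
theorem comm_mem {x y : G} (hx : x ∈ Q) (hy : y ∈ Q) :
    x * y * x⁻¹ * y⁻¹ ∈ (Subgroup.center ↥Q).map Q.subtype := by
  have h := Transfer.Extraspecial.comm_mem_center hE ⟨x, hx⟩ ⟨y, hy⟩
  exact ⟨_, h, rfl⟩

include hE in
theorem sq_mem {x : G} (hx : x ∈ Q) : x ^ 2 ∈ (Subgroup.center ↥Q).map Q.subtype := by
  have h := Transfer.Extraspecial.pow_mem_center hE ⟨x, hx⟩
  exact ⟨_, h, rfl⟩

include hE in
theorem factor (D E : Subgroup G) (hDQ : D ≤ Q) (hDE : Q ≤ D ⊔ E)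
    (hc : ∀ x ∈ D, ∀ y ∈ E, x * y = y * x) :
    D ≤ (Subgroup.center ↥Q).map Q.subtype ∨ Cfsg.IsExtraspecial 2 ↥D := by
  classical
  have hpair : ∀ x : G, (∀ y ∈ D, y * x = x * y) → (∀ y ∈ E, y * x = x * y) →
      ∀ q ∈ Q, q * x = x * q := by
    intro x h1 h2 q hq
    have hle : D ⊔ E ≤ Subgroup.centralizer ({x} : Set G) := by
      apply sup_le
      · intro y hy
        rw [Subgroup.mem_centralizer_singleton_iff]; exact h1 y hy
      · intro y hy
        rw [Subgroup.mem_centralizer_singleton_iff]; exact h2 y hy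
    exact Subgroup.mem_centralizer_singleton_iff.1 (hle (hDE hq))
  by_cases hab : ∀ x ∈ D, ∀ y ∈ D, x * y = y * x
  · left
    intro x hx
    rw [mem_Z]
    exact ⟨hDQ hx, hpair x (fun y hy => hab y hy x hx) (fun y hy => (hc x hx y hy).symm)⟩
  · right
    push Not at hab
    obtain ⟨x, hx, y, hy, hxy⟩ := hab
    set c := x * y * x⁻¹ * y⁻¹ with hcdef
    have hcD : c ∈ D := D.mul_mem (D.mul_mem (D.mul_mem hx hy) (D.inv_mem hx)) (D.inv_mem hy)
    have hcZ : c ∈ (Subgroup.center ↥Q).map Q.subtype := comm_mem Q hE (hDQ hx) (hDQ hy)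
    have hc1 : c ≠ 1 := by
      intro h
      apply hxy
      have h2 : x * y * x⁻¹ = y := mul_inv_eq_one.1 h
      exact mul_inv_eq_iff_eq_mul.1 h2
    have hcent : ∀ d : D, d ∈ Subgroup.center ↥D → (d : G) ∈ (Subgroup.center ↥Q).map Q.subtype := by
      intro d hd
      rw [mem_Z]
      refine ⟨hDQ d.2, hpair d ?_ ?_⟩
      · intro y hy
        exact congrArg (fun t : D => (t : G)) ((Subgroup.mem_center_iff.1 hd) ⟨y, hy⟩)
      · intro y hy
        exact (hc d d.2 y hy).symm
    have hcent' : ∀ d : D, (d : G) ∈ (Subgroup.center ↥Q).map Q.subtype → d ∈ Subgroup.center ↥D := by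
      intro d hd
      rw [mem_Z] at hd
      rw [Subgroup.mem_center_iff]
      intro r
      exact Subtype.ext (hd.2 r (hDQ r.2))
    have hQp : IsPGroup 2 ↥Q := hE.1.1
    apply J2.ExtQuot.isExtraspecial_two (hQp.to_le hDQ)
    · rw [Nat.card_eq_two_iff' (1 : Subgroup.center ↥D)]
      refine ⟨⟨⟨c, hcD⟩, hcent' _ hcZ⟩, ?_, ?_⟩
      · intro h
        apply hc1
        exact congrArg (fun t : Subgroup.center ↥D => ((t : D) : G)) h
      · rintro ⟨d, hd⟩ hne
        apply Subtype.ext
        apply Subtype.ext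
        apply eq_of_ne_one Q hE (hcent d hd) hcZ _ hc1
        intro h
        apply hne
        apply Subtype.ext
        apply Subtype.ext
        exact h
    · intro d
      apply hcent'
      exact sq_mem Q hE (hDQ d.2)
    · exact ⟨⟨x, hx⟩, ⟨y, hy⟩, fun h => hxy (congrArg (fun t : D => (t : G)) h)⟩

end


/-- Let Q be a large extraspecial 2-subgroup of the finite group G (extraspecial; centralizer equal to its centre; normal in the centralizer of its centre; normalizing no non-trivial subgroup of odd order), and A a non-trivial subgroup of odd order of the normalizer of Q. Then Q is the central product of the centralizer of A in Q and the commutator subgroup [Q, A] (they generate Q and commute elementwise), [Q, A] is extraspecial, and the centralizer of A in Q is either the centre of Q or extraspecial. -/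
theorem result {G : Type*} [Group G] [Finite G] (Q : Subgroup G) (hQ : Cfsg.IsLargeExtraspecial Q) (A : Subgroup G) (hA : A ≤ Subgroup.normalizer (Q : Set G)) (hAodd : Odd (Nat.card ↥A)) (hA1 : A ≠ ⊥) : (Q ⊓ Subgroup.centralizer (A : Set G)) ⊔ ⁅Q, A⁆ = Q ∧ (∀ x ∈ Q ⊓ Subgroup.centralizer (A : Set G), ∀ y ∈ ⁅Q, A⁆, x * y = y * x) ∧ Cfsg.IsExtraspecial 2 ↥⁅Q, A⁆ ∧ (Q ⊓ Subgroup.centralizer (A : Set G) = ((Subgroup.center ↥Q).map Q.subtype) ∨ Cfsg.IsExtraspecial 2 ↥(Q ⊓ Subgroup.centralizer (A : Set G))) := by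
  classical
  have : Fact (Nat.Prime 2) := ⟨Nat.prime_two⟩
  obtain ⟨hE, hCQ, -, -⟩ := hQ
  have hQp : IsPGroup 2 ↥Q := hE.1.1
  have hnorm : ∀ a ∈ A, ∀ q ∈ Q, a * q * a⁻¹ ∈ Q := by
    intro a ha q hq
    exact (Subgroup.mem_normalizer_iff.1 (hA ha) q).1 hq
  -- `A` centralizes `Z(Q)`
  have hAZ : ∀ a ∈ A, ∀ z ∈ (Subgroup.center ↥Q).map Q.subtype, a * z = z * a := by
    intro a ha z hz
    by_cases hz1 : z = 1
    · rw [hz1, mul_one, one_mul]
    · have hzz := hz
      rw [mem_Z] at hzz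
      have h1 : a * z * a⁻¹ ∈ (Subgroup.center ↥Q).map Q.subtype := by
        rw [mem_Z]
        refine ⟨hnorm a ha z hzz.1, ?_⟩
        intro q hq
        have h2 : a⁻¹ * q * a ∈ Q := by
          have := hnorm a⁻¹ (A.inv_mem ha) q hq
          simpa using this
        have h3 := hzz.2 _ h2
        calc q * (a * z * a⁻¹) = a * ((a⁻¹ * q * a) * z) * a⁻¹ := by group
          _ = a * (z * (a⁻¹ * q * a)) * a⁻¹ := by rw [h3]
          _ = a * z * a⁻¹ * q := by group
      have h4 : a * z * a⁻¹ = z := by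
        apply eq_of_ne_one Q hE h1 hz _ hz1
        intro h
        apply hz1
        have : z = a⁻¹ * (a * z * a⁻¹) * a := by group
        rw [this, h]; group
      exact mul_inv_eq_iff_eq_mul.1 h4
  have hcop : (Nat.card A).Coprime (Nat.card Q) := by
    obtain ⟨n, hn⟩ := IsPGroup.iff_card.1 hQp
    rw [hn]
    exact Nat.Coprime.pow_right n (Nat.coprime_two_right.2 hAodd)
  have hsup : (Q ⊓ Subgroup.centralizer (A : Set G)) ⊔ ⁅Q, A⁆ = Q := by
    rw [sup_comm]
    refine S0026.result A Q hA hcop (Or.inr ?_)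
    have : Group.IsNilpotent ↥Q := hQp.isNilpotent
    infer_instance
  have hBQ : ⁅Q, A⁆ ≤ Q := by
    rw [Subgroup.commutator_le]
    intro q hq a ha
    rw [commutatorElement_def]
    have h1 := hnorm a ha q⁻¹ (Q.inv_mem hq)
    have h2 := Q.mul_mem hq h1
    simpa [mul_assoc] using h2
  have hcomm : ∀ x ∈ Q ⊓ Subgroup.centralizer (A : Set G), ∀ y ∈ ⁅Q, A⁆, x * y = y * x := by
    intro x hx y hy
    have hle : ⁅Q, A⁆ ≤ Subgroup.centralizer ({x} : Set G) := by
      rw [Subgroup.commutator_le]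
      intro q hq a ha
      rw [Subgroup.mem_centralizer_singleton_iff, commutatorElement_def]
      have hxa : a * x = x * a := (Subgroup.mem_centralizer_iff.1 hx.2) a ha
      set c := x * q * x⁻¹ * q⁻¹ with hc
      have hcZ := comm_mem Q hE hx.1 hq
      rw [← hc] at hcZ
      have hca := hAZ a ha c hcZ
      have hcq := ((mem_Z Q c).1 hcZ).2
      have hxq : x * q = c * q * x := by rw [hc]; group
      have hcq1 := hcq q hq
      have hcqi := hcq _ (Q.inv_mem hq)
      have hxqi : x * q⁻¹ = c⁻¹ * q⁻¹ * x := by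
        have h0 : q⁻¹ * (c * q * x) * q⁻¹ = c * (x * q⁻¹) := by
          calc q⁻¹ * (c * q * x) * q⁻¹ = (q⁻¹ * c) * q * x * q⁻¹ := by group
            _ = (c * q⁻¹) * q * x * q⁻¹ := by rw [hcqi]
            _ = c * (x * q⁻¹) := by group
        have h1 : q⁻¹ * (x * q) * q⁻¹ = q⁻¹ * x := by group
        rw [← hxq, h1] at h0
        rw [mul_assoc, h0]; group
      have hxai : a⁻¹ * x = x * a⁻¹ := by
        calc a⁻¹ * x = a⁻¹ * (x * a) * a⁻¹ := by group
          _ = a⁻¹ * (a * x) * a⁻¹ := by rw [hxa]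
          _ = x * a⁻¹ := by group
      symm
      calc x * (q * a * q⁻¹ * a⁻¹) = (x * q) * a * q⁻¹ * a⁻¹ := by group
        _ = (c * q * x) * a * q⁻¹ * a⁻¹ := by rw [hxq]
        _ = c * q * (x * a) * q⁻¹ * a⁻¹ := by group
        _ = c * q * (a * x) * q⁻¹ * a⁻¹ := by rw [hxa]
        _ = c * q * a * (x * q⁻¹) * a⁻¹ := by group
        _ = c * q * a * (c⁻¹ * q⁻¹ * x) * a⁻¹ := by rw [hxqi]
        _ = (c * q * a) * c⁻¹ * q⁻¹ * (x * a⁻¹) := by group
        _ = (c * q * a) * c⁻¹ * q⁻¹ * (a⁻¹ * x) := by rw [hxai]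
        _ = (q * c * a) * c⁻¹ * q⁻¹ * (a⁻¹ * x) := by rw [hcq1]
        _ = q * (c * a) * c⁻¹ * q⁻¹ * (a⁻¹ * x) := by group
        _ = q * (a * c) * c⁻¹ * q⁻¹ * (a⁻¹ * x) := by rw [hca]
        _ = q * a * q⁻¹ * a⁻¹ * x := by group
    exact (Subgroup.mem_centralizer_singleton_iff.1 (hle hy)).symm
  refine ⟨hsup, hcomm, ?_, ?_⟩
  · rcases factor Q hE ⁅Q, A⁆ (Q ⊓ Subgroup.centralizer (A : Set G)) hBQ
      (by rw [sup_comm, hsup]) (fun x hx y hy => (hcomm y hy x hx).symm) with h | h
    · exfalso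
      apply hA1
      have hAC : A ≤ Subgroup.centralizer (Q : Set G) := by
        intro a ha
        rw [Subgroup.mem_centralizer_iff]
        intro q hq
        set c := q * a * q⁻¹ * a⁻¹ with hc
        have hcZ : c ∈ (Subgroup.center ↥Q).map Q.subtype :=
          h (Subgroup.commutator_mem_commutator hq ha)
        have hca := hAZ a ha c hcZ
        have hcQ := (mem_Z Q c).1 hcZ
        have hqa : q * a * q⁻¹ = c * a := by rw [hc]; group
        have hpow : ∀ k : ℕ, q * a ^ k * q⁻¹ = c ^ k * a ^ k := by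
          intro k
          have h1 : q * a ^ k * q⁻¹ = (q * a * q⁻¹) ^ k := (conj_pow).symm
          rw [h1, hqa]
          exact (show Commute c a from hca.symm).mul_pow k
        have hk := hpow (orderOf a)
        rw [pow_orderOf_eq_one, mul_one, mul_inv_cancel, mul_one] at hk
        have hc2 : c ^ 2 = 1 := by
          by_contra hne
          have h2 : c ^ 2 ∈ (Subgroup.center ↥Q).map Q.subtype := Subgroup.pow_mem _ hcZ 2
          have hc1 : c ≠ 1 := by intro h; apply hne; rw [h, one_pow]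
          have h3 := eq_of_ne_one Q hE h2 hcZ hne hc1
          apply hc1
          rw [pow_two] at h3
          exact mul_eq_left.1 h3
        have hodd : Odd (orderOf a) := by
          apply Odd.of_dvd_nat hAodd
          have := orderOf_dvd_natCard (⟨a, ha⟩ : A)
          rwa [Subgroup.orderOf_mk] at this
        have hc1 : c = 1 := by
          obtain ⟨m, hm⟩ := hodd
          rw [hm, pow_succ, pow_mul, hc2, one_pow, one_mul] at hk
          exact hk.symm
        rw [hc1, one_mul] at hqa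
        exact mul_inv_eq_iff_eq_mul.1 hqa
      rw [hCQ] at hAC
      rw [Subgroup.eq_bot_iff_card]
      have h1 : Nat.card A ∣ Nat.card ((Subgroup.center ↥Q).map Q.subtype) :=
        Subgroup.card_dvd_of_le hAC
      have h2 : Nat.card ((Subgroup.center ↥Q).map Q.subtype) = 2 := by
        rw [Subgroup.card_map_of_injective Q.subtype_injective]
        exact hE.2
      rw [h2] at h1
      rcases (Nat.dvd_prime Nat.prime_two).1 h1 with h3 | h3
      · exact h3
      · rw [h3] at hAodd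
        exact absurd hAodd (by decide)
    · exact h
  · rcases factor Q hE (Q ⊓ Subgroup.centralizer (A : Set G)) ⁅Q, A⁆ inf_le_left
      (by rw [hsup]) hcomm with h | h
    · left
      apply le_antisymm h
      intro z hz
      refine Subgroup.mem_inf.2 ⟨((mem_Z Q z).1 hz).1, ?_⟩
      rw [Subgroup.mem_centralizer_iff]
      intro a ha
      exact hAZ a ha z hz
    · exact Or.inr h

end Cfsg.Agent.S5434
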