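import Cfsg.Statements.S5439

set_option autoImplicit false
open Cfsg

namespace Cfsg.Agent.S5439

theorem fix_iff {G : Type*} [Group G] (H : Subgroup G) (x g : G) :
    x • ((g : G) : G ⧸ H) = ((g : G) : G ⧸ H) ↔ g⁻¹ * x * g ∈ H := by
  rw [MulAction.Quotient.smul_coe, smul_eq_mul, eq_comm, QuotientGroup.eq, mul_assoc]

/-- Conjugating an involution `x` by a power of `x * y`. -/
theorem conj_pow_aux {G : Type*} [Group G] (x y : G) (hx : x * x = 1) (hy : y * y = 1) (k : ℕ) :
    (x * y) ^ k * x = x * ((x * y) ^ k)⁻¹ := by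
  have hxi : x⁻¹ = x := inv_eq_of_mul_eq_one_left hx
  have hyi : y⁻¹ = y := inv_eq_of_mul_eq_one_left hy
  have h1 : x * (x * y) * x⁻¹ = (x * y)⁻¹ := by
    rw [mul_inv_rev, hxi, hyi, ← mul_assoc, hx, one_mul]
  have h2 : x * (x * y) ^ k * x⁻¹ = ((x * y) ^ k)⁻¹ := by
    rw [← conj_pow, h1, inv_pow]
  rw [← h2, hxi, ← mul_assoc, ← mul_assoc, hx, one_mul]

theorem mem_of_two_classes {G : Type*} [Group G] [Finite G] (I J : Set G) (a₀ b₀ : G) (ha₀ : orderOf a₀ = 2)
    (hb₀ : orderOf b₀ = 2) (hI : I = {x | IsConj a₀ x}) (hJ : J = {x | IsConj b₀ x}) (hIJ : I ≠ J)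
    (H : Subgroup G) (hfix : ∀ x ∈ I ∪ J, ∃! c : G ⧸ H, x • c = c)
    (hcent : ∀ a ∈ I, a ∈ H → ∀ b ∈ I ∪ J, b ∈ H → a ≠ b → a * b = b * a →
      Subgroup.centralizer ({a * b} : Set G) ≤ H) (x : G) (hxI : x ∈ I) (hxH : x ∈ H)
    (y : G) (hyJ : y ∈ J) : y ∈ H := by
  have hxc : IsConj a₀ x := by rw [hI] at hxI; exact hxI
  have hyc : IsConj b₀ y := by rw [hJ] at hyJ; exact hyJ
  have hnc : ¬ IsConj x y := by
    intro h
    apply hIJ
    rw [hI, hJ]
    ext t
    constructor
    · intro ht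
      exact (hyc.trans h.symm).trans (hxc.symm.trans ht)
    · intro ht
      exact (hxc.trans h).trans (hyc.symm.trans ht)
  have hIconj : ∀ g : G, g * x * g⁻¹ ∈ I := by
    intro g
    rw [hI]
    exact hxc.trans (isConj_iff.2 ⟨g, rfl⟩)
  have hJconj : ∀ g : G, g * y * g⁻¹ ∈ J := by
    intro g
    rw [hJ]
    exact hyc.trans (isConj_iff.2 ⟨g, rfl⟩)
  have hordx : orderOf x = 2 := by
    obtain ⟨g, hg⟩ := isConj_iff.1 hxc
    rw [← hg, ← ha₀]
    exact MulEquiv.orderOf_eq (MulAut.conj g) a₀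
  have hordy : orderOf y = 2 := by
    obtain ⟨g, hg⟩ := isConj_iff.1 hyc
    rw [← hg, ← hb₀]
    exact MulEquiv.orderOf_eq (MulAut.conj g) b₀
  have hx : x * x = 1 := by rw [← pow_two, ← hordx, pow_orderOf_eq_one]
  have hy : y * y = 1 := by rw [← pow_two, ← hordy, pow_orderOf_eq_one]
  have hxi : x⁻¹ = x := inv_eq_of_mul_eq_one_left hx
  have hyi : y⁻¹ = y := inv_eq_of_mul_eq_one_left hy
  set r := x * y with hr
  have hrk : ∀ k : ℕ, r ^ k * x = x * (r ^ k)⁻¹ := fun k => conj_pow_aux x y hx hy k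
  have hkxk : ∀ k : ℕ, r ^ k * x * (r ^ k)⁻¹ = r ^ (2 * k) * x := by
    intro k
    have h1 : x * (r ^ k)⁻¹ = r ^ k * x := (hrk k).symm
    rw [mul_assoc, h1, ← mul_assoc, two_mul, pow_add]
  rcases Nat.even_or_odd' (orderOf r) with ⟨m, hm | hm⟩
  · -- even order
    have hm0 : 0 < m := by
      have := orderOf_pos r
      omega
    set u := r ^ m with hu
    have hu1 : u ≠ 1 := by
      intro h
      have := orderOf_dvd_of_pow_eq_one (hu ▸ h : r ^ m = 1)
      have := Nat.le_of_dvd hm0 this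
      omega
    have huu : u * u = 1 := by
      rw [hu, ← pow_add, ← two_mul, ← hm, pow_orderOf_eq_one]
    have hui : u⁻¹ = u := inv_eq_of_mul_eq_one_left huu
    have hux : u * x = x * u := by
      have := hrk m
      rw [← hu, hui] at this
      exact this
    have huy : u * y = y * u := by
      have hyx : y = x * r := by rw [hr, ← mul_assoc, hx, one_mul]
      have hur : u * r = r * u := by rw [hu]; exact (Commute.pow_self r m).eq
      calc u * y = u * (x * r) := by rw [← hyx]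
        _ = (u * x) * r := by rw [mul_assoc]
        _ = x * (u * r) := by rw [hux, mul_assoc]
        _ = x * (r * u) := by rw [hur]
        _ = (x * r) * u := (mul_assoc x r u).symm
        _ = y * u := by rw [← hyx]
    have hxuIJ : u * x ∈ I ∪ J := by
      rcases Nat.even_or_odd' m with ⟨k, hk | hk⟩
      · left
        rw [hu, hk, ← hkxk]
        exact hIconj _
      · right
        have : u * x = (r ^ k * x) * y * (r ^ k * x)⁻¹ := by
          have h1 : (r ^ k * x) * y * (r ^ k * x)⁻¹ = r ^ k * r * x⁻¹ * (r ^ k)⁻¹ := by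
            rw [hr]; group
          rw [h1, hxi, mul_assoc (r ^ k * r), ← hrk k, hu, hk]
          rw [← mul_assoc, ← pow_succ, ← pow_add]
          congr 2
          ring
        rw [this]
        exact hJconj _
    have hxuH : u * x ∈ H := by
      obtain ⟨c, hc, hcu⟩ := hfix x (Or.inl hxI)
      obtain ⟨d, hd, hdu⟩ := hfix (u * x) hxuIJ
      have h1 : x • d = d := by
        apply hdu
        show (u * x) • x • d = x • d
        have hd' : (u * x) • d = d := hd
        rw [← mul_smul, hux, mul_assoc, hux, ← hux, mul_smul, hd']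
      have h2 : ((1 : G) : G ⧸ H) = c := hcu _ ((fix_iff H x 1).2 (by simpa using hxH))
      have h3 : d = c := hcu _ h1
      have h4 : (u * x) • ((1 : G) : G ⧸ H) = ((1 : G) : G ⧸ H) := by
        rw [h2, ← h3]; exact hd
      have h5 := (fix_iff H (u * x) 1).1 h4
      simpa using h5
    have hne : x ≠ u * x := by
      intro h
      apply hu1
      have : u * x = 1 * x := by rw [one_mul]; exact h.symm
      exact mul_right_cancel this
    have hcom : x * (u * x) = u * x * x := by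
      rw [← mul_assoc, ← hux]
    have hC := hcent x hxI hxH (u * x) hxuIJ hxuH hne hcom
    apply hC
    have hprod : x * (u * x) = u := by rw [hcom, mul_assoc, hx, mul_one]
    rw [hprod, Subgroup.mem_centralizer_singleton_iff]
    exact huy.symm
  · -- odd order: contradiction
    exfalso
    apply hnc
    rw [isConj_iff]
    refine ⟨r ^ m, ?_⟩
    rw [hkxk]
    have h1 : r ^ (2 * m) * r = 1 := by rw [← pow_succ, ← hm, pow_orderOf_eq_one]
    have h2 : r ^ (2 * m) = r⁻¹ := eq_inv_of_mul_eq_one_left h1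
    rw [h2, hr, mul_inv_rev, hxi, hyi, mul_assoc, hx, mul_one]


/-- Let I and J be two different conjugacy classes of involutions of the finite group G and H a subgroup such that every member of I ∪ J fixes exactly one coset in the action on the cosets of H, and such that for every a in I ∩ H and every b in (I ∪ J) ∩ H different from a and commuting with it, the centralizer of a b lies in H. Then H = G. -/
theorem result {G : Type*} [Group G] [Finite G] (I J : Set G) (a₀ b₀ : G) (ha₀ : orderOf a₀ = 2) (hb₀ : orderOf b₀ = 2) (hI : I = {x | IsConj a₀ x}) (hJ : J = {x | IsConj b₀ x}) (hIJ : I ≠ J) (H : Subgroup G) (hfix : ∀ x ∈ I ∪ J, ∃! c : G ⧸ H, x • c = c) (hcent : ∀ a ∈ I, a ∈ H → ∀ b ∈ I ∪ J, b ∈ H → a ≠ b → a * b = b * a → Subgroup.centralizer ({a * b} : Set G) ≤ H) : H = ⊤ := by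
  have hJH := mem_of_two_classes I J a₀ b₀ ha₀ hb₀ hI hJ hIJ H hfix hcent
  have ha₀I : a₀ ∈ I := by rw [hI]; exact IsConj.refl a₀
  obtain ⟨c, hc, -⟩ := hfix a₀ (Or.inl ha₀I)
  obtain ⟨g, rfl⟩ := QuotientGroup.mk_surjective c
  have hc' : a₀ • ((g : G) : G ⧸ H) = ((g : G) : G ⧸ H) := hc
  rw [fix_iff] at hc'
  have hgI : g⁻¹ * a₀ * g ∈ I := by
    rw [hI]
    exact isConj_iff.2 ⟨g⁻¹, by simp⟩
  have hb₀J : b₀ ∈ J := by rw [hJ]; exact IsConj.refl b₀
  obtain ⟨d, hd, hdu⟩ := hfix b₀ (Or.inr hb₀J)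
  rw [eq_top_iff]
  intro k _
  have key : ∀ k : G, ((k : G) : G ⧸ H) = d := by
    intro k
    apply hdu
    show b₀ • ((k : G) : G ⧸ H) = ((k : G) : G ⧸ H)
    rw [fix_iff]
    apply hJH _ hgI hc'
    rw [hJ]
    exact isConj_iff.2 ⟨k⁻¹, by simp⟩
  have h1 : ((1 : G) : G ⧸ H) = ((k : G) : G ⧸ H) := (key 1).trans (key k).symm
  rw [QuotientGroup.eq] at h1
  simpa using h1

end Cfsg.Agent.S5439
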