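import Cfsg.Statements.S5440
import Cfsg.Agent.H824.FiBase

set_option autoImplicit false
open Cfsg

namespace Cfsg.Agent.S5440


/-- Let G be a finite group of large Fischer type at the involution z: the generalized Fitting subgroup Q of H = C_G(z) is extraspecial of order 2^13, H has normal subgroups Q ≤ H₁ ≤ H₂ with H₁/Q of order 3, H₂/H₁ the projective special unitary group of dimension 4 over the field with nine elements and H₂ of index 2 in H, and some conjugate of z other than z lies in Q. Then H has exactly two orbits, under conjugation, on the involutions of Q other than z. -/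
theorem result {G : Type*} [Group G] [Finite G] (z : G) (Q : Subgroup (Subgroup.centralizer ({z} : Set G))) [Q.Normal] (hF : Cfsg.IsOfLargeFischerTypeAt z Q) : ∃ s t : Subgroup.centralizer ({z} : Set G), s ∈ Q ∧ t ∈ Q ∧ orderOf s = 2 ∧ orderOf t = 2 ∧ (s : G) ≠ z ∧ (t : G) ≠ z ∧ (¬ ∃ h : Subgroup.centralizer ({z} : Set G), h * s * h⁻¹ = t) ∧ ∀ x : Subgroup.centralizer ({z} : Set G), x ∈ Q → orderOf x = 2 → (x : G) ≠ z → (∃ h : Subgroup.centralizer ({z} : Set G), h * s * h⁻¹ = x) ∨ ∃ h : Subgroup.centralizer ({z} : Set G), h * t * h⁻¹ = x := by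
  classical
  obtain ⟨M, L, -, -, hQM, hnwc, even⟩ := H824.FiBase.exists_lab z Q hF
  have hz : z * z = 1 := L.large.z_sq
  have key : ∀ {x : G}, x ∈ Q.map (Subgroup.centralizer ({z} : Set G)).subtype →
      ∃ y : Subgroup.centralizer ({z} : Set G), y ∈ Q ∧ (y : G) = x := by
    rintro x ⟨y, hy, rfl⟩
    exact ⟨y, hy, rfl⟩
  have ord : ∀ (y : Subgroup.centralizer ({z} : Set G)), (y : G) * y = 1 → (y : G) ≠ 1 → orderOf y = 2 := by
    intro y h1 h2
    apply orderOf_eq_prime
    · apply Subtype.ext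
      rw [pow_two]; exact h1
    · intro h
      apply h2
      rw [h]; rfl
  obtain ⟨s', hs'Q, hs'⟩ := L.v_surj (fun i => if i = 0 ∨ i = 1 then 0 else 1)
  obtain ⟨t', ht'Q, ht'⟩ := L.v_surj (fun i => if i = 0 ∨ i = 1 then 1 else 0)
  have hsS : R08.Iface.IsS (L.v s') := by
    rw [hs', R08.Geo.isS_iff]; decide
  have htR : R08.Iface.IsR (L.v t') := by
    rw [ht', R08.Geo.isR_iff]; decide
  obtain ⟨s, hsQ, rfl⟩ := key hs'Q
  obtain ⟨t, htQ, rfl⟩ := key ht'Q
  have hs0 := R08.Geo.S_ne_zero hsS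
  have ht0 := R08.Geo.R_ne_zero htR
  have ne_of : ∀ {x : G}, x ∈ Q.map (Subgroup.centralizer ({z} : Set G)).subtype → L.v x ≠ 0 →
      x ≠ 1 ∧ x ≠ z := by
    intro x hx h
    constructor
    · intro h1; exact h ((L.v_eq_zero x hx).2 (Or.inl h1))
    · intro h1; exact h ((L.v_eq_zero x hx).2 (Or.inr h1))
  have conj : ∀ (m : G), m ∈ M.map (Subgroup.centralizer ({z} : Set G)).subtype →
      ∃ h : Subgroup.centralizer ({z} : Set G), (h : G) = m := by
    rintro m ⟨y, -, rfl⟩
    exact ⟨y, rfl⟩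
  refine ⟨s, t, hsQ, htQ, ord s ((L.sq_iff _ hs'Q).2 (R08.Geo.H_self_S hsS)) (ne_of hs'Q hs0).1,
    ord t ((L.sq_iff _ ht'Q).2 (R08.Geo.H_self_R htR)) (ne_of ht'Q ht0).1,
    (ne_of hs'Q hs0).2, (ne_of ht'Q ht0).2, ?_, ?_⟩
  · rintro ⟨h, hh⟩
    have hc := Subgroup.mem_centralizer_singleton_iff.1 h.2
    have hci := R08.Iface.Lab.inv_comm hc
    have h1 : (h : G)⁻¹ * t * (h : G)⁻¹⁻¹ = s := by
      have : (t : G) = h * s * (h : G)⁻¹ := by rw [← hh]; rfl
      rw [this]; group
    have h2 := L.v_conj _ hci t ht'Q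
    rw [h1] at h2
    have h3 := L.pres _ hci _ htR
    rw [← h2] at h3
    exact R08.Geo.not_R_S h3 hsS
  · intro x hxQ hx2 hxz
    have hxQ' : (x : G) ∈ Q.map (Subgroup.centralizer ({z} : Set G)).subtype := ⟨x, hxQ, rfl⟩
    have hxx : (x : G) * x = 1 := by
      have := pow_orderOf_eq_one x
      rw [hx2, pow_two] at this
      exact congrArg (fun y : Subgroup.centralizer ({z} : Set G) => (y : G)) this
    have hx1 : (x : G) ≠ 1 := by
      intro h
      have : x = 1 := Subtype.ext h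
      rw [this, orderOf_one] at hx2
      omega
    have hx0 : L.v x ≠ 0 := by
      intro h
      rcases (L.v_eq_zero _ hxQ').1 h with h1 | h1
      · exact hx1 h1
      · exact hxz h1
    rcases R08.Geo.R_or_S ((L.sq_iff _ hxQ').1 hxx) hx0 with hR | hS
    · right
      obtain ⟨m, hm, h1⟩ := R08.Geo.exists_conj_R L ht'Q hxQ' htR hR
      obtain ⟨h, rfl⟩ := conj m hm
      exact ⟨h, Subtype.ext h1⟩
    · left
      obtain ⟨m, hm, h1⟩ := R08.Geo.exists_conj_S L hs'Q hxQ' hsS hS
      obtain ⟨h, rfl⟩ := conj m hm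
      exact ⟨h, Subtype.ext h1⟩

end Cfsg.Agent.S5440
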