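import Cfsg.Statements.S5441
import Cfsg.Agent.H824.FiBase

set_option autoImplicit false
open Cfsg

namespace Cfsg.Agent.S5441


/-- Let G be a finite group of large Fischer type at the involution z: the generalized Fitting subgroup Q of H = C_G(z) is extraspecial of order 2^13, H has normal subgroups Q ≤ H₁ ≤ H₂ with H₁/Q of order 3, H₂/H₁ the projective special unitary group of dimension 4 over the field with nine elements and H₂ of index 2 in H, and some conjugate of z other than z lies in Q. Then the conjugates of z lying in Q and different from z form a single orbit under conjugation by H. -/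
theorem result {G : Type*} [Group G] [Finite G] (z : G) (Q : Subgroup (Subgroup.centralizer ({z} : Set G))) [Q.Normal] (hF : Cfsg.IsOfLargeFischerTypeAt z Q) (s t : G) (hsQ : ∃ hsc : s ∈ Subgroup.centralizer ({z} : Set G), (⟨s, hsc⟩ : Subgroup.centralizer ({z} : Set G)) ∈ Q) (htQ : ∃ htc : t ∈ Subgroup.centralizer ({z} : Set G), (⟨t, htc⟩ : Subgroup.centralizer ({z} : Set G)) ∈ Q) (hs : IsConj z s) (ht : IsConj z t) (hs1 : s ≠ z) (ht1 : t ≠ z) : ∃ h ∈ Subgroup.centralizer ({z} : Set G), h * s * h⁻¹ = t := by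
  classical
  obtain ⟨M, L, -, -, hQM, hnwc, even⟩ := H824.FiBase.exists_lab z Q hF
  obtain ⟨hsc, hsQ⟩ := hsQ
  obtain ⟨htc, htQ⟩ := htQ
  have hsQ' : s ∈ Q.map (Subgroup.centralizer ({z} : Set G)).subtype := ⟨_, hsQ, rfl⟩
  have htQ' : t ∈ Q.map (Subgroup.centralizer ({z} : Set G)).subtype := ⟨_, htQ, rfl⟩
  have hsB : L.TwoB s := by
    obtain ⟨g, hg⟩ := isConj_iff.1 hs
    exact ⟨g, hg.symm⟩
  have htB : L.TwoB t := by
    obtain ⟨g, hg⟩ := isConj_iff.1 ht
    exact ⟨g, hg.symm⟩
  have hsS := ((R08.FusQ.twoB_iff L hnwc hsQ').1 hsB).resolve_left hs1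
  have htS := ((R08.FusQ.twoB_iff L hnwc htQ').1 htB).resolve_left ht1
  obtain ⟨m, hm, h1⟩ := R08.Geo.exists_conj_S L hsQ' htQ' hsS htS
  exact ⟨m, Subgroup.mem_centralizer_singleton_iff.2 (L.M_comm m hm), h1⟩

end Cfsg.Agent.S5441
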