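import Cfsg.Statements.S5442
import Cfsg.Agent.H824.FiMono

set_option autoImplicit false
open Cfsg

namespace Cfsg.Agent.S5442


open Cfsg.Agent.SporRec.GF4 Cfsg.Agent.R08 Cfsg.Agent.R08.Iface Cfsg.Agent.R08.TwoFin
open Cfsg.Agent.R08.TwoGrp Cfsg.Agent.R08.Iface.Lab Cfsg.Agent.H824.FiStab Cfsg.Agent.H824.FiMono

/-- the vector `(1, 1, 1, 1, 1, ω)` -/
def w1 : W := ![1, 1, 1, 1, 1, F4.w]

theorem w1_ne (i : Fin 6) : w1 i ≠ 0 := by
  fin_cases i <;> simp [w1]

theorem isS_w1 : IsS w1 := by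
  rw [Geo.isS_iff]; decide

variable {G : Type*} [Group G] {z : G} {Q M : Subgroup (C z)}

theorem card_X [Finite G] [Q.Normal] (L : Lab F4 (Q.map (C z).subtype) (M.map (C z).subtype) z) {a : G}
    (ha : a ∈ Q.map (C z).subtype) (hS : IsS (L.v a)) (X : Subgroup (C z ⧸ Q))
    (hX : X = ((C z ⊓ C a).subgroupOf (C z)).map (QuotientGroup.mk' Q)) :
    X = (stab L (L.v a)).map (QuotientGroup.mk' Q) ∧ Nat.card X = 11520 := by
  have ha1 : a ≠ 1 := by
    rintro rfl
    rw [L.v_one] at hS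
    exact isS_ne hS rfl
  have haz : a ≠ z := by
    rintro rfl
    rw [L.v_z] at hS
    exact isS_ne hS rfl
  have h1 : X = (stab L (L.v a)).map (QuotientGroup.mk' Q) := by
    rw [hX]
    apply le_antisymm
    · rintro _ ⟨c, hc, rfl⟩
      refine ⟨c, ?_, rfl⟩
      have h2 : (c : G) * a = a * c := mem_C.1 (Subgroup.mem_inf.1 (Subgroup.mem_subgroupOf.1 hc)).2
      show L.ρ c (L.v a) = L.v a
      rw [← L.v_conj c (comm c) a ha, h2, mul_inv_cancel_right]
    · rintro _ ⟨c, hc, rfl⟩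
      have hc' : L.ρ c (L.v a) = L.v a := hc
      rw [← L.v_conj c (comm c) a ha, L.v_eq (L.large.conj_mem c (comm c) a ha) ha] at hc'
      rcases hc' with h2 | h2
      · exact ⟨c, Subgroup.mem_subgroupOf.2 (Subgroup.mem_inf.2 ⟨c.2, mem_C.2
          (mul_inv_eq_iff_eq_mul.1 h2)⟩), rfl⟩
      · obtain ⟨n, hn, hna⟩ := LargeExtra.Base.exists_not_comm L.large ha ha1 haz
        obtain ⟨n', hn', rfl⟩ := coe_of_mem hn
        refine ⟨n' * c, Subgroup.mem_subgroupOf.2 (Subgroup.mem_inf.2 ⟨(n' * c).2, mem_C.2 ?_⟩), ?_⟩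
        · have h3 : (c : G) * a = a * z * c := mul_inv_eq_iff_eq_mul.1 h2
          calc (n' : G) * c * a = n' * (c * a) := by group
            _ = n' * a * z * c := by rw [h3]; group
            _ = a * n' * (z * z) * c := by rw [hna]; group
            _ = a * (n' * c) := by rw [L.large.z_sq]; group
        · show (QuotientGroup.mk (n' * c) : C z ⧸ Q) = QuotientGroup.mk c
          rw [mk_eq L]
          intro w
          have h4 : L.ρ ((n' * c : C z) : G) w = L.ρ (n' : G) (L.ρ c w) :=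
            L.ρ_mul (comm n') (comm c) w
          rw [h4]
          exact L.ρ_mem_Q hn _
  refine ⟨h1, ?_⟩
  have h2 := card_map_mk Q (stab L (L.v a))
  have h3 : Q ⊓ stab L (L.v a) = Q := inf_eq_left.2 fun q hq => (H824.FiMono.mem_Q L).1 hq _
  have h4 : Nat.card Q = 2 ^ 13 := by
    rw [← TwoGrp.card_Q L]
    exact (Subgroup.card_map_of_injective (Subgroup.subtype_injective _)).symm
  rw [h3, h4, card_stabS L hS] at h2
  rw [h1]
  omega

/-- Let G be a finite group of large Fischer type at the involution z: the generalized Fitting subgroup Q of H = C_G(z) is extraspecial of order 2^13, H has normal subgroups Q ≤ H₁ ≤ H₂ with H₁/Q of order 3, H₂/H₁ the projective special unitary group of dimension 4 over the field with nine elements and H₂ of index 2 in H, and some conjugate of z other than z lies in Q. Let s = g z g⁻¹ be a conjugate of z lying in Q and different from z. Then the intersection of Q and g Q g⁻¹ (as subgroups of G) is elementary abelian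 of order 2^7; and in H/Q, writing X for the image of the centralizer of s in H and E for the image of the intersection of g Q g⁻¹ with H, E is a normal subgroup of X, elementary abelian of order 32, with X/E isomorphic to the alternating group of degree 6. -/
theorem result {G : Type*} [Group G] [Finite G] (z : G) (Q : Subgroup (Subgroup.centralizer ({z} : Set G))) [Q.Normal] (hF : Cfsg.IsOfLargeFischerTypeAt z Q) (s : G) (hsQ : ∃ hsc : s ∈ Subgroup.centralizer ({z} : Set G), (⟨s, hsc⟩ : Subgroup.centralizer ({z} : Set G)) ∈ Q) (hs : IsConj z s) (hs1 : s ≠ z) (g : G) (hg : g * z * g⁻¹ = s) (X E : Subgroup ((Subgroup.centralizer ({z} : Set G)) ⧸ Q)) (hX : X = ((Subgroup.centralizer ({z} : Set G) ⊓ Subgroup.centralizer ({s} : Set G)).subgroupOf (Subgroup.centralizer ({z} : Set G))).map (QuotientGroup.mk' Q)) (hE : E = ((((Q.map (Subgroup.centralizer ({z} : Set G)).subtype)).map (MulAut.conj g).toMonoidHom ⊓ Subgroup.centralizer ({z} : Set G)).subgroupOf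 (Subgroup.centralizer ({z} : Set G))).map (QuotientGroup.mk' Q)) : Cfsg.IsElementaryAbelian 2 ((Q.map (Subgroup.centralizer ({z} : Set G)).subtype) ⊓ ((Q.map (Subgroup.centralizer ({z} : Set G)).subtype)).map (MulAut.conj g).toMonoidHom) ∧ Nat.card ↥((Q.map (Subgroup.centralizer ({z} : Set G)).subtype) ⊓ ((Q.map (Subgroup.centralizer ({z} : Set G)).subtype)).map (MulAut.conj g).toMonoidHom) = 2 ^ 7 ∧ E ≤ X ∧ (∀ x ∈ X, ∀ y ∈ E, x * y * x⁻¹ ∈ E) ∧ Cfsg.IsElementaryAbelian 2 E ∧ Nat.card E = 32 ∧ ∃ _ : (E.subgroupOf X).Normal, Nonempty (↥X ⧸ E.subgroupOf X ≃* alternatingGroup (Fin 6)) := by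
  obtain ⟨M, L, hM, hMi, hQM, hnwc, even⟩ := Cfsg.Agent.H824.FiBase.exists_lab z Q hF
  obtain ⟨hsc, hsQ'⟩ := hsQ
  have hsQ2 : s ∈ Q.map (C z).subtype := ⟨⟨s, hsc⟩, hsQ', rfl⟩
  subst hg
  have d := duo L hsQ2 hs1
  set a := g * z * g⁻¹ with ha
  set La := L.conj' g a rfl with hLa
  have hcjA : ((Q.map (Subgroup.centralizer ({z} : Set G)).subtype)).map (MulAut.conj g).toMonoidHom =
    cj g (Q.map (C z).subtype) := rfl
  rw [hcjA] at hE ⊢
  set A := cj g (Q.map (C z).subtype) with hA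
  have haz : a * z = z * a := d.az_comm
  have hS := d.isS
  obtain ⟨hX1, hX2⟩ := card_X L hsQ2 hS X hX
  -- the elements of `E`
  have hE1 : ∀ c : C z, (c : G) ∈ A → (QuotientGroup.mk c : C z ⧸ Q) ∈ E := by
    intro c hc
    rw [hE]
    exact ⟨c, Subgroup.mem_subgroupOf.2 (Subgroup.mem_inf.2 ⟨hc, c.2⟩), rfl⟩
  have hE2 : ∀ e ∈ E, ∃ c : C z, (c : G) ∈ A ∧ QuotientGroup.mk c = e := by
    intro e he
    rw [hE] at he
    obtain ⟨c, hc, rfl⟩ := he
    exact ⟨c, (Subgroup.mem_inf.1 (Subgroup.mem_subgroupOf.1 hc)).1, rfl⟩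
  have haQ : (QuotientGroup.mk (⟨a, hsc⟩ : C z) : C z ⧸ Q) = 1 :=
    (QuotientGroup.eq_one_iff _).2 hsQ'
  have hEX : E ≤ X := by
    intro e he
    obtain ⟨c, hc, rfl⟩ := hE2 e he
    rw [hX]
    exact ⟨c, Subgroup.mem_subgroupOf.2 (Subgroup.mem_inf.2 ⟨c.2, mem_C.2 (La.large.comm_z c hc)⟩), rfl⟩
  have hEn : ∀ x ∈ X, ∀ y ∈ E, x * y * x⁻¹ ∈ E := by
    intro x hx y hy
    obtain ⟨c, hc, rfl⟩ := hE2 y hy
    rw [hX] at hx
    obtain ⟨b, hb, rfl⟩ := hx
    have hb2 : (b : G) * a = a * b := mem_C.1 (Subgroup.mem_inf.1 (Subgroup.mem_subgroupOf.1 hb)).2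
    exact hE1 (b * c * b⁻¹) (La.large.conj_mem b hb2 c hc)
  have hEel : IsElementaryAbelian 2 E := by
    constructor
    · refine ⟨⟨?_⟩⟩
      rintro ⟨x, hx⟩ ⟨y, hy⟩
      apply Subtype.ext
      show x * y = y * x
      obtain ⟨c, hc, rfl⟩ := hE2 x hx
      obtain ⟨b, hb, rfl⟩ := hE2 y hy
      rcases La.large.comm c hc b hb with h | h
      · have h2 : c * b = b * c := Subtype.ext h
        rw [← QuotientGroup.mk_mul, h2, QuotientGroup.mk_mul]
      · have h2 : c * b = b * c * ⟨a, hsc⟩ := Subtype.ext h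
        rw [← QuotientGroup.mk_mul, h2, QuotientGroup.mk_mul, haQ, mul_one, QuotientGroup.mk_mul]
    · intro x hx
      obtain ⟨c, hc, rfl⟩ := hE2 x hx
      rw [pow_two, ← QuotientGroup.mk_mul]
      rcases La.large.sq c hc with h | h
      · have h2 : c * c = 1 := Subtype.ext h
        rw [h2]; rfl
      · have h2 : c * c = ⟨a, hsc⟩ := Subtype.ext h
        rw [h2, haQ]
  have hEc : Nat.card E = 32 := by
    have h1 := card_map_mk Q ((A ⊓ C z).subgroupOf (C z))
    have h2 : Nat.card ((A ⊓ C z).subgroupOf (C z)) = 2 ^ 12 := by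
      rw [← card_centA d, Nat.card_congr (Subgroup.subgroupOfEquivOfLe inf_le_right).toEquiv, inf_comm]
    have h3 : Nat.card ↥(Q ⊓ (A ⊓ C z).subgroupOf (C z)) = 2 ^ 7 := by
      rw [← card_inf d, ← Subgroup.card_map_of_injective (Subgroup.subtype_injective (C z))]
      congr 2
      ext x
      constructor
      · rintro ⟨c, hc, rfl⟩
        obtain ⟨hc1, hc2⟩ := Subgroup.mem_inf.1 hc
        exact Subgroup.mem_inf.2 ⟨mem_map.2 hc1, (Subgroup.mem_inf.1 (Subgroup.mem_subgroupOf.1 hc2)).1⟩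
      · intro hx
        obtain ⟨⟨c, hc, rfl⟩, hx2⟩ := Subgroup.mem_inf.1 hx
        exact ⟨c, Subgroup.mem_inf.2 ⟨hc, Subgroup.mem_subgroupOf.2 (Subgroup.mem_inf.2 ⟨hx2, c.2⟩)⟩, rfl⟩
    rw [h2, h3] at h1
    rw [hE]
    have h4 : Nat.card ↥(((A ⊓ C z).subgroupOf (C z)).map (QuotientGroup.mk' Q)) * 2 ^ 7 = 2 ^ 12 := h1
    exact Nat.eq_of_mul_eq_mul_right (by norm_num : 0 < 2 ^ 7) (h4.trans (by norm_num))
  have hnorm : (E.subgroupOf X).Normal := by
    constructor
    intro n hn g'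
    exact hEn g' g'.2 n hn
  refine ⟨⟨⟨⟨?_⟩⟩, ?_⟩, card_inf d, hEX, hEn, hEel, hEc, hnorm, ?_⟩
  · rintro ⟨x, hx⟩ ⟨y, hy⟩
    exact Subtype.ext (d.pair.comm_D (Subgroup.mem_inf.1 hx).1 (Subgroup.mem_inf.1 hx).2
      (Subgroup.mem_inf.1 hy).1 (Subgroup.mem_inf.1 hy).2)
  · intro x hx
    rw [pow_two]
    exact d.pair.sq_D (Subgroup.mem_inf.1 hx).1 (Subgroup.mem_inf.1 hx).2
  · -- the quotient
    obtain ⟨φ, hφi, hφ⟩ := exists_hom L w1 w1_ne
    obtain ⟨m0, hm0, hm0'⟩ := L.transS w1 (L.v a) isS_w1 hS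
    obtain ⟨m, hm, rfl⟩ := coe_of_mem hm0
    have hmw : L.ρ (m : G) w1 = L.v a := hm0'
    have hmem : ∀ σ, (QuotientGroup.mk m : C z ⧸ Q) * φ σ * (QuotientGroup.mk m)⁻¹ ∈ X := by
      intro σ
      obtain ⟨c, -, hc, hcw⟩ := hφ σ
      rw [← hc, hX1]
      refine ⟨m * c * m⁻¹, ?_, rfl⟩
      show L.ρ ((m * c * m⁻¹ : C z) : G) (L.v a) = L.v a
      have h1 : L.ρ ((m * c * m⁻¹ : C z) : G) (L.v a) = L.ρ ((m * c : C z) : G) (L.ρ (m : G)⁻¹ (L.v a)) :=
        L.ρ_mul (comm (m * c)) (inv_comm (comm m)) _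
      have h2 : L.ρ ((m * c : C z) : G) w1 = L.ρ (m : G) (L.ρ c w1) := L.ρ_mul (comm m) (comm c) _
      have h3 : L.ρ c w1 = w1 := by
        ext i
        rw [hcw, inv_mul_cancel_right₀ (w1_ne _)]
      rw [h1, ← hmw, L.ρ_inv (comm m), h2, h3]
    let ψ : alternatingGroup (Fin 6) →* X :=
      { toFun := fun σ => ⟨_, hmem σ⟩
        map_one' := by
          apply Subtype.ext
          show (QuotientGroup.mk m : C z ⧸ Q) * φ 1 * (QuotientGroup.mk m)⁻¹ = 1
          rw [map_one, mul_one, mul_inv_cancel]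
        map_mul' := by
          intro σ τ
          apply Subtype.ext
          show (QuotientGroup.mk m : C z ⧸ Q) * φ (σ * τ) * (QuotientGroup.mk m)⁻¹ =
            (QuotientGroup.mk m : C z ⧸ Q) * φ σ * (QuotientGroup.mk m)⁻¹ *
            ((QuotientGroup.mk m : C z ⧸ Q) * φ τ * (QuotientGroup.mk m)⁻¹)
          rw [map_mul]; group }
    have hψi : Function.Injective ψ := by
      intro σ τ h
      apply hφi
      have h1 : (QuotientGroup.mk m : C z ⧸ Q) * φ σ * (QuotientGroup.mk m)⁻¹ =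
        (QuotientGroup.mk m : C z ⧸ Q) * φ τ * (QuotientGroup.mk m)⁻¹ := congrArg Subtype.val h
      exact mul_left_cancel (mul_right_cancel h1)
    let θ : alternatingGroup (Fin 6) →* X ⧸ E.subgroupOf X := (QuotientGroup.mk' _).comp ψ
    have hcardA : Nat.card (alternatingGroup (Fin 6)) = 360 := by
      have := two_mul_nat_card_alternatingGroup (α := Fin 6)
      rw [Nat.card_perm, Nat.card_fin] at this
      have h6 : Nat.factorial 6 = 720 := rfl
      omega
    have hsimple : IsSimpleGroup (alternatingGroup (Fin 6)) :=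
      alternatingGroup.isSimpleGroup (by simp)
    have hker : θ.ker = ⊥ := by
      refine (hsimple.eq_bot_or_eq_top_of_normal θ.ker inferInstance).resolve_right fun h => ?_
      have h1 : ∀ σ, (ψ σ : C z ⧸ Q) ∈ E := by
        intro σ
        have h2 : σ ∈ θ.ker := by rw [h]; trivial
        have h3 : (QuotientGroup.mk (ψ σ) : X ⧸ E.subgroupOf X) = 1 := h2
        exact Subgroup.mem_subgroupOf.1 ((QuotientGroup.eq_one_iff _).1 h3)
      have h2 : Nat.card (alternatingGroup (Fin 6)) ≤ Nat.card E := by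
        refine Nat.card_le_card_of_injective (fun σ => (⟨_, h1 σ⟩ : E)) ?_
        intro σ τ h3
        apply hψi
        exact Subtype.ext (congrArg (fun t : E => (t : C z ⧸ Q)) h3)
      rw [hcardA, hEc] at h2
      omega
    have hinj : Function.Injective θ := (MonoidHom.ker_eq_bot_iff θ).1 hker
    have hcardq : Nat.card (X ⧸ E.subgroupOf X) = 360 := by
      have h1 := Subgroup.card_eq_card_quotient_mul_card_subgroup (E.subgroupOf X)
      rw [hX2, Nat.card_congr (Subgroup.subgroupOfEquivOfLe hEX).toEquiv, hEc] at h1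
      omega
    have hbij : Function.Bijective θ := by
      rw [Nat.bijective_iff_injective_and_card]
      exact ⟨hinj, by rw [hcardA, hcardq]⟩
    exact ⟨(MulEquiv.ofBijective θ hbij).symm⟩

end Cfsg.Agent.S5442
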