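import Cfsg.Statements.S5443
import Cfsg.Agent.H824.FiOm

set_option autoImplicit false
open Cfsg

namespace Cfsg.Agent.S5443


open Cfsg.Agent.SporRec.GF4 Cfsg.Agent.R08 Cfsg.Agent.R08.Iface Cfsg.Agent.R08.TwoFin
open Cfsg.Agent.R08.TwoGrp Cfsg.Agent.R08.Iface.Lab Cfsg.Agent.H824.FiStab Cfsg.Agent.H824.FiMono
open Cfsg.Agent.R08.SixIn Cfsg.Agent.R08.SixGeo Cfsg.Agent.R08.SixHom Cfsg.Agent.H824.FiOm
open Cfsg.Agent.LieClassical.HermSiegel

variable {G : Type*} [Group G] {z : G} {Q M : Subgroup (C z)}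

/-- conjugation of the stabilisers -/
theorem map_stab [Q.Normal] (L : Lab F4 (Q.map (C z).subtype) (M.map (C z).subtype) z) (m : C z) (r : W) :
    ((stab L r).map (QuotientGroup.mk' Q)).map (MulAut.conj (QuotientGroup.mk m : C z ⧸ Q)).toMonoidHom =
      (stab L (L.ρ m r)).map (QuotientGroup.mk' Q) := by
  ext x
  constructor
  · rintro ⟨_, ⟨c, hc, rfl⟩, rfl⟩
    refine ⟨m * c * m⁻¹, ?_, rfl⟩
    show L.ρ ((m * c * m⁻¹ : C z) : G) (L.ρ m r) = L.ρ m r
    have h1 : L.ρ ((m * c * m⁻¹ : C z) : G) (L.ρ m r) = L.ρ ((m * c : C z) : G) (L.ρ (m : G)⁻¹ (L.ρ m r)) :=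
      L.ρ_mul (comm (m * c)) (inv_comm (comm m)) _
    have h2 : L.ρ ((m * c : C z) : G) r = L.ρ (m : G) (L.ρ c r) := L.ρ_mul (comm m) (comm c) _
    rw [h1, L.ρ_inv (comm m), h2, show L.ρ c r = r from hc]
  · rintro ⟨c, hc, rfl⟩
    have hc' : L.ρ c (L.ρ m r) = L.ρ m r := hc
    refine ⟨QuotientGroup.mk (m⁻¹ * c * m), ⟨m⁻¹ * c * m, ?_, rfl⟩, ?_⟩
    · show L.ρ ((m⁻¹ * c * m : C z) : G) r = r
      have h1 : L.ρ ((m⁻¹ * c * m : C z) : G) r = L.ρ ((m⁻¹ * c : C z) : G) (L.ρ (m : G) r) :=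
        L.ρ_mul (comm (m⁻¹ * c)) (comm m) _
      have h2 : L.ρ ((m⁻¹ * c : C z) : G) (L.ρ (m : G) r) = L.ρ (m : G)⁻¹ (L.ρ c (L.ρ m r)) :=
        L.ρ_mul (inv_comm (comm m)) (comm c) _
      rw [h1, h2, hc', L.ρ_inv (comm m)]
    · show (QuotientGroup.mk m : C z ⧸ Q) * QuotientGroup.mk (m⁻¹ * c * m) * (QuotientGroup.mk m)⁻¹ =
        QuotientGroup.mk c
      rw [← QuotientGroup.mk_mul, ← QuotientGroup.mk_inv, ← QuotientGroup.mk_mul]
      congr 1
      group

/-- the linear part of the stabiliser of `r0` -/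
theorem exists_blkHom [Finite G] [Q.Normal] (L : Lab F4 (Q.map (C z).subtype) (M.map (C z).subtype) z)
    {K : Subgroup (C z)} (hK : K = stab L (r0 F4) ⊓ M) :
    ∃ f : K →* SU 4 F4 2, ∀ k, f k = 1 ↔ (k : C z) ∈ Q := by
  subst hK
  have hF : Fintype.card F4 = 2 ^ 2 := by rw [F4.card_F4]; norm_num
  have key : ∀ k : ↥(stab L (r0 F4) ⊓ M), ∃ B : SU 4 F4 2, ∀ x b, ∃ c,
      L.ρ (k : C z) (emb4 x b) = emb4 (act B x) c := fun k =>
    exists_act hF (L := L) (mem_map.2 (Subgroup.mem_inf.1 k.2).2) (Subgroup.mem_inf.1 k.2).1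
  choose f hf using key
  have huniq : ∀ B B' : SU 4 F4 2, (∀ x, act B x = act B' x) → B = B' := fun B B' h => ext_act h
  refine ⟨MonoidHom.mk' f ?_, fun k => ?_⟩
  · intro k l
    apply huniq
    intro x
    obtain ⟨c1, h1⟩ := hf (k * l) x 0
    obtain ⟨c2, h2⟩ := hf l x 0
    obtain ⟨c3, h3⟩ := hf k (act (f l) x) c2
    have h4 : L.ρ ((k * l : ↥(stab L (r0 F4) ⊓ M)) : C z) (emb4 x 0) =
        L.ρ (k : C z) (L.ρ (l : C z) (emb4 x 0)) := L.ρ_mul (comm (k : C z)) (comm (l : C z)) _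
    rw [h1, h2, h3] at h4
    rw [(emb4_inj h4).1, act_mul]
  · show f k = 1 ↔ _
    have hr0 : L.ρ (k : C z) (r0 F4) = r0 F4 := (Subgroup.mem_inf.1 k.2).1
    constructor
    · intro h
      have h1 := L.triv (k : C z) (mem_map.2 (Subgroup.mem_inf.1 k.2).2) (r0 F4) (isR_r0_one hF) hr0 (by
        intro w hw
        have h2 := perp_r0 hF hw
        obtain ⟨c, hc⟩ := hf k (top w) (w 4)
        rw [h, act_one] at hc
        refine ⟨w 4 + c, ?_⟩
        have h3 : L.ρ (k : C z) w = emb4 (top w) c := (congrArg (L.ρ (k : C z)) h2).trans hc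
        have h4 : w + (w 4 + c) • r0 F4 = emb4 (top w) (w 4 + (w 4 + c)) :=
          (congrArg (· + (w 4 + c) • r0 F4) h2).trans (emb4_add_r0 _ _ _)
        rw [h3, h4, ← add_assoc, ModVec.add_self, zero_add])
      exact (H824.FiMono.mem_Q L).2 h1
    · intro h
      apply huniq
      intro x
      obtain ⟨c, hc⟩ := hf k x 0
      rw [(H824.FiMono.mem_Q L).1 h] at hc
      rw [act_one]
      exact (emb4_inj hc).1.symm


theorem card_Q' [Finite G] (L : Lab F4 (Q.map (C z).subtype) (M.map (C z).subtype) z) :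
    Nat.card Q = 2 ^ 13 := by
  rw [← TwoGrp.card_Q L]
  exact (Subgroup.card_map_of_injective (Subgroup.subtype_injective _)).symm

theorem Q_le_stab (L : Lab F4 (Q.map (C z).subtype) (M.map (C z).subtype) z) (w : W) : Q ≤ stab L w :=
  fun _ hq => (H824.FiMono.mem_Q L).1 hq _

theorem card_map_stabR [Finite G] [Q.Normal] (L : Lab F4 (Q.map (C z).subtype) (M.map (C z).subtype) z)
    {r : W} (hr : IsR r) : Nat.card ((stab L r).map (QuotientGroup.mk' Q)) = 51840 := by
  have h2 := card_map_mk Q (stab L r)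
  rw [inf_eq_left.2 (Q_le_stab L r), card_Q' L, card_stabR L hr] at h2
  omega

/-- **the stabiliser of `r0`** -/
theorem equiv_r0 [Finite G] [Q.Normal] (L : Lab F4 (Q.map (C z).subtype) (M.map (C z).subtype) z)
    (hM : M.Normal) (hMi : M.index = 2) (hQM : Q ≤ M)
    (hnwc : ∃ g : G, g * z * g⁻¹ ∈ Q.map (C z).subtype ∧ g * z * g⁻¹ ≠ z) :
    Nonempty (((stab L (r0 F4)).map (QuotientGroup.mk' Q)) ≃* O6) := by
  have hF : Fintype.card F4 = 2 ^ 2 := by rw [F4.card_F4]; norm_num
  set X := (stab L (r0 F4)).map (QuotientGroup.mk' Q) with hX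
  have hXc : Nat.card X = 51840 := card_map_stabR L (isR_r0_one hF)
  obtain ⟨K, hK⟩ : ∃ K, K = stab L (r0 F4) ⊓ M := ⟨_, rfl⟩
  have hKm : ∀ c : C z, c ∈ K ↔ c ∈ stab L (r0 F4) ∧ c ∈ M := by
    intro c; rw [hK, Subgroup.mem_inf]
  obtain ⟨f, hf⟩ := exists_blkHom L hK
  let g : K →* X := ((QuotientGroup.mk' Q).comp K.subtype).codRestrict X
    (fun k => ⟨k, ((hKm _).1 k.2).1, rfl⟩)
  have hg : ∀ k : K, g k = 1 ↔ (k : C z) ∈ Q := by
    intro k
    constructor
    · intro h
      exact (QuotientGroup.eq_one_iff _).1 (congrArg Subtype.val h)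
    · intro h
      exact Subtype.ext ((QuotientGroup.eq_one_iff _).2 h)
  have hker : g.ker = f.ker := by
    ext k
    rw [MonoidHom.mem_ker, MonoidHom.mem_ker, hg, hf]
  have hkc : Nat.card f.ker = 2 ^ 13 := by
    rw [← card_Q' L]
    have h1 : f.ker = Q.subgroupOf K := by
      ext k
      rw [MonoidHom.mem_ker, hf, Subgroup.mem_subgroupOf]
    rw [h1]
    exact Nat.card_congr (Subgroup.subgroupOfEquivOfLe (by rw [hK]; exact le_inf (Q_le_stab L _) hQM)).toEquiv
  have hKc : Nat.card f.range * 2 ^ 13 = Nat.card K := by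
    have := Subgroup.card_mul_index f.ker
    rw [Subgroup.index_ker, hkc] at this
    rw [← this, mul_comm]
  have hrel : 51840 * 2 ^ 13 ≤ Nat.card K * 2 := by
    have h1 := Subgroup.card_mul_index (M.subgroupOf (stab L (r0 F4)))
    have h2 : (M.subgroupOf (stab L (r0 F4))).index ∣ 2 := by
      rw [← hMi]
      exact Subgroup.relIndex_dvd_index_of_normal M _
    have h3 := Nat.le_of_dvd (by norm_num) h2
    have h4 : Nat.card (M.subgroupOf (stab L (r0 F4))) = Nat.card K := by
      rw [← Subgroup.inf_subgroupOf_right, Nat.card_congr (Subgroup.subgroupOfEquivOfLe inf_le_right).toEquiv,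
        inf_comm, hK]
    rw [h4, card_stabR L (isR_r0_one hF)] at h1
    rw [← h1]
    exact Nat.mul_le_mul_left _ h3
  have hfle : Nat.card f.range ≤ 25920 := by
    rw [← card_su]; exact Subgroup.card_le_card_group _
  have hfc : Nat.card f.range = 25920 := by omega
  have hfs : f.range = ⊤ := Subgroup.eq_top_of_card_eq _ (by rw [hfc, card_su])
  have hgc : Nat.card g.range = 25920 := by
    have h1 := Subgroup.card_mul_index g.ker
    rw [Subgroup.index_ker, hker, hkc, ← hKc, hfc] at h1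
    omega
  let e : g.range ≃* PSU 4 F4 2 :=
    (QuotientGroup.quotientKerEquivRange g).symm.trans
      ((QuotientGroup.quotientMulEquivOfEq hker).trans
        ((QuotientGroup.quotientKerEquivRange f).trans
          ((MulEquiv.subgroupCongr hfs).trans (Subgroup.topEquiv.trans toPSU))))
  have hgr : ∀ x : X, x ∈ g.range ↔ ∃ c : C z, c ∈ stab L (r0 F4) ∧ c ∈ M ∧ QuotientGroup.mk c = (x : C z ⧸ Q) := by
    intro x
    constructor
    · rintro ⟨k, rfl⟩
      exact ⟨k, ((hKm _).1 k.2).1, ((hKm _).1 k.2).2, rfl⟩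
    · rintro ⟨c, h1, h2, h3⟩
      exact ⟨⟨c, (hKm _).2 ⟨h1, h2⟩⟩, Subtype.ext h3⟩
  have hnorm : g.range.Normal := by
    constructor
    intro n hn y
    rw [hgr] at hn ⊢
    obtain ⟨c, h1, h2, h3⟩ := hn
    obtain ⟨b, hb, hb2⟩ := y.2
    refine ⟨b * c * b⁻¹, (stab L (r0 F4)).mul_mem ((stab L (r0 F4)).mul_mem hb h1)
      ((stab L (r0 F4)).inv_mem hb), hM.conj_mem c h2 b, ?_⟩
    show (QuotientGroup.mk b : C z ⧸ Q) * QuotientGroup.mk c * (QuotientGroup.mk b)⁻¹ =
      (y : C z ⧸ Q) * (n : C z ⧸ Q) * (y : C z ⧸ Q)⁻¹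
    rw [h3, ← hb2]
    rfl
  obtain ⟨eO⟩ := o6_equiv
  obtain ⟨eX⟩ := equiv_mulAut g.range e (by
    intro c hc
    -- the centraliser
    by_cases hcN : c ∈ g.range
    · have h1 : e ⟨c, hcN⟩ = 1 := by
        apply center_psu
        intro x
        obtain ⟨y, rfl⟩ := e.surjective x
        rw [← map_mul, ← map_mul]
        congr 1
        exact Subtype.ext (hc y y.2)
      have h2 : (⟨c, hcN⟩ : g.range) = 1 := e.injective (h1.trans (map_one e).symm)
      exact congrArg Subtype.val h2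
    · exfalso
      obtain ⟨b, hb, hb2⟩ := c.2
      have hbM : b ∉ M := fun h => hcN ((hgr c).2 ⟨b, hb, h, hb2⟩)
      have hbM' : (b : G) ∉ M.map (C z).subtype := fun h => hbM (mem_map.1 h)
      obtain ⟨g0, hg1, hg2⟩ := hnwc
      have hsemi := (duo L hg1 hg2).semi (comm b) hbM'
      -- the diagonal element
      let w0 : F4ˣ := Units.mk0 F4.w (by decide)
      obtain ⟨m, hm, hmw⟩ := L.mono 1 (fun i => if i.val < 3 then w0 else 1) (by simp) (by
        simp only [Fin.prod_univ_six]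
        apply Units.ext
        simp [w0]
        decide)
      obtain ⟨n, hn, rfl⟩ := coe_of_mem hm
      have hmw' : ∀ w i, L.ρ n w i = ((if i.val < 3 then w0 else 1 : F4ˣ) : F4) * w i :=
        fun w i => hmw w i
      have hn0 : L.ρ n (r0 F4) = r0 F4 := by
        ext i
        rw [hmw']
        fin_cases i <;> simp [SixIn.r0]
      have hcomm := hc ⟨QuotientGroup.mk n, ⟨n, hn0, rfl⟩⟩ ((hgr _).2 ⟨n, hn0, hn, rfl⟩)
      have hcomm' : (QuotientGroup.mk (b * n) : C z ⧸ Q) = QuotientGroup.mk (n * b) := by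
        have h1 := congrArg Subtype.val hcomm
        have h2 : (c : C z ⧸ Q) * QuotientGroup.mk n = QuotientGroup.mk n * (c : C z ⧸ Q) := h1
        rw [← hb2] at h2
        exact h2
      have h1 := (mk_eq L).1 hcomm' (Pi.single 0 1)
      have h2 : L.ρ ((b * n : C z) : G) (Pi.single 0 1) = L.ρ b (L.ρ n (Pi.single 0 1)) :=
        L.ρ_mul (comm b) (comm n) _
      have h3 : L.ρ ((n * b : C z) : G) (Pi.single 0 1) = L.ρ n (L.ρ b (Pi.single 0 1)) :=
        L.ρ_mul (comm n) (comm b) _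
      have h4 : L.ρ (n : G) (Pi.single 0 1) = F4.w • (Pi.single 0 1 : W) := by
        ext i
        rw [hmw']
        fin_cases i <;> simp [w0]
      rw [h2, h3, h4, hsemi.smul] at h1
      have h5 : L.ρ (b : G) (Pi.single 0 1) = 0 := by
        ext i
        have h6 := congrFun h1 i
        rw [hmw'] at h6
        revert h6
        generalize L.ρ (b : G) (Pi.single 0 1) = u
        simp only [Pi.smul_apply, smul_eq_mul, Pi.zero_apply]
        generalize u i = t
        by_cases hi : i.val < 3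
        · simp only [hi, if_true, w0]
          revert t; decide
        · simp only [hi, if_false]
          revert t; decide
      have h6 := (TwoTr.ρ_ne_zero L (comm b) _).1 h5
      have h7 := congrFun h6 0
      rw [Pi.single_eq_same] at h7
      exact one_ne_zero h7) (by rw [hXc, card_aut])
  exact ⟨eX.trans eO.symm⟩

/-- Let G be a finite group of large Fischer type at the involution z: the generalized Fitting subgroup Q of H = C_G(z) is extraspecial of order 2^13, H has normal subgroups Q ≤ H₁ ≤ H₂ with H₁/Q of order 3, H₂/H₁ the projective special unitary group of dimension 4 over the field with nine elements and H₂ of index 2 in H, and some conjugate of z other than z lies in Q. Let t be an involution of Q not conjugate to z in G, and S the set of elements of H conjugating t to t or to t z (the stabilizer of the image of t in Q modulo its centre). Then the image of S in H/Q is isomorphic to the full isometry group of the elliptic quadratic form in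 dimension 6 over the field with two elements. -/
theorem result {G : Type*} [Group G] [Finite G] (z : G) (Q : Subgroup (Subgroup.centralizer ({z} : Set G))) [Q.Normal] (hF : Cfsg.IsOfLargeFischerTypeAt z Q) (t : Subgroup.centralizer ({z} : Set G)) (htQ : t ∈ Q) (ht2 : orderOf t = 2) (ht : ¬ IsConj z (t : G)) (S : Subgroup (Subgroup.centralizer ({z} : Set G))) (hS : ∀ h : Subgroup.centralizer ({z} : Set G), h ∈ S ↔ (h * t * h⁻¹ = t ∨ ((h * t * h⁻¹ : Subgroup.centralizer ({z} : Set G)) : G) = t * z)) : Nonempty (↥(S.map (QuotientGroup.mk' Q)) ≃* Cfsg.isometryGroup (ZMod 2) (Cfsg.quadFormMinus 2 (ZMod 2) 1 1)) := by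
  obtain ⟨M, L, hM, hMi, hQM, hnwc, even⟩ := Cfsg.Agent.H824.FiBase.exists_lab z Q hF
  have hF4 : Fintype.card F4 = 2 ^ 2 := by rw [F4.card_F4]; norm_num
  have htQ' : (t : G) ∈ Q.map (C z).subtype := mem_map.2 htQ
  have ht1 : (t : G) ≠ 1 := by
    intro h
    have h1 : t = 1 := Subtype.ext h
    rw [h1, orderOf_one] at ht2
    omega
  have htt : (t : G) * t = 1 := by
    have h1 := pow_orderOf_eq_one t
    rw [ht2, pow_two] at h1
    exact congrArg Subtype.val h1
  have htz : (t : G) ≠ z := by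
    intro h
    apply ht
    rw [h]
  have hR : IsR (L.v t) := by
    rcases isR_or_isS_of_sq L htQ' htt ht1 htz with h | h
    · exact h
    · exfalso
      obtain ⟨g, hg⟩ := FusQ.twoB_of_isS L hnwc htQ' h
      exact ht (isConj_iff.2 ⟨g, hg.symm⟩)
  have hSt : S = stab L (L.v t) := by
    ext c
    rw [hS]
    show _ ↔ L.ρ c (L.v t) = L.v t
    rw [← L.v_conj c (comm c) t htQ', L.v_eq (L.large.conj_mem c (comm c) t htQ') htQ']
    apply or_congr
    · exact ⟨fun h => congrArg Subtype.val h, fun h => Subtype.ext h⟩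
    · exact Iff.rfl
  obtain ⟨m, ⟨m', hm, rfl⟩, hm'⟩ := L.transR (r0 F4) (L.v t) (isR_r0_one hF4) hR
  obtain ⟨e⟩ := equiv_r0 L hM hMi hQM hnwc
  have h1 := map_stab L m' (r0 F4)
  have h2 : L.ρ (m' : G) (r0 F4) = L.v t := hm'
  rw [h2] at h1
  rw [hSt, ← h1]
  exact ⟨(Subgroup.equivMapOfInjective _ _ (MulAut.conj (QuotientGroup.mk m' : C z ⧸ Q)).injective).symm.trans e⟩

end Cfsg.Agent.S5443
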