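import Cfsg.Statements.S5444
import Cfsg.Agent.H826.Exist
import Cfsg.Agent.H824.FiBase

set_option autoImplicit false
open Cfsg

namespace Cfsg.Agent.S5444

open Cfsg.Agent.SporRec.GF4 Cfsg.Agent.R08 Cfsg.Agent.R08.Iface
open Cfsg.Agent.H826.Struct Cfsg.Agent.H826.Exist

section

variable {G : Type*} [Group G] [Finite G] {Q M : Subgroup G} {z : G} (L : Lab F4 Q M z)
  (hnwc : ∃ g : G, g * z * g⁻¹ ∈ Q ∧ g * z * g⁻¹ ≠ z)
  (even : ∀ f : M →* ℤˣ, (∀ m : M, (m : G) ∈ Q → f m = 1) → ∀ m, f m = 1)

include L hnwc even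

/-- `z ∈ B` -/
theorem z_mem {B : Subgroup G} (h : Maxi z B) : z ∈ B := by
  have hzz := L.large.z_sq
  have hc : ∀ x : G, x * z ∈ B → x * z = z * x := by
    intro x hx
    have h1 := h.cent _ hx
    have h2 : x * z * z = z * x * z := by rw [h1, mul_assoc]
    exact mul_right_cancel h2
  let B' : Subgroup G :=
    { carrier := {x | x ∈ B ∨ x * z ∈ B}
      one_mem' := Or.inl B.one_mem
      mul_mem' := by
        rintro x y (hx | hx) (hy | hy)
        · exact Or.inl (B.mul_mem hx hy)
        · right
          rw [mul_assoc]; exact B.mul_mem hx hy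
        · right
          have : x * y * z = x * z * y := by rw [mul_assoc, h.cent y hy, mul_assoc]
          rw [this]; exact B.mul_mem hx hy
        · left
          have : x * y = x * z * (y * z) := by
            rw [hc y hy, mul_assoc x z, ← mul_assoc z z, hzz, one_mul]
          rw [this]; exact B.mul_mem hx hy
      inv_mem' := by
        rintro x (hx | hx)
        · exact Or.inl (B.inv_mem hx)
        · right
          have : x⁻¹ * z = (x * z)⁻¹ := by
            rw [hc x hx, mul_inv_rev, inv_eq_of_mul_eq_one_left hzz]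
          rw [this]; exact B.inv_mem hx }
  have hle : B ≤ B' := fun x hx => Or.inl hx
  have hM : Maxi z B' := by
    refine ⟨?_, ?_, ?_⟩
    · rintro x (hx | hx)
      · exact h.cent x hx
      · exact hc x hx
    · rintro x (hx | hx)
      · exact h.sq x hx
      · have h1 := h.sq _ hx
        have h2 : x * z * (x * z) = x * x := by
          rw [hc x hx]
          calc z * x * (z * x) = z * (x * z) * x := by group
            _ = (z * z) * (x * x) := by rw [hc x hx]; group
            _ = x * x := by rw [hzz, one_mul]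
        rw [← h2]; exact h1
    · exact h.card.trans (Nat.card_le_card_of_injective _ (Subgroup.inclusion_injective hle))
  have hz' : z ∈ B' := Or.inr (by rw [hzz]; exact B.one_mem)
  have h1 := (struct L hnwc even hM hz').1
  have h2 : B = B' := Subgroup.eq_of_le_of_card_ge hle (by rw [h1]; exact h.card)
  rw [h2]; exact hz'

theorem eq_of_norm' {B B' : Subgroup G} (h : Maxi z B) (h' : Maxi z B')
    (hn : ∀ b ∈ B, ∀ x ∈ B', b * x * b⁻¹ ∈ B') : B = B' :=
  eq_of_norm L hnwc even h (z_mem L hnwc even h) h' (z_mem L hnwc even h') hn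

/-- a 2-group mapping injectively: uniqueness -/
theorem normal_of_maxi {T : Type*} [Group T] [Finite T] (hT : IsPGroup 2 T) (j : T →* G)
    (hj : Function.Injective j) {A : Subgroup T} (hA : Maxi z (A.map j)) (hc : ∀ x, j x * z = z * j x) :
    A.Normal := by
  have : Fact (Nat.Prime 2) := ⟨Nat.prime_two⟩
  have hnil : Group.IsNilpotent T := hT.isNilpotent
  rw [← Subgroup.normalizer_eq_top_iff]
  by_contra hne
  have h1 := Group.normalizerCondition_of_isNilpotent _ (lt_top_iff_ne_top.2 hne)
  obtain ⟨g, hg, hg'⟩ := SetLike.exists_of_lt h1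
  apply hg'
  have hM : Maxi z ((A.map (MulAut.conj g).toMonoidHom).map j) := by
    refine ⟨?_, ?_, ?_⟩
    · rintro _ ⟨x, -, rfl⟩
      exact hc x
    · rintro _ ⟨_, ⟨x, hx, rfl⟩, rfl⟩
      have h2 := hA.sq _ ⟨x, hx, rfl⟩
      rw [← map_mul] at h2 ⊢
      have h3 : x * x = 1 := hj (h2.trans (map_one j).symm)
      have h4 : (MulAut.conj g).toMonoidHom x * (MulAut.conj g).toMonoidHom x = 1 := by
        rw [← map_mul, h3, map_one]
      rw [h4, map_one]
    · rw [Subgroup.card_map_of_injective hj, Subgroup.card_map_of_injective (MulAut.conj g).injective,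
        ← Subgroup.card_map_of_injective hj]
      exact hA.card
  have heq := eq_of_norm' L hnwc even hM hA (by
    rintro _ ⟨_, ⟨x, hx, rfl⟩, rfl⟩ _ ⟨y, hy, rfl⟩
    rw [← map_mul, ← map_inv, ← map_mul]
    refine ⟨_, ?_, rfl⟩
    have h2 : g * x * g⁻¹ ∈ Subgroup.normalizer (A : Set T) :=
      (Subgroup.mem_normalizer_iff.1 hg x).1 (Subgroup.le_normalizer hx)
    exact (Subgroup.mem_normalizer_iff.1 h2 y).1 hy)
  have h2 : A.map (MulAut.conj g).toMonoidHom = A := Subgroup.map_injective hj heq
  rw [Subgroup.mem_normalizer_iff]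
  intro x
  constructor
  · intro hx
    have h3 : g * x * g⁻¹ ∈ A.map (MulAut.conj g).toMonoidHom := ⟨x, hx, rfl⟩
    rwa [h2] at h3
  · intro hx
    have h4 : g * x * g⁻¹ ∈ A := hx
    rw [← h2] at h4
    obtain ⟨y, hy, h3⟩ := h4
    have h5 : g * y * g⁻¹ = g * x * g⁻¹ := h3
    have h6 : y = x := mul_left_cancel (mul_right_cancel h5)
    rw [← h6]; exact hy

theorem eq_of_maxi {T : Type*} [Group T] [Finite T] (hT : IsPGroup 2 T) (j : T →* G)
    (hj : Function.Injective j) {A A' : Subgroup T} (hA : Maxi z (A.map j)) (hA' : Maxi z (A'.map j))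
    (hc : ∀ x, j x * z = z * j x) : A' = A := by
  have hn := normal_of_maxi L hnwc even hT j hj hA hc
  apply Subgroup.map_injective hj
  apply eq_of_norm' L hnwc even hA' hA
  rintro _ ⟨x, hx, rfl⟩ _ ⟨y, hy, rfl⟩
  rw [← map_mul, ← map_inv, ← map_mul]
  exact ⟨_, hn.conj_mem y hy x, rfl⟩

end

/-- Let G be a finite group of large Fischer type at the involution z: the generalized Fitting subgroup Q of H = C_G(z) is extraspecial of order 2^13, H has normal subgroups Q ≤ H₁ ≤ H₂ with H₁/Q of order 3, H₂/H₁ the projective special unitary group of dimension 4 over the field with nine elements and H₂ of index 2 in H, and some conjugate of z other than z lies in Q. Let T be a Sylow 2-subgroup of H. Then T has exactly one elementary abelian subgroup A of largest order; A has order 2^11, it meets Q in a subgroup of order 2^7, and its image in H/Q has order 16. -/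
theorem result {G : Type*} [Group G] [Finite G] (z : G) (Q : Subgroup (Subgroup.centralizer ({z} : Set G))) [Q.Normal] (hF : Cfsg.IsOfLargeFischerTypeAt z Q) (T : Sylow 2 ↥(Subgroup.centralizer ({z} : Set G))) : ∃ A : Subgroup ↥(T : Subgroup (Subgroup.centralizer ({z} : Set G))), Cfsg.maxElementaryAbelianSubgroups 2 ↥(T : Subgroup (Subgroup.centralizer ({z} : Set G))) = {A} ∧ Nat.card A = 2 ^ 11 ∧ Nat.card ↥(A.map (T : Subgroup (Subgroup.centralizer ({z} : Set G))).subtype ⊓ Q) = 2 ^ 7 ∧ Nat.card ↥((A.map (T : Subgroup (Subgroup.centralizer ({z} : Set G))).subtype).map (QuotientGroup.mk' Q)) = 16 := by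
  have : Fact (Nat.Prime 2) := ⟨Nat.prime_two⟩
  obtain ⟨M, L, -, -, -, hnwc, even⟩ := H824.FiBase.exists_lab z Q hF
  let j : ↥(T : Subgroup (Subgroup.centralizer ({z} : Set G))) →* G := (Subgroup.centralizer ({z} : Set G)).subtype.comp (T : Subgroup (Subgroup.centralizer ({z} : Set G))).subtype
  have hj : Function.Injective j := Subtype.val_injective.comp Subtype.val_injective
  have hjc : ∀ x, j x * z = z * j x := fun x =>
    Subgroup.mem_centralizer_singleton_iff.1 (x : Subgroup.centralizer ({z} : Set G)).2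
  have hTp : IsPGroup 2 ↥(T : Subgroup (Subgroup.centralizer ({z} : Set G))) := T.isPGroup'
  -- elementary abelian subgroups of order at least `2 ^ 11`
  have hmaxi : ∀ A : Subgroup ↥(T : Subgroup (Subgroup.centralizer ({z} : Set G))), IsElementaryAbelian 2 A → 2 ^ 11 ≤ Nat.card A →
      Maxi z (A.map j) := by
    intro A hA hcard
    refine ⟨?_, ?_, ?_⟩
    · rintro _ ⟨x, -, rfl⟩
      exact hjc x
    · rintro _ ⟨x, hx, rfl⟩
      have h1 := hA.2 x hx
      rw [pow_two] at h1
      rw [← map_mul, h1, map_one]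
    · rwa [Subgroup.card_map_of_injective hj]
  -- existence
  obtain ⟨A, hA⟩ : ∃ A : Subgroup ↥(T : Subgroup (Subgroup.centralizer ({z} : Set G))), Maxi z (A.map j) := by
    have h0 := maxi_AA L hnwc even
    set B0 := AA L N0 with hB0
    have hB0C : B0 ≤ Subgroup.centralizer ({z} : Set G) := fun x hx => Subgroup.mem_centralizer_singleton_iff.2 (h0.cent x hx)
    have hp : IsPGroup 2 (B0.subgroupOf (Subgroup.centralizer ({z} : Set G))) := by
      intro y
      refine ⟨1, Subtype.ext (Subtype.ext ?_)⟩
      show ((y : Subgroup.centralizer ({z} : Set G)) : G) ^ (2 ^ 1) = 1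
      rw [pow_one, pow_two]
      exact h0.sq _ y.2
    obtain ⟨P, hP⟩ := hp.exists_le_sylow
    obtain ⟨g, hg⟩ := MulAction.exists_smul_eq (Subgroup.centralizer ({z} : Set G)) P T
    have hmem : ∀ x : Subgroup.centralizer ({z} : Set G), x ∈ B0.subgroupOf (Subgroup.centralizer ({z} : Set G)) → g * x * g⁻¹ ∈ (T : Subgroup (Subgroup.centralizer ({z} : Set G))) := by
      intro x hx
      rw [← hg]
      exact ⟨x, hP hx, rfl⟩
    let f : ↥(B0.subgroupOf (Subgroup.centralizer ({z} : Set G))) →* ↥(T : Subgroup (Subgroup.centralizer ({z} : Set G))) :=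
      { toFun := fun x => ⟨g * x * g⁻¹, hmem x x.2⟩
        map_one' := Subtype.ext (by
          show g * 1 * g⁻¹ = 1
          group)
        map_mul' := fun x y => Subtype.ext (by
          show g * (x * y : Subgroup.centralizer ({z} : Set G)) * g⁻¹ = g * x * g⁻¹ * (g * y * g⁻¹)
          group) }
    have hf : Function.Injective f := by
      intro x y h
      have h1 : g * (x : Subgroup.centralizer ({z} : Set G)) * g⁻¹ = g * y * g⁻¹ := congrArg Subtype.val h
      exact Subtype.ext (mul_left_cancel (mul_right_cancel h1))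
    refine ⟨f.range, ?_, ?_, ?_⟩
    · rintro _ ⟨x, -, rfl⟩
      exact hjc x
    · rintro _ ⟨_, ⟨x, rfl⟩, rfl⟩
      have h1 : x * x = 1 := Subtype.ext (Subtype.ext (h0.sq _ x.2))
      rw [← map_mul, ← map_mul, h1, map_one, map_one]
    · rw [Subgroup.card_map_of_injective hj]
      have h1 : Nat.card f.range = Nat.card ↥(B0.subgroupOf (Subgroup.centralizer ({z} : Set G))) :=
        (Nat.card_congr (MonoidHom.ofInjective hf).toEquiv).symm
      rw [h1, Nat.card_congr (Subgroup.subgroupOfEquivOfLe hB0C).toEquiv]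
      exact h0.card
  have hs := struct L hnwc even hA (z_mem L hnwc even hA)
  have hcA : Nat.card A = 2 ^ 11 := by
    rw [← hs.1, Subgroup.card_map_of_injective hj]
  have hEA : IsElementaryAbelian 2 A := by
    have hsq : ∀ x ∈ A, x * x = 1 := by
      intro x hx
      apply hj
      rw [map_mul, map_one]
      exact hA.sq _ ⟨x, hx, rfl⟩
    refine ⟨⟨⟨fun a b => Subtype.ext (comm_of_sq hsq a.2 b.2)⟩⟩, fun a ha => ?_⟩
    rw [pow_two]; exact hsq a ha
  have hcard7 : Nat.card ↥(A.map (T : Subgroup (Subgroup.centralizer ({z} : Set G))).subtype ⊓ Q) =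
      2 ^ 7 := by
    have h1 := Subgroup.card_map_of_injective
      (K := A.map (T : Subgroup (Subgroup.centralizer ({z} : Set G))).subtype ⊓ Q)
      (Subgroup.subtype_injective (Subgroup.centralizer ({z} : Set G)))
    rw [Subgroup.map_inf _ _ _ (Subgroup.subtype_injective _), Subgroup.map_map] at h1
    rw [← h1]
    exact hs.2.1
  refine ⟨A, ?_, hcA, hcard7, ?_⟩
  · ext A'
    rw [Set.mem_singleton_iff]
    constructor
    · rintro ⟨h1, h2⟩
      have h3 := h2 A hEA
      rw [hcA] at h3
      exact eq_of_maxi L hnwc even hTp j hj hA (hmaxi A' h1 h3) hjc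
    · rintro rfl
      refine ⟨hEA, fun B hB => ?_⟩
      by_contra hlt
      push Not at hlt
      have h3 := eq_of_maxi L hnwc even hTp j hj hA (hmaxi B hB (by rw [← hcA]; exact hlt.le)) hjc
      rw [h3] at hlt
      exact lt_irrefl _ hlt
  · have h1 := H824.FiStab.card_map_mk Q (A.map (T : Subgroup (Subgroup.centralizer ({z} : Set G))).subtype)
    rw [inf_comm, hcard7, Subgroup.card_map_of_injective (Subgroup.subtype_injective _), hcA] at h1
    have h2 : (2 : ℕ) ^ 11 = 16 * 2 ^ 7 := by norm_num
    rw [h2] at h1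
    exact Nat.eq_of_mul_eq_mul_right (by norm_num) h1

end Cfsg.Agent.S5444
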