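import Cfsg.Statements.S5446
import Cfsg.Agent.H827.JFi
import Cfsg.Agent.H827.Bridge

set_option autoImplicit false
open Cfsg

namespace Cfsg.Agent.S5446

open Cfsg.Agent.H827.Coco Cfsg.Agent.H827.JFi

/-- Let G be a finite group of large Fischer type at the involution z: the generalized Fitting subgroup Q of H = C_G(z) is extraspecial of order 2^13, H has normal subgroups Q ≤ H₁ ≤ H₂ with H₁/Q of order 3, H₂/H₁ the projective special unitary group of dimension 4 over the field with nine elements and H₂ of index 2 in H, and some conjugate of z other than z lies in Q. Let T be a Sylow 2-subgroup of G, A its Thompson subgroup (generated by the elementary abelian subgroups of T of largest order) and M = N_G(A) its normalizer. Then A is elementary abelian of order 2^11 and M/A is isomorphic to the Mathieu group of degree 24 (the automorphism group of the length-24 binary Golay code). -/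
theorem result {G : Type*} [Group G] [Finite G] (z : G) (Q : Subgroup (Subgroup.centralizer ({z} : Set G))) [Q.Normal] (hF : Cfsg.IsOfLargeFischerTypeAt z Q) (T : Sylow 2 G) (A M : Subgroup G) (hA : A = Cfsg.thompsonSubgroupOf 2 (T : Subgroup G)) (hM : M = Subgroup.normalizer (A : Set G)) : Cfsg.IsElementaryAbelian 2 A ∧ Nat.card A = 2 ^ 11 ∧ ∃ _ : (A.subgroupOf M).Normal, Nonempty (↥M ⧸ A.subgroupOf M ≃* ↥Cfsg.M24) := by
  obtain ⟨e0, -, -⟩ := H827.Bridge.exists_equiv hF
  obtain ⟨g, -, U⟩ := exists_theta e0 T
  set θ : G ≃* Spor.Fi24' := e0.trans (MulAut.conj g) with hθ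
  have hA' : A = AA.comap θ.toMonoidHom := hA.trans U.thompson_eq
  have hM' : M = (Subgroup.normalizer (AA : Set Spor.Fi24')).comap θ.toMonoidHom := by
    rw [hM, hA', comap_normalizer]
  have hcard : Nat.card A = 2 ^ 11 := by
    rw [← cardA, hA']
    have h : (AA.comap θ.toMonoidHom).map θ.toMonoidHom = AA :=
      Subgroup.map_comap_eq_self_of_surjective θ.surjective AA
    conv_rhs => rw [← h]
    exact Nat.card_congr (Subgroup.equivMapOfInjective _ θ.toMonoidHom θ.injective).toEquiv
  refine ⟨by rw [hA']; exact U.elem, hcard, ?_⟩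
  clear_value θ
  subst hA' hM'
  let f : ↥((Subgroup.normalizer (AA : Set Spor.Fi24')).comap θ.toMonoidHom) →* M24 :=
    ind.comp (θ.toMonoidHom.subgroupComap (Subgroup.normalizer (AA : Set Spor.Fi24')))
  have hf : Function.Surjective f := by
    intro m
    obtain ⟨n, rfl⟩ := ind_surj m
    refine ⟨⟨θ.symm n, ?_⟩, ?_⟩
    · show θ (θ.symm n) ∈ Subgroup.normalizer (AA : Set Spor.Fi24')
      rw [θ.apply_symm_apply]
      exact n.2
    · show ind _ = ind n
      congr 1
      apply Subtype.ext
      exact θ.apply_symm_apply _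
  have hk : (AA.comap θ.toMonoidHom).subgroupOf ((Subgroup.normalizer (AA : Set Spor.Fi24')).comap θ.toMonoidHom)
      = f.ker := by
    ext x
    rw [Subgroup.mem_subgroupOf, MonoidHom.mem_ker, Subgroup.mem_comap]
    exact (ind_ker (θ.toMonoidHom.subgroupComap (Subgroup.normalizer (AA : Set Spor.Fi24')) x)).symm
  rw [hk]
  exact ⟨inferInstance, ⟨QuotientGroup.quotientKerEquivOfSurjective f hf⟩⟩

end Cfsg.Agent.S5446
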