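import Cfsg.Statements.S5447
import Cfsg.Agent.H827.JFi
import Cfsg.Agent.H827.Bridge
import Cfsg.Agent.Schreier.CocodeOrbit

set_option autoImplicit false
open Cfsg

namespace Cfsg.Agent.S5447

open Cfsg.Spor Cfsg.Agent.H827.Coco Cfsg.Agent.H827.JFi Cfsg.Agent.R08 Cfsg.Agent.R08.FiTwentyFour
  Cfsg.Agent.CTwoTab.FiTF Cfsg.Agent.R08.TetTwo
open Cfsg.Agent.H827.CocoD (d e)
open Cfsg.Agent.Schreier.CocodeOrbit (exists_map_pair exists_map_emb)

/-- Let G be a finite group of large Fischer type at the involution z: the generalized Fitting subgroup Q of H = C_G(z) is extraspecial of order 2^13, H has normal subgroups Q ≤ H₁ ≤ H₂ with H₁/Q of order 3, H₂/H₁ the projective special unitary group of dimension 4 over the field with nine elements and H₂ of index 2 in H, and some conjugate of z other than z lies in Q. Let T be a Sylow 2-subgroup of G, A its Thompson subgroup and M = N_G(A) its normalizer. Then M controls fusion in A (elements of A conjugate in G are conjugate in M), and M has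 exactly two orbits on the non-identity elements of A: those conjugate to z in G and those not. -/
theorem result {G : Type*} [Group G] [Finite G] (z : G) (Q : Subgroup (Subgroup.centralizer ({z} : Set G))) [Q.Normal] (hF : Cfsg.IsOfLargeFischerTypeAt z Q) (T : Sylow 2 G) (A M : Subgroup G) (hA : A = Cfsg.thompsonSubgroupOf 2 (T : Subgroup G)) (hM : M = Subgroup.normalizer (A : Set G)) : (∀ a ∈ A, ∀ g : G, g * a * g⁻¹ ∈ A → ∃ m ∈ M, m * a * m⁻¹ = g * a * g⁻¹) ∧ (∃ a ∈ A, a ≠ 1 ∧ IsConj z a) ∧ (∃ a ∈ A, a ≠ 1 ∧ ¬ IsConj z a) ∧ ∀ a ∈ A, ∀ b ∈ A, a ≠ 1 → b ≠ 1 → (IsConj z a ↔ IsConj z b) → ∃ m ∈ M, m * a * m⁻¹ = b := by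
  obtain ⟨e0, hz, -⟩ := H827.Bridge.exists_equiv hF
  obtain ⟨g, -, U⟩ := exists_theta e0 T
  set θ : G ≃* Spor.Fi24' := e0.trans (MulAut.conj g) with hθ
  have hA' : A = AA.comap θ.toMonoidHom := hA.trans U.thompson_eq
  have hM' : M = (Subgroup.normalizer (AA : Set Spor.Fi24')).comap θ.toMonoidHom := by
    rw [hM, hA', comap_normalizer]
  have hAm : ∀ a : G, a ∈ A ↔ θ a ∈ AA := fun a => by rw [hA']; exact Subgroup.mem_comap
  have hMm : ∀ a : G, a ∈ M ↔ θ a ∈ Subgroup.normalizer (AA : Set Spor.Fi24') := fun a => by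
    rw [hM']; exact Subgroup.mem_comap
  have hθz : θ z = g * z0 * g⁻¹ := by
    show g * e0 z * g⁻¹ = _
    rw [hz]
  -- pairs are not conjugate to `z`
  have hpair : ∀ (a : G) (p q : GolayPt), p ≠ q → ((θ a : Spor.Fi24') : Fi24) = d p * d q → ¬ IsConj z a := by
    intro a p q hpq h
    refine H827.Bridge.not_isConj_pair e0 hz (a := (g : Fi24)⁻¹ * d p * (g : Fi24))
      (b := (g : Fi24)⁻¹ * d q * (g : Fi24)) ?_ ?_ ?_ ?_ ?_
    · have := conj_mem_L (d_mem_L p) (g : Fi24)⁻¹
      rwa [inv_inv] at this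
    · have := conj_mem_L (d_mem_L q) (g : Fi24)⁻¹
      rwa [inv_inv] at this
    · intro h1
      exact d_ne hpq (mul_left_cancel (mul_right_cancel h1))
    · have h1 := (H827.Coco.d_comm p q).eq
      show (g : Fi24)⁻¹ * d p * g * ((g : Fi24)⁻¹ * d q * g) = (g : Fi24)⁻¹ * d q * g * ((g : Fi24)⁻¹ * d p * g)
      calc (g : Fi24)⁻¹ * d p * g * ((g : Fi24)⁻¹ * d q * g) = (g : Fi24)⁻¹ * (d p * d q) * g := by group
        _ = (g : Fi24)⁻¹ * (d q * d p) * g := by rw [h1]
        _ = _ := by group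
    · have h1 : θ a = g * e0 a * g⁻¹ := rfl
      have h2 : ((θ a : Spor.Fi24') : Fi24) = (g : Fi24) * (e0 a : Spor.Fi24') * (g : Fi24)⁻¹ := by rw [h1]; rfl
      rw [h] at h2
      calc ((e0 a : Spor.Fi24') : Fi24) = (g : Fi24)⁻¹ * ((g : Fi24) * (e0 a : Spor.Fi24') * (g : Fi24)⁻¹) * g := by
            group
        _ = (g : Fi24)⁻¹ * (d p * d q) * g := by rw [← h2]
        _ = _ := by group
  -- quadruples are conjugate to `z`
  have hquad : ∀ (a : G) (p q r s : GolayPt), p ≠ q → p ≠ r → p ≠ s → q ≠ r → q ≠ s → r ≠ s →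
      ((θ a : Spor.Fi24') : Fi24) = d p * d q * d r * d s → IsConj z a := by
    intro a p q r s h1 h2 h3 h4 h5 h6 h
    have h7 := isTet h1 h2 h3 h4 h5 h6
    rw [← h] at h7
    obtain ⟨k, hk⟩ := conj_tet h7
    refine isConj_iff.2 ⟨θ.symm (k * g⁻¹), ?_⟩
    apply θ.injective
    rw [map_mul, map_mul, map_inv, θ.apply_symm_apply, hθz, hk]
    group
  -- transport of elements of the normaliser
  have htr : ∀ (a b : G) (n : Spor.Fi24'), n ∈ Subgroup.normalizer (AA : Set Spor.Fi24') →
      n * θ a * n⁻¹ = θ b → ∃ m ∈ M, m * a * m⁻¹ = b := by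
    intro a b n hn h
    refine ⟨θ.symm n, (hMm _).2 (by rwa [θ.apply_symm_apply]), ?_⟩
    apply θ.injective
    rw [map_mul, map_mul, map_inv, θ.apply_symm_apply, h]
  have main : ∀ a ∈ A, ∀ b ∈ A, a ≠ 1 → b ≠ 1 → (IsConj z a ↔ IsConj z b) → ∃ m ∈ M, m * a * m⁻¹ = b := by
    intro a ha b hb ha1 hb1 hab
    rcases cases ((hAm a).1 ha) with h | ⟨p, q, hpq, h⟩ | ⟨p, q, r, s, n1, n2, n3, n4, n5, n6, h⟩
    · exact absurd ((map_eq_one_iff θ θ.injective).1 h) ha1
    · rcases cases ((hAm b).1 hb) with k | ⟨p', q', hpq', k⟩ | ⟨p', q', r', s', m1, m2, m3, m4, m5, m6, k⟩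
      · exact absurd ((map_eq_one_iff θ θ.injective).1 k) hb1
      · obtain ⟨m, e1, e2⟩ := exists_map_pair hpq hpq'
        obtain ⟨n, hn⟩ := ind_surj m
        refine htr a b n n.2 ?_
        apply Subtype.ext
        show ((n : Spor.Fi24') : Fi24) * (θ a : Spor.Fi24') * ((n : Spor.Fi24') : Fi24)⁻¹ = (θ b : Spor.Fi24')
        have f1 := ind_spec n p
        have f2 := ind_spec n q
        rw [hn, e1] at f1
        rw [hn, e2] at f2
        rw [h, k, ← f1, ← f2]
        group
      · exact absurd (hab.2 (hquad b _ _ _ _ m1 m2 m3 m4 m5 m6 k)) (hpair a p q hpq h)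
    · rcases cases ((hAm b).1 hb) with k | ⟨p', q', hpq', k⟩ | ⟨p', q', r', s', m1, m2, m3, m4, m5, m6, k⟩
      · exact absurd ((map_eq_one_iff θ θ.injective).1 k) hb1
      · exact absurd (hab.1 (hquad a _ _ _ _ n1 n2 n3 n4 n5 n6 h)) (hpair b p' q' hpq' k)
      · obtain ⟨m, hm⟩ := exists_map_emb (n := 4) (by norm_num)
          ⟨![p, q, r, s], by
            intro x y
            fin_cases x <;> fin_cases y <;>
              simp [n1, n2, n3, n4, n5, n6, n1.symm, n2.symm, n3.symm, n4.symm, n5.symm, n6.symm]⟩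
          ⟨![p', q', r', s'], by
            intro x y
            fin_cases x <;> fin_cases y <;>
              simp [m1, m2, m3, m4, m5, m6, m1.symm, m2.symm, m3.symm, m4.symm, m5.symm, m6.symm]⟩
        have e1 : (m : Equiv.Perm GolayPt) p = p' := hm 0
        have e2 : (m : Equiv.Perm GolayPt) q = q' := hm 1
        have e3 : (m : Equiv.Perm GolayPt) r = r' := hm 2
        have e4 : (m : Equiv.Perm GolayPt) s = s' := hm 3
        obtain ⟨n, hn⟩ := ind_surj m
        refine htr a b n n.2 ?_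
        apply Subtype.ext
        show ((n : Spor.Fi24') : Fi24) * (θ a : Spor.Fi24') * ((n : Spor.Fi24') : Fi24)⁻¹ = (θ b : Spor.Fi24')
        have f1 := ind_spec n p
        have f2 := ind_spec n q
        have f3 := ind_spec n r
        have f4 := ind_spec n s
        rw [hn, e1] at f1
        rw [hn, e2] at f2
        rw [hn, e3] at f3
        rw [hn, e4] at f4
        rw [h, k, ← f1, ← f2, ← f3, ← f4]
        group
  refine ⟨?_, ?_, ?_, main⟩
  · intro a ha x hx
    by_cases ha1 : a = 1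
    · refine ⟨1, M.one_mem, ?_⟩
      rw [ha1]; group
    · refine main a ha _ hx ha1 ?_ ?_
      · intro h
        apply ha1
        have : x⁻¹ * (x * a * x⁻¹) * x = 1 := by rw [h]; group
        rw [← this]; group
      · have h1 : IsConj a (x * a * x⁻¹) := isConj_iff.2 ⟨x, rfl⟩
        exact ⟨fun h => h.trans h1, fun h => h.trans h1.symm⟩
  · refine ⟨θ.symm ((e none * e (some 0)) * (e (some 1) * e (some 2))), ?_, ?_, ?_⟩
    · rw [hAm, θ.apply_symm_apply]
      exact mul_mem (e_mem _ _) (e_mem _ _)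
    · intro h
      have h1 := congrArg θ h
      rw [θ.apply_symm_apply, map_one] at h1
      have h2 : (((e none * e (some 0)) * (e (some 1) * e (some 2)) : Spor.Fi24') : Fi24) = 1 := by rw [h1]; rfl
      rw [Subgroup.coe_mul, coe_two, coe_two, ← mul_assoc] at h2
      have h7 := isTet (p := none) (q := some 0) (r := some 1) (s := some 2) (by decide) (by decide) (by decide)
        (by decide) (by decide) (by decide)
      have h8 := h7
      rw [h2] at h7
      -- the product of the first three would be the fourth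
      have h9 : ((1 : Spor.Fi24') : Fi24) = 1 := rfl
      rw [← h9] at h7
      obtain ⟨k, hk⟩ := conj_tet h7
      have h10 : z0 = 1 := by
        have : k⁻¹ * 1 * k = z0 := by rw [hk]; group
        rw [← this]; group
      exact KFacts.FiTF.frame.z1 (congrArg Subtype.val h10)
    · refine hquad _ none (some 0) (some 1) (some 2) (by decide) (by decide) (by decide)
        (by decide) (by decide) (by decide) ?_
      rw [θ.apply_symm_apply, Subgroup.coe_mul, coe_two, coe_two, ← mul_assoc]
  · have h0 : ((θ (θ.symm (e none * e (some 0))) : Spor.Fi24') : Fi24) = d none * d (some 0) := by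
      rw [θ.apply_symm_apply, coe_two]
    refine ⟨θ.symm (e none * e (some 0)), ?_, ?_, ?_⟩
    · rw [hAm, θ.apply_symm_apply]
      exact e_mem _ _
    · intro h
      rw [h, map_one] at h0
      have h1 : d none * d (some 0) = 1 := h0.symm
      exact OddHalf.D4.Spor.FiTF.pair_ne (d_mem_L _) (d_ne (by decide)) h1
    · exact hpair _ none (some 0) (by decide) h0

end Cfsg.Agent.S5447
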