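import Cfsg.Statements.S5448
import Cfsg.Agent.H827.Duad

set_option autoImplicit false
open scoped Pointwise
open Cfsg

namespace Cfsg.Agent.S5448

open Cfsg.Agent.H827 Cfsg.Agent.H827.Coco Cfsg.Spor
open Cfsg.Agent.H827.CocoD (d)

/-- Let G be a finite group of large Fischer type at the involution z: the generalized Fitting subgroup Q of H = C_G(z) is extraspecial of order 2^13, H has normal subgroups Q ≤ H₁ ≤ H₂ with H₁/Q of order 3, H₂/H₁ the projective special unitary group of dimension 4 over the field with nine elements and H₂ of index 2 in H, and some conjugate of z other than z lies in Q. Let T be a Sylow 2-subgroup of G, A its Thompson subgroup, M = N_G(A) its normalizer, and t an involution of A not conjugate to z in G. Then the centralizer of t in M, modulo A, is isomorphic to the setwise stabilizer of a two-element subset of the 24 points in the Mathieu group of degree 24 (the automorphism group of the smaller Mathieu group on 22 points). -/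
theorem result {G : Type*} [Group G] [Finite G] (z : G) (Q : Subgroup (Subgroup.centralizer ({z} : Set G))) [Q.Normal] (hF : Cfsg.IsOfLargeFischerTypeAt z Q) (T : Sylow 2 G) (A M : Subgroup G) (hA : A = Cfsg.thompsonSubgroupOf 2 (T : Subgroup G)) (hM : M = Subgroup.normalizer (A : Set G)) (t : G) (htA : t ∈ A) (ht2 : orderOf t = 2) (ht : ¬ IsConj z t) : ∃ _ : (A.subgroupOf (M ⊓ Subgroup.centralizer ({t} : Set G))).Normal, Nonempty (↥(M ⊓ Subgroup.centralizer ({t} : Set G)) ⧸ A.subgroupOf (M ⊓ Subgroup.centralizer ({t} : Set G)) ≃* ↥(Cfsg.M24 ⊓ MulAction.stabilizer (Equiv.Perm Cfsg.GolayPt) ({none, some 0} : Set Cfsg.GolayPt))) := by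
  obtain ⟨e0, hz, -⟩ := Bridge.exists_equiv hF
  obtain ⟨g, -, hU⟩ := JFi.exists_theta e0 T
  have hA' : A = AA.comap (e0.trans (MulAut.conj g)).toMonoidHom := by rw [hA, hU.thompson_eq]
  have ht1 : t ≠ 1 := by
    rintro rfl
    rw [orderOf_one] at ht2
    exact absurd ht2 (by norm_num)
  obtain ⟨p, q, hpq, hx⟩ := Duad.pair_of_not_conj e0 hz g (by rw [← hA']; exact htA) ht1 ht
  have h0 : (none : GolayPt) ≠ some 0 := by decide
  obtain ⟨n, hn, h1, h2⟩ := Duad.exists_move hpq h0
  refine Duad.quo (e0.trans (MulAut.conj (n * g))) h0 ?_ (by rw [Duad.comap_conj e0 g hn, hA']) hM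
  have h3 : (e0.trans (MulAut.conj (n * g))) t = n * (e0.trans (MulAut.conj g)) t * n⁻¹ := by
    show n * g * e0 t * (n * g)⁻¹ = n * (g * e0 t * g⁻¹) * n⁻¹
    group
  rw [h3]
  show (n : Fi24) * (((e0.trans (MulAut.conj g)) t : Spor.Fi24') : Fi24) * (n : Fi24)⁻¹ = _
  rw [hx, ← h1, ← h2]
  group

end Cfsg.Agent.S5448
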