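import Cfsg.Statements.S5449
import Cfsg.Agent.H827.Bridge
import Cfsg.Agent.H827.Triple

set_option autoImplicit false
open Cfsg

namespace Cfsg.Agent.S5449

open Cfsg.Agent.H827 Cfsg.Agent.H827.Triple Cfsg.Agent.H827.TripleAbs Cfsg.Agent.R08 Cfsg.Spor Subgroup
open Cfsg.Agent.CTwoTab.FiTF
open Cfsg.Agent.KFacts.FiTF.Defs (D)

/-- the tetrad of `z0` -/
theorem quad : Quad (D 0 0) (D 0 1) (D 0 2) (D 0 3) := by
  have h := KFacts.FiTF.Tet.isTet (t := 0) (by norm_num)
  exact ⟨h.ha, h.hb, h.hc, h.hd, h.ab, h.ac, h.ad, h.bc, h.bd, h.cd, h.nab, h.nac, h.nad, h.nbc, h.nbd, h.ncd⟩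

theorem pr_mem1 : pr quad.ha quad.hb ∈ R0 := mem_subgroupOf.2 (KFacts.FiTF.RQ.x_mem (j := 0) (by norm_num))

theorem pr_mem2 : pr quad.ha quad.hc ∈ R0 := mem_subgroupOf.2 (KFacts.FiTF.RQ.x_mem (j := 1) (by norm_num))

theorem pr_mem3 : pr quad.hb quad.hc ∈ R0 := by
  have h1 : pr quad.hb quad.hc = pr quad.ha quad.hb * pr quad.ha quad.hc := by
    apply Subtype.ext
    show D 0 1 * D 0 2 = D 0 0 * D 0 1 * (D 0 0 * D 0 2)
    have h2 := quad.ab.eq
    have h3 := FiTwentyFour.sq quad.ha
    calc D 0 1 * D 0 2 = D 0 0 * D 0 0 * (D 0 1 * D 0 2) := by rw [h3, one_mul]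
      _ = D 0 0 * (D 0 0 * D 0 1) * D 0 2 := by group
      _ = D 0 0 * (D 0 1 * D 0 0) * D 0 2 := by rw [h2]
      _ = _ := by group
  rw [h1]
  exact mul_mem pr_mem1 pr_mem2

theorem E_le : quad.E ≤ R0 := by
  intro x hx
  rcases quad.mem_E.1 hx with rfl | rfl | rfl | rfl
  · exact one_mem _
  · exact pr_mem1
  · exact pr_mem2
  · exact pr_mem3

theorem z0_ne_one : z0 ≠ 1 := by
  intro h
  exact KFacts.FiTF.frame.z1 (congrArg Subtype.val h)

theorem z0_not_mem : z0 ∉ quad.E := by
  have := FiTwentyFour.finite_Fi24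
  have : Finite Spor.Fi24' := inferInstance
  intro h
  have key := @Bridge.not_isConj_pair Spor.Fi24' _ _ z0 (MulEquiv.refl _) rfl z0
  rcases quad.mem_E.1 h with h | h | h | h
  · exact z0_ne_one h
  · exact key quad.ha quad.hb quad.nab quad.ab (congrArg Subtype.val h) (IsConj.refl _)
  · exact key quad.ha quad.hc quad.nac quad.ac (congrArg Subtype.val h) (IsConj.refl _)
  · exact key quad.hb quad.hc quad.nbc quad.bc (congrArg Subtype.val h) (IsConj.refl _)

/-- Let G be a finite group of large Fischer type at the involution z: the generalized Fitting subgroup Q of H = C_G(z) is extraspecial of order 2^13, H has normal subgroups Q ≤ H₁ ≤ H₂ with H₁/Q of order 3, H₂/H₁ the projective special unitary group of dimension 4 over the field with nine elements and H₂ of index 2 in H, and some conjugate of z other than z lies in Q. Then Q contains a four-group E, not containing z and containing an involution not conjugate to z in G, whose centralizer in G is quasisimple with quotient by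 E isomorphic to the projective special unitary group of dimension 6 over the field with four elements. -/
theorem result {G : Type*} [Group G] [Finite G] (z : G) (Q : Subgroup (Subgroup.centralizer ({z} : Set G))) [Q.Normal] (hF : Cfsg.IsOfLargeFischerTypeAt z Q) : ∃ E : Subgroup G, E ≤ (Q.map (Subgroup.centralizer ({z} : Set G)).subtype) ∧ Cfsg.IsElementaryAbelian 2 E ∧ Nat.card E = 4 ∧ z ∉ E ∧ (∃ t ∈ E, orderOf t = 2 ∧ ¬ IsConj z t) ∧ Cfsg.IsQuasisimple ↥(Subgroup.centralizer (E : Set G)) ∧ ∃ (_ : (E.subgroupOf (Subgroup.centralizer (E : Set G))).Normal) (K : Type) (_ : Field K) (_ : Fintype K), Fintype.card K = 4 ∧ Nonempty (↥(Subgroup.centralizer (E : Set G)) ⧸ E.subgroupOf (Subgroup.centralizer (E : Set G)) ≃* Cfsg.PSU 6 K 2) := by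
  obtain ⟨e, hz, hQ⟩ := Bridge.exists_equiv hF
  obtain ⟨K, i1, i2, hK, D0, hsimp, hcen⟩ := quad.td
  have D := D0.comap e
  refine ⟨quad.E.comap e.toMonoidHom, ?_, D.elem, D.card, ?_, ?_, D.quasi hsimp hcen, D.sub_normal, K, i1, i2, hK,
    D.quo D.sub_normal⟩
  · intro x hx
    have h1 : e x ∈ R0 := E_le hx
    have h2 : x ∈ centralizer ({z} : Set G) := by
      rw [mem_centralizer_singleton_iff]
      apply e.injective
      rw [map_mul, map_mul, hz]
      exact mem_centralizer_singleton_iff.1 (R0_le h1)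
    exact ⟨⟨x, h2⟩, (hQ ⟨x, h2⟩).2 h1, rfl⟩
  · intro h
    have h' : e z ∈ quad.E := h
    rw [hz] at h'
    exact z0_not_mem h'
  · refine ⟨e.symm (pr quad.ha quad.hb), ?_, ?_, ?_⟩
    · show e (e.symm (pr quad.ha quad.hb)) ∈ quad.E
      rw [e.apply_symm_apply]
      exact quad.mem_E.2 (Or.inr (Or.inl rfl))
    · rw [MulEquiv.orderOf_eq]
      refine orderOf_eq_prime ?_ ?_
      · rw [pow_two]
        exact pr_sq quad.ha quad.hb quad.ab
      · intro h
        exact quad.nab (mul_right_cancel ((congrArg Subtype.val h).trans (FiTwentyFour.sq quad.hb).symm))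
    · exact Bridge.not_isConj_pair e hz quad.ha quad.hb quad.nab quad.ab (by rw [e.apply_symm_apply]; rfl)

end Cfsg.Agent.S5449
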