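import Cfsg.Statements.S5450
import Cfsg.Agent.H827.Bridge

set_option autoImplicit false
open Cfsg

namespace Cfsg.Agent.S5450

open Cfsg.Agent.H827

/-- Let G be a finite group of large Fischer type at the involution z: the generalized Fitting subgroup Q of H = C_G(z) is extraspecial of order 2^13, H has normal subgroups Q ≤ H₁ ≤ H₂ with H₁/Q of order 3, H₂/H₁ the projective special unitary group of dimension 4 over the field with nine elements and H₂ of index 2 in H, and some conjugate of z other than z lies in Q. Let t be an involution of Q not conjugate to z in G, and K the generalized Fitting subgroup of the centralizer of t. Then K is quasisimple of index 2 in the centralizer of t, contains t, and the centralizer of t modulo the subgroup generated by t is isomorphic to the full automorphism group of the Fischer group Fi₂₂ (as presented). -/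
theorem result {G : Type*} [Group G] [Finite G] (z : G) (Q : Subgroup (Subgroup.centralizer ({z} : Set G))) [Q.Normal] (hF : Cfsg.IsOfLargeFischerTypeAt z Q) (t : G) (htQ : ∃ htc : t ∈ Subgroup.centralizer ({z} : Set G), (⟨t, htc⟩ : Subgroup.centralizer ({z} : Set G)) ∈ Q) (ht2 : orderOf t = 2) (ht : ¬ IsConj z t) (K : Subgroup ↥(Subgroup.centralizer ({t} : Set G))) (hK : K = Cfsg.generalizedFittingSubgroup ↥(Subgroup.centralizer ({t} : Set G))) [hn : ((Subgroup.zpowers t).subgroupOf (Subgroup.centralizer ({t} : Set G))).Normal] : Cfsg.IsQuasisimple ↥K ∧ K.index = 2 ∧ (∃ htc : t ∈ Subgroup.centralizer ({t} : Set G), (⟨t, htc⟩ : ↥(Subgroup.centralizer ({t} : Set G))) ∈ K) ∧ Nonempty (↥(Subgroup.centralizer ({t} : Set G)) ⧸ (Subgroup.zpowers t).subgroupOf (Subgroup.centralizer ({t} : Set G)) ≃* MulAut Cfsg.Spor.Fi22) := by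
  obtain ⟨e, hz, -⟩ := Bridge.exists_equiv hF
  obtain ⟨a, b, P, -, D⟩ := Bridge.pd_of_not_conj e hz ht2 ht
  have hfin : Finite Cfsg.Spor.Fi22 := Nat.finite_of_card_ne_zero (by rw [Cfsg.Agent.S1696.result.2]; norm_num)
  rw [hK, D.fstar]
  exact ⟨D.sub_qs, D.sub_index, ⟨PairAbs.PD.t_mem, D.mem⟩, D.quo Pair.card_mulAut⟩

end Cfsg.Agent.S5450
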