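import Cfsg.Statements.S5451
import Cfsg.Agent.H827.Bridge
import Cfsg.Agent.H827.ZSext
import Cfsg.Agent.H827.ZFin

set_option autoImplicit false
open Cfsg

namespace Cfsg.Agent.S5451

open Cfsg.Agent.H827 Cfsg.Spor Subgroup Cfsg.Agent.KFacts.FiTF Cfsg.Agent.KFacts.FiTF.Defs
open Cfsg.Agent.CTwoTab.FiTF (z0 R0)
open Cfsg.Agent.H827.ZThree (C0 mem_C0 Dat)
open scoped commutatorElement

theorem card_psu {K : Type} [Field K] [Fintype K] (hK : Fintype.card K = 9) : Nat.card (Cfsg.PSU 4 K 3) = 3265920 := by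
  have h := Cfsg.Agent.S0280.result (F := K) (q := 3) (by rw [hK]; norm_num) 4 (by norm_num)
  have h1 : Nat.gcd 4 (3 + 1) = 4 := by decide
  have h2 : 3 ^ (4 * (4 - 1) / 2) * ∏ i ∈ Finset.range 4,
      (if Even i then 3 ^ (i + 1) + 1 else 3 ^ (i + 1) - 1) = 52254720 := by decide
  rw [h1, h2] at h
  omega

section

variable {G : Type*} [Group G] {z : G} (e : G ≃* Spor.Fi24')

/-- the map of `C(z)` into `Fi24` -/
def ψ (z : G) : ↥(centralizer ({z} : Set G)) →* Fi24 :=
  (commutator Fi24).subtype.comp (e.toMonoidHom.comp (centralizer ({z} : Set G)).subtype)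

theorem ψ_inj : Function.Injective (ψ e z) := by
  intro a b h
  apply Subtype.ext
  apply e.injective
  exact Subtype.ext h

variable {e} (hz : e z = z0)

include hz

theorem ψ_z (h : ↥(centralizer ({z} : Set G))) : ψ e z h * Defs.z = Defs.z * ψ e z h := by
  have h1 : (h : G) * z = z * h := mem_centralizer_singleton_iff.1 h.2
  have h2 := congrArg (fun y : G => ((e y : Spor.Fi24') : Fi24)) h1
  simp only [map_mul, hz] at h2
  exact h2

omit hz in
theorem ψ_K (h : ↥(centralizer ({z} : Set G))) : ψ e z h ∈ commutator Fi24 := (e (h : G)).2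

theorem exists_ψ {g : Fi24} (hg : g ∈ commutator Fi24) (hgz : g * Defs.z = Defs.z * g) : ∃ h, ψ e z h = g := by
  have h1 : e.symm ⟨g, hg⟩ ∈ centralizer ({z} : Set G) := by
    rw [mem_centralizer_singleton_iff]
    apply e.injective
    rw [map_mul, map_mul, e.apply_symm_apply, hz]
    exact Subtype.ext hgz
  refine ⟨⟨_, h1⟩, ?_⟩
  show ((e (e.symm ⟨g, hg⟩) : Spor.Fi24') : Fi24) = g
  rw [e.apply_symm_apply]

end

/-- Let G be a finite group of large Fischer type at the involution z: the generalized Fitting subgroup Q of H = C_G(z) is extraspecial of order 2^13, H has normal subgroups Q ≤ H₁ ≤ H₂ with H₁/Q of order 3, H₂/H₁ the projective special unitary group of dimension 4 over the field with nine elements and H₂ of index 2 in H, and some conjugate of z other than z lies in Q. Let X be a subgroup of H of order 3 whose product with Q is normal in H (X maps onto the normal subgroup of order 3 of H/Q). Then the centralizer of X in H is quasisimple with cyclic centre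 of order 6 and central quotient isomorphic to the projective special unitary group of dimension 4 over the field with nine elements. -/
theorem result {G : Type*} [Group G] [Finite G] (z : G) (Q : Subgroup (Subgroup.centralizer ({z} : Set G))) [Q.Normal] (hF : Cfsg.IsOfLargeFischerTypeAt z Q) (X : Subgroup (Subgroup.centralizer ({z} : Set G))) (hX : Nat.card X = 3) (hXQ : (X ⊔ Q).Normal) : Cfsg.IsQuasisimple ↥(Subgroup.centralizer ((X : Subgroup (Subgroup.centralizer ({z} : Set G))) : Set (Subgroup.centralizer ({z} : Set G)))) ∧ IsCyclic ↥(Subgroup.center ↥(Subgroup.centralizer ((X : Subgroup (Subgroup.centralizer ({z} : Set G))) : Set (Subgroup.centralizer ({z} : Set G))))) ∧ Nat.card ↥(Subgroup.center ↥(Subgroup.centralizer ((X : Subgroup (Subgroup.centralizer ({z} : Set G))) : Set (Subgroup.centralizer ({z} : Set G))))) = 6 ∧ ∃ (K : Type) (_ : Field K) (_ : Fintype K), Fintype.card K = 9 ∧ Nonempty (↥(Subgroup.centralizer ((X : Subgroup (Subgroup.centralizer ({z} :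 Set G))) : Set (Subgroup.centralizer ({z} : Set G)))) ⧸ Subgroup.center ↥(Subgroup.centralizer ((X : Subgroup (Subgroup.centralizer ({z} : Set G))) : Set (Subgroup.centralizer ({z} : Set G)))) ≃* Cfsg.PSU 4 K 3) := by
  obtain ⟨e, hz, hQ⟩ := Bridge.exists_equiv hF
  obtain ⟨⟨h1, -, -, h4, -⟩, N, M, hN, hM, hQN, hNM, hNc, ⟨K, i1, i2, hK, ⟨φ⟩⟩, hMi⟩ := hF
  have hψ := ψ_inj (z := z) e
  have hQ' : ∀ h : ↥(Subgroup.centralizer ({z} : Set G)), h ∈ Q ↔ ψ e z h ∈ R := by
    intro h
    rw [hQ]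
    exact mem_subgroupOf
  have hmapE : ∀ g ∈ Defs.E, ∃ h, ψ e z h = g := fun g hg => exists_ψ hz (frame.EK hg) (frame.Ez g hg)
  -- `E` in `H`
  obtain ⟨E0, hE0⟩ : ∃ E0 : Subgroup ↥(Subgroup.centralizer ({z} : Set G)), E0 = Defs.E.comap (ψ e z) := ⟨_, rfl⟩
  have hE0m : E0.map (ψ e z) = Defs.E := by
    rw [hE0, Subgroup.map_comap_eq, inf_eq_right]
    intro g hg
    obtain ⟨h, rfl⟩ := hmapE g hg
    exact ⟨h, rfl⟩
  have hE0p : ⁅E0, E0⁆ = E0 := by
    apply Subgroup.map_injective hψ
    rw [Subgroup.map_commutator, hE0m, frame.perf]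
  have hM2 : ∀ a b : ↥(Subgroup.centralizer ({z} : Set G)), ⁅a, b⁆ ∈ M := by
    intro a b
    rw [commutatorElement_def, mul_mem_iff_of_index_two hMi, mul_mem_iff_of_index_two hMi,
      mul_mem_iff_of_index_two hMi, inv_mem_iff, inv_mem_iff]
    tauto
  have hE0M : E0 ≤ M := by
    rw [← hE0p, commutator_le]
    exact fun a _ b _ => hM2 a b
  have hcardE : 9797760 * 8192 ≤ Nat.card E0 := by
    have h5 : Nat.card ↥(E0.map (ψ e z)) = Nat.card E0 :=
      Nat.card_congr (E0.equivMapOfInjective _ hψ).toEquiv.symm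
    rw [← h5, hE0m]
    exact SheetMFi.card_E
  have hcardM : Nat.card M = 9797760 * 8192 := by
    have h5 := card_mul_index (N.subgroupOf M)
    rw [Nat.card_congr (subgroupOfEquivOfLe hNM).toEquiv, hNc, h4] at h5
    have h6 : (N.subgroupOf M).index = 3265920 := by
      rw [← card_psu hK]
      exact Nat.card_congr φ.toEquiv
    rw [h6] at h5
    omega
  have hE0eq : E0 = M := Subgroup.eq_of_le_of_card_ge hE0M (by rw [hcardM]; exact hcardE)
  have hME : ∀ h, h ∈ M ↔ ψ e z h ∈ Defs.E := by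
    intro h
    rw [← hE0eq, hE0]
    exact Iff.rfl
  have hidx : ∀ g ∈ commutator Fi24, g * Defs.z = Defs.z * g → g ∉ Defs.E → ∀ h ∈ commutator Fi24,
      h * Defs.z = Defs.z * h → h ∉ Defs.E → g⁻¹ * h ∈ Defs.E := by
    intro g hg hgz hgE h hh hhz hhE
    obtain ⟨g', rfl⟩ := exists_ψ hz hg hgz
    obtain ⟨h', rfl⟩ := exists_ψ hz hh hhz
    rw [← hME] at hgE hhE
    rw [← map_inv, ← map_mul, ← hME, mul_mem_iff_of_index_two hMi, inv_mem_iff]
    tauto
  -- the element `x`
  obtain ⟨x, hxX, hx1, hx3, hxo, hall⟩ := ZFin.exists_gen hX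
  have hQM : Q ≤ M := hQN.trans hNM
  have hxQ : x ∉ Q := by
    intro h
    have h5 := orderOf_dvd_natCard (⟨x, h⟩ : ↥Q)
    rw [← Subgroup.orderOf_coe, hxo, h4] at h5
    revert h5
    decide
  have hxM : x ∈ M := by
    have h5 : x = (x * x)⁻¹ := by
      apply eq_inv_of_mul_eq_one_left
      rw [← mul_assoc, ← pow_two, ← pow_succ, hx3]
    rw [h5]
    exact inv_mem (mul_self_mem_of_index_two hMi x)
  -- the commutators with `x`
  have hxc : ∀ m ∈ M, ⁅x, m⁆ ∈ Q := by
    have hall' : ∀ g : ↥(Subgroup.centralizer ({z} : Set G)) ⧸ Q, g * (x : ↥(Subgroup.centralizer ({z} : Set G)) ⧸ Q) * g⁻¹ = x ∨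
        g * (x : ↥(Subgroup.centralizer ({z} : Set G)) ⧸ Q) * g⁻¹ = (x : ↥(Subgroup.centralizer ({z} : Set G)) ⧸ Q)⁻¹ := by
      intro g
      obtain ⟨g, rfl⟩ := QuotientGroup.mk_surjective g
      have h5 : g * x * g⁻¹ ∈ X ⊔ Q := hXQ.conj_mem x ((le_sup_left : X ≤ X ⊔ Q) hxX) g
      rw [mem_sup_of_normal_right] at h5
      obtain ⟨y, hy, q, hq, hyq⟩ := h5
      have h6 : (g : ↥(Subgroup.centralizer ({z} : Set G)) ⧸ Q) * (x : ↥(Subgroup.centralizer ({z} : Set G)) ⧸ Q) *
          (g : ↥(Subgroup.centralizer ({z} : Set G)) ⧸ Q)⁻¹ = (y : ↥(Subgroup.centralizer ({z} : Set G)) ⧸ Q) := by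
        rw [← QuotientGroup.mk_inv, ← QuotientGroup.mk_mul, ← QuotientGroup.mk_mul, ← hyq, QuotientGroup.mk_mul,
          (QuotientGroup.eq_one_iff q).2 hq, mul_one]
      rw [h6]
      rcases hall y hy with rfl | rfl | rfl
      · exfalso
        apply hxQ
        rw [one_mul] at hyq
        have h7 : x = g⁻¹ * q * g⁻¹⁻¹ := by rw [hyq]; group
        rw [h7]
        exact Subgroup.Normal.conj_mem inferInstance q hq g⁻¹
      · exact Or.inl rfl
      · right
        rw [QuotientGroup.mk_inv]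
    intro m hm
    have hle : M ≤ (Subgroup.centralizer ({(x : ↥(Subgroup.centralizer ({z} : Set G)) ⧸ Q)} :
        Set (↥(Subgroup.centralizer ({z} : Set G)) ⧸ Q))).comap (QuotientGroup.mk' Q) := by
      rw [← hE0eq]
      conv_lhs => rw [← hE0p]
      rw [commutator_le]
      intro a _ b _
      rw [mem_comap, map_commutatorElement, mem_centralizer_singleton_iff]
      exact ZFin.comm_of_normal hall' _ _
    have h5 := hle hm
    rw [mem_comap, mem_centralizer_singleton_iff] at h5
    rw [← QuotientGroup.eq_one_iff]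
    have h6 : ((⁅x, m⁆ : ↥(Subgroup.centralizer ({z} : Set G))) : ↥(Subgroup.centralizer ({z} : Set G)) ⧸ Q) =
        ⁅(x : ↥(Subgroup.centralizer ({z} : Set G)) ⧸ Q), (m : ↥(Subgroup.centralizer ({z} : Set G)) ⧸ Q)⁆ := rfl
    rw [h6, commutatorElement_eq_one_iff_mul_comm]
    exact h5.symm
  have D : Dat (ψ e z x) := by
    refine ⟨⟨(hME x).1 hxM, fun g hg => ?_⟩, fun h => hxQ ((hQ' x).2 h), ?_⟩
    · obtain ⟨m, rfl⟩ := hmapE g hg
      rw [← map_commutatorElement, ← hQ']
      exact hxc m ((hME m).2 hg)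
    · rw [← map_pow, hx3, map_one]
  have hCE : C0 (ψ e z x) ≤ Defs.E := D.C0_le hidx
  -- the centralizer of `X`
  have hXC : ∀ y : ↥(Subgroup.centralizer ({z} : Set G)), y ∈ centralizer (X : Set ↥(Subgroup.centralizer ({z} : Set G))) ↔
      ψ e z y ∈ C0 (ψ e z x) := by
    intro y
    rw [mem_C0, mem_centralizer_iff]
    constructor
    · intro h
      refine ⟨ψ_K y, ψ_z hz y, ?_⟩
      rw [← map_mul, ← map_mul, h x hxX]
    · rintro ⟨-, -, h⟩ w hw
      rw [← map_mul, ← map_mul] at h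
      have hc : Commute y x := hψ h
      rcases hall w hw with rfl | rfl | rfl
      · rw [one_mul, mul_one]
      · exact hc.symm.eq
      · exact hc.inv_right.eq.symm
  have hNeq : N = X ⊔ Q := by
    have hXM : X ≤ M := by
      intro y hy
      rcases hall y hy with rfl | rfl | rfl
      · exact one_mem _
      · exact hxM
      · exact inv_mem hxM
    have hPM : X ⊔ Q ≤ M := sup_le hXM hQM
    have hcP : Nat.card ↥(X ⊔ Q) ≤ 24576 := by
      let F : ↥X × ↥Q → ↥(X ⊔ Q) := fun p => ⟨(p.1 : ↥(Subgroup.centralizer ({z} : Set G))) * p.2,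
        mul_mem (mem_sup_left p.1.2) (mem_sup_right p.2.2)⟩
      have hF : Function.Surjective F := by
        rintro ⟨c, hc⟩
        obtain ⟨y, hy, q, hq, rfl⟩ := mem_sup_of_normal_right.1 hc
        exact ⟨(⟨y, hy⟩, ⟨q, hq⟩), rfl⟩
      have h5 := Nat.card_le_card_of_surjective F hF
      rw [Nat.card_prod, hX, h4] at h5
      exact h5
    -- the image in the simple group
    let π : ↥M →* Cfsg.PSU 4 K 3 := φ.toMonoidHom.comp (QuotientGroup.mk' (N.subgroupOf M))
    have hπs : Function.Surjective π := φ.surjective.comp (QuotientGroup.mk'_surjective _)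
    have hn : ((X ⊔ Q).subgroupOf M).Normal := by
      constructor
      intro n hn g
      rw [mem_subgroupOf] at hn ⊢
      exact hXQ.conj_mem _ hn _
    have hn' : (((X ⊔ Q).subgroupOf M).map π).Normal := hn.map π hπs
    have hs : IsSimpleGroup (Cfsg.PSU 4 K 3) :=
      Cfsg.Agent.S0283.result (q := 3) (by rw [hK]; norm_num) 4 (by norm_num) (by norm_num)
    have hle : X ⊔ Q ≤ N := by
      rcases hn'.eq_bot_or_eq_top with h5 | h5
      · intro y hy
        have h6 : π ⟨y, hPM hy⟩ ∈ ((X ⊔ Q).subgroupOf M).map π := ⟨⟨y, hPM hy⟩, hy, rfl⟩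
        rw [h5, mem_bot] at h6
        have h7 : φ ((⟨y, hPM hy⟩ : ↥M) : ↥M ⧸ N.subgroupOf M) = 1 := h6
        rw [map_eq_one_iff φ φ.injective, QuotientGroup.eq_one_iff] at h7
        exact h7
      · exfalso
        have h6 : Nat.card ↥(((X ⊔ Q).subgroupOf M).map π) ≤ Nat.card ↥((X ⊔ Q).subgroupOf M) :=
          Nat.card_le_card_of_surjective _ (π.subgroupMap_surjective _)
        rw [h5, Subgroup.card_top, card_psu hK, Nat.card_congr (subgroupOfEquivOfLe hPM).toEquiv] at h6
        omega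
    refine (Subgroup.eq_of_le_of_card_ge hle ?_).symm
    -- `|Q|` divides `|X ⊔ Q|`, which divides `3 |Q|`
    have h5 : Nat.card Q ∣ Nat.card ↥(X ⊔ Q) := card_dvd_of_le le_sup_right
    have h6 : Nat.card ↥(X ⊔ Q) ∣ Nat.card N := card_dvd_of_le hle
    rw [hNc] at h6
    have hQ0 : 0 < Nat.card Q := Nat.card_pos
    obtain ⟨k, hk⟩ := h5
    rw [hk, mul_comm 3] at h6
    have h7 : k ∣ 3 := Nat.dvd_of_mul_dvd_mul_left hQ0 h6
    rcases (Nat.dvd_prime Nat.prime_three).1 h7 with h8 | h8
    · exfalso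
      rw [h8, mul_one] at hk
      have h9 : Q = X ⊔ Q := Subgroup.eq_of_le_of_card_ge le_sup_right (by rw [hk])
      apply hxQ
      rw [h9]
      exact mem_sup_left hxX
    · rw [hNc, hk, h8, mul_comm]
  have hzz : z ∈ Subgroup.centralizer ({z} : Set G) := mem_centralizer_singleton_iff.2 rfl
  have hs : IsSimpleGroup (Cfsg.PSU 4 K 3) := Cfsg.Agent.S0283.result (q := 3) (by rw [hK]; norm_num) 4 (by norm_num) (by norm_num)
  have hcen : center (Cfsg.PSU 4 K 3) = ⊥ := by
    rcases (inferInstance : (center (Cfsg.PSU 4 K 3)).Normal).eq_bot_or_eq_top with h | h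
    · exact h
    · exfalso
      have hfin : Finite (Cfsg.PSU 4 K 3) := Nat.finite_of_card_ne_zero (by rw [card_psu hK]; norm_num)
      let _ : CommGroup (Cfsg.PSU 4 K 3) := { (inferInstance : Group (Cfsg.PSU 4 K 3)) with
        mul_comm := fun a b => by
          have hb : b ∈ center (Cfsg.PSU 4 K 3) := by rw [h]; trivial
          exact mem_center_iff.1 hb a }
      have h5 : (Nat.card (Cfsg.PSU 4 K 3)).Prime := IsSimpleGroup.prime_card
      rw [card_psu hK] at h5
      revert h5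
      norm_num
  suffices hmain : Cfsg.IsQuasisimple ↥(centralizer (X : Set ↥(Subgroup.centralizer ({z} : Set G)))) ∧
      IsCyclic ↥(center ↥(centralizer (X : Set ↥(Subgroup.centralizer ({z} : Set G))))) ∧
      Nat.card ↥(center ↥(centralizer (X : Set ↥(Subgroup.centralizer ({z} : Set G))))) = 6 ∧
      Nonempty (↥(centralizer (X : Set ↥(Subgroup.centralizer ({z} : Set G)))) ⧸
        center ↥(centralizer (X : Set ↥(Subgroup.centralizer ({z} : Set G)))) ≃* Cfsg.PSU 4 K 3) by
    obtain ⟨r1, r2, r3, r4⟩ := hmain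
    exact ⟨r1, r2, r3, K, i1, i2, hK, r4⟩
  refine ZFin.final (H := ↥(Subgroup.centralizer ({z} : Set G))) (Q := Q) (N := N) (M := M) (X := X)
    (z := ⟨z, hzz⟩) ?_ ?_ ?_ hX hNeq φ hcen hs ?_ ?_ ?_ ?_
  · apply Subtype.ext
    show z * z = 1
    rw [← pow_two, ← h1, pow_orderOf_eq_one]
  · intro h
    have h5 : z = 1 := congrArg Subtype.val h
    rw [h5, orderOf_one] at h1
    norm_num at h1
  · intro h
    apply Subtype.ext
    exact mem_centralizer_singleton_iff.1 h.2
  · intro c hc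
    rw [hME]
    exact hCE ((hXC c).1 hc)
  · intro m hm
    obtain ⟨r, hr, hmr⟩ := D.exists_mul ((hME m).1 hm)
    obtain ⟨q, rfl⟩ := hmapE r (frame.RE hr)
    refine ⟨q, (hQ' q).2 hr, ?_⟩
    rw [hXC, map_mul]
    exact hmr
  · intro q hq hqC
    have h5 := mem_C0.1 ((hXC q).1 hqC)
    rcases D.cent_R ((hQ' q).1 hq) h5.2.2 with h6 | h6
    · left
      apply hψ
      rw [h6, map_one]
    · right
      apply hψ
      rw [h6]
      show Defs.z = ((e z : Spor.Fi24') : Fi24)
      rw [hz]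
      rfl
  · apply Subgroup.map_injective hψ
    have h5 : (centralizer (X : Set ↥(Subgroup.centralizer ({z} : Set G)))).map (ψ e z) = C0 (ψ e z x) := by
      apply le_antisymm
      · rintro _ ⟨y, hy, rfl⟩
        exact (hXC y).1 hy
      · intro g hg
        obtain ⟨y, rfl⟩ := hmapE g (hCE hg)
        exact ⟨y, (hXC y).2 hg, rfl⟩
    rw [Subgroup.map_commutator, h5]
    exact ZSext.perf D hCE

end Cfsg.Agent.S5451
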