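import Cfsg.Statements.S5453
import Cfsg.Agent.R08.LiftCls
import Cfsg.Agent.S1713

set_option autoImplicit false
open Cfsg

namespace Cfsg.Agent.S5453

/-- Let G be a finite group with an involution d whose centralizer C is quasisimple, such that C modulo the subgroup generated by d is of type M(22) with respect to some conjugacy class of 3-transpositions generating it and also has an involution whose own centralizer is quasisimple with quotient by it isomorphic to the projective special unitary group of dimension 6 over the field with four elements and which is not weakly closed in that centralizer; and suppose some conjugate of d other than d commutes with d. Then every involution of C modulo the subgroup generated by d is the image of an involution of C, and d is not a square in G. -/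
theorem result {G : Type*} [Group G] [Finite G] (d : G) (hd : orderOf d = 2) (hq : Cfsg.IsQuasisimple ↥(Subgroup.centralizer ({d} : Set G))) [hzn : ((Subgroup.zpowers d).subgroupOf (Subgroup.centralizer ({d} : Set G))).Normal] (htype : ∃ E : Set (↥(Subgroup.centralizer ({d} : Set G)) ⧸ (Subgroup.zpowers d).subgroupOf (Subgroup.centralizer ({d} : Set G))), Cfsg.IsThreeTranspositionClass E ∧ Cfsg.IsOfTypeM22 _ E) (hinvol : ∃ d' : ↥(Subgroup.centralizer ({d} : Set G)) ⧸ (Subgroup.zpowers d).subgroupOf (Subgroup.centralizer ({d} : Set G)), orderOf d' = 2 ∧ Cfsg.IsQuasisimple ↥(Subgroup.centralizer ({d'} : Set _)) ∧ (∃ (K : Type) (_ : Field K) (_ : Fintype K), Fintype.card K = 4 ∧ ∃ _ : ((Subgroup.zpowers d').subgroupOf (Subgroup.centralizer ({d'} : Set _))).Normal, Nonempty (↥(Subgroup.centralizer ({d'} : Set _)) ⧸ (Subgroup.zpowers d').subgroupOf (Subgroup.centralizer ({d'} : Set _)) ≃* Cfsg.PSU 6 K 2)) ∧ ∃ g, g * d' * g⁻¹ ∈ Subgroup.centralizer ({d'} : Set _) ∧ g * d' * g⁻¹ ≠ d') (hnwc : ∃ g : G, g * d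 * g⁻¹ ∈ Subgroup.centralizer ({d} : Set G) ∧ g * d * g⁻¹ ≠ d) : (∀ x : ↥(Subgroup.centralizer ({d} : Set G)) ⧸ (Subgroup.zpowers d).subgroupOf (Subgroup.centralizer ({d} : Set G)), orderOf x = 2 → ∃ y : ↥(Subgroup.centralizer ({d} : Set G)), orderOf y = 2 ∧ (QuotientGroup.mk y : ↥(Subgroup.centralizer ({d} : Set G)) ⧸ (Subgroup.zpowers d).subgroupOf (Subgroup.centralizer ({d} : Set G))) = x) ∧ ¬ ∃ g : G, g ^ 2 = d := by
  obtain ⟨d', hd', hq', ⟨K, _, _, hK, _, ⟨e'⟩⟩, hnwc'⟩ := hinvol
  obtain ⟨e⟩ := Cfsg.Agent.S1713.result d' hd' hq' K hK e' hnwc'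
  have hE := R01.Start.ext_proj d hd e
  have hperf := R01.Start.commutator_eq_top hq
  obtain ⟨D, hD⟩ := R08.LiftCls.exists_cls hE hperf
  have key : ¬ ∃ g : G, g ^ 2 = d := by
    rintro ⟨g, hg⟩
    have hc : g ∈ Subgroup.centralizer ({d} : Set G) := by
      rw [Subgroup.mem_centralizer_singleton_iff, ← hg, pow_two, mul_assoc]
    refine hD.hns ⟨g, hc⟩ (Subtype.ext ?_)
    show g * g = d
    rw [← pow_two, hg]
  refine ⟨fun x hx => ?_, key⟩
  obtain ⟨y, rfl⟩ := QuotientGroup.mk_surjective x
  have h2 : (QuotientGroup.mk (y ^ 2) : ↥(Subgroup.centralizer ({d} : Set G)) ⧸ (Subgroup.zpowers d).subgroupOf (Subgroup.centralizer ({d} : Set G))) = 1 := by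
    rw [QuotientGroup.mk_pow, ← hx, pow_orderOf_eq_one]
  have h1 : (QuotientGroup.mk y : ↥(Subgroup.centralizer ({d} : Set G)) ⧸ (Subgroup.zpowers d).subgroupOf (Subgroup.centralizer ({d} : Set G))) ≠ 1 := by
    intro h
    rw [h, orderOf_one] at hx
    exact absurd hx (by norm_num)
  have hker := hE.ker (y ^ 2)
  have h3 : R01.Start.proj d e (y ^ 2) = 1 := by
    show e (QuotientGroup.mk (y ^ 2)) = 1
    rw [h2, map_one]
  refine ⟨y, ?_, rfl⟩
  rcases hker.1 h3 with h | h
  · refine orderOf_eq_prime h ?_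
    rintro rfl
    exact h1 rfl
  · exact absurd ⟨(y : G), congrArg Subtype.val h⟩ key

end Cfsg.Agent.S5453
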