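import Cfsg.Statements.S5460
import Cfsg.Agent.S1715
import Cfsg.Agent.R08.TetFi24C
import Cfsg.Agent.H830.Cent24
import Cfsg.Agent.H830.Parts

set_option autoImplicit false
open Cfsg

namespace Cfsg.Agent.S5460

open Cfsg.Agent.R08 Cfsg.Agent.R08.FiTwentyFour
open Cfsg.Agent.Fischer.Fi24Class (gen)

/-- `f` maps `G₀` onto the commutator subgroup -/
theorem mem_iff {X : Type*} [Group X] (G₀ : Subgroup X) (e : ↥G₀ ≃* Spor.Fi24') (f : X ≃* Spor.Fi24)
    (hf : ∀ g : ↥G₀, f (g : X) = ((e g : Spor.Fi24') : Spor.Fi24)) (x : X) :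
    x ∈ G₀ ↔ f x ∈ commutator Spor.Fi24 := by
  constructor
  · intro hx
    rw [hf ⟨x, hx⟩]
    exact (e ⟨x, hx⟩).2
  · intro hx
    have h1 := hf (e.symm ⟨f x, hx⟩)
    rw [e.apply_symm_apply] at h1
    have h2 : ((e.symm ⟨f x, hx⟩ : ↥G₀) : X) = x := f.injective h1
    rw [← h2]
    exact (e.symm ⟨f x, hx⟩).2

/-- the centraliser of a transposition -/
theorem exists_fi23 {X : Type*} [Group X] (G₀ : Subgroup X) (f : X ≃* Spor.Fi24)
    (hf : ∀ x, x ∈ G₀ ↔ f x ∈ commutator Spor.Fi24) {d : X} (hd : f d ∈ FiTwentyFour.L) :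
    Nonempty (↥(G₀ ⊓ Subgroup.centralizer ({d} : Set X)) ≃* Spor.Fi23) := by
  obtain ⟨g, hg⟩ := isConj_iff.1 (show IsConj (gen .l) (f d) from hd)
  let c : Spor.Fi24 ≃* Spor.Fi24 := MulAut.conj g
  have hc : ∀ y, c y = g * y * g⁻¹ := fun y => rfl
  have hcom : ∀ y, c y ∈ commutator Spor.Fi24 ↔ y ∈ commutator Spor.Fi24 := by
    intro y
    have hN : (commutator Spor.Fi24).Normal := inferInstance
    constructor
    · intro h
      have := hN.conj_mem _ h g⁻¹
      rw [hc] at this
      have e : g⁻¹ * (g * y * g⁻¹) * g⁻¹⁻¹ = y := by group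
      rwa [e] at this
    · intro h
      exact hN.conj_mem _ h g
  let h : Spor.Fi23 →* X := (f.symm : Spor.Fi24 →* X).comp ((c : Spor.Fi24 →* Spor.Fi24).comp facts.phi)
  have hh : ∀ k, f (h k) = c (facts.phi k) := fun k => f.apply_symm_apply _
  have hinj : Function.Injective h :=
    f.symm.injective.comp (c.injective.comp facts.phi_injective)
  have hrange : h.range = G₀ ⊓ Subgroup.centralizer ({d} : Set X) := by
    ext x
    rw [Subgroup.mem_inf, Subgroup.mem_centralizer_singleton_iff, hf]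
    constructor
    · rintro ⟨k, rfl⟩
      obtain ⟨h1, h2⟩ := (facts.mem_range_iff (facts.phi k)).1 ⟨k, rfl⟩
      refine ⟨?_, ?_⟩
      · rw [hh, hcom]
        exact mem_commutator_iff.2 h2
      · apply f.injective
        rw [map_mul, map_mul, hh, ← hg, ← hc, ← map_mul, h1, map_mul]
    · rintro ⟨h1, h2⟩
      obtain ⟨y, hy⟩ := c.surjective (f x)
      have h3 : y * gen .l = gen .l * y := by
        apply c.injective
        rw [map_mul, map_mul, hy, hc (gen .l), hg, ← map_mul, ← map_mul, h2]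
      have h4 : y ∈ commutator Spor.Fi24 := by
        rw [← hcom, hy]; exact h1
      obtain ⟨k, hk⟩ := (facts.mem_range_iff y).2 ⟨h3, mem_commutator_iff.1 h4⟩
      refine ⟨k, ?_⟩
      apply f.injective
      rw [hh, hk, hy]
  exact ⟨((MonoidHom.ofInjective hinj).trans (MulEquiv.subgroupCongr hrange)).symm⟩

/-- Let X be a finite group with a subgroup G₀ of index 2 that is of large Fischer type at an involution z central in some Sylow 2-subgroup of G₀ (the generalized Fitting subgroup Q of the centralizer C of z in G₀ is extraspecial of order 2^13, C has normal subgroups Q ≤ H₁ ≤ H₂ with H₁/Q of order 3, H₂/H₁ isomorphic to the projective special unitary group of dimension 4 over the field with nine elements and H₂ of index 2 in C, and some G₀-conjugate of z other than z lies in Q), and suppose the generalized Fitting subgroup of the centralizer of z in X is Q as well. Then there is an involution d of X outside G₀ commuting with z, and an involution t of the centralizer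 Y of d in G₀, such that: the centralizer of t in Y is quasisimple; its quotient by the subgroup generated by t is of type M(22) for some generating conjugacy class of 3-transpositions and has an involution whose own centralizer is quasisimple, with quotient by it the projective special unitary group of dimension 6 over the field with four elements, and which is not weakly closed in that centralizer; t is not weakly closed in its centralizer in Y; and the conjugacy class of t in Y is a class of 3-transpositions generating Y with respect to which Y is of type M(23). -/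
theorem result {X : Type*} [Group X] [Finite X] (G₀ : Subgroup X) (hidx : G₀.index = 2) (z : ↥G₀) (Q : Subgroup (Subgroup.centralizer ({z} : Set ↥G₀))) [Q.Normal] (hF : Cfsg.IsOfLargeFischerTypeAt z Q) (hcentral : ∃ P : Sylow 2 ↥G₀, z ∈ (P : Subgroup ↥G₀) ∧ ∀ x ∈ (P : Subgroup ↥G₀), Commute x z) (hFX : (Cfsg.generalizedFittingSubgroup ↥(Subgroup.centralizer ({(z : X)} : Set X))).map (Subgroup.subtype _) = ((Q.map (Subgroup.subtype _)).map G₀.subtype)) : ∃ d : X, orderOf d = 2 ∧ d ∉ G₀ ∧ Commute d (z : X) ∧ ∃ t : ↥(G₀ ⊓ Subgroup.centralizer ({d} : Set X)), orderOf t = 2 ∧ Cfsg.IsQuasisimple ↥(Subgroup.centralizer ({t} : Set ↥(G₀ ⊓ Subgroup.centralizer ({d} : Set X)))) ∧ (∃ (_ : ((Subgroup.zpowers t).subgroupOf (Subgroup.centralizer ({t} : Set ↥(G₀ ⊓ Subgroup.centralizer ({d} : Set X))))).Normal), (∃ E : Set (↥(Subgroup.centralizer ({t} : Set ↥(G₀ ⊓ Subgroup.centralizer ({d} : Set X)))) ⧸ (Subgroup.zpowers t).subgroupOf (Subgroup.centralizer ({t} : Set ↥(G₀ ⊓ Subgroup.centralizer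 ({d} : Set X))))), Cfsg.IsThreeTranspositionClass E ∧ Cfsg.IsOfTypeM22 _ E) ∧ ∃ d' : ↥(Subgroup.centralizer ({t} : Set ↥(G₀ ⊓ Subgroup.centralizer ({d} : Set X)))) ⧸ (Subgroup.zpowers t).subgroupOf (Subgroup.centralizer ({t} : Set ↥(G₀ ⊓ Subgroup.centralizer ({d} : Set X)))), orderOf d' = 2 ∧ Cfsg.IsQuasisimple ↥(Subgroup.centralizer ({d'} : Set _)) ∧ (∃ (K : Type) (_ : Field K) (_ : Fintype K), Fintype.card K = 4 ∧ ∃ _ : ((Subgroup.zpowers d').subgroupOf (Subgroup.centralizer ({d'} : Set _))).Normal, Nonempty (↥(Subgroup.centralizer ({d'} : Set _)) ⧸ (Subgroup.zpowers d').subgroupOf (Subgroup.centralizer ({d'} : Set _)) ≃* Cfsg.PSU 6 K 2)) ∧ ∃ g, g * d' * g⁻¹ ∈ Subgroup.centralizer ({d'} : Set _) ∧ g * d' * g⁻¹ ≠ d') ∧ (∃ g : ↥(G₀ ⊓ Subgroup.centralizer ({d} : Set X)), g * t * g⁻¹ ∈ Subgroup.centralizer ({t} : Set ↥(G₀ ⊓ Subgroup.centralizer ({d} : Set X))) ∧ g * t * g⁻¹ ≠ t) ∧ Cfsg.IsThreeTranspositionClass (conjugatesOf t) ∧ Cfsg.IsOfTypeM23 ↥(G₀ ⊓ Subgroup.centralizer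 ({d} : Set X)) (conjugatesOf t) := by
  obtain ⟨⟨hz, hFQ, hQ, hcard, hnwc⟩, N, M, hNn, hMn, hQN, hNM, hN, ⟨K, i1, i2, hK, ⟨e0⟩⟩, hM⟩ := hF
  have hG : Spor.IsoFi24' ↥G₀ :=
    Cfsg.Agent.S1715.result z hz Q N M hFQ hQ (by rw [hcard]) hQN hNM hN K hK e0 hM hnwc
  obtain ⟨e, f, hf⟩ := Cfsg.Agent.H830.Cent24.exists_iso G₀ hidx hG z (by
    rw [hFX]
    rintro _ ⟨y, -, rfl⟩
    exact y.2)
  have hmem := mem_iff G₀ e f hf
  have hzc : f (z : X) ∈ commutator Spor.Fi24 := (hmem _).1 z.2
  have hz2 : (z : X) * z = 1 := by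
    have h1 : z ^ 2 = 1 := by rw [← hz]; exact pow_orderOf_eq_one z
    rw [pow_two] at h1
    exact congrArg Subtype.val h1
  have hz1 : (z : X) ≠ 1 := by
    intro h
    have h1 : z = 1 := Subtype.ext h
    rw [h1, orderOf_one] at hz
    exact absurd hz (by norm_num)
  have key : ∃ a ∈ FiTwentyFour.L, Commute a (f (z : X)) := by
    rcases Cfsg.Agent.R08.TetFi24C.facts.invol _ hzc (by rw [← map_mul, hz2, map_one])
      (fun h => hz1 (by rwa [MulEquiv.map_eq_one_iff] at h)) with
      ⟨a, ha, b, hb, nab, cab, h3⟩ | ⟨a, b, c, d, h3⟩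
    · refine ⟨a, ha, ?_⟩
      rw [h3]
      exact (Commute.refl a).mul_right cab
    · refine ⟨a, h3.ha, ?_⟩
      rw [← h3.prod]
      exact (((Commute.refl a).mul_right h3.ab).mul_right h3.ac).mul_right h3.ad
  obtain ⟨a, ha, hac⟩ := key
  have hda : f (f.symm a) = a := f.apply_symm_apply a
  obtain ⟨e3⟩ := exists_fi23 G₀ f hmem (d := f.symm a) (by rw [hda]; exact ha)
  have : Finite ↥(G₀ ⊓ Subgroup.centralizer ({f.symm a} : Set X)) := inferInstance
  refine ⟨f.symm a, ?_, ?_, ?_, _, Cfsg.Agent.H830.Parts.part23 e3⟩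
  · rw [MulEquiv.orderOf_eq]
    exact FiTwentyFour.isThreeTranspositionClass.1.1 a ha
  · rw [hmem, hda]
    exact FiTwentyFour.odd ha
  · have := hac.map f.symm
    rwa [f.symm_apply_apply] at this

end Cfsg.Agent.S5460
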