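import Cfsg.Statements.S5530
import Cfsg.Agent.H848.MonsterSetup

set_option autoImplicit false
open Cfsg

namespace Cfsg.Agent.S5530

/-- The Monster (realised inside the presented Bimonster, as in the definitions) has a Klein four-subgroup E whose normalizer N satisfies: the largest normal 2-subgroup O of N has order 2^35, the centre of O is exactly E, and N/O is isomorphic to the direct product of the Mathieu group of degree 24 (the automorphism group of the binary Golay code of the definitions) with the symmetric group of degree 3. -/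
theorem result : ∃ (E N : Subgroup Cfsg.Spor.Monster) (O : Subgroup ↥N), IsKleinFour ↥E ∧ N = Subgroup.normalizer (E : Set Cfsg.Spor.Monster) ∧ O = Cfsg.pCore 2 ↥N ∧ Nat.card ↥O = 2 ^ 35 ∧ (Subgroup.center ↥O).map O.subtype = E.subgroupOf N ∧ ∃ _ : O.Normal, Nonempty (↥N ⧸ O ≃* ↥Cfsg.M24 × Equiv.Perm (Fin 3)) := by
  have := Cfsg.Agent.H848.MonsterSetup.simple
  have := Cfsg.Agent.H848.MonsterSetup.finite
  obtain ⟨Q, z, eta, pi, h⟩ := Cfsg.Agent.H848.MonsterSetup.exists_chart
  exact Cfsg.Agent.H848.Setup.normFour h

end Cfsg.Agent.S5530
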