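import Cfsg.Statements.S5544
import Cfsg.Agent.H851.SakumaCases
import Cfsg.Agent.H851.Conj

set_option autoImplicit false
open Cfsg

namespace Cfsg.Agent.S5544

open Cfsg.Axial Cfsg.Agent.H851.Maj Cfsg.Agent.H851.Sak

/-- Let V be a finite-dimensional real vector space with a commutative bilinear product and a positive-definite symmetric bilinear form that associates with the product and satisfies the Norton inequality (the Majorana setting of the definitions). Let μ₀ and μ₁ be Majorana involutions with axial vectors a₀ and a₁ of squared length 1, each involution having no other axial vector. Then the product μ₀μ₁ has order at most 6: some power (μ₀μ₁)^n with 1 ≤ n ≤ 6 is the identity (so the two involutions generate a dihedral group of order at most 12). This is the 6-transposition property in Sakuma's Theorem. -/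
theorem result {V : Type*} [AddCommGroup V] [Module ℝ V] [FiniteDimensional ℝ V] (mul : V →ₗ[ℝ] V →ₗ[ℝ] V) (B : LinearMap.BilinForm ℝ V) (hV : Cfsg.Axial.IsMajoranaAmbient mul B) (μ₀ μ₁ : V ≃ₗ[ℝ] V) (a₀ a₁ : V) (h₀ : Cfsg.Axial.IsMajoranaPair mul B μ₀ a₀) (h₁ : Cfsg.Axial.IsMajoranaPair mul B μ₁ a₁) (hu₀ : ∀ a : V, Cfsg.Axial.IsMajoranaPair mul B μ₀ a → a = a₀) (hu₁ : ∀ a : V, Cfsg.Axial.IsMajoranaPair mul B μ₁ a → a = a₁) (hn₀ : B a₀ a₀ = 1) (hn₁ : B a₁ a₁ = 1) : ∃ n : ℕ, 1 ≤ n ∧ n ≤ 6 ∧ (μ₀ * μ₁) ^ n = 1 := by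
  -- the rotation
  have hm0 : μ₀ * μ₀ = 1 := by
    ext v
    exact pair_invol h₀ v
  have hm1 : μ₁ * μ₁ = 1 := by
    ext v
    exact pair_invol h₁ v
  have hi0 : μ₀⁻¹ = μ₀ := inv_eq_of_mul_eq_one_right hm0
  have hi1 : μ₁⁻¹ = μ₁ := inv_eq_of_mul_eq_one_right hm1
  obtain ⟨ρ, hρ⟩ : ∃ ρ : V ≃ₗ[ℝ] V, ρ = μ₁ * μ₀ := ⟨_, rfl⟩
  have hρi : ρ⁻¹ = μ₀ * μ₁ := by rw [hρ, mul_inv_rev, hi0, hi1]
  have hμ1 : μ₁ = ρ * μ₀ := by rw [hρ, mul_assoc, hm0, mul_one]
  have hconj : μ₀ * ρ * μ₀⁻¹ = ρ⁻¹ := by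
    rw [hi0, hρi, hρ, ← mul_assoc, mul_assoc, hm0, mul_one]
  have hconjz : ∀ k : ℤ, μ₀ * ρ ^ k = ρ ^ (-k) * μ₀ := by
    intro k
    have h := conj_zpow (a := μ₀) (b := ρ) (i := k)
    rw [hconj, inv_zpow', eq_mul_inv_iff_mul_eq] at h
    exact h.symm
  -- `ρ` preserves the product and the form
  have hg : ∀ k : ℤ, (∀ u v : V, (ρ ^ k) (mul u v) = mul ((ρ ^ k) u) ((ρ ^ k) v)) ∧
      ∀ u v : V, B ((ρ ^ k) u) ((ρ ^ k) v) = B u v := by
    let H : Subgroup (V ≃ₗ[ℝ] V) :=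
      { carrier := {g | (∀ u v : V, g (mul u v) = mul (g u) (g v)) ∧
          ∀ u v : V, B (g u) (g v) = B u v}
        mul_mem' := by
          rintro g g' ⟨h1, h2⟩ ⟨h3, h4⟩
          refine ⟨fun u v => ?_, fun u v => ?_⟩
          · change g (g' (mul u v)) = mul (g (g' u)) (g (g' v))
            rw [h3, h1]
          · change B (g (g' u)) (g (g' v)) = B u v
            rw [h2, h4]
        one_mem' := ⟨fun _ _ => rfl, fun _ _ => rfl⟩
        inv_mem' := by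
          rintro g ⟨h1, h2⟩
          have hgi : ∀ v : V, g (g⁻¹ v) = v := fun v => LinearEquiv.apply_symm_apply g v
          refine ⟨fun u v => ?_, fun u v => ?_⟩
          · apply g.injective
            rw [hgi, h1, hgi, hgi]
          · rw [← h2, hgi, hgi] }
    have h1 : ρ ∈ H := by
      rw [hρ]
      exact H.mul_mem ⟨h₁.1, h₁.2.1⟩ ⟨h₀.1, h₀.2.1⟩
    intro k
    exact H.zpow_mem h1 k
  -- the sequence of axes
  obtain ⟨a, ha⟩ : ∃ a : ℤ → V, a = fun i => if Even i then (ρ ^ (i / 2)) a₀ else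
    (ρ ^ (i / 2)) a₁ := ⟨_, rfl⟩
  have hae : ∀ k : ℤ, a (2 * k) = (ρ ^ k) a₀ := by
    intro k
    rw [ha]
    simp
  have hao : ∀ k : ℤ, a (2 * k + 1) = (ρ ^ k) a₁ := by
    intro k
    have h1 : ¬ Even (2 * k + 1) := by simp [Int.even_add_one]
    have h2 : (2 * k + 1) / 2 = k := by omega
    rw [ha]
    simp only [h1, if_false, h2]
  have hsplit : ∀ i : ℤ, ∃ k : ℤ, i = 2 * k ∨ i = 2 * k + 1 := fun i => ⟨i / 2, by omega⟩
  have hmulapp : ∀ (g g' : V ≃ₗ[ℝ] V) (v : V), (g * g') v = g (g' v) := fun _ _ _ => rfl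
  have hshift : ∀ i j : ℤ, (ρ ^ i) (a j) = a (j + 2 * i) := by
    intro i j
    obtain ⟨k, rfl | rfl⟩ := hsplit j
    · rw [hae, ← hmulapp, ← zpow_add, show 2 * k + 2 * i = 2 * (i + k) by ring, hae]
    · rw [hao, ← hmulapp, ← zpow_add, show 2 * k + 1 + 2 * i = 2 * (i + k) + 1 by ring, hao]
  have hrefl : ∀ j : ℤ, μ₀ (a j) = a (-j) := by
    intro j
    obtain ⟨k, rfl | rfl⟩ := hsplit j
    · rw [hae, ← hmulapp, hconjz, hmulapp, pair_self h₀, show -(2 * k) = 2 * (-k) by ring, hae]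
    · have h1 : μ₀ a₁ = (ρ ^ (-1 : ℤ)) a₁ := by
        have h2 : μ₀ = ρ⁻¹ * μ₁ := by rw [hμ1, inv_mul_cancel_left]
        rw [zpow_neg_one]
        nth_rewrite 1 [h2]
        rw [hmulapp, pair_self h₁]
      rw [hao, ← hmulapp, hconjz, hmulapp, h1, ← hmulapp, ← zpow_add,
        show -(2 * k + 1) = 2 * (-k + -1) + 1 by ring, hao]
  have hpair : ∀ i : ℤ, IsMajoranaPair mul B (ρ ^ i * μ₀) (a i) := by
    intro i
    obtain ⟨k, rfl | rfl⟩ := hsplit i
    · have h1 := pair_conj h₀ (hg k).1 (hg k).2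
      rw [mul_assoc, ← zpow_neg, hconjz, neg_neg, ← mul_assoc, ← zpow_add, ← two_mul, ← hae] at h1
      exact h1
    · have h1 := pair_conj h₁ (hg k).1 (hg k).2
      have h2 : ρ ^ k * μ₁ * (ρ ^ k)⁻¹ = ρ ^ (2 * k + 1) * μ₀ := by
        rw [hμ1, ← zpow_neg, mul_assoc, mul_assoc, hconjz, neg_neg, ← mul_assoc, ← mul_assoc,
          ← zpow_add_one, ← zpow_add]
        congr 2
        ring
      rw [h2, ← hao] at h1
      exact h1
  have hnorm : ∀ i : ℤ, B (a i) (a i) = 1 := by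
    intro i
    obtain ⟨k, rfl | rfl⟩ := hsplit i
    · rw [hae, (hg k).2, hn₀]
    · rw [hao, (hg k).2, hn₁]
  have S : Seq mul B a :=
    { amb := hV
      pair := by
        intro i
        refine ⟨ρ ^ i * μ₀, hpair i, ?_⟩
        intro j
        rw [hmulapp, hrefl, hshift]
        congr 1
        ring
      norm := hnorm }
  -- coincidences of axes give relations
  have hcoin : ∀ i j : ℤ, a i = a j → ρ ^ (i - j) = 1 := by
    intro i j h
    have h1 := hpair i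
    rw [h] at h1
    have h2 := pair_unique h1 (hpair j)
    have h3 := mul_right_cancel h2
    rw [zpow_sub, h3, mul_inv_cancel]
  have hfin : ∀ n : ℕ, ρ ^ (n : ℤ) = 1 → (μ₀ * μ₁) ^ n = 1 := by
    intro n h
    rw [← hρi, inv_pow, ← zpow_natCast, h, inv_one]
  rcases S.final with h | h | h | h | h | h
  · exact ⟨1, by norm_num, by norm_num, hfin 1 (hcoin 1 0 h)⟩
  · exact ⟨2, by norm_num, by norm_num, hfin 2 (hcoin 2 0 h)⟩
  · exact ⟨3, by norm_num, by norm_num, hfin 3 (hcoin 3 0 h)⟩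
  · exact ⟨4, by norm_num, by norm_num, hfin 4 (hcoin 2 (-2) h)⟩
  · exact ⟨5, by norm_num, by norm_num, hfin 5 (hcoin 3 (-2) h)⟩
  · exact ⟨6, by norm_num, by norm_num, hfin 6 (hcoin 3 (-3) h)⟩

end Cfsg.Agent.S5544
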