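-- Statement S5546: Co2 embeds in GL(23, 13).
import Cfsg.Statements.S5546
import Cfsg.Agent.SporadicStructure.Co0Base

set_option autoImplicit false
open Cfsg

namespace Cfsg.Agent.S5546

open Cfsg.Agent.SporadicStructure.Co0Base

/-- The field with 13 elements. -/
abbrev K : Type := ZMod 13

instance fact13 : Fact (Nat.Prime 13) := ⟨by norm_num⟩

/-- Reduction modulo 13 of an integer vector. -/
def redK (x : GolayPt → ℤ) : GolayPt → K := fun p => ((x p : ℤ) : K)

/-- The matrix over the field with 13 elements of an element of `Co0`. -/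
def A (g : Co0) : Matrix GolayPt GolayPt K :=
  Matrix.of fun j i => (5 : K) * ((((g • e8 i : leechLattice) : GolayPt → ℤ) j : ℤ) : K)

theorem A_apply (g : Co0) (j i : GolayPt) :
    A g j i = (5 : K) * ((((g • e8 i : leechLattice) : GolayPt → ℤ) j : ℤ) : K) := rfl

theorem five_eight : (5 : K) * 8 = 1 := by decide

theorem A_mulVec (g : Co0) (v : leechLattice) :
    (A g).mulVec (redK (v : GolayPt → ℤ)) = redK ((g • v : leechLattice) : GolayPt → ℤ) := by
  funext j
  have h := congrArg (fun z : ℤ => (5 : K) * (z : K)) (eight_mul_co0 g v j)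
  simp only [Int.cast_mul, Int.cast_sum, Int.cast_ofNat] at h
  rw [← mul_assoc, five_eight, one_mul] at h
  show ∑ i, A g j i * redK (v : GolayPt → ℤ) i = _
  rw [redK, h, Finset.mul_sum]
  refine Finset.sum_congr rfl fun i _ => ?_
  rw [A_apply, redK]
  ring

theorem A_mul (g h : Co0) : A (g * h) = A g * A h := by
  ext j i
  have h1 := congrFun (A_mulVec g (h • e8 i)) j
  rw [← mul_smul] at h1
  rw [A_apply]
  show (5 : K) * redK (((g * h) • e8 i : leechLattice) : GolayPt → ℤ) j = _
  rw [← h1, Matrix.mul_apply]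
  show (5 : K) * ∑ k, A g j k * redK ((h • e8 i : leechLattice) : GolayPt → ℤ) k = _
  rw [Finset.mul_sum]
  refine Finset.sum_congr rfl fun k _ => ?_
  rw [A_apply h, redK]
  ring

theorem A_one : A 1 = 1 := by
  ext j i
  rw [A_apply, one_smul, e8_coe, Matrix.one_apply]
  by_cases hij : j = i
  · subst hij
    rw [Pi.single_eq_same, if_pos rfl]
    decide
  · rw [Pi.single_eq_of_ne hij, if_neg hij]
    decide

theorem A_transpose_mul (g : Co0) : (A g).transpose * A g = 1 := by
  ext i j
  rw [Matrix.mul_apply, Matrix.one_apply]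
  have h := congrArg (fun z : ℤ => (25 : K) * (z : K)) (co0_dotInt g (e8 i) (e8 j))
  simp only [dotInt, Int.cast_sum, Int.cast_mul] at h
  have h2 : ∑ k, (A g).transpose i k * A g k j =
      (25 : K) * ∑ k, ((((g • e8 i : leechLattice) : GolayPt → ℤ) k : ℤ) : K) *
        ((((g • e8 j : leechLattice) : GolayPt → ℤ) k : ℤ) : K) := by
    rw [Finset.mul_sum]
    refine Finset.sum_congr rfl fun k _ => ?_
    rw [Matrix.transpose_apply, A_apply, A_apply]
    ring
  rw [h2, h]
  by_cases hij : i = j
  · subst hij
    rw [if_pos rfl, Finset.sum_eq_single i]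
    · rw [e8_coe, Pi.single_eq_same]
      decide
    · intro b _ hb
      rw [e8_coe, Pi.single_eq_of_ne hb]
      simp
    · intro hi
      exact absurd (Finset.mem_univ i) hi
  · rw [if_neg hij, Finset.sum_eq_zero, mul_zero]
    intro k _
    by_cases hk : k = i
    · subst hk
      rw [e8_coe j, Pi.single_eq_of_ne hij]
      simp
    · rw [e8_coe i, Pi.single_eq_of_ne hk]
      simp

theorem dot_A (g : Co0) (x y : GolayPt → K) :
    dotProduct ((A g).mulVec x) ((A g).mulVec y) = dotProduct x y := by
  rw [Matrix.dotProduct_mulVec, ← Matrix.mulVec_transpose, Matrix.mulVec_mulVec, A_transpose_mul,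
    Matrix.one_mulVec]

/-- The reduction of the fixed vector. -/
def u : GolayPt → K := redK (Spor.leechU : GolayPt → ℤ)

theorem u_dot_u : dotProduct u u = 6 := by
  decide +kernel

/-- The functional `x ↦ u · x`. -/
def phi : Module.Dual K (GolayPt → K) where
  toFun x := dotProduct u x
  map_add' x y := dotProduct_add _ _ _
  map_smul' c x := by simp [dotProduct_smul]

theorem phi_apply (x : GolayPt → K) : phi x = dotProduct u x := rfl

theorem phi_ne_zero : phi ≠ 0 := by
  intro h
  have h1 : phi u = 0 := by rw [h]; rfl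
  rw [phi_apply, u_dot_u] at h1
  exact absurd h1 (by decide)

/-- The orthogonal complement of the fixed vector. -/
def W : Submodule K (GolayPt → K) := LinearMap.ker phi

theorem mem_W (x : GolayPt → K) : x ∈ W ↔ dotProduct u x = 0 := Iff.rfl

theorem finrank_W : Module.finrank K W = 23 := by
  have h := Module.Dual.finrank_ker_add_one_of_ne_zero phi_ne_zero
  rw [Module.finrank_fintype_fun_eq_card] at h
  have hc : Fintype.card GolayPt = 24 := by decide
  rw [hc] at h
  have h2 : Module.finrank K W = Module.finrank K (LinearMap.ker phi) := rfl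
  omega

/-- An element of `Co2` as an element of `Co0`. -/
def toCo0 : ↥Cfsg.Spor.Co2 →* Co0 := Subgroup.inclusion inf_le_left

theorem toCo0_smul (g : ↥Cfsg.Spor.Co2) : toCo0 g • Spor.leechU = Spor.leechU := g.2.2

theorem A_u (g : ↥Cfsg.Spor.Co2) : (A (toCo0 g)).mulVec u = u := by
  have h := A_mulVec (toCo0 g) Spor.leechU
  rw [toCo0_smul] at h
  exact h

theorem A_mem_W (g : ↥Cfsg.Spor.Co2) (x : GolayPt → K) (hx : x ∈ W) :
    (A (toCo0 g)).mulVec x ∈ W := by
  rw [mem_W] at hx ⊢
  have h := dot_A (toCo0 g) u x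
  rw [A_u] at h
  rw [h, hx]

/-- The linear map of `W` induced by an element of `Co2`. -/
def B (g : ↥Cfsg.Spor.Co2) : Module.End K W :=
  (Matrix.mulVecLin (A (toCo0 g))).restrict (fun x hx => A_mem_W g x hx)

theorem B_apply (g : ↥Cfsg.Spor.Co2) (x : W) :
    ((B g x : W) : GolayPt → K) = (A (toCo0 g)).mulVec (x : GolayPt → K) := rfl

/-- The representation as a monoid homomorphism. -/
def Bhom : ↥Cfsg.Spor.Co2 →* Module.End K W where
  toFun := B
  map_one' := by
    ext x
    rw [B_apply, map_one, A_one, Matrix.one_mulVec]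
    rfl
  map_mul' g h := by
    refine LinearMap.ext fun x => Subtype.ext ?_
    rw [B_apply, map_mul, A_mul, ← Matrix.mulVec_mulVec]
    rfl

theorem abs_le_of_sqNorm {x : GolayPt → ℤ} (h : sqNorm x = 64) (j : GolayPt) :
    x j ^ 2 ≤ 64 := by
  rw [← h, sqNorm]
  exact Finset.single_le_sum (f := fun i => x i ^ 2) (fun i _ => sq_nonneg _) (Finset.mem_univ j)

theorem sqNorm_e8 (i : GolayPt) : sqNorm ((e8 i : leechLattice) : GolayPt → ℤ) = 64 := by
  rw [sqNorm, Finset.sum_eq_single i]
  · rw [e8_coe, Pi.single_eq_same]; norm_num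
  · intro b _ hb
    rw [e8_coe, Pi.single_eq_of_ne hb]; norm_num
  · intro hi
    exact absurd (Finset.mem_univ i) hi

theorem eq_one_of_A {g : Co0} (h : A g = 1) : g = 1 := by
  apply co0_ext_e8
  intro i
  rw [one_smul]
  have h64 : sqNorm ((g • e8 i : leechLattice) : GolayPt → ℤ) = 64 := by
    rw [co0_sqNorm, sqNorm_e8]
  have hsq := fun j => abs_le_of_sqNorm h64 j
  have hmod : ∀ j, ((((g • e8 i : leechLattice) : GolayPt → ℤ) j : ℤ) : K) =
      (((e8 i : leechLattice) : GolayPt → ℤ) j : ℤ) := by
    intro j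
    have h1 := congrFun (A_mulVec g (e8 i)) j
    rw [h, Matrix.one_mulVec] at h1
    exact h1.symm
  have hdvd : ∀ j, (13 : ℤ) ∣ ((g • e8 i : leechLattice) : GolayPt → ℤ) j -
      ((e8 i : leechLattice) : GolayPt → ℤ) j := by
    intro j
    have h1 := hmod j
    rw [← sub_eq_zero, ← Int.cast_sub] at h1
    exact (ZMod.intCast_zmod_eq_zero_iff_dvd _ 13).mp h1
  apply Subtype.ext
  have hoff : ∀ j, j ≠ i → ((g • e8 i : leechLattice) : GolayPt → ℤ) j = 0 := by
    intro j hj
    have h1 := hdvd j
    have h2 := hsq j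
    rw [e8_coe, Pi.single_eq_of_ne hj, sub_zero] at h1
    generalize ((g • e8 i : leechLattice) : GolayPt → ℤ) j = z at h1 h2
    obtain ⟨k, rfl⟩ := h1
    have h3 : k = 0 := by
      by_contra hk
      have : 1 ≤ k ^ 2 := by
        have := sq_nonneg k
        have h4 : k ^ 2 ≠ 0 := pow_ne_zero 2 hk
        omega
      nlinarith
    rw [h3]; norm_num
  have hon : ((g • e8 i : leechLattice) : GolayPt → ℤ) i ^ 2 = 64 := by
    rw [← h64, sqNorm, Finset.sum_eq_single i]
    · intro b _ hb
      rw [hoff b hb]; norm_num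
    · intro hi
      exact absurd (Finset.mem_univ i) hi
  funext j
  by_cases hj : j = i
  · subst hj
    have h1 := hdvd j
    rw [e8_coe, Pi.single_eq_same] at h1 ⊢
    generalize ((g • e8 j : leechLattice) : GolayPt → ℤ) j = z at h1 hon
    have hz : (z - 8) * (z + 8) = 0 := by linarith [hon, sq z, show (z - 8) * (z + 8) = z ^ 2 - 64 by ring]
    rcases mul_eq_zero.mp hz with hz | hz
    · linarith
    · have : z = -8 := by linarith
      rw [this] at h1
      exact absurd h1 (by decide)
  · rw [hoff j hj, e8_coe, Pi.single_eq_of_ne hj]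

theorem Bhom_injective : Function.Injective Bhom := by
  rw [injective_iff_map_eq_one]
  intro g hg
  have hW : ∀ x ∈ W, (A (toCo0 g)).mulVec x = x := by
    intro x hx
    have hB : B g = 1 := hg
    have h := B_apply g ⟨x, hx⟩
    rw [hB] at h
    exact h.symm
  have hall : ∀ x, (A (toCo0 g)).mulVec x = x := by
    intro x
    -- subtract the multiple of `u`
    have hinv : (6 : K) * 11 = 1 := by decide
    have hx : x - (11 * dotProduct u x) • u ∈ W := by
      rw [mem_W, dotProduct_sub, dotProduct_smul, u_dot_u, smul_eq_mul]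
      linear_combination (-(dotProduct u x)) * hinv
    have h1 := hW _ hx
    rw [Matrix.mulVec_sub, Matrix.mulVec_smul, A_u] at h1
    exact sub_left_injective h1
  have hA : A (toCo0 g) = 1 := by
    apply Matrix.ext_of_mulVec_single
    intro i
    rw [hall, Matrix.one_mulVec]
  have h1 := eq_one_of_A hA
  apply Subtype.ext
  exact congrArg (fun h : Co0 => (h : Equiv.Perm leechLattice)) h1

/-- The second Conway group (the stabilizer in the Leech lattice automorphism group of the short vector fixed in the definitions) is isomorphic to a subgroup of the general linear group of degree 23 over the field with 13 elements: there is an injective homomorphism into it. -/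
theorem result : ∃ f : ↥Cfsg.Spor.Co2 →* GL (Fin 23) (ZMod 13), Function.Injective f := by
  obtain ⟨e⟩ : Nonempty ((Module.End K W)ˣ ≃* GL (Fin 23) (ZMod 13)) :=
    ⟨Units.mapEquiv (LinearMap.toMatrixAlgEquiv
      (Module.finBasisOfFinrankEq K W finrank_W)).toMulEquiv⟩
  refine ⟨e.toMonoidHom.comp Bhom.toHomUnits, ?_⟩
  intro g h hgh
  have h1 : Bhom.toHomUnits g = Bhom.toHomUnits h := e.injective hgh
  have h2 := congrArg Units.val h1
  rw [MonoidHom.coe_toHomUnits, MonoidHom.coe_toHomUnits] at h2
  exact Bhom_injective h2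

end Cfsg.Agent.S5546
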