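-- Statement S5547: the presented Fischer group Fi22 embeds in GL(78, 13).
import Cfsg.Statements.S5547
import Cfsg.Agent.S1696
import Cfsg.Agent.H852.Fi22Rep

set_option autoImplicit false
open Cfsg

namespace Cfsg.Agent.S5547

/-- The Fischer group Fi₂₂ (the finitely presented 3-transposition group of the definitions) is isomorphic to a subgroup of the general linear group of degree 78 over the field with 13 elements: there is an injective homomorphism into it. -/
theorem result : ∃ f : Cfsg.Spor.Fi22 →* GL (Fin 78) (ZMod 13), Function.Injective f := by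
  refine ⟨Cfsg.Agent.H852.Fi22Rep.rho, ?_⟩
  have hs : IsSimpleGroup Cfsg.Spor.Fi22 := Cfsg.Agent.S1696.result.1
  rw [← MonoidHom.ker_eq_bot_iff]
  rcases hs.eq_bot_or_eq_top_of_normal (Cfsg.Agent.H852.Fi22Rep.rho).ker inferInstance with h | h
  · exact h
  · exfalso
    apply Cfsg.Agent.H852.Fi22Rep.gl_a_ne_one
    rw [← Cfsg.Agent.H852.Fi22Rep.rho_of, ← MonoidHom.mem_ker, h]
    trivial

end Cfsg.Agent.S5547
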