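import Cfsg.Statements.S5550
import Cfsg.Agent.Leech.Code
import Cfsg.Agent.SporadicA.OctadFix
import Cfsg.Agent.S0363
import Cfsg.Agent.S0366
import Cfsg.Agent.S0389

set_option autoImplicit false
open Cfsg

namespace Cfsg.Agent.S5550

open Cfsg.Agent.Leech.Code
open Cfsg.Agent.SporadicA
open scoped Pointwise

theorem steiner (F : Finset GolayPt) (hF : F.card = 5) : ∃ O, O ∈ Words ∧ O.card = 8 ∧ F ⊆ O := by
  obtain ⟨O, ⟨⟨h1, h2⟩, h3⟩, -⟩ := Cfsg.Agent.S0363.result.2 F hF
  exact ⟨O, h1, h2, h3⟩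

theorem symmDiff_comm_mem {S T : Finset GolayPt} (h : symmDiff S T ∈ Words) : symmDiff T S ∈ Words := by
  rwa [symmDiff_comm]

theorem symmDiff_trans_mem {S T U : Finset GolayPt} (h : symmDiff S T ∈ Words) (h' : symmDiff T U ∈ Words) :
    symmDiff S U ∈ Words := by
  have := symmDiff_mem h h'
  rwa [symmDiff_assoc, symmDiff_symmDiff_cancel_left] at this

theorem exists_small (S : Finset GolayPt) : ∃ T, symmDiff S T ∈ Words ∧ T.card ≤ 4 := by
  classical
  obtain ⟨T, hT, hmin⟩ := Finset.exists_min_image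
    (Finset.univ.filter fun T : Finset GolayPt => symmDiff S T ∈ Words) Finset.card
    ⟨S, by simp only [Finset.mem_filter, Finset.mem_univ, true_and, symmDiff_self]; exact empty_mem⟩
  simp only [Finset.mem_filter, Finset.mem_univ, true_and] at hT hmin
  refine ⟨T, hT, ?_⟩
  by_contra hlt
  obtain ⟨F, hFT, hF⟩ := Finset.exists_subset_card_eq (show 5 ≤ T.card by omega)
  obtain ⟨O, hO, hO8, hFO⟩ := steiner F hF
  have h1 : symmDiff S (symmDiff T O) ∈ Words := by
    rw [← symmDiff_assoc]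
    exact symmDiff_mem hT hO
  have h2 := hmin _ h1
  have h3 := GolayBase.card_symmDiff_add T O
  have h4 : 5 ≤ (T ∩ O).card := by
    rw [← hF]
    exact Finset.card_le_card (Finset.subset_inter hFT hFO)
  omega

theorem exists_tetrad (T : Finset GolayPt) (hT : T.card = 4) (p : GolayPt) :
    ∃ T', symmDiff T T' ∈ Words ∧ T'.card = 4 ∧ p ∈ T' := by
  by_cases hp : p ∈ T
  · exact ⟨T, by rw [symmDiff_self]; exact empty_mem, hT, hp⟩
  obtain ⟨O, hO, hO8, hFO⟩ := steiner (insert p T) (by rw [Finset.card_insert_of_notMem hp, hT])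
  have hTO : T ⊆ O := (Finset.subset_insert p T).trans hFO
  refine ⟨O \ T, ?_, ?_, ?_⟩
  · have : symmDiff T (O \ T) = O := by
      ext i
      simp only [Finset.mem_symmDiff, Finset.mem_sdiff]
      have := @hTO i
      tauto
    rwa [this]
  · rw [Finset.card_sdiff_of_subset hTO, hO8, hT]
  · exact Finset.mem_sdiff.2 ⟨hFO (Finset.mem_insert_self p T), hp⟩

theorem exists_outside (X T : Finset GolayPt) (h : T.card < X.card) : ∃ y ∈ X, y ∉ T := by
  by_contra hcon
  push Not at hcon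
  exact absurd (Finset.card_le_card hcon) (by omega)

theorem card_compl24 (X : Finset GolayPt) : Xᶜ.card = 24 - X.card := by
  rw [Finset.card_compl, card_golayPt]

theorem smul_symmDiff' (g : Equiv.Perm GolayPt) (S T : Finset GolayPt) :
    g • symmDiff S T = symmDiff (g • S) (g • T) := by
  ext i
  simp only [Finset.mem_symmDiff, Finset.mem_smul_finset]
  constructor
  · rintro ⟨y, h | h, rfl⟩
    · refine Or.inl ⟨⟨y, h.1, rfl⟩, ?_⟩
      rintro ⟨z, hz, hzy⟩
      have : z = y := g.injective hzy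
      exact h.2 (this ▸ hz)
    · refine Or.inr ⟨⟨y, h.1, rfl⟩, ?_⟩
      rintro ⟨z, hz, hzy⟩
      have : z = y := g.injective hzy
      exact h.2 (this ▸ hz)
  · rintro (⟨⟨y, hy, rfl⟩, h⟩ | ⟨⟨y, hy, rfl⟩, h⟩)
    · exact ⟨y, Or.inl ⟨hy, fun hy' => h ⟨y, hy', rfl⟩⟩, rfl⟩
    · exact ⟨y, Or.inr ⟨hy, fun hy' => h ⟨y, hy', rfl⟩⟩, rfl⟩

theorem smul_mem_words {g : Equiv.Perm GolayPt} (hg : g ∈ M24) {c : Finset GolayPt}
    (hc : c ∈ Words) : g • c ∈ Words := by
  have h : g • Words = Words := hg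
  rw [← h]
  exact Set.smul_mem_smul_set hc

/-- The combinatorial core. -/
theorem core (X : Finset GolayPt) (G0 : Set (Equiv.Perm GolayPt)) (hG : ∀ g ∈ G0, g ∈ M24)
    (h1 : ∀ t y, t ∈ X → y ∈ X → ∃ g ∈ G0, g t = y) (p : GolayPt)
    (h2 : ∀ t y, t ∈ X → y ∈ X → t ≠ p → y ≠ p → ∃ g ∈ G0, g p = p ∧ g t = y)
    (h3 : ∀ t y, t ∉ X → y ∉ X → ∃ g ∈ G0, g p = p ∧ g t = y)
    (hX : 5 ≤ X.card) (hX' : X.card ≤ 19) (S : Finset GolayPt) (hS : S ∉ Words) :
    ∃ g ∈ G0, symmDiff (g • S) S ∉ Words := by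
  by_contra hcon
  push Not at hcon
  -- transfer to another representative
  have key : ∀ T, symmDiff S T ∈ Words → ∀ g ∈ G0, symmDiff (g • T) T ∈ Words := by
    intro T hT g hg
    have e1 : symmDiff (g • S) (g • T) ∈ Words := by
      rw [← smul_symmDiff']
      exact smul_mem_words (hG g hg) hT
    exact symmDiff_trans_mem (symmDiff_trans_mem (symmDiff_comm_mem e1) (hcon g hg)) hT
  have hne : ∀ T, symmDiff S T ∈ Words → T.Nonempty := by
    intro T hT
    rw [Finset.nonempty_iff_ne_empty]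
    rintro rfl
    apply hS
    have : symmDiff S ∅ = S := symmDiff_bot S
    rwa [this] at hT
  -- an invariant set is impossible
  have fix_or : ∀ T : Finset GolayPt, symmDiff S T ∈ Words → T.card ≤ 4 → ∀ g ∈ G0,
      (T.card ≤ 3 ∨ (g • T ∩ T).Nonempty) → g • T = T := by
    intro T hT hc g hg hor
    by_contra hgT
    have hn : (symmDiff (g • T) T).Nonempty := by
      rw [Finset.nonempty_iff_ne_empty]
      intro h
      exact hgT (symmDiff_eq_bot.1 h)
    have h8 := eight_le_card (key T hT g hg) hn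
    have h9 := GolayBase.card_symmDiff_add (g • T) T
    rw [Finset.card_smul_finset] at h9
    rcases hor with h | h
    · omega
    · have := Finset.card_pos.2 h
      omega
  obtain ⟨T, hT, hT4⟩ := exists_small S
  have move : ∀ T : Finset GolayPt, ∀ g : Equiv.Perm GolayPt, g • T = T → ∀ t ∈ T, g t ∈ T := by
    intro T g h t ht
    have := Finset.smul_mem_smul_finset (a := g) ht
    rwa [h] at this
  by_cases hT3 : T.card ≤ 3
  · obtain ⟨t, ht⟩ := hne T hT
    by_cases htX : t ∈ X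
    · obtain ⟨y, hy, hyT⟩ := exists_outside X T (by omega)
      obtain ⟨g, hg, hgt⟩ := h1 t y htX hy
      exact hyT (hgt ▸ move T g (fix_or T hT hT4 g hg (Or.inl hT3)) t ht)
    · obtain ⟨y, hy, hyT⟩ := exists_outside Xᶜ T (by rw [card_compl24]; omega)
      obtain ⟨g, hg, -, hgt⟩ := h3 t y htX (Finset.mem_compl.1 hy)
      exact hyT (hgt ▸ move T g (fix_or T hT hT4 g hg (Or.inl hT3)) t ht)
  · obtain ⟨U, hU, hU4, hpU⟩ := exists_tetrad T (by omega) p
    have hSU := symmDiff_trans_mem hT hU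
    have hfix : ∀ g ∈ G0, g p = p → g • U = U := by
      intro g hg hgp
      refine fix_or U hSU hU4.le g hg (Or.inr ⟨p, Finset.mem_inter.2 ⟨?_, hpU⟩⟩)
      have := Finset.smul_mem_smul_finset (a := g) hpU
      rwa [Equiv.Perm.smul_def, hgp] at this
    obtain ⟨t, ht, htp⟩ : ∃ t ∈ U, t ≠ p := by
      obtain ⟨t, ht, htp⟩ := exists_outside U {p} (by rw [hU4]; simp)
      exact ⟨t, ht, by simpa using htp⟩
    by_cases htX : t ∈ X
    · obtain ⟨y, hy, hyU⟩ := exists_outside X U (by omega)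
      have hyp : y ≠ p := fun h => hyU (h ▸ hpU)
      obtain ⟨g, hg, hgp, hgt⟩ := h2 t y htX hy htp hyp
      exact hyU (hgt ▸ move U g (hfix g hg hgp) t ht)
    · obtain ⟨y, hy, hyU⟩ := exists_outside Xᶜ U (by rw [card_compl24]; omega)
      obtain ⟨g, hg, hgp, hgt⟩ := h3 t y htX (Finset.mem_compl.1 hy)
      exact hyU (hgt ▸ move U g (hfix g hg hgp) t ht)

/-- Extending an injective pair inside a set to five points. -/
theorem exists_five (X : Finset GolayPt) (hX : 6 ≤ X.card) (p t y : GolayPt) (hp : p ∈ X) (ht : t ∈ X)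
    (hy : y ∈ X) (htp : t ≠ p) (hyp : y ≠ p) : ∃ a b : Fin 5 ↪ GolayPt, (∀ i, a i ∈ X) ∧
      (∀ i, b i ∈ X) ∧ a 0 = p ∧ b 0 = p ∧ a 1 = t ∧ b 1 = y ∧ ∀ i, 2 ≤ i → a i = b i := by
  have hc : 3 ≤ (X \ {p, t, y}).card := by
    have h1 := Finset.le_card_sdiff {p, t, y} X
    have h2 : ({p, t, y} : Finset GolayPt).card ≤ 3 := Finset.card_le_three
    omega
  obtain ⟨F, hF, hF3⟩ := Finset.exists_subset_card_eq hc
  obtain ⟨u, v, w, huv, huw, hvw, rfl⟩ := Finset.card_eq_three.1 hF3
  have hu := hF (show u ∈ ({u, v, w} : Finset GolayPt) by simp)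
  have hv := hF (show v ∈ ({u, v, w} : Finset GolayPt) by simp)
  have hw := hF (show w ∈ ({u, v, w} : Finset GolayPt) by simp)
  simp only [Finset.mem_sdiff, Finset.mem_insert, Finset.mem_singleton, not_or] at hu hv hw
  obtain ⟨huX, hup, hut, huy⟩ := hu
  obtain ⟨hvX, hvp, hvt, hvy⟩ := hv
  obtain ⟨hwX, hwp, hwt, hwy⟩ := hw
  refine ⟨⟨![p, t, u, v, w], ?_⟩, ⟨![p, y, u, v, w], ?_⟩, ?_, ?_, rfl, rfl, rfl, rfl, ?_⟩
  · intro i j
    fin_cases i <;> fin_cases j <;> simp [*, Ne.symm, eq_comm] <;> tauto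
  · intro i j
    fin_cases i <;> fin_cases j <;> simp [*, Ne.symm, eq_comm] <;> tauto
  · intro i
    fin_cases i
    exacts [hp, ht, huX, hvX, hwX]
  · intro i
    fin_cases i
    exacts [hp, hy, huX, hvX, hwX]
  · intro i hi
    fin_cases i
    · exact absurd hi (by decide)
    · exact absurd hi (by decide)
    all_goals rfl

/-- Two words of weight 8 sharing five points are equal. -/
theorem octad_eq {O O' : Finset GolayPt} (hO : O ∈ Words) (hO' : O' ∈ Words) (h8 : O.card = 8)
    (h8' : O'.card = 8) (h : 5 ≤ (O ∩ O').card) : O = O' := by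
  by_contra hne
  have hn : (symmDiff O O').Nonempty := by
    rw [Finset.nonempty_iff_ne_empty]
    intro h
    exact hne (symmDiff_eq_bot.1 h)
  have h1 := eight_le_card (symmDiff_mem hO hO') hn
  have h2 := GolayBase.card_symmDiff_add O O'
  omega

theorem octad_case (O : Finset GolayPt) (hO : O ∈ Words) (h8 : O.card = 8) (S : Finset GolayPt)
    (hS : S ∉ Words) : ∃ g, (g ∈ M24 ∧ g • O = O) ∧ symmDiff (g • S) S ∉ Words := by
  obtain ⟨p, hp⟩ : O.Nonempty := Finset.card_pos.1 (by omega)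
  have h2 : ∀ p t y, p ∈ O → t ∈ O → y ∈ O → t ≠ p → y ≠ p →
      ∃ g ∈ {g : Equiv.Perm GolayPt | g ∈ M24 ∧ g • O = O}, g p = p ∧ g t = y := by
    intro p t y hp ht hy htp hyp
    obtain ⟨a, b, ha, hb, ha0, hb0, ha1, hb1, -⟩ := exists_five O (by omega) p t y hp ht hy htp hyp
    have h5 := Cfsg.Agent.S0366.result
    rw [MulAction.isMultiplyPretransitive_iff] at h5
    obtain ⟨g, hg⟩ := h5 a b
    have hga : ∀ i, (g : Equiv.Perm GolayPt) (a i) = b i := fun i => by
      have := DFunLike.congr_fun hg i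
      exact this
    refine ⟨g, ⟨g.2, ?_⟩, ?_, ?_⟩
    · refine octad_eq (smul_mem_words g.2 hO) hO ?_ h8 ?_
      · rw [Finset.card_smul_finset, h8]
      · have hsub : Finset.univ.map b ⊆ ((g : Equiv.Perm GolayPt) • O) ∩ O := by
          intro x hx
          obtain ⟨i, -, rfl⟩ := Finset.mem_map.1 hx
          refine Finset.mem_inter.2 ⟨?_, hb i⟩
          rw [← hga i]
          exact Finset.smul_mem_smul_finset (ha i)
        have := Finset.card_le_card hsub
        rwa [Finset.card_map, Finset.card_univ, Fintype.card_fin] at this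
    · have := hga 0
      rwa [ha0, hb0] at this
    · have := hga 1
      rwa [ha1, hb1] at this
  refine core O {g | g ∈ M24 ∧ g • O = O} (fun g hg => hg.1) ?_ p (fun t y => h2 p t y hp) ?_
    (by omega) (by omega) S hS
  · intro t y ht hy
    obtain ⟨q, hq, hq'⟩ := exists_outside O {t, y} (by
      have : ({t, y} : Finset GolayPt).card ≤ 2 := Finset.card_le_two
      omega)
    simp only [Finset.mem_insert, Finset.mem_singleton, not_or] at hq'
    obtain ⟨g, hg, -, hgt⟩ := h2 q t y hq ht hy (Ne.symm hq'.1) (Ne.symm hq'.2)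
    exact ⟨g, hg, hgt⟩
  · intro t y ht hy
    obtain ⟨g, ⟨hg, hgt⟩, -⟩ := OctadFix.existsUnique_fixOct (o := O) ⟨hO, h8⟩ ht hy
    rw [OctadFix.mem_fixOct] at hg
    refine ⟨g, ⟨hg.1, ?_⟩, hg.2 p hp, hgt⟩
    apply Finset.eq_of_subset_of_card_le
    · intro x hx
      obtain ⟨z, hz, rfl⟩ := Finset.mem_smul_finset.1 hx
      rw [Equiv.Perm.smul_def, hg.2 z hz]
      exact hz
    · rw [Finset.card_smul_finset]

theorem dodecad_case (D : Finset GolayPt) (hD : D ∈ Words) (h12 : D.card = 12) (S : Finset GolayPt)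
    (hS : S ∉ Words) : ∃ g, (g ∈ M24 ∧ g • D = D) ∧ symmDiff (g • S) S ∉ Words := by
  obtain ⟨p, hp⟩ : D.Nonempty := Finset.card_pos.1 (by omega)
  have h2 : ∀ p t y, p ∈ D → t ∈ D → y ∈ D → t ≠ p → y ≠ p →
      ∃ g ∈ {g : Equiv.Perm GolayPt | g ∈ M24 ∧ g • D = D}, g p = p ∧ g t = y := by
    intro p t y hp ht hy htp hyp
    obtain ⟨a, b, ha, hb, ha0, hb0, ha1, hb1, -⟩ := exists_five D (by omega) p t y hp ht hy htp hyp
    obtain ⟨g, ⟨hg, hgD, hga⟩, -⟩ :=
      Cfsg.Agent.SporadicStructure.DodecadM12.exists_unique_dodecad_map D D ⟨hD, h12⟩ ⟨hD, h12⟩ a b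
        a.injective b.injective ha hb
    refine ⟨g, ⟨hg, hgD⟩, ?_, ?_⟩
    · have := hga 0
      rwa [ha0, hb0] at this
    · have := hga 1
      rwa [ha1, hb1] at this
  refine core D {g | g ∈ M24 ∧ g • D = D} (fun g hg => hg.1) ?_ p (fun t y => h2 p t y hp) ?_
    (by omega) (by omega) S hS
  · intro t y ht hy
    obtain ⟨q, hq, hq'⟩ := exists_outside D {t, y} (by
      have : ({t, y} : Finset GolayPt).card ≤ 2 := Finset.card_le_two
      omega)
    simp only [Finset.mem_insert, Finset.mem_singleton, not_or] at hq'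
    obtain ⟨g, hg, -, hgt⟩ := h2 q t y hq ht hy (Ne.symm hq'.1) (Ne.symm hq'.2)
    exact ⟨g, hg, hgt⟩
  · intro t y ht hy
    have hDc : Dᶜ.card = 12 := by rw [card_compl24]; omega
    have hex : ∃ a b : Fin 3 ↪ GolayPt, (∀ i, a i ∉ D) ∧ (∀ i, b i ∉ D) ∧ a 0 = t ∧ b 0 = y := by
      have hF : 2 ≤ (Dᶜ \ {t, y}).card := by
        have h1 := Finset.le_card_sdiff {t, y} Dᶜ
        have h2 : ({t, y} : Finset GolayPt).card ≤ 2 := Finset.card_le_two
        omega
      obtain ⟨F, hF, hF2⟩ := Finset.exists_subset_card_eq hF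
      obtain ⟨u, v, huv, rfl⟩ := Finset.card_eq_two.1 hF2
      have hu := hF (show u ∈ ({u, v} : Finset GolayPt) by simp)
      have hv := hF (show v ∈ ({u, v} : Finset GolayPt) by simp)
      simp only [Finset.mem_sdiff, Finset.mem_compl, Finset.mem_insert, Finset.mem_singleton,
        not_or] at hu hv
      obtain ⟨huD, hut, huy⟩ := hu
      obtain ⟨hvD, hvt, hvy⟩ := hv
      refine ⟨⟨![t, u, v], ?_⟩, ⟨![y, u, v], ?_⟩, ?_, ?_, rfl, rfl⟩
      · intro i j
        fin_cases i <;> fin_cases j <;> simp [*, Ne.symm, eq_comm] <;> tauto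
      · intro i j
        fin_cases i <;> fin_cases j <;> simp [*, Ne.symm, eq_comm] <;> tauto
      · intro i
        fin_cases i
        exacts [ht, huD, hvD]
      · intro i
        fin_cases i
        exacts [hy, huD, hvD]
    obtain ⟨a, b, ha, hb, ha0, hb0⟩ := hex
    obtain ⟨g, hg, hgab⟩ := Cfsg.Agent.S0389.result D ⟨hD, h12⟩ p hp a b ha hb
    refine ⟨g, ⟨g.2, hg.1⟩, hg.2, ?_⟩
    have := hgab 0
    rwa [ha0, hb0] at this

theorem support₂_perm (w : GolayPt → ZMod 2) (g : Equiv.Perm GolayPt) :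
    support₂ (fun p => w (g.symm p)) = g • support₂ w := by
  ext i
  rw [mem_support₂, Finset.mem_smul_finset]
  constructor
  · intro h
    exact ⟨g.symm i, (mem_support₂ _ _).2 h, g.apply_symm_apply i⟩
  · rintro ⟨j, hj, rfl⟩
    rw [Equiv.Perm.smul_def, Equiv.symm_apply_apply]
    exact (mem_support₂ _ _).1 hj

theorem words_of_sub {w w' : GolayPt → ZMod 2} :
    w - w' ∈ golayCode ↔ symmDiff (support₂ w) (support₂ w') ∈ Words := by
  rw [mem_words_iff, ind_symmDiff, ind_support₂, ind_support₂]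
  have : w - w' = w + w' := by
    funext i
    exact CharTwo.sub_eq_add _ _
  rw [this]

theorem smul_compl' (g : Equiv.Perm GolayPt) (S : Finset GolayPt) (h : g • Sᶜ = Sᶜ) : g • S = S := by
  ext i
  have h1 : i ∈ g • Sᶜ ↔ i ∈ Sᶜ := by rw [h]
  rw [Finset.mem_compl, Finset.mem_smul_finset] at h1
  rw [Finset.mem_smul_finset]
  constructor
  · rintro ⟨y, hy, rfl⟩
    by_contra hn
    obtain ⟨z, hz, hzy⟩ := h1.2 hn
    have : z = y := g.injective hzy
    subst this
    exact (Finset.mem_compl.1 hz) hy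
  · intro hi
    refine ⟨g.symm i, ?_, g.apply_symm_apply i⟩
    by_contra hn
    exact h1.1 ⟨g.symm i, Finset.mem_compl.2 hn, g.apply_symm_apply i⟩ hi

theorem words_case (U : Finset GolayPt) (hU : U ∈ Words) (S : Finset GolayPt)
    (hS : S ∉ Words) : ∃ g, (g ∈ M24 ∧ g • U = U) ∧ symmDiff (g • S) S ∉ Words := by
  have htriv : ∀ U : Finset GolayPt, (∀ g : Equiv.Perm GolayPt, g • U = U) →
      ∃ g, (g ∈ M24 ∧ g • U = U) ∧ symmDiff (g • S) S ∉ Words := by
    intro U hg
    obtain ⟨F, hF⟩ := Finset.exists_subset_card_eq (s := (Finset.univ : Finset GolayPt)) (n := 5)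
      (by rw [Finset.card_univ, card_golayPt]; norm_num)
    obtain ⟨O, hO, h8, -⟩ := steiner F hF.2
    obtain ⟨g, hg', hgS⟩ := octad_case O hO h8 S hS
    exact ⟨g, ⟨hg'.1, hg g⟩, hgS⟩
  rcases GolayBase.card_of_mem_supports hU with h | h | h | h | h
  · rw [Finset.card_eq_zero] at h
    subst h
    exact htriv ∅ fun g => Finset.smul_finset_empty g
  · exact octad_case U hU h S hS
  · exact dodecad_case U hU h S hS
  · obtain ⟨g, hg, hgS⟩ := octad_case Uᶜ (compl_mem hU) (by rw [card_compl24]; omega) S hS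
    exact ⟨g, ⟨hg.1, smul_compl' g U hg.2⟩, hgS⟩
  · have : U = Finset.univ := by
      apply Finset.eq_univ_of_card
      rw [h, card_golayPt]
    subst this
    exact htriv _ fun g => Finset.smul_finset_univ

/-- Let u be a word of the length-24 binary Golay code of the definitions (possibly zero or all-ones) and w any binary word of length 24 outside the code. Then some automorphism of the code (a coordinate permutation preserving it) fixes u but moves w to a word not congruent to w modulo the code: the stabilizer of a codeword fixes no non-zero element of the quotient of the space of all words by the code. -/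
theorem result (u : (Cfsg.GolayPt → ZMod 2)) (hu : u ∈ Cfsg.golayCode) (w : (Cfsg.GolayPt → ZMod 2)) (hw : w ∉ Cfsg.golayCode) : ∃ σ ∈ Cfsg.M24, (fun p => u (σ.symm p)) = u ∧ (fun p => w (σ.symm p)) - w ∉ Cfsg.golayCode := by
  have hS : support₂ w ∉ Words := by
    rw [mem_words_iff, ind_support₂]
    exact hw
  obtain ⟨g, ⟨hg, hgU⟩, hgS⟩ := words_case (support₂ u) (support₂_mem hu) (support₂ w) hS
  refine ⟨g, hg, ?_, ?_⟩
  · have h1 := support₂_perm u g
    rw [hgU] at h1
    have h2 := congrArg ind h1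
    rwa [ind_support₂, ind_support₂] at h2
  · rw [words_of_sub, support₂_perm]
    exact hgS

end Cfsg.Agent.S5550
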