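import Cfsg.Statements.S5552
import Cfsg.Prelude.Def_Spor_Conway
import Cfsg.Agent.Leech.Basic
import Cfsg.Agent.SporadicA.Norm64
import Cfsg.Agent.S0400
import Cfsg.Agent.S0401
import Cfsg.Agent.S1570

set_option autoImplicit false
open Cfsg

namespace Cfsg.Agent.S5552

open Cfsg.Agent.Leech.Basic

/-- `(-3, 1²³)`. -/
def f3 : GolayPt → ℤ := fun p => if p = none then -3 else 1

/-- `-4` at the residues 0 and 1. -/
def f2 : GolayPt → ℤ := fun p => if p = some 0 then -4 else if p = some 1 then -4 else 0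

/-- `4` at the residues 2 and 3. -/
def f4 : GolayPt → ℤ := fun p => if p = some 2 then 4 else if p = some 3 then 4 else 0

/-- `(-5, -1²³)` and relatives are in the prelude; `(-3, 1²³)` as a lattice vector. -/
def l3 : leechLattice := ⟨f3, AddSubgroup.subset_closure
  (Spor.mem_leechSet_of_const_mod_four f3 1 1 (by decide) (by decide) (by decide))⟩

def l2 : leechLattice := ⟨f2, AddSubgroup.subset_closure
  (Spor.mem_leechSet_of_const_mod_four f2 0 0 (by decide) (by decide) (by decide))⟩

def l4 : leechLattice := ⟨f4, AddSubgroup.subset_closure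
  (Spor.mem_leechSet_of_const_mod_four f4 0 0 (by decide) (by decide) (by decide))⟩

/-- Half the norm, modulo two. -/
def q0 (v : GolayPt → ℤ) : ZMod 2 := ((sqNorm v / 16 : ℤ) : ZMod 2)

theorem q0_add_two (v w : GolayPt → ℤ) (hv : v ∈ leechLattice) (hw : w ∈ leechLattice) :
    q0 (v + (w + w)) = q0 v := by
  obtain ⟨k, hk⟩ := sixteen_dvd_sqNorm hv
  obtain ⟨m, hm⟩ := sixteen_dvd_sqNorm hw
  obtain ⟨d, hd⟩ := eight_dvd_dotInt hv hw
  have h : sqNorm (v + (w + w)) = 16 * (k + 2 * (d + 2 * m)) := by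
    rw [sqNorm_add, sqNorm_add, dotInt_add_right, dotInt_self, hk, hm, hd]
    ring
  unfold q0
  rw [h, hk, Int.mul_ediv_cancel_left _ (by norm_num), Int.mul_ediv_cancel_left _ (by norm_num)]
  push_cast
  have : (2 : ZMod 2) = 0 := rfl
  rw [this, zero_mul, add_zero]

/-- On the Leech lattice of the definitions, let Q be a function to the field with two elements that is constant on cosets of twice the lattice, is a quadratic form there (Q(u+v+w) + Q(u) + Q(v) + Q(w) = Q(u+v) + Q(u+w) + Q(v+w) for all u, v, w), is invariant under every lattice automorphism, and is not identically zero. Then Q(v) is the squared length of v divided by 16, reduced modulo 2, for every lattice vector v (squared lengths of lattice vectors are multiples of 16). -/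
theorem result (Q : ↥Cfsg.leechLattice → ZMod 2) (hcoset : ∀ v w : ↥Cfsg.leechLattice, Q (v + (w + w)) = Q v) (hquad : ∀ u v w : ↥Cfsg.leechLattice, Q (u + v + w) + Q u + Q v + Q w = Q (u + v) + Q (u + w) + Q (v + w)) (hinv : ∀ (g : ↥Cfsg.Co0) (v : ↥Cfsg.leechLattice), Q (g • v) = Q v) (hne : ∃ v : ↥Cfsg.leechLattice, Q v ≠ 0) (v : ↥Cfsg.leechLattice) : Q v = ((Cfsg.sqNorm (v : Cfsg.GolayPt → ℤ) / 16 : ℤ) : ZMod 2) := by
  have h0 : Q 0 = 0 := by
    have h := hquad 0 0 0
    simp only [add_zero] at h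
    generalize Q 0 = x at h
    revert h
    revert x
    decide
  have T32 : ∀ v w : leechLattice, sqNorm (v : GolayPt → ℤ) = 32 → sqNorm (w : GolayPt → ℤ) = 32 →
      Q v = Q w := by
    intro v w hv hw
    obtain ⟨g, hg⟩ := Cfsg.Agent.S0400.result v w hv hw
    rw [← hg, hinv]
  have T48 : ∀ v w : leechLattice, sqNorm (v : GolayPt → ℤ) = 48 → sqNorm (w : GolayPt → ℤ) = 48 →
      Q v = Q w := by
    intro v w hv hw
    obtain ⟨g, hg⟩ := Cfsg.Agent.S0401.result v w hv hw
    rw [← hg, hinv]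
  have T64 : ∀ v w : leechLattice, sqNorm (v : GolayPt → ℤ) = 64 → sqNorm (w : GolayPt → ℤ) = 64 →
      Q v = Q w := by
    intro v w hv hw
    obtain ⟨g, hg⟩ := Cfsg.Agent.SporadicA.Norm64.orbit64 v w hv hw
    rw [← hg, hinv]
  have n1 : sqNorm (Spor.leechU : GolayPt → ℤ) = 32 := by decide +kernel
  have n2 : sqNorm (l2 : GolayPt → ℤ) = 32 := by decide +kernel
  have n3 : sqNorm (l3 : GolayPt → ℤ) = 32 := by decide +kernel
  have n4 : sqNorm (l4 : GolayPt → ℤ) = 32 := by decide +kernel
  have n12 : sqNorm ((Spor.leechU + l2 : leechLattice) : GolayPt → ℤ) = 32 := by decide +kernel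
  have n41 : sqNorm ((l4 + Spor.leechU : leechLattice) : GolayPt → ℤ) = 64 := by decide +kernel
  have n42 : sqNorm ((l4 + l2 : leechLattice) : GolayPt → ℤ) = 64 := by decide +kernel
  have n412 : sqNorm ((l4 + Spor.leechU + l2 : leechLattice) : GolayPt → ℤ) = 64 := by
    decide +kernel
  have n31 : sqNorm ((l3 + Spor.leechU : leechLattice) : GolayPt → ℤ) = 48 := by decide +kernel
  have n32 : sqNorm ((l3 + l2 : leechLattice) : GolayPt → ℤ) = 48 := by decide +kernel
  have n312 : sqNorm ((l3 + Spor.leechU + l2 : leechLattice) : GolayPt → ℤ) = 32 := by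
    decide +kernel
  have e1 := hquad l4 Spor.leechU l2
  have e2 := hquad l3 Spor.leechU l2
  rw [T64 _ _ n412 n41, T64 _ _ n42 n41, T32 _ _ n12 n1, T32 _ _ n4 n1, T32 _ _ n2 n1] at e1
  rw [T32 _ _ n312 n1, T48 _ _ n32 n31, T32 _ _ n12 n1, T32 _ _ n3 n1, T32 _ _ n2 n1] at e2
  have ha : Q Spor.leechU = 0 := by
    generalize Q Spor.leechU = a at e2
    generalize Q (l3 + Spor.leechU) = b at e2
    revert a b
    decide
  have hc : Q (l4 + Spor.leechU) = 0 := by
    generalize Q Spor.leechU = a at e1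
    generalize Q (l4 + Spor.leechU) = c at e1
    revert a c
    decide
  -- the comparison with the norm form
  have main : ∀ v : leechLattice, Q v = Q (l3 + Spor.leechU) * q0 (v : GolayPt → ℤ) := by
    intro v
    obtain ⟨y, hy, hyn, z, hz, hvyz⟩ := Cfsg.Agent.S1570.result v v.2
    have hv : (v : GolayPt → ℤ) = y + (z + z) := by
      rw [← two_smul ℕ z, ← hvyz]
      abel
    have hv' : v = (⟨y, hy⟩ : leechLattice) + (⟨z, hz⟩ + ⟨z, hz⟩) := Subtype.ext hv
    rw [hv, q0_add_two _ _ hy hz, hv', hcoset]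
    by_cases hy0 : y = 0
    · subst hy0
      have e0 : (⟨0, hy⟩ : leechLattice) = 0 := rfl
      have e00 : q0 (0 : GolayPt → ℤ) = 0 := by decide +kernel
      rw [e0, h0, e00, mul_zero]
    · have h32 := le_sqNorm hy hy0
      obtain ⟨k, hk⟩ := sixteen_dvd_sqNorm hy
      have hk' : k = 2 ∨ k = 3 ∨ k = 4 := by omega
      have hq : q0 y = (k : ZMod 2) := by
        unfold q0
        rw [hk, Int.mul_ediv_cancel_left _ (by norm_num)]
      rw [hq]
      rcases hk' with rfl | rfl | rfl
      · rw [T32 ⟨y, hy⟩ Spor.leechU (by rw [hk]; norm_num) n1, ha]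
        have : ((2 : ℤ) : ZMod 2) = 0 := rfl
        rw [this, mul_zero]
      · rw [T48 ⟨y, hy⟩ (l3 + Spor.leechU) (by rw [hk]; norm_num) n31]
        have : ((3 : ℤ) : ZMod 2) = 1 := rfl
        rw [this, mul_one]
      · rw [T64 ⟨y, hy⟩ (l4 + Spor.leechU) (by rw [hk]; norm_num) n41, hc]
        have : ((4 : ℤ) : ZMod 2) = 0 := rfl
        rw [this, mul_zero]
  have hb : Q (l3 + Spor.leechU) = 1 := by
    obtain ⟨w, hw⟩ := hne
    rw [main w] at hw
    generalize Q (l3 + Spor.leechU) = b at hw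
    generalize q0 (w : GolayPt → ℤ) = s at hw
    revert b s
    decide
  rw [main v, hb, one_mul]
  rfl

end Cfsg.Agent.S5552
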