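import Cfsg.Statements.S5576
import Cfsg.Agent.H859.Iso
import Cfsg.Agent.H859.ClassEleven

set_option autoImplicit false
open Cfsg

namespace Cfsg.Agent.S5576

/-- Let G be a finite non-abelian simple group of Janko-four type (an involution z whose centralizer H has an extraspecial largest normal 2-subgroup E of order 2^13 containing its centralizer in H, a normal subgroup N ≥ E of H with N/E of order 3 and H/N the automorphism group of M₂₂, and a subgroup P ≤ N of order 3 with C_E(P) = ⟨z⟩, N_H(P) ≠ C_H(P) and P ≤ C_H(P)′). Then G has exactly two conjugacy classes of elements of order 11. -/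
theorem result {G : Type*} [Group G] [Finite G] [IsSimpleGroup G] (hG : ¬ IsMulCommutative G) (hJ : Cfsg.IsOfJankoFourType G) :
    ∃ x y : G, orderOf x = 11 ∧ orderOf y = 11 ∧ ¬ IsConj x y ∧ ∀ w : G, orderOf w = 11 → IsConj w x ∨ IsConj w y := by
  obtain ⟨e⟩ := H859.Iso.exists_iso hJ
  have hc : ∀ a b : Cfsg.Spor.J4, IsConj (e a) (e b) → IsConj a b := by
    intro a b h
    obtain ⟨g, hg⟩ := isConj_iff.1 h
    refine isConj_iff.2 ⟨e.symm g, ?_⟩
    apply e.injective
    rw [map_mul, map_mul, map_inv, MulEquiv.apply_symm_apply]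
    exact hg
  refine ⟨e H859.SylEleven.x, e H859.NU.c, ?_, ?_, fun h => H859.ClassEleven.not_isConj (hc _ _ h), ?_⟩
  · rw [MulEquiv.orderOf_eq, H859.ClassEleven.orderOf_x]
  · rw [MulEquiv.orderOf_eq, H859.ClassEleven.orderOf_c]
  · intro w hw
    have h1 : orderOf (e.symm w) = 11 := by rw [MulEquiv.orderOf_eq, hw]
    have h2 : ∀ b : Cfsg.Spor.J4, IsConj (e.symm w) b → IsConj w (e b) := by
      intro b h
      have h3 := (e.toMonoidHom).map_isConj h
      simpa using h3
    exact (H859.ClassEleven.isConj_or h1).imp (h2 _) (h2 _)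

end Cfsg.Agent.S5576
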