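import Cfsg.Statements.S5583
import Cfsg.Agent.S0000
import Cfsg.Agent.S1265
import Cfsg.Agent.OrdDiv.Table
import Cfsg.Agent.H861.BabyElim

set_option autoImplicit false
open Cfsg

namespace Cfsg.Agent.S5583

/-- Let G be a finite non-abelian simple group with an involution τ whose centralizer C has generalized Fitting subgroup an extraspecial 2-group Q of order 2^23 of plus type (Q contains an elementary abelian subgroup of order 2^12), with C/Q isomorphic to the second Conway group, and suppose some conjugate of τ other than τ lies in Q. Then G is isomorphic to the Baby Monster. -/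
theorem result {G : Type*} [Group G] [Finite G] [IsSimpleGroup G] (hG : ¬ IsMulCommutative G) (τ : G) (Q : Subgroup ↥(Subgroup.centralizer ({τ} : Set G))) [Q.Normal] (hS : Cfsg.IsExtraspecialCentralizerSetting τ Q 11) (hplus : ∃ E : Subgroup ↥Q, Cfsg.IsElementaryAbelian 2 E ∧ Nat.card ↥E = 2 ^ 12) (hCo : Cfsg.Spor.IsoCo2 (↥(Subgroup.centralizer ({τ} : Set G)) ⧸ Q)) :
    Cfsg.Spor.IsoB G := by
  obtain ⟨hτ, hF, hQ, hcard, -⟩ := hS
  have h2c : Subgroup.centralizer (Q : Set ↥(Subgroup.centralizer ({τ} : Set G))) ≤ Q := by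
    have h := Cfsg.Agent.S1265.result (G := ↥(Subgroup.centralizer ({τ} : Set G)))
    rwa [hF] at h
  -- the order of the centraliser
  have hco : Nat.card (↥(Subgroup.centralizer ({τ} : Set G)) ⧸ Q) = 42305421312000 :=
    Cfsg.Agent.OrdDiv.table.spor _ (Cfsg.Agent.OrdDiv.Grp.co2, 42305421312000) (by decide) hCo
  have hC : Nat.card ↥(Subgroup.centralizer ({τ} : Set G)) = 42305421312000 * 2 ^ (2 * 11 + 1) := by
    rw [Subgroup.card_eq_card_quotient_mul_card_subgroup Q, hco, hcard]
  have H := Cfsg.Agent.H861.BabyElim.hyp_of_centralizer (w := 11) (k := 41) τ hτ Q hQ hcard h2c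
    (by rw [hC]; decide +kernel) (by rw [hC]; decide +kernel)
  have h5 : 5 ∣ Nat.card G := by
    refine dvd_trans ?_ (Subgroup.card_subgroup_dvd_card (Subgroup.centralizer ({τ} : Set G)))
    rw [hC]
    decide +kernel
  exact Cfsg.Agent.H861.BabyElim.elim Cfsg.Agent.OrdDiv.table Cfsg.Agent.S0000.result hG H h5

end Cfsg.Agent.S5583
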