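import Cfsg.Statements.S5584
import Cfsg.Agent.S1265
import Cfsg.Agent.S1673

set_option autoImplicit false
open Cfsg

namespace Cfsg.Agent.S5584

/-- Let G be a finite non-abelian simple group with an involution τ whose centralizer C has generalized Fitting subgroup an extraspecial 2-group Q of order 2^25 of plus type (Q contains an elementary abelian subgroup of order 2^13), with C/Q isomorphic to the first Conway group, and suppose some conjugate of τ other than τ lies in Q. Then G is isomorphic to the Monster. -/
theorem result {G : Type*} [Group G] [Finite G] [IsSimpleGroup G] (hG : ¬ IsMulCommutative G) (τ : G) (Q : Subgroup ↥(Subgroup.centralizer ({τ} : Set G))) [Q.Normal] (hS : Cfsg.IsExtraspecialCentralizerSetting τ Q 12) (hplus : ∃ E : Subgroup ↥Q, Cfsg.IsElementaryAbelian 2 E ∧ Nat.card ↥E = 2 ^ 13) (hCo : Cfsg.Spor.IsoCo1 (↥(Subgroup.centralizer ({τ} : Set G)) ⧸ Q)) :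
    Cfsg.Spor.IsoM G := by
  obtain ⟨hτ, hF, hQ, hcard, -⟩ := hS
  have h2c : Subgroup.centralizer (Q : Set ↥(Subgroup.centralizer ({τ} : Set G))) ≤ Q := by
    have h := Cfsg.Agent.S1265.result (G := ↥(Subgroup.centralizer ({τ} : Set G)))
    rwa [hF] at h
  exact Cfsg.Agent.S1673.result τ hτ Q hQ (by rw [hcard]) hplus h2c hCo

end Cfsg.Agent.S5584
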