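import Cfsg.Statements.S5585
import Cfsg.Agent.S1265
import Cfsg.Agent.S1670
import Cfsg.Agent.H861.JFour
import Cfsg.Agent.H861.TwoCentral

set_option autoImplicit false
open Cfsg

namespace Cfsg.Agent.S5585

/-- Let G be a finite non-abelian simple group with an involution τ whose centralizer C has generalized Fitting subgroup an extraspecial 2-group Q of order 2^13 of plus type (Q contains an elementary abelian subgroup of order 2^7), with a normal subgroup N ≥ Q of C such that N/Q has order 3 and is not complemented in C/Q, and C/N isomorphic to the automorphism group of M₂₂; suppose some conjugate of τ other than τ lies in Q. Then G is isomorphic to the fourth Janko group. -/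
theorem result {G : Type*} [Group G] [Finite G] [IsSimpleGroup G] (hG : ¬ IsMulCommutative G) (τ : G) (Q N : Subgroup ↥(Subgroup.centralizer ({τ} : Set G))) [Q.Normal] [N.Normal] (hS : Cfsg.IsExtraspecialCentralizerSetting τ Q 6) (hplus : ∃ E : Subgroup ↥Q, Cfsg.IsElementaryAbelian 2 E ∧ Nat.card ↥E = 2 ^ 7) (hQN : Q ≤ N) (hN3 : Nat.card ↥N = 3 * Nat.card ↥Q) (hns : ∀ K : Subgroup ↥(Subgroup.centralizer ({τ} : Set G)), K ⊓ N = Q → K ⊔ N = ⊤ → False) (hAut : Nonempty (↥(Subgroup.centralizer ({τ} : Set G)) ⧸ N ≃* MulAut ↥Cfsg.Spor.M22)) :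
    Cfsg.Spor.IsoJ4 G := by
  obtain ⟨hτ, hF, hQ, hcard, -⟩ := hS
  have h2c : Subgroup.centralizer (Q : Set ↥(Subgroup.centralizer ({τ} : Set G))) ≤ Q := by
    have h := Cfsg.Agent.S1265.result (G := ↥(Subgroup.centralizer ({τ} : Set G)))
    rwa [hF] at h
  obtain ⟨e⟩ := hAut
  -- the homomorphism to the stabiliser of a duad
  let f : ↥(Subgroup.centralizer ({τ} : Set G)) →* Equiv.Perm GolayPt :=
    Cfsg.Agent.KFacts.MM.OutAut.emb.comp (e.toMonoidHom.comp (QuotientGroup.mk' N))
  have hsur : Function.Surjective (e.toMonoidHom.comp (QuotientGroup.mk' N)) :=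
    e.surjective.comp (QuotientGroup.mk'_surjective N)
  have hr : f.range = Cfsg.Agent.J4Type.Aut22.D22 := by
    rw [← Cfsg.Agent.KFacts.MM.OutAut.emb_range, MonoidHom.range_comp,
      MonoidHom.range_eq_top.2 hsur, ← MonoidHom.range_eq_map]
  have hk : f.ker = N := by
    ext x
    rw [MonoidHom.mem_ker]
    show Cfsg.Agent.KFacts.MM.OutAut.emb (e (QuotientGroup.mk x)) = 1 ↔ x ∈ N
    rw [map_eq_one_iff _ Cfsg.Agent.KFacts.MM.OutAut.emb_inj, map_eq_one_iff _ e.injective]
    exact QuotientGroup.eq_one_iff x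
  obtain ⟨hNM, hM, hcent, hperf, hM22⟩ := Cfsg.Agent.H861.JFour.main Q N hQN hN3 hns f hr hk
  have hMn : ((Cfsg.Spor.M22).comap f).Normal := Subgroup.normal_of_index_eq_two hM
  refine Cfsg.Agent.S1670.result τ hτ Q N ((Cfsg.Spor.M22).comap f) hQN hNM hM hQ (by rw [hcard]) hplus hN3
    hcent hperf h2c ?_ hM22 (Cfsg.Agent.H861.TwoCentral.isTwoCentral τ hτ Q hQ.1.1 hQ.2 h2c)
  -- `c` centralising `M / N` is in `N`
  intro c hc
  rw [Subgroup.mem_comap]
  have h1 : ∀ m : Cfsg.Spor.M22, e (QuotientGroup.mk c) * MulAut.conj m * (e (QuotientGroup.mk c))⁻¹ *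
      (MulAut.conj m)⁻¹ = 1 := by
    intro m
    obtain ⟨x, hx⟩ := hsur (MulAut.conj m)
    have hx' : e (QuotientGroup.mk x) = MulAut.conj m := hx
    have hfx : f x = m := by
      show Cfsg.Agent.KFacts.MM.OutAut.emb (e (QuotientGroup.mk x)) = m
      rw [hx', Cfsg.Agent.KFacts.MM.OutAut.emb_conj]
    have h2 := hc x (by rw [Subgroup.mem_comap, hfx]; exact m.2)
    have h3 : (QuotientGroup.mk (c * x * c⁻¹ * x⁻¹) : ↥(Subgroup.centralizer ({τ} : Set G)) ⧸ N) = 1 :=
      (QuotientGroup.eq_one_iff _).2 h2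
    have h4 := congrArg e h3
    rw [map_one] at h4
    rw [← hx', ← map_mul, ← map_inv, ← map_inv, ← map_mul, ← map_mul]
    exact h4
  -- so it acts trivially
  have h2 : e (QuotientGroup.mk c) = 1 := by
    have hsimple : IsSimpleGroup Cfsg.Spor.M22 := Cfsg.Agent.SporadicA.MathieuRecog.simple_M22
    have hZ : Subgroup.center Cfsg.Spor.M22 = ⊥ := by
      rcases (inferInstance : (Subgroup.center Cfsg.Spor.M22).Normal).eq_bot_or_eq_top with h | h
      · exact h
      · exact absurd ⟨⟨fun a b => Subgroup.mem_center_iff.1 (h ▸ Subgroup.mem_top b) a⟩⟩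
          Cfsg.Agent.H861.JFour.not_comm
    apply MulEquiv.ext
    intro m
    have h3 := h1 m
    have h4 : MulAut.conj (e (QuotientGroup.mk c) m) = MulAut.conj m := by
      rw [mul_inv_eq_one] at h3
      rw [← h3]
      ext x
      simp [MulAut.conj_apply, map_mul, MulAut.mul_apply, MulAut.inv_def]
    have h5 : (e (QuotientGroup.mk c) m)⁻¹ * m ∈ Subgroup.center Cfsg.Spor.M22 := by
      rw [Subgroup.mem_center_iff]
      intro g
      have h6 := congrArg (fun φ => φ g) h4
      simp only [MulAut.conj_apply] at h6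
      have h7 : g * (e (QuotientGroup.mk c) m)⁻¹ = (e (QuotientGroup.mk c) m)⁻¹ * (m * g * m⁻¹) := by
        rw [← h6]; group
      rw [← mul_assoc, h7]; group
    rw [hZ, Subgroup.mem_bot, inv_mul_eq_one] at h5
    exact h5
  have h3 : f c = 1 := by
    show Cfsg.Agent.KFacts.MM.OutAut.emb (e (QuotientGroup.mk c)) = 1
    rw [h2, map_one]
  rw [h3]
  exact one_mem _

end Cfsg.Agent.S5585
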