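import Cfsg.Statements.S5586
import Cfsg.Agent.H861.RZZ

set_option autoImplicit false
open Cfsg

namespace Cfsg.Agent.S5586

/-- The Monster is the only group generated by three subgroups C, N, L of the following kind: the largest normal 2-subgroup of C is extraspecial of order 2^25 of plus type, contains its centralizer in C, and has quotient C modulo it isomorphic to the first Conway group; N modulo its largest normal 2-subgroup is isomorphic to the direct product of the symmetric group of degree 3 and M₂₄; L modulo its largest normal 2-subgroup is the direct product of a normal subgroup isomorphic to L₃(2) and a normal subgroup B of order 2160 having a normal subgroup T of order 3 with B/T the symmetric group of degree 6, with T centralized by a subgroup of index 2 of B and with the commutator subgroup of B perfect of order 1080 (the triple cover of the alternating group of degree 6 extended by an automorphism); and the indices [N : N ∩ C] = 3,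 [L : L ∩ N] = [L : L ∩ C] = 7 and [L : L ∩ N ∩ C] = 21. -/
theorem result {G : Type*} [Group G] (C N L : Subgroup G) (hgen : C ⊔ N ⊔ L = ⊤)
    (hQ : Cfsg.IsExtraspecial 2 ↥((Cfsg.pCore 2 ↥C).map C.subtype)) (hQc : Nat.card ↥((Cfsg.pCore 2 ↥C).map C.subtype) = 2 ^ 25)
    (hplus : ∃ E : Subgroup G, E ≤ ((Cfsg.pCore 2 ↥C).map C.subtype) ∧ Cfsg.IsElementaryAbelian 2 E ∧ Nat.card ↥E = 2 ^ 13)
    (hcc : C ⊓ Subgroup.centralizer (((Cfsg.pCore 2 ↥C).map C.subtype) : Set G) ≤ ((Cfsg.pCore 2 ↥C).map C.subtype))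
    (hCo : Cfsg.Spor.IsoCo1 (↥C ⧸ Cfsg.pCore 2 ↥C))
    (hN : Nonempty (↥N ⧸ Cfsg.pCore 2 ↥N ≃* Equiv.Perm (Fin 3) × ↥Cfsg.M24))
    (hL : ∃ A B : Subgroup (↥L ⧸ Cfsg.pCore 2 ↥L), A.Normal ∧ B.Normal ∧ A ⊓ B = ⊥ ∧ A ⊔ B = ⊤ ∧
      Nonempty (↥A ≃* Matrix.SpecialLinearGroup (Fin 3) (ZMod 2)) ∧ Nat.card ↥B = 2160 ∧
      ∃ (T : Subgroup ↥B) (_ : T.Normal), Nat.card ↥T = 3 ∧ Nonempty (↥B ⧸ T ≃* Equiv.Perm (Fin 6)) ∧
        (Subgroup.centralizer (T : Set ↥B)).index = 2 ∧ Nat.card ↥(commutator ↥B) = 1080 ∧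
        ⁅commutator ↥B, commutator ↥B⁆ = commutator ↥B)
    (hNC : C.relIndex N = 3) (hLN : N.relIndex L = 7) (hLC : C.relIndex L = 7) (hLNC : (N ⊓ C).relIndex L = 21) :
    Cfsg.Spor.IsoM G := by
  -- finiteness
  have hfinC : Finite C := by
    have e0 : Cfsg.pCore 2 ↥C ≃* (Cfsg.pCore 2 ↥C).map C.subtype :=
      (Cfsg.pCore 2 ↥C).equivMapOfInjective _ C.subtype_injective
    have h1 : Nat.card (Cfsg.pCore 2 ↥C) = 2 ^ 25 := by rw [← hQc]; exact Nat.card_congr e0.toEquiv
    obtain ⟨e⟩ := hCo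
    have h2 : Nat.card (↥C ⧸ Cfsg.pCore 2 ↥C) = 4157776806543360000 := by
      rw [Nat.card_congr e.toEquiv]; exact MonsterU.CoFrameF.card_Co1
    refine Nat.finite_of_card_ne_zero ?_
    rw [Subgroup.card_eq_card_quotient_mul_card_subgroup (Cfsg.pCore 2 ↥C), h1, h2]
    norm_num
  have hfinN : Finite N := by
    have h1 := H861.RUtil.card_inf_mul C N
    have h2 : Finite ↥(C ⊓ N) := Finite.Set.subset (C : Set G) inf_le_left
    have h3 : 0 < Nat.card ↥(C ⊓ N) := Nat.card_pos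
    refine Nat.finite_of_card_ne_zero ?_
    rw [← h1, hNC]
    omega
  have hfinL : Finite L := by
    have h1 := H861.RUtil.card_inf_mul C L
    have h2 : Finite ↥(C ⊓ L) := Finite.Set.subset (C : Set G) inf_le_left
    have h3 : 0 < Nat.card ↥(C ⊓ L) := Nat.card_pos
    refine Nat.finite_of_card_ne_zero ?_
    rw [← h1, hLC]
    omega
  obtain ⟨z, eta, pi, HC⟩ := H861.RChartOf.exists_chart C hQ hQc hcc hCo
  obtain ⟨φ, HN⟩ := H861.RZZ.nStr C N hfinN hN hNC
  obtain ⟨ρ, HL⟩ := H861.RZZ.lStr C N L hfinL (by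
    obtain ⟨A, B, h1, h2, h3, h4, h5, h6, -⟩ := hL
    exact ⟨A, B, h1, h2, h3, h4, h5, h6⟩) hLN hLC
  obtain ⟨f, u, eta', pi', nd, fL⟩ := H861.RX.exists_NData HC HN HL
  exact H861.RY.isoM ⟨nd, HL, fL, hLNC⟩ hgen

end Cfsg.Agent.S5586
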