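import Cfsg.Statements.S5588
import Cfsg.Agent.H862.Y555

set_option autoImplicit false
open Cfsg

namespace Cfsg.Agent.S5588

open Cfsg.Agent.Bimonster Cfsg.Agent.Bimonster.Tits

/-- the letters -/
def lt : ℕ → Spor.Bimonster.Gen
  | 0 => .a
  | 1 => .b1
  | 2 => .c1
  | 3 => .d1
  | 4 => .e1
  | 5 => .f1
  | 6 => .b2
  | 7 => .c2
  | 8 => .d2
  | 9 => .e2
  | 10 => .f2
  | 11 => .b3
  | 12 => .c3
  | 13 => .d3
  | 14 => .e3
  | _ => .f3

/-- numbers of the generators -/
def ix : Spor.Bimonster.Gen → ℕ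
  | .a => 0
  | .b1 => 1
  | .c1 => 2
  | .d1 => 3
  | .e1 => 4
  | .f1 => 5
  | .b2 => 6
  | .c2 => 7
  | .d2 => 8
  | .e2 => 9
  | .f2 => 10
  | .b3 => 11
  | .c3 => 12
  | .d3 => 13
  | .e3 => 14
  | .f3 => 15

theorem ix_lt : ∀ i < 16, ix (lt i) = i := by decide

theorem label (g k : Spor.Bimonster.Gen) :
    (g = k ∧ Spor.coxLabel Spor.Bimonster.edges g k = 1) ∨
      (adjB (ix g) (ix k) = true ∧ Spor.coxLabel Spor.Bimonster.edges g k = 3) ∨
      (adjB (ix g) (ix k) = false ∧ Spor.coxLabel Spor.Bimonster.edges g k = 2) := by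
  cases g <;> cases k <;> decide

theorem mem_nodes (g : Spor.Bimonster.Gen) : g ∈ Spor.coxNodes Spor.Bimonster.edges := by
  cases g <;> decide

/-- The relations of the Coxeter diagram from those of the presentation. -/
theorem cox_of {G : Type*} [Group G] {u : Spor.Bimonster.Gen → G}
    (h : ∀ g k, (u g * u k) ^ Spor.coxLabel Spor.Bimonster.edges g k = 1) : CoxRel 16 (fun i => u (lt i)) := by
  have hsq : ∀ g, u g * u g = 1 := by
    intro g
    have h1 := h g g
    have h2 : Spor.coxLabel Spor.Bimonster.edges g g = 1 := by unfold Spor.coxLabel; rw [if_pos rfl]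
    rwa [h2, pow_one] at h1
  have hinv : ∀ g, (u g)⁻¹ = u g := fun g => inv_eq_of_mul_eq_one_left (hsq g)
  refine ⟨fun i _ => hsq _, ?_, ?_⟩
  · intro i hi j hj hij
    have h3 := h (lt i) (lt j)
    show u (lt i) * u (lt j) = u (lt j) * u (lt i)
    rcases label (lt i) (lt j) with ⟨he, hl⟩ | ⟨ha, hl⟩ | ⟨ha, hl⟩
    · rw [he]
    · rw [ix_lt i hi, ix_lt j hj, hij] at ha
      exact absurd ha (by decide)
    · rw [hl, pow_two] at h3
      rw [eq_inv_of_mul_eq_one_left h3, mul_inv_rev, hinv, hinv]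
  · intro i hi j hj hij
    have h3 := h (lt i) (lt j)
    show u (lt i) * u (lt j) * u (lt i) = u (lt j) * u (lt i) * u (lt j)
    rcases label (lt i) (lt j) with ⟨he, hl⟩ | ⟨ha, hl⟩ | ⟨ha, hl⟩
    · rw [he]
    · rw [hl, pow_three'] at h3
      have h4 : u (lt i) * u (lt j) * u (lt i) * (u (lt j) * u (lt i) * u (lt j)) = 1 := by
        rw [← h3]; simp only [mul_assoc]
      rw [eq_inv_of_mul_eq_one_left h4, mul_inv_rev, mul_inv_rev, hinv, hinv, mul_assoc]
    · rw [ix_lt i hi, ix_lt j hj, hij] at ha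
      exact absurd ha (by decide)

/-- In the group presented by the sixteen involutions of the Y₅₅₅ Coxeter diagram subject only to the Coxeter relations and the single spider relation (a b₁ c₁ a b₂ c₂ a b₃ c₃)^10 = 1, each of the further relators used in the definitions' presentation of the Bimonster (each end node equals the ninth power of the Coxeter element of a sub-diagram of type E₇) already holds. Equivalently, the Y₅₅₅ diagram with the spider relation alone presents the Bimonster. -/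
theorem result :
    ∀ r ∈ Cfsg.Spor.Bimonster.extra,
      (PresentedGroup.mk (Cfsg.Spor.coxRelators Cfsg.Spor.Bimonster.edges ∪ {r' | r' ∈ [(Cfsg.Spor.Bimonster.a * Cfsg.Spor.Bimonster.b1 * Cfsg.Spor.Bimonster.c1 * Cfsg.Spor.Bimonster.a * Cfsg.Spor.Bimonster.b2 * Cfsg.Spor.Bimonster.c2 * Cfsg.Spor.Bimonster.a * Cfsg.Spor.Bimonster.b3 * Cfsg.Spor.Bimonster.c3) ^ 10]}) r) = 1 := by
  generalize hR : (Cfsg.Spor.coxRelators Cfsg.Spor.Bimonster.edges ∪ {r' | r' ∈ [(Cfsg.Spor.Bimonster.a * Cfsg.Spor.Bimonster.b1 * Cfsg.Spor.Bimonster.c1 * Cfsg.Spor.Bimonster.a * Cfsg.Spor.Bimonster.b2 * Cfsg.Spor.Bimonster.c2 * Cfsg.Spor.Bimonster.a * Cfsg.Spor.Bimonster.b3 * Cfsg.Spor.Bimonster.c3) ^ 10]} : Set (FreeGroup Spor.Bimonster.Gen)) = R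
  have hcox : CoxRel 16 (fun i => PresentedGroup.mk R (FreeGroup.of (lt i))) := by
    apply cox_of (u := fun g => PresentedGroup.mk R (FreeGroup.of g))
    intro g k
    rw [← map_mul, ← map_pow]
    apply PresentedGroup.one_of_mem
    rw [← hR]
    exact Or.inl ⟨g, mem_nodes g, k, mem_nodes k, rfl⟩
  have hsp : ev (fun i => PresentedGroup.mk R (FreeGroup.of (lt i))) spW ^ 10 = 1 := by
    have h1 : PresentedGroup.mk R ((Cfsg.Spor.Bimonster.a * Cfsg.Spor.Bimonster.b1 * Cfsg.Spor.Bimonster.c1 * Cfsg.Spor.Bimonster.a * Cfsg.Spor.Bimonster.b2 * Cfsg.Spor.Bimonster.c2 * Cfsg.Spor.Bimonster.a * Cfsg.Spor.Bimonster.b3 * Cfsg.Spor.Bimonster.c3) ^ 10) = 1 := by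
      apply PresentedGroup.one_of_mem
      rw [← hR]
      exact Or.inr (by simp)
    rw [map_pow] at h1
    simp only [map_mul, mul_assoc] at h1
    simp only [spW, ev_cons, ev_nil, mul_one, lt]
    exact h1
  have h := H862.Y555.birel hcox hsp
  intro r hr
  simp only [Spor.Bimonster.extra, List.mem_cons, List.not_mem_nil, or_false] at hr
  rcases hr with rfl | rfl | rfl | rfl | rfl | rfl | rfl
  · have := h.spider
    simp only [spW, ev_cons, ev_nil, mul_one, lt] at this
    rw [map_pow]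
    simp only [map_mul, mul_assoc]
    exact this
  · have := h.f1a
    simp only [f1a, ev_cons, ev_nil, mul_one, lt] at this
    rw [map_mul, map_inv, map_pow, mul_inv_eq_one]
    simp only [map_mul, mul_assoc]
    exact this
  · have := h.f1b
    simp only [f1b, ev_cons, ev_nil, mul_one, lt] at this
    rw [map_mul, map_inv, map_pow, mul_inv_eq_one]
    simp only [map_mul, mul_assoc]
    exact this
  · have := h.f2a
    simp only [f2a, ev_cons, ev_nil, mul_one, lt] at this
    rw [map_mul, map_inv, map_pow, mul_inv_eq_one]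
    simp only [map_mul, mul_assoc]
    exact this
  · have := h.f2b
    simp only [f2b, ev_cons, ev_nil, mul_one, lt] at this
    rw [map_mul, map_inv, map_pow, mul_inv_eq_one]
    simp only [map_mul, mul_assoc]
    exact this
  · have := h.f3a
    simp only [f3a, ev_cons, ev_nil, mul_one, lt] at this
    rw [map_mul, map_inv, map_pow, mul_inv_eq_one]
    simp only [map_mul, mul_assoc]
    exact this
  · have := h.f3b
    simp only [f3b, ev_cons, ev_nil, mul_one, lt] at this
    rw [map_mul, map_inv, map_pow, mul_inv_eq_one]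
    simp only [map_mul, mul_assoc]
    exact this

end Cfsg.Agent.S5588
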