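import Cfsg.Statements.S5589
import Cfsg.Agent.H862.PMFacts
import Cfsg.Agent.H862.BiWr
import Cfsg.Agent.Bimonster.Bim

set_option autoImplicit false
open Cfsg

namespace Cfsg.Agent.S5589

open Cfsg.Agent.Bimonster Cfsg.Agent.Bimonster.Tits Cfsg.Agent.H862

theorem exists_setup : ∃ (φ : PM →* Spor.Bimonster) (sgn : Spor.Bimonster →* ℤˣ), Setup tB xM φ sgn ∧
    Function.Injective φ := by
  obtain ⟨φ, hφ⟩ := xM_univ Spor.Bimonster _ tB_birel.prel
  obtain ⟨sgn, hsgn⟩ := exists_sgn
  have hS : Setup tB xM φ sgn := ⟨tB_birel, tB_gen, xM_prel, PMFacts.zrel, xM_gen, hφ, hsgn⟩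
  obtain ⟨Ψ, hΨ⟩ := bi_univ (wT_birel xM_prel PMFacts.zrel)
  have hcomp : ∀ p : PM, Ψ (φ p) = wL p := by
    intro p
    have hp : p ∈ Subgroup.closure (nodes 14 xM) := by rw [xM_gen]; trivial
    induction hp using Subgroup.closure_induction with
    | mem y hy =>
      obtain ⟨i, hi, rfl⟩ := hy
      rw [hφ i hi, map_mul, hΨ 15 (by norm_num), hΨ i (by omega), wT_15, wT_lt xM hi, ← mul_assoc,
        wS_sq, one_mul]
    | one => simp only [map_one]
    | mul y z _ _ hy hz => rw [map_mul, map_mul, hy, hz, ← map_mul]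
    | inv y _ hy => rw [map_inv, map_inv, hy, ← map_inv]
  refine ⟨φ, sgn, hS, fun p q hpq => ?_⟩
  apply wL_inj
  rw [← hcomp, ← hcomp, hpq]

/-- The presented Bimonster is the wreath product of the Monster by a group of order 2: its commutator subgroup has index 2 and is isomorphic to the direct product of two copies of the Monster (the Monster being realised as in the definitions inside that commutator subgroup), and the Bimonster has trivial centre. -/
theorem result :
    (commutator Cfsg.Spor.Bimonster).index = 2 ∧ Subgroup.center Cfsg.Spor.Bimonster = ⊥ ∧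
    Nonempty (↥(commutator Cfsg.Spor.Bimonster) ≃* Cfsg.Spor.Monster × Cfsg.Spor.Monster) := by
  obtain ⟨φ, sgn, hS, hφ⟩ := exists_setup
  obtain ⟨m, hm⟩ := PMFacts.exists_swaps
  have hP : Nontrivial PM := MonsterP.Equiv.simple.toNontrivial
  refine ⟨BiWr.index_commutator hS, BiWr.center_eq hS fi_facts hφ xM_univ PMFacts.center_eq_one hP, ?_⟩
  obtain ⟨e⟩ := BiWr.commutator_equiv hS fi_facts hφ xM_univ hm PMFacts.center_eq_one
  obtain ⟨e'⟩ := MonsterP.Equiv.equivM
  exact ⟨e.trans (e'.symm.prodCongr e'.symm)⟩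

end Cfsg.Agent.S5589
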