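import Cfsg.Statements.S5590
import Cfsg.Agent.H863.SFin

set_option autoImplicit false
open Cfsg

namespace Cfsg.Agent.S5590

/-- Let F be a field of characteristic neither 2 nor 3 and ρ a faithful linear representation of the Baby Monster of degree 4371 over F. Then every extension of the Baby Monster by the corresponding module splits: if E is a group with an abelian normal subgroup A, an identification of E/A with the Baby Monster, and an additive identification of A with F^4371 under which conjugation by g ∈ E acts as ρ of the image of g, then A has a complement in E. -/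
theorem result (F : Type*) [Field F] (hF2 : ringChar F ≠ 2) (hF3 : ringChar F ≠ 3) (ρ : Cfsg.Spor.BabyMonster →* GL (Fin 4371) F) (hρ : Function.Injective ρ)
    (E : Type*) [Group E] (A : Subgroup E) [A.Normal] (e : E ⧸ A ≃* Cfsg.Spor.BabyMonster)
    (φ : Additive ↥A ≃+ (Fin 4371 → F))
    (hφ : ∀ (g : E) (a b : ↥A), (b : E) = g * a * g⁻¹ → φ (Additive.ofMul b) =
      (ρ (e (QuotientGroup.mk g)) : Matrix (Fin 4371) (Fin 4371) F).mulVec (φ (Additive.ofMul a))) :
    ∃ K : Subgroup E, A.IsComplement' K := by
  have h2 : (2 : F) ≠ 0 := Ring.two_ne_zero hF2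
  have h3 : (3 : F) ≠ 0 := by
    intro h
    have h1 : ((3 : ℕ) : F) = 0 := by exact_mod_cast h
    have h4 := (ringChar.spec F 3).1 h1
    rcases (Nat.dvd_prime Nat.prime_three).1 h4 with h5 | h5
    · have h6 := (ringChar.spec F 1).2 (by rw [h5])
      rw [Nat.cast_one] at h6
      exact one_ne_zero h6
    · exact hF3 h5
  obtain ⟨e₀, he₀⟩ := Cfsg.Agent.H863.BGL.equiv (Fintype.card_fin 4371) h2 hρ
  exact Cfsg.Agent.H863.SFin.complement h2 e₀ he₀ A e φ hφ h3

end Cfsg.Agent.S5590
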