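import Cfsg.Statements.S5592
import Cfsg.Agent.Leech.Basic

set_option autoImplicit false
open Cfsg

namespace Cfsg.Agent.S5592

open Cfsg.Agent.Leech.Basic in
/-- In the Leech lattice (integer coordinates, sum of squares equal to 8 times the customary norm, so the shortest non-zero vectors have sum of squares 32): if two distinct vectors of sum of squares at most 64 are congruent modulo twice the lattice, then either they are negatives of each other, or both have sum of squares 64 and they are orthogonal. -/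
theorem result (x y : Cfsg.GolayPt → ℤ) (hx : x ∈ Cfsg.leechLattice) (hy : y ∈ Cfsg.leechLattice) (hxy : x ≠ y) (hxn : Cfsg.sqNorm x ≤ 64) (hyn : Cfsg.sqNorm y ≤ 64) (hc : (∃ z ∈ Cfsg.leechLattice, x - y = 2 • z)) :
    x = -y ∨ (Cfsg.sqNorm x = 64 ∧ Cfsg.sqNorm y = 64 ∧ Cfsg.dotInt x y = 0) := by
  by_cases hneg : x = -y
  · exact Or.inl hneg
  right
  obtain ⟨z, hz, hxyz⟩ := hc
  have h2 : ∀ w : GolayPt → ℤ, sqNorm (2 • w) = 4 * sqNorm w := by
    intro w
    rw [two_nsmul, sqNorm_add, dotInt_self]; ring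
  have hz0 : z ≠ 0 := by
    rintro rfl
    apply hxy
    rw [smul_zero] at hxyz
    exact sub_eq_zero.1 hxyz
  have hxyz' : x + y = 2 • (z + y) := by
    rw [smul_add, ← hxyz, two_nsmul]; abel
  have hz0' : z + y ≠ 0 := by
    intro h
    apply hneg
    rw [h, smul_zero] at hxyz'
    exact eq_neg_of_add_eq_zero_left hxyz'
  have h3 := le_sqNorm hz hz0
  have h4 := le_sqNorm (leechLattice.add_mem hz hy) hz0'
  have h5 := h2 z
  have h6 := h2 (z + y)
  rw [← hxyz, sqNorm_sub] at h5
  rw [← hxyz', sqNorm_add] at h6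
  refine ⟨by omega, by omega, by omega⟩

end Cfsg.Agent.S5592
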