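-- Statement S5605 (row 5605): the theorem
-- Cfsg.sg80_mathieu_twentyfour_octad_involution_invariant_octads_trios_sextets.
import Cfsg.Statements.S5605
import Cfsg.Agent.H866.InvolType

set_option autoImplicit false
open scoped Pointwise
open Cfsg

namespace Cfsg.Agent.S5605

open Cfsg.Agent.H866.InvCount Cfsg.Agent.H866.InvolType Cfsg.Agent.J4.M24InvolData

theorem oct_P1 : octInv P1 = 71 := by decide +kernel
theorem trio_P1 : trioInv P1 = 99 := by decide +kernel
theorem sex_P1 : sexInv P1 = 91 := by decide +kernel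

/-- An involution of the group of the length-24 code with exactly 8 fixed points maps to themselves exactly 71 octads, exactly 99 trios and exactly 91 sextets. -/
theorem result (g : Equiv.Perm Cfsg.GolayPt) (hg : g ∈ Cfsg.M24) (h₂ : orderOf g = 2) (h₈ : (Finset.univ.filter fun p => g p = p).card = 8) : {o : Finset Cfsg.GolayPt | o ∈ Cfsg.octads ∧ g • o = o}.ncard = 71 ∧ {T : Finset (Finset Cfsg.GolayPt) | T ∈ Cfsg.trios ∧ g • T = T}.ncard = 99 ∧ {S : Finset (Finset Cfsg.GolayPt) | S ∈ Cfsg.sextets ∧ g • S = S}.ncard = 91 := by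
  obtain ⟨h, hh, ⟨e, -⟩ | ⟨-, e0⟩⟩ := invol_type hg h₂
  · obtain ⟨c1, c2, c3⟩ := counts_of_conj isPerm_P1 t1_mem hh e
    rw [c1, c2, c3]
    exact ⟨oct_P1, trio_P1, sex_P1⟩
  · have : fx g = 8 := h₈
    omega

end Cfsg.Agent.S5605
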