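import Cfsg.Statements.S5616
import Cfsg.Agent.H868.SextetCount

set_option autoImplicit false
open scoped Pointwise
open Cfsg

namespace Cfsg.Agent.S5616

open Cfsg.Agent.H868.SextetTools Cfsg.Agent.H868.SextetCount
open Cfsg.Agent.SporadicStructure

/-- The number of tetrads of `S` meeting `Y`. -/
def nt (S : Finset (Finset GolayPt)) (Y : Finset GolayPt) : ℕ :=
  (S.filter fun t => (t ∩ Y).Nonempty).card

/-- The tetrads of a sextet through three points. -/
theorem exists_tetrads {S : Finset (Finset GolayPt)} (hS : S ∈ sextets) (a b c : GolayPt) :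
    ∃ ta ∈ S, ∃ tb ∈ S, ∃ tc ∈ S, a ∈ ta ∧ b ∈ tb ∧ c ∈ tc ∧
      (S.filter fun t => (t ∩ {a, b, c}).Nonempty) = {ta, tb, tc} := by
  obtain ⟨ta, hta, ha⟩ := Sextet.exists_mem_of_sextet hS a
  obtain ⟨tb, htb, hb⟩ := Sextet.exists_mem_of_sextet hS b
  obtain ⟨tc, htc, hc⟩ := Sextet.exists_mem_of_sextet hS c
  refine ⟨ta, hta, tb, htb, tc, htc, ha, hb, hc, ?_⟩
  ext t
  simp only [Finset.mem_filter, Finset.mem_insert, Finset.mem_singleton]
  constructor
  · rintro ⟨ht, x, hx⟩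
    rw [Finset.mem_inter] at hx
    obtain ⟨hx1, hx2⟩ := hx
    simp only [Finset.mem_insert, Finset.mem_singleton] at hx2
    rcases hx2 with rfl | rfl | rfl
    · exact Or.inl (tetrad_eq hS ht hta hx1 ha)
    · exact Or.inr (Or.inl (tetrad_eq hS ht htb hx1 hb))
    · exact Or.inr (Or.inr (tetrad_eq hS ht htc hx1 hc))
  · rintro (rfl | rfl | rfl)
    · exact ⟨hta, a, Finset.mem_inter.2 ⟨ha, by simp⟩⟩
    · exact ⟨htb, b, Finset.mem_inter.2 ⟨hb, by simp⟩⟩
    · exact ⟨htc, c, Finset.mem_inter.2 ⟨hc, by simp⟩⟩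

/-- The sextets with a tetrad containing `u`. -/
def A (u : Finset GolayPt) : Set (Finset (Finset GolayPt)) :=
  {S | S ∈ sextets ∧ ∃ t ∈ S, u ⊆ t}

theorem mem_A_pair {S : Finset (Finset GolayPt)} (hS : S ∈ sextets) {a b : GolayPt}
    {ta tb : Finset GolayPt} (hta : ta ∈ S) (htb : tb ∈ S) (ha : a ∈ ta) (hb : b ∈ tb) :
    S ∈ A {a, b} ↔ ta = tb := by
  constructor
  · rintro ⟨-, t, ht, h⟩
    have h1 : a ∈ t := h (by simp)
    have h2 : b ∈ t := h (by simp)
    exact (tetrad_eq hS hta ht ha h1).trans (tetrad_eq hS ht htb h2 hb)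
  · rintro rfl
    refine ⟨hS, ta, hta, ?_⟩
    intro x hx
    simp only [Finset.mem_insert, Finset.mem_singleton] at hx
    rcases hx with rfl | rfl
    · exact ha
    · exact hb

theorem mem_A_triple {S : Finset (Finset GolayPt)} (hS : S ∈ sextets) {a b c : GolayPt}
    {ta tb tc : Finset GolayPt} (hta : ta ∈ S) (htb : tb ∈ S) (htc : tc ∈ S) (ha : a ∈ ta)
    (hb : b ∈ tb) (hc : c ∈ tc) : S ∈ A {a, b, c} ↔ ta = tb ∧ ta = tc := by
  constructor
  · rintro ⟨-, t, ht, h⟩
    have h1 : a ∈ t := h (by simp)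
    have h2 : b ∈ t := h (by simp)
    have h3 : c ∈ t := h (by simp)
    exact ⟨(tetrad_eq hS hta ht ha h1).trans (tetrad_eq hS ht htb h2 hb),
      (tetrad_eq hS hta ht ha h1).trans (tetrad_eq hS ht htc h3 hc)⟩
  · rintro ⟨rfl, rfl⟩
    refine ⟨hS, ta, hta, ?_⟩
    intro x hx
    simp only [Finset.mem_insert, Finset.mem_singleton] at hx
    rcases hx with rfl | rfl | rfl
    · exact ha
    · exact hb
    · exact hc

theorem card_cases {α : Type*} [DecidableEq α] (x y z : α) :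
    (({x, y, z} : Finset α).card = 1 ↔ x = y ∧ x = z) ∧
    (({x, y, z} : Finset α).card = 2 ↔ (x = y ∧ ¬ (x = y ∧ x = z)) ∨ (x = z ∧ ¬ (x = y ∧ x = z)) ∨
      (y = z ∧ ¬ (x = y ∧ x = z))) ∧
    (({x, y, z} : Finset α).card = 3 ↔ x ≠ y ∧ x ≠ z ∧ y ≠ z) := by
  by_cases h1 : x = y
  · subst h1
    by_cases h2 : x = z
    · subst h2
      simp
    · have : ({x, x, z} : Finset α).card = 2 := by
        rw [Finset.insert_eq_of_mem (by simp), Finset.card_pair h2]
      rw [this]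
      simp [h2]
  · by_cases h2 : x = z
    · subst h2
      have : ({x, y, x} : Finset α).card = 2 := by
        rw [Finset.insert_eq_of_mem (by simp), Finset.card_pair (Ne.symm h1)]
      rw [this]
      simp [h1]
    · by_cases h3 : y = z
      · subst h3
        have : ({x, y, y} : Finset α).card = 2 := by
          rw [Finset.pair_eq_singleton, Finset.card_pair h1]
        rw [this]
        simp [h1]
      · have : ({x, y, z} : Finset α).card = 3 := Finset.card_eq_three.2 ⟨x, y, z, h1, h2, h3, rfl⟩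
        rw [this]
        simp [h1, h2, h3]

theorem counts {a b c : GolayPt} (hab : a ≠ b) (hac : a ≠ c) (hbc : b ≠ c) :
    {S : Finset (Finset GolayPt) | S ∈ sextets ∧ nt S {a, b, c} = 1}.ncard = 21 ∧
    {S : Finset (Finset GolayPt) | S ∈ sextets ∧ nt S {a, b, c} = 2}.ncard = 630 ∧
    {S : Finset (Finset GolayPt) | S ∈ sextets ∧ nt S {a, b, c} = 3}.ncard = 1120 := by
  have hpair : ∀ {x y : GolayPt}, x ≠ y → (A {x, y}).ncard = 231 := by
    intro x y hxy
    have h := ncard_containing {x, y} (by simp) (by rw [Finset.card_pair hxy]; norm_num)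
    rw [Finset.card_pair hxy] at h
    exact h.trans (by decide)
  have h3c : ({a, b, c} : Finset GolayPt).card = 3 :=
    Finset.card_eq_three.2 ⟨a, b, c, hab, hac, hbc, rfl⟩
  have htri : (A {a, b, c}).ncard = 21 := by
    have h := ncard_containing {a, b, c} (by simp) (by rw [h3c]; norm_num)
    rw [h3c] at h
    exact h.trans (by decide)
  have hfin : ∀ s : Set (Finset (Finset GolayPt)), s.Finite := fun s => Set.toFinite s
  have hdiff : ∀ {x y : GolayPt}, x ≠ y → x ∈ ({a, b, c} : Finset GolayPt) →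
      y ∈ ({a, b, c} : Finset GolayPt) → (A {x, y} \ A {a, b, c}).ncard = 210 := by
    intro x y hxy hx hy
    rw [Set.ncard_diff _ (hfin _), hpair hxy, htri]
    rintro S ⟨hS, t, ht, h⟩
    refine ⟨hS, t, ht, ?_⟩
    intro z hz
    simp only [Finset.mem_insert, Finset.mem_singleton] at hz
    rcases hz with rfl | rfl
    · exact h hx
    · exact h hy
  have e1 : {S : Finset (Finset GolayPt) | S ∈ sextets ∧ nt S {a, b, c} = 1} = A {a, b, c} := by
    ext S
    constructor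
    · rintro ⟨hS, h⟩
      obtain ⟨ta, hta, tb, htb, tc, htc, ha, hb, hc, he⟩ := exists_tetrads hS a b c
      rw [mem_A_triple hS hta htb htc ha hb hc]
      unfold nt at h
      rw [he] at h
      exact (card_cases ta tb tc).1.1 h
    · intro h
      have hS := h.1
      obtain ⟨ta, hta, tb, htb, tc, htc, ha, hb, hc, he⟩ := exists_tetrads hS a b c
      rw [mem_A_triple hS hta htb htc ha hb hc] at h
      refine ⟨hS, ?_⟩
      unfold nt
      rw [he]
      exact (card_cases ta tb tc).1.2 h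
  have e2 : {S : Finset (Finset GolayPt) | S ∈ sextets ∧ nt S {a, b, c} = 2} =
      (A {a, b} \ A {a, b, c}) ∪ ((A {a, c} \ A {a, b, c}) ∪ (A {b, c} \ A {a, b, c})) := by
    ext S
    constructor
    · rintro ⟨hS, h⟩
      obtain ⟨ta, hta, tb, htb, tc, htc, ha, hb, hc, he⟩ := exists_tetrads hS a b c
      simp only [Set.mem_union, Set.mem_diff]
      rw [mem_A_triple hS hta htb htc ha hb hc, mem_A_pair hS hta htb ha hb,
        mem_A_pair hS hta htc ha hc, mem_A_pair hS htb htc hb hc]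
      unfold nt at h
      rw [he] at h
      exact (card_cases ta tb tc).2.1.1 h
    · intro h
      have hS : S ∈ sextets := by
        rcases h with h | h | h <;> exact h.1.1
      obtain ⟨ta, hta, tb, htb, tc, htc, ha, hb, hc, he⟩ := exists_tetrads hS a b c
      simp only [Set.mem_union, Set.mem_diff] at h
      rw [mem_A_triple hS hta htb htc ha hb hc, mem_A_pair hS hta htb ha hb,
        mem_A_pair hS hta htc ha hc, mem_A_pair hS htb htc hb hc] at h
      refine ⟨hS, ?_⟩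
      unfold nt
      rw [he]
      exact (card_cases ta tb tc).2.1.2 h
  have n1 : {S : Finset (Finset GolayPt) | S ∈ sextets ∧ nt S {a, b, c} = 1}.ncard = 21 := by
    rw [e1, htri]
  have n2 : {S : Finset (Finset GolayPt) | S ∈ sextets ∧ nt S {a, b, c} = 2}.ncard = 630 := by
    rw [e2, Set.ncard_union_eq _ (hfin _) (hfin _), Set.ncard_union_eq _ (hfin _) (hfin _),
      hdiff hab (by simp) (by simp), hdiff hac (by simp) (by simp), hdiff hbc (by simp) (by simp)]
    · rw [Set.disjoint_left]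
      rintro S ⟨h1, h2⟩ ⟨h3, -⟩
      have hS := h1.1
      obtain ⟨ta, hta, tb, htb, tc, htc, ha, hb, hc, he⟩ := exists_tetrads hS a b c
      rw [mem_A_pair hS hta htc ha hc] at h1
      rw [mem_A_pair hS htb htc hb hc] at h3
      rw [mem_A_triple hS hta htb htc ha hb hc] at h2
      exact h2 ⟨h1.trans h3.symm, h1⟩
    · rw [Set.disjoint_left]
      rintro S ⟨h1, h2⟩ h3
      have hS := h1.1
      obtain ⟨ta, hta, tb, htb, tc, htc, ha, hb, hc, he⟩ := exists_tetrads hS a b c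
      simp only [Set.mem_union, Set.mem_diff] at h3
      rw [mem_A_pair hS hta htb ha hb] at h1
      rw [mem_A_pair hS hta htc ha hc, mem_A_pair hS htb htc hb hc] at h3
      rw [mem_A_triple hS hta htb htc ha hb hc] at h2
      rcases h3 with ⟨h3, -⟩ | ⟨h3, -⟩
      · exact h2 ⟨h1, h3⟩
      · exact h2 ⟨h1, h1.trans h3⟩
  refine ⟨n1, n2, ?_⟩
  have h1771 := Sextet.ncard_sextets S0363.result
  have hun : sextets = {S : Finset (Finset GolayPt) | S ∈ sextets ∧ nt S {a, b, c} = 1} ∪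
      ({S : Finset (Finset GolayPt) | S ∈ sextets ∧ nt S {a, b, c} = 2} ∪
      {S : Finset (Finset GolayPt) | S ∈ sextets ∧ nt S {a, b, c} = 3}) := by
    ext S
    constructor
    · intro hS
      have h : nt S {a, b, c} = 1 ∨ nt S {a, b, c} = 2 ∨ nt S {a, b, c} = 3 := by
        obtain ⟨ta, hta, tb, htb, tc, htc, ha, hb, hc, he⟩ := exists_tetrads hS a b c
        unfold nt
        rw [he]
        have h4 : ({ta, tb, tc} : Finset (Finset GolayPt)).card ≤ 3 := Finset.card_le_three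
        have h5 : 0 < ({ta, tb, tc} : Finset (Finset GolayPt)).card :=
          Finset.card_pos.2 ⟨ta, by simp⟩
        omega
      rcases h with h | h | h
      · exact Or.inl ⟨hS, h⟩
      · exact Or.inr (Or.inl ⟨hS, h⟩)
      · exact Or.inr (Or.inr ⟨hS, h⟩)
    · rintro (h | h | h) <;> exact h.1
  rw [hun, Set.ncard_union_eq _ (hfin _) (hfin _), Set.ncard_union_eq _ (hfin _) (hfin _), n1,
    n2] at h1771
  · omega
  · rw [Set.disjoint_left]
    rintro S ⟨-, h1⟩ ⟨-, h2⟩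
    omega
  · rw [Set.disjoint_left]
    rintro S ⟨-, h1⟩ h2
    rcases h2 with ⟨-, h2⟩ | ⟨-, h2⟩ <;> omega

/-! ### Transitivity -/

theorem smul_Y {g : Equiv.Perm GolayPt} {a b c a' b' c' : GolayPt} (h1 : g a = a') (h2 : g b = b')
    (h3 : g c = c') : g • ({a, b, c} : Finset GolayPt) = {a', b', c'} := by
  rw [Finset.smul_finset_insert, Finset.smul_finset_insert, Finset.smul_finset_singleton,
    Equiv.Perm.smul_def, Equiv.Perm.smul_def, Equiv.Perm.smul_def, h1, h2, h3]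

theorem exists_map_five (x y : Fin 5 → GolayPt) (hx : Function.Injective x)
    (hy : Function.Injective y) : ∃ g ∈ M24, ∀ i, g (x i) = y i := by
  obtain ⟨g, hg⟩ := S0366.result.exists_smul_eq (⟨x, hx⟩ : Fin 5 ↪ GolayPt) ⟨y, hy⟩
  refine ⟨g, g.2, fun i => ?_⟩
  have := congrArg (fun f : Fin 5 ↪ GolayPt => f i) hg
  exact this

theorem inj5 {a b c d e : GolayPt} (h1 : a ≠ b) (h2 : a ≠ c) (h3 : a ≠ d) (h4 : a ≠ e)
    (h5 : b ≠ c) (h6 : b ≠ d) (h7 : b ≠ e) (h8 : c ≠ d) (h9 : c ≠ e) (h10 : d ≠ e) :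
    Function.Injective ![a, b, c, d, e] := by
  intro i j hij
  fin_cases i <;> fin_cases j <;> first
    | rfl
    | exact absurd hij ‹_›
    | exact absurd hij.symm ‹_›

/-- Two points in one tetrad, the third outside. -/
theorem case_two {S S' : Finset (Finset GolayPt)} (hS : S ∈ sextets) (hS' : S' ∈ sextets)
    {a b c a' b' c' : GolayPt} (hab : a ≠ b) (hab' : a' ≠ b')
    {t t' : Finset GolayPt} (ht : t ∈ S) (ht' : t' ∈ S') (ha : a ∈ t) (hb : b ∈ t) (hc : c ∉ t)
    (ha' : a' ∈ t') (hb' : b' ∈ t') (hc' : c' ∉ t') :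
    ∃ g ∈ M24, g • ({a, b, c} : Finset GolayPt) = {a', b', c'} ∧ g • S = S' := by
  have key : ∀ {S : Finset (Finset GolayPt)}, S ∈ sextets → ∀ {a b : GolayPt}, a ≠ b →
      ∀ {t : Finset GolayPt}, t ∈ S → a ∈ t → b ∈ t →
      ∃ x y, t = {a, b, x, y} ∧ a ≠ x ∧ a ≠ y ∧ b ≠ x ∧ b ≠ y ∧ x ≠ y := by
    intro S hS a b hab t ht ha hb
    have h4 := hS.2.1 t ht
    have h2 : ((t.erase a).erase b).card = 2 := by
      rw [Finset.card_erase_of_mem (Finset.mem_erase.2 ⟨hab.symm, hb⟩),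
        Finset.card_erase_of_mem ha, h4]
    obtain ⟨x, y, hxy, he⟩ := Finset.card_eq_two.1 h2
    have hx : x ∈ (t.erase a).erase b := by rw [he]; simp
    have hy : y ∈ (t.erase a).erase b := by rw [he]; simp
    simp only [Finset.mem_erase] at hx hy
    refine ⟨x, y, ?_, hx.2.1.symm, hy.2.1.symm, hx.1.symm, hy.1.symm, hxy⟩
    rw [← he, Finset.insert_erase (Finset.mem_erase.2 ⟨hab.symm, hb⟩), Finset.insert_erase ha]
  obtain ⟨x, y, hte, h1, h2, h3, h4, h5⟩ := key hS hab ht ha hb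
  obtain ⟨x', y', hte', h1', h2', h3', h4', h5'⟩ := key hS' hab' ht' ha' hb'
  have hc1 : a ≠ c ∧ b ≠ c ∧ x ≠ c ∧ y ≠ c := by
    rw [hte] at hc
    simp only [Finset.mem_insert, Finset.mem_singleton, not_or] at hc
    exact ⟨Ne.symm hc.1, Ne.symm hc.2.1, Ne.symm hc.2.2.1, Ne.symm hc.2.2.2⟩
  have hc1' : a' ≠ c' ∧ b' ≠ c' ∧ x' ≠ c' ∧ y' ≠ c' := by
    rw [hte'] at hc'
    simp only [Finset.mem_insert, Finset.mem_singleton, not_or] at hc'
    exact ⟨Ne.symm hc'.1, Ne.symm hc'.2.1, Ne.symm hc'.2.2.1, Ne.symm hc'.2.2.2⟩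
  obtain ⟨g, hg, hgx⟩ := exists_map_five ![a, b, x, y, c] ![a', b', x', y', c']
    (inj5 hab h1 h2 hc1.1 h3 h4 hc1.2.1 h5 hc1.2.2.1 hc1.2.2.2)
    (inj5 hab' h1' h2' hc1'.1 h3' h4' hc1'.2.1 h5' hc1'.2.2.1 hc1'.2.2.2)
  have g1 : g a = a' := hgx 0
  have g2 : g b = b' := hgx 1
  have g3 : g x = x' := hgx 2
  have g4 : g y = y' := hgx 3
  have g5 : g c = c' := hgx 4
  refine ⟨g, hg, smul_Y g1 g2 g5, ?_⟩
  apply SextetStab.smul_eq_of_mem S0363.result hg hS hS' ht
  have : g • t = t' := by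
    rw [hte, hte', Finset.smul_finset_insert, Finset.smul_finset_insert,
      Finset.smul_finset_insert, Finset.smul_finset_singleton]
    simp only [Equiv.Perm.smul_def, g1, g2, g3, g4]
  rw [this]
  exact ht'

theorem case_one {S S' : Finset (Finset GolayPt)} (hS : S ∈ sextets) (hS' : S' ∈ sextets)
    {a b c : GolayPt} (hab : a ≠ b) (hac : a ≠ c) (hbc : b ≠ c)
    {t t' : Finset GolayPt} (ht : t ∈ S) (ht' : t' ∈ S') (ha : a ∈ t) (hb : b ∈ t) (hc : c ∈ t)
    (ha' : a ∈ t') (hb' : b ∈ t') (hc' : c ∈ t') :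
    ∃ g ∈ M24, g • ({a, b, c} : Finset GolayPt) = {a, b, c} ∧ g • S = S' := by
  have key : ∀ {S : Finset (Finset GolayPt)}, S ∈ sextets →
      ∀ {t : Finset GolayPt}, t ∈ S → a ∈ t → b ∈ t → c ∈ t →
      ∃ x, t = {a, b, c, x} ∧ a ≠ x ∧ b ≠ x ∧ c ≠ x := by
    intro S hS t ht ha hb hc
    have h4 := hS.2.1 t ht
    have h2 : (((t.erase a).erase b).erase c).card = 1 := by
      rw [Finset.card_erase_of_mem (Finset.mem_erase.2 ⟨hbc.symm, Finset.mem_erase.2 ⟨hac.symm, hc⟩⟩),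
        Finset.card_erase_of_mem (Finset.mem_erase.2 ⟨hab.symm, hb⟩),
        Finset.card_erase_of_mem ha, h4]
    obtain ⟨x, he⟩ := Finset.card_eq_one.1 h2
    have hx : x ∈ ((t.erase a).erase b).erase c := by rw [he]; simp
    simp only [Finset.mem_erase] at hx
    refine ⟨x, ?_, hx.2.2.1.symm, hx.2.1.symm, hx.1.symm⟩
    rw [show ({x} : Finset GolayPt) = ((t.erase a).erase b).erase c from he.symm,
      Finset.insert_erase (Finset.mem_erase.2 ⟨hbc.symm, Finset.mem_erase.2 ⟨hac.symm, hc⟩⟩),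
      Finset.insert_erase (Finset.mem_erase.2 ⟨hab.symm, hb⟩), Finset.insert_erase ha]
  obtain ⟨x, hte, h1, h2, h3⟩ := key hS ht ha hb hc
  obtain ⟨x', hte', h1', h2', h3'⟩ := key hS' ht' ha' hb' hc'
  obtain ⟨z, hz⟩ : (Finset.univ \ ({a, b, c, x} : Finset GolayPt)).Nonempty := by
    rw [← Finset.card_pos, Finset.card_sdiff_of_subset (Finset.subset_univ _), card_univ_golay]
    have := Finset.card_le_four (a := a) (b := b) (c := c) (d := x)
    omega
  obtain ⟨z', hz'⟩ : (Finset.univ \ ({a, b, c, x'} : Finset GolayPt)).Nonempty := by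
    rw [← Finset.card_pos, Finset.card_sdiff_of_subset (Finset.subset_univ _), card_univ_golay]
    have := Finset.card_le_four (a := a) (b := b) (c := c) (d := x')
    omega
  simp only [Finset.mem_sdiff, Finset.mem_univ, true_and, Finset.mem_insert, Finset.mem_singleton,
    not_or] at hz hz'
  obtain ⟨g, hg, hgx⟩ := exists_map_five ![a, b, c, x, z] ![a, b, c, x', z']
    (inj5 hab hac h1 (Ne.symm hz.1) hbc h2 (Ne.symm hz.2.1) h3 (Ne.symm hz.2.2.1)
      (Ne.symm hz.2.2.2))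
    (inj5 hab hac h1' (Ne.symm hz'.1) hbc h2' (Ne.symm hz'.2.1) h3' (Ne.symm hz'.2.2.1)
      (Ne.symm hz'.2.2.2))
  have g1 : g a = a := hgx 0
  have g2 : g b = b := hgx 1
  have g3 : g c = c := hgx 2
  have g4 : g x = x' := hgx 3
  refine ⟨g, hg, smul_Y g1 g2 g3, ?_⟩
  apply SextetStab.smul_eq_of_mem S0363.result hg hS hS' ht
  have : g • t = t' := by
    rw [hte, hte', Finset.smul_finset_insert, Finset.smul_finset_insert,
      Finset.smul_finset_insert, Finset.smul_finset_singleton]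
    simp only [Equiv.Perm.smul_def, g1, g2, g3, g4]
  rw [this]
  exact ht'

theorem case_three {S S' : Finset (Finset GolayPt)} (hS : S ∈ sextets) (hS' : S' ∈ sextets)
    {a b c : GolayPt} {ta tb tc ta' tb' tc' : Finset GolayPt}
    (hta : ta ∈ S) (htb : tb ∈ S) (htc : tc ∈ S) (ha : a ∈ ta) (hb : b ∈ tb) (hc : c ∈ tc)
    (hta' : ta' ∈ S') (htb' : tb' ∈ S') (htc' : tc' ∈ S') (ha' : a ∈ ta') (hb' : b ∈ tb')
    (hc' : c ∈ tc') (h : ta ≠ tb ∧ ta ≠ tc ∧ tb ≠ tc) (h' : ta' ≠ tb' ∧ ta' ≠ tc' ∧ tb' ≠ tc') :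
    ∃ g ∈ M24, g • ({a, b, c} : Finset GolayPt) = {a, b, c} ∧ g • S = S' := by
  have hinj : ∀ {x y z : Finset GolayPt}, x ≠ y ∧ x ≠ z ∧ y ≠ z →
      Function.Injective ![x, y, z] := by
    rintro x y z ⟨h1, h2, h3⟩ i j hij
    fin_cases i <;> fin_cases j <;> first
      | rfl
      | exact absurd hij ‹_›
      | exact absurd hij.symm ‹_›
  obtain ⟨g, hg, hgS, -, hgx⟩ := exists_map_flags hS hS' ![ta, tb, tc] ![ta', tb', tc']
    (by intro i; fin_cases i <;> assumption) (by intro i; fin_cases i <;> assumption)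
    (hinj h) (hinj h') ![a, b, c] ![a, b, c] (by intro i; fin_cases i <;> assumption)
    (by intro i; fin_cases i <;> assumption)
  exact ⟨g, hg, smul_Y (hgx 0) (hgx 1) (hgx 2), hgS⟩

theorem transitive {a b c : GolayPt} (hab : a ≠ b) (hac : a ≠ c) (hbc : b ≠ c)
    {S S' : Finset (Finset GolayPt)} (hS : S ∈ sextets) (hS' : S' ∈ sextets)
    (h : nt S {a, b, c} = nt S' {a, b, c}) :
    ∃ g ∈ M24, g • ({a, b, c} : Finset GolayPt) = {a, b, c} ∧ g • S = S' := by
  obtain ⟨ta, hta, tb, htb, tc, htc, ha, hb, hc, he⟩ := exists_tetrads hS a b c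
  obtain ⟨ta', hta', tb', htb', tc', htc', ha', hb', hc', he'⟩ := exists_tetrads hS' a b c
  unfold nt at h
  rw [he, he'] at h
  have hpos : 0 < ({ta, tb, tc} : Finset (Finset GolayPt)).card := Finset.card_pos.2 ⟨ta, by simp⟩
  have hle : ({ta, tb, tc} : Finset (Finset GolayPt)).card ≤ 3 := Finset.card_le_three
  have hcases : ({ta, tb, tc} : Finset (Finset GolayPt)).card = 1 ∨
      ({ta, tb, tc} : Finset (Finset GolayPt)).card = 2 ∨
      ({ta, tb, tc} : Finset (Finset GolayPt)).card = 3 := by omega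
  rcases hcases with h1 | h1 | h1
  · have h2 := (card_cases ta tb tc).1.1 h1
    have h3 := (card_cases ta' tb' tc').1.1 (h ▸ h1)
    obtain ⟨rfl, rfl⟩ := h2
    obtain ⟨rfl, rfl⟩ := h3
    exact case_one hS hS' hab hac hbc hta hta' ha hb hc ha' hb' hc'
  · have h2 := (card_cases ta tb tc).2.1.1 h1
    have h3 := (card_cases ta' tb' tc').2.1.1 (h ▸ h1)
    -- each of the two sextets is brought to a normal form
    have norm : ∀ {S : Finset (Finset GolayPt)}, S ∈ sextets → ∀ {ta tb tc : Finset GolayPt},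
        ta ∈ S → tb ∈ S → tc ∈ S → a ∈ ta → b ∈ tb → c ∈ tc →
        ((ta = tb ∧ ¬ (ta = tb ∧ ta = tc)) ∨ (ta = tc ∧ ¬ (ta = tb ∧ ta = tc)) ∨
          (tb = tc ∧ ¬ (ta = tb ∧ ta = tc))) →
        ∃ p q r, ({a, b, c} : Finset GolayPt) = {p, q, r} ∧ p ≠ q ∧ ∃ t ∈ S, p ∈ t ∧ q ∈ t ∧ r ∉ t := by
      intro S hS ta tb tc hta htb htc ha hb hc h
      rcases h with ⟨rfl, h⟩ | ⟨rfl, h⟩ | ⟨rfl, h⟩
      · exact ⟨a, b, c, rfl, hab, ta, hta, ha, hb,
          fun h' => h ⟨rfl, tetrad_eq hS hta htc h' hc⟩⟩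
      · refine ⟨a, c, b, ?_, hac, ta, hta, ha, hc,
          fun h' => h ⟨tetrad_eq hS hta htb h' hb, rfl⟩⟩
        rw [Finset.pair_comm b c]
      · refine ⟨b, c, a, ?_, hbc, tb, htb, hb, hc, fun h' => ?_⟩
        · ext x
          simp only [Finset.mem_insert, Finset.mem_singleton]
          tauto
        · have h5 := tetrad_eq hS hta htb ha h'
          exact h ⟨h5, h5⟩
    obtain ⟨p, q, r, e, hpq, t, ht, hp, hq, hr⟩ := norm hS hta htb htc ha hb hc h2
    obtain ⟨p', q', r', e', hpq', t', ht', hp', hq', hr'⟩ := norm hS' hta' htb' htc' ha' hb' hc' h3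
    obtain ⟨g, hg, h4, h5⟩ := case_two hS hS' hpq hpq' ht ht' hp hq hr hp' hq' hr'
    refine ⟨g, hg, ?_, h5⟩
    rw [e, h4, ← e', e]
  · exact case_three hS hS' hta htb htc ha hb hc hta' htb' htc' ha' hb' hc'
      ((card_cases ta tb tc).2.2.1 h1) ((card_cases ta' tb' tc').2.2.1 (h ▸ h1))

/-- Let Y be a set of 3 of the 24 points. The sextets of the length-24 code whose tetrads meeting Y number 1, 2 or 3 are respectively 21, 630 and 1120 in number, and two sextets with the same number of tetrads meeting Y are conjugate under the setwise stabiliser of Y in the code's group. -/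
theorem result (Y : Finset Cfsg.GolayPt) (hY : Y.card = 3) : {S : Finset (Finset Cfsg.GolayPt) | S ∈ Cfsg.sextets ∧ (S.filter fun t => (t ∩ Y).Nonempty).card = 1}.ncard = 21 ∧ {S : Finset (Finset Cfsg.GolayPt) | S ∈ Cfsg.sextets ∧ (S.filter fun t => (t ∩ Y).Nonempty).card = 2}.ncard = 630 ∧ {S : Finset (Finset Cfsg.GolayPt) | S ∈ Cfsg.sextets ∧ (S.filter fun t => (t ∩ Y).Nonempty).card = 3}.ncard = 1120 ∧ ∀ S S' : Finset (Finset Cfsg.GolayPt), S ∈ Cfsg.sextets → S' ∈ Cfsg.sextets → (S.filter fun t => (t ∩ Y).Nonempty).card = (S'.filter fun t => (t ∩ Y).Nonempty).card → ∃ g ∈ Cfsg.M24, g • Y = Y ∧ g • S = S' := by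
  obtain ⟨a, b, c, hab, hac, hbc, rfl⟩ := Finset.card_eq_three.1 hY
  obtain ⟨h1, h2, h3⟩ := counts hab hac hbc
  exact ⟨h1, h2, h3, fun S S' hS hS' h => transitive hab hac hbc hS hS' h⟩

end Cfsg.Agent.S5616
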