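import Cfsg.Statements.S5617
import Cfsg.Agent.H868.DodecadSextet

set_option autoImplicit false
open scoped Pointwise
open Cfsg

namespace Cfsg.Agent.S5617

open Cfsg.Agent.H868.DodecadSextet

/-- The setwise stabiliser, in the group of the length-24 code, of a complementary pair of dodecads has exactly three orbits on the 1771 sextets, of sizes 396, 495 and 880. -/
theorem result (d : Finset Cfsg.GolayPt) (hd : d ∈ Cfsg.dodecads) : ∃ X₁ ∈ Cfsg.sextets, ∃ X₂ ∈ Cfsg.sextets, ∃ X₃ ∈ Cfsg.sextets, (MulAction.orbit ↥(MulAction.stabilizer Cfsg.M24 ({d, Finset.univ \ d} : Finset (Finset Cfsg.GolayPt))) X₁).ncard = 396 ∧ (MulAction.orbit ↥(MulAction.stabilizer Cfsg.M24 ({d, Finset.univ \ d} : Finset (Finset Cfsg.GolayPt))) X₂).ncard = 495 ∧ (MulAction.orbit ↥(MulAction.stabilizer Cfsg.M24 ({d, Finset.univ \ d} : Finset (Finset Cfsg.GolayPt))) X₃).ncard = 880 ∧ Cfsg.sextets = MulAction.orbit ↥(MulAction.stabilizer Cfsg.M24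 ({d, Finset.univ \ d} : Finset (Finset Cfsg.GolayPt))) X₁ ∪ MulAction.orbit ↥(MulAction.stabilizer Cfsg.M24 ({d, Finset.univ \ d} : Finset (Finset Cfsg.GolayPt))) X₂ ∪ MulAction.orbit ↥(MulAction.stabilizer Cfsg.M24 ({d, Finset.univ \ d} : Finset (Finset Cfsg.GolayPt))) X₃ := by
  have hfin : ∀ s : Set (Finset (Finset GolayPt)), s.Finite := fun s => Set.toFinite s
  obtain ⟨X₁, hX₁, hT₁⟩ : {S | S ∈ sextets ∧ TC d S}.Nonempty := by
    rw [← Set.ncard_pos (hfin _), ncard_TC hd]; norm_num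
  obtain ⟨X₂, hX₂, hT₂⟩ : {S | S ∈ sextets ∧ TA d S}.Nonempty := by
    rw [← Set.ncard_pos (hfin _), ncard_TA hd]; norm_num
  obtain ⟨X₃, hX₃, hT₃⟩ : {S | S ∈ sextets ∧ TB d S}.Nonempty := by
    rw [← Set.ncard_pos (hfin _), ncard_TB hd]; norm_num
  have e₁ := orbit_eq d (TC d) (fun g hg S hS h => smul_TC hg hS h)
    (fun S S' hS hS' h h' => trans_TC hd hS hS' h h') hX₁ hT₁
  have e₂ := orbit_eq d (TA d) (fun g hg S hS h => smul_TA hg hS h)
    (fun S S' hS hS' h h' => trans_TA hd hS hS' h h') hX₂ hT₂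
  have e₃ := orbit_eq d (TB d) (fun g hg S hS h => smul_TB hg hS h)
    (fun S S' hS hS' h h' => trans_TB hd hS hS' h h') hX₃ hT₃
  refine ⟨X₁, hX₁, X₂, hX₂, X₃, hX₃, ?_, ?_, ?_, ?_⟩
  · rw [e₁]; exact ncard_TC hd
  · rw [e₂]; exact ncard_TA hd
  · rw [e₃]; exact ncard_TB hd
  · rw [e₁, e₂, e₃]
    ext S
    constructor
    · intro hS
      rcases cases hS d with h | h | h
      · exact Or.inl (Or.inl ⟨hS, h⟩)
      · exact Or.inl (Or.inr ⟨hS, h⟩)
      · exact Or.inr ⟨hS, h⟩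
    · rintro ((h | h) | h) <;> exact h.1

end Cfsg.Agent.S5617
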