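import Cfsg.Statements.S5627
import Cfsg.Agent.H870.OvalCount

set_option autoImplicit false
open Cfsg

namespace Cfsg.Agent.S5627

open Finset Cfsg.Agent.H870.Oval Cfsg.Agent.H870.OvalCount

/-- In a projective plane of order 4 (a Steiner system S(2, 5, 21)), call a set of points independent when no line meets it in more than two points. There are exactly 2520 independent 4-sets and exactly 168 independent 6-sets (hyperovals), and every independent 4-set lies in exactly one hyperoval. -/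
theorem result {α : Type*} [Fintype α] [DecidableEq α] (hα : Fintype.card α = 21) (L : Set (Finset α)) (hL : Cfsg.IsSteinerSystem 2 5 L) : {S : Finset α | (S.card = 4 ∧ ∀ l ∈ L, (l ∩ S).card ≤ 2)}.ncard = 2520 ∧ {H : Finset α | (H.card = 6 ∧ ∀ l ∈ L, (l ∩ H).card ≤ 2)}.ncard = 168 ∧ ∀ S : Finset α, (S.card = 4 ∧ ∀ l ∈ L, (l ∩ S).card ≤ 2) → ∃! H : Finset α, (H.card = 6 ∧ ∀ l ∈ L, (l ∩ H).card ≤ 2) ∧ S ⊆ H := by
  classical
  have h3 : ∀ S : Finset α, (S.card = 4 ∧ ∀ l ∈ L, (l ∩ S).card ≤ 2) →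
      ∃! H : Finset α, (H.card = 6 ∧ ∀ l ∈ L, (l ∩ H).card ≤ 2) ∧ S ⊆ H := by
    rintro S ⟨hS, hi⟩
    obtain ⟨H, hH, hSH⟩ := exists_oval hα hL hS hi
    refine ⟨H, ⟨hH, hSH⟩, ?_⟩
    rintro H' ⟨hH', hSH'⟩
    refine oval_eq hα hL hH' hH ?_
    rw [← hS]
    exact card_le_card (subset_inter hSH' hSH)
  have h2 := ncard_ovals hα hL
  refine ⟨?_, h2, h3⟩
  have key := card_mul_eq_card_mul
    (s := (univ : Finset (Finset α)).filter (fun S => S.card = 4 ∧ ∀ l ∈ L, (l ∩ S).card ≤ 2))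
    (t := (univ : Finset (Finset α)).filter (fun H => H.card = 6 ∧ ∀ l ∈ L, (l ∩ H).card ≤ 2))
    (fun S H => S ⊆ H) (m := 1) (n := 15) ?_ ?_
  · rw [← Set.ncard_coe_finset, ← Set.ncard_coe_finset] at key
    have e1 : {S : Finset α | (S.card = 4 ∧ ∀ l ∈ L, (l ∩ S).card ≤ 2)} =
      ((univ : Finset (Finset α)).filter (fun S => S.card = 4 ∧ ∀ l ∈ L, (l ∩ S).card ≤ 2) :
        Finset (Finset α)) := by
      ext S; simp
    have e2 : {H : Finset α | (H.card = 6 ∧ ∀ l ∈ L, (l ∩ H).card ≤ 2)} =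
      ((univ : Finset (Finset α)).filter (fun S => S.card = 6 ∧ ∀ l ∈ L, (l ∩ S).card ≤ 2) :
        Finset (Finset α)) := by
      ext S; simp
    rw [e1]
    rw [e2] at h2
    rw [h2] at key
    omega
  · intro S hS
    rw [mem_filter] at hS
    obtain ⟨H, ⟨hH, hSH⟩, hu⟩ := h3 S hS.2
    rw [card_eq_one]
    refine ⟨H, ?_⟩
    ext H'
    rw [mem_bipartiteAbove, mem_filter, mem_singleton]
    constructor
    · rintro ⟨⟨-, h1⟩, h2⟩
      exact hu H' ⟨h1, h2⟩
    · rintro rfl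
      exact ⟨⟨mem_univ _, hH⟩, hSH⟩
  · intro H hH
    rw [mem_filter] at hH
    obtain ⟨-, hH, hHi⟩ := hH
    have : bipartiteBelow (fun S H => S ⊆ H)
        ((univ : Finset (Finset α)).filter (fun S => S.card = 4 ∧ ∀ l ∈ L, (l ∩ S).card ≤ 2)) H =
        H.powersetCard 4 := by
      ext S
      rw [mem_bipartiteBelow, mem_filter, mem_powersetCard]
      constructor
      · rintro ⟨⟨-, h1, -⟩, h2⟩
        exact ⟨h2, h1⟩
      · rintro ⟨h1, h2⟩
        refine ⟨⟨mem_univ _, h2, fun l hl => ?_⟩, h1⟩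
        exact (card_le_card (inter_subset_inter_left h1)).trans (hHi l hl)
    rw [this, card_powersetCard, hH]
    rfl

end Cfsg.Agent.S5627
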