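import Cfsg.Statements.S5628
import Cfsg.Agent.H870.Oval

set_option autoImplicit false
open Cfsg

namespace Cfsg.Agent.S5628

open Finset Cfsg.Agent.SporadicA.SteinerMask Cfsg.Agent.H870.Plane Cfsg.Agent.H870.Oval

theorem mem_aut {α : Type*} [DecidableEq α] {L : Set (Finset α)} (g : Equiv.Perm α) :
    g ∈ Cfsg.setSystemAut L ↔ (fun b => b.image g) '' L = L :=
  Iff.rfl

theorem aut_map {α : Type*} [DecidableEq α] {L : Set (Finset α)} {g : Equiv.Perm α}
    (hg : g ∈ Cfsg.setSystemAut L) : ∀ b : Finset α, b.map g.toEmbedding ∈ L ↔ b ∈ L := by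
  have h1 : ∀ g : Equiv.Perm α, g ∈ Cfsg.setSystemAut L → ∀ b ∈ L, b.map g.toEmbedding ∈ L := by
    intro g hg b hb
    rw [mem_aut] at hg
    rw [map_eq_image]
    have : b.image g ∈ (fun b => b.image g) '' L := ⟨b, hb, rfl⟩
    rwa [hg] at this
  intro b
  refine ⟨fun hb => ?_, h1 g hg b⟩
  have := h1 g⁻¹ (inv_mem hg) _ hb
  have e : (b.map g.toEmbedding).map (g⁻¹ : Equiv.Perm α).toEmbedding = b := by
    rw [Finset.map_map]
    have : g.toEmbedding.trans (g⁻¹ : Equiv.Perm α).toEmbedding = Function.Embedding.refl α := by
      ext x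
      exact g.symm_apply_apply x
    rw [this, Finset.map_refl]
  rwa [e] at this

/-- In a projective plane of order 4 (a Steiner system S(2, 5, 21)), every permutation of the six points of a hyperoval (a 6-set met by no line in more than two points) is the restriction of exactly one automorphism of the plane. In particular the stabiliser of a hyperoval in the automorphism group is isomorphic to the symmetric group of degree 6 acting faithfully on the hyperoval. -/
theorem result {α : Type*} [Fintype α] [DecidableEq α] (hα : Fintype.card α = 21) (L : Set (Finset α)) (hL : Cfsg.IsSteinerSystem 2 5 L) (H : Finset α) (hH : (H.card = 6 ∧ ∀ l ∈ L, (l ∩ H).card ≤ 2)) (σ : Equiv.Perm ↥H) : ∃! g : Equiv.Perm α, g ∈ Cfsg.setSystemAut L ∧ ∀ p : ↥H, g p = σ p := by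
  obtain ⟨hH, hHi⟩ := hH
  let ε := (H.equivFinOfCardEq hH).symm
  have himg : ∀ τ : Equiv.Perm ↥H, Finset.univ.image (fun i : Fin 6 => (τ (ε i) : α)) = H := by
    intro τ
    ext x
    simp only [mem_image, mem_univ, true_and]
    constructor
    · rintro ⟨i, rfl⟩
      exact (τ (ε i)).2
    · intro hx
      exact ⟨ε.symm (τ.symm ⟨x, hx⟩), by rw [Equiv.apply_symm_apply, Equiv.apply_symm_apply]⟩
  have hinj : ∀ τ : Equiv.Perm ↥H, Function.Injective (fun i : Fin 6 => (τ (ε i) : α)) :=
    fun τ => Subtype.val_injective.comp (τ.injective.comp ε.injective)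
  have F : ∀ τ : Equiv.Perm ↥H, Frame L (fun i : Fin 6 => (τ (ε i) : α)) := fun τ =>
    frame_of_oval hα hL (hinj τ) (by rw [himg]; exact hHi)
  obtain ⟨e, he1, he2⟩ := exists_standard_label hα (F 1)
  obtain ⟨e', he1', he2'⟩ := exists_standard_label hα (F σ)
  have hpt : ∀ p : ↥H, e (Fin.castLE (by norm_num) (ε.symm p)) = p := by
    intro p
    rw [he1]
    simp
  refine ⟨e.symm.trans e', ⟨?_, ?_⟩, ?_⟩
  · rw [mem_aut]
    obtain ⟨-, h⟩ : True ∧ (fun b => b.image (e.symm.trans e')) '' L = L := by
      refine ⟨trivial, ?_⟩
      have key : ∀ c : Finset α, c.image (e.symm.trans e') =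
          (c.map e.symm.toEmbedding).map e'.toEmbedding := by
        intro c
        rw [Finset.map_map, Finset.map_eq_image]
        rfl
      have key2 : ∀ c : Finset α, (c.map e.symm.toEmbedding).map e.toEmbedding = c := by
        intro c
        ext x
        simp
      have key3 : ∀ c : Finset α, (c.map e'.symm.toEmbedding).map e'.toEmbedding = c := by
        intro c
        ext x
        simp
      ext c
      simp only [Set.mem_image]
      constructor
      · rintro ⟨b, hb, rfl⟩
        rw [key, he2', ← he2, key2]
        exact hb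
      · intro hc
        refine ⟨(c.map e'.symm.toEmbedding).map e.toEmbedding, ?_, ?_⟩
        · rw [he2, ← he2', key3]
          exact hc
        · rw [key]
          ext x
          simp
    exact h
  · intro p
    have h1 := hpt p
    show e' (e.symm p) = _
    have h2 : e.symm p = Fin.castLE (by norm_num) (ε.symm p) := by
      rw [Equiv.symm_apply_eq]
      exact h1.symm
    rw [h2, he1']
    simp
  · rintro g ⟨hg, hgσ⟩
    -- `e.trans g` is a labelling for `σ`
    have h1 : e.trans g = e' := by
      apply label_unique (F σ) _ he1' _ he2'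
      · intro i
        show g (e _) = _
        rw [he1]
        show g ((1 : Equiv.Perm ↥H) (ε i) : ↥H) = _
        rw [Equiv.Perm.one_apply, hgσ]
      · intro s
        have : s.map (e.trans g).toEmbedding = (s.map e.toEmbedding).map g.toEmbedding := by
          rw [Finset.map_map]
          rfl
        rw [this, aut_map hg, he2]
    rw [← h1]
    ext x
    simp

end Cfsg.Agent.S5628
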