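import Cfsg.Statements.S5632
import Cfsg.Agent.H871.Basic

set_option autoImplicit false
open Cfsg
open scoped Matrix

namespace Cfsg.Agent.S5632

/-- For a finite field F and subspaces 0 < W < U of F^n with dim W + dim U = n, the elements of SL_n(F) stabilising both W and U form a subgroup that is not maximal in SL_n(F): some subgroup lies strictly between it and SL_n(F). -/
theorem result {F : Type*} [Field F] [Fintype F] (n : ℕ) (W U : Submodule F (Fin n → F)) (hW0 : W ≠ ⊥) (hWU : W < U) (hdim : Module.finrank F W + Module.finrank F U = n) : ∃ K : Subgroup (Matrix.GeneralLinearGroup (Fin n) F), Cfsg.Geo.subspaceStabilizer W ⊓ Cfsg.Geo.subspaceStabilizer U ⊓ Cfsg.Geo.specialLinear (Fin n) F < K ∧ K < Cfsg.Geo.specialLinear (Fin n) F := by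
  obtain ⟨w0, hw0, hw00⟩ := (Submodule.ne_bot_iff _).1 hW0
  have hU1 : U ≠ ⊤ := by
    rintro rfl
    have h1 : Module.finrank F (⊤ : Submodule F (Fin n → F)) = n := by
      rw [finrank_top, Module.finrank_fin_fun]
    have h2 : 0 < Module.finrank F W := by
      rw [Nat.pos_iff_ne_zero]
      intro h
      exact hW0 (Submodule.finrank_eq_zero.1 h)
    omega
  have hW1 : W ≠ ⊤ := by
    rintro rfl
    exact absurd hWU (not_lt_of_ge le_top)
  have hn : 2 ≤ n := by
    have h2 : 0 < Module.finrank F W := by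
      rw [Nat.pos_iff_ne_zero]
      intro h
      exact hW0 (Submodule.finrank_eq_zero.1 h)
    have h3 := Submodule.finrank_lt_finrank_of_lt hWU
    omega
  have : Nontrivial (Fin n) := Fin.nontrivial_iff_two_le.2 hn
  refine ⟨Cfsg.Geo.subspaceStabilizer W ⊓ Cfsg.Geo.specialLinear (Fin n) F, ?_,
    (Cfsg.Agent.H871.subspaceStabilizer_maximal W hW0 hW1).1⟩
  refine lt_of_le_of_ne (inf_le_inf_right _ inf_le_left) ?_
  intro hEq
  obtain ⟨u, huU, huW⟩ := SetLike.exists_of_lt hWU
  obtain ⟨b, hb⟩ : ∃ b, b ∉ U := by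
    by_contra h
    push Not at h
    exact hU1 (eq_top_iff.2 fun x _ => h x)
  have hu : u ∉ W ⊔ Submodule.span F {b} := by
    intro h
    obtain ⟨w, hw, y, hy, hwy⟩ := Submodule.mem_sup.1 h
    obtain ⟨c, rfl⟩ := Submodule.mem_span_singleton.1 hy
    have hc : c ≠ 0 := by
      rintro rfl
      apply huW
      rw [← hwy, zero_smul, add_zero]
      exact hw
    apply hb
    have h1 : c • b ∈ U := by
      have : c • b = u - w := by rw [← hwy, add_sub_cancel_left]
      rw [this]
      exact U.sub_mem huU (hWU.le hw)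
    have := U.smul_mem c⁻¹ h1
    rwa [smul_smul, inv_mul_cancel₀ hc, one_smul] at this
  obtain ⟨φ, hφ, hφu⟩ := Cfsg.Agent.H871.exists_dot _ hu
  have h0 : φ ⬝ᵥ b = 0 := hφ b (Submodule.mem_sup_right (Submodule.mem_span_singleton_self _))
  have hW : ∀ w ∈ W, φ ⬝ᵥ w = 0 := fun w hw => hφ w (Submodule.mem_sup_left hw)
  have h1 : Cfsg.Agent.H873.tv b φ h0 ∈
      Cfsg.Geo.subspaceStabilizer W ⊓ Cfsg.Geo.specialLinear (Fin n) F :=
    ⟨Cfsg.Agent.H871.tv_mem_stab h0 (Or.inr hW), Cfsg.Agent.H873.tv_mem_specialLinear _ _ h0⟩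
  rw [← hEq] at h1
  have h2 := ((Cfsg.Agent.H871.mem_stab_iff _ _).1 h1.1.2 u).1 huU
  rw [Cfsg.Agent.H873.tv_mulVec, hφu, one_smul] at h2
  apply hb
  have := U.sub_mem h2 huU
  rwa [add_sub_cancel_left] at this

end Cfsg.Agent.S5632
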