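import Cfsg.Statements.S5633
import Cfsg.Agent.H871.Basic

set_option autoImplicit false
open Cfsg
open scoped Matrix

namespace Cfsg.Agent.S5633

/-- For a finite field F and complementary non-zero subspaces W ⊕ U = F^n with dim W < dim U, the elements of SL_n(F) stabilising both W and U form a subgroup that is not maximal in SL_n(F): some subgroup lies strictly between it and SL_n(F). -/
theorem result {F : Type*} [Field F] [Fintype F] (n : ℕ) (W U : Submodule F (Fin n → F)) (hW0 : W ≠ ⊥) (hWU : W ⊓ U = ⊥) (hWU' : W ⊔ U = ⊤) (hdim : Module.finrank F W < Module.finrank F U) : ∃ K : Subgroup (Matrix.GeneralLinearGroup (Fin n) F), Cfsg.Geo.subspaceStabilizer W ⊓ Cfsg.Geo.subspaceStabilizer U ⊓ Cfsg.Geo.specialLinear (Fin n) F < K ∧ K < Cfsg.Geo.specialLinear (Fin n) F := by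
  obtain ⟨a, haW, ha0⟩ := (Submodule.ne_bot_iff _).1 hW0
  have hU0 : U ≠ ⊥ := by
    rintro rfl
    simp at hdim
  obtain ⟨u, huU, hu0⟩ := (Submodule.ne_bot_iff _).1 hU0
  have hW1 : W ≠ ⊤ := by
    rintro rfl
    rw [top_inf_eq] at hWU
    exact hU0 hWU
  have hn : 2 ≤ n := by
    have h2 : 0 < Module.finrank F W := by
      rw [Nat.pos_iff_ne_zero]
      intro h
      exact hW0 (Submodule.finrank_eq_zero.1 h)
    have h3 : Module.finrank F U ≤ Module.finrank F (Fin n → F) := Submodule.finrank_le _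
    rw [Module.finrank_fin_fun] at h3
    omega
  have : Nontrivial (Fin n) := Fin.nontrivial_iff_two_le.2 hn
  refine ⟨Cfsg.Geo.subspaceStabilizer W ⊓ Cfsg.Geo.specialLinear (Fin n) F, ?_,
    (Cfsg.Agent.H871.subspaceStabilizer_maximal W hW0 hW1).1⟩
  refine lt_of_le_of_ne (inf_le_inf_right _ inf_le_left) ?_
  intro hEq
  have haU : a ∉ U := by
    intro h
    have : a ∈ W ⊓ U := ⟨haW, h⟩
    rw [hWU] at this
    exact ha0 this
  have hu : u ∉ Submodule.span F {a} := by
    intro h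
    obtain ⟨c, rfl⟩ := Submodule.mem_span_singleton.1 h
    have : c • a ∈ W ⊓ U := ⟨W.smul_mem _ haW, huU⟩
    rw [hWU] at this
    exact hu0 this
  obtain ⟨φ, hφ, hφu⟩ := Cfsg.Agent.H871.exists_dot _ hu
  have h0 : φ ⬝ᵥ a = 0 := hφ a (Submodule.mem_span_singleton_self _)
  have h1 : Cfsg.Agent.H873.tv a φ h0 ∈
      Cfsg.Geo.subspaceStabilizer W ⊓ Cfsg.Geo.specialLinear (Fin n) F :=
    ⟨Cfsg.Agent.H871.tv_mem_stab h0 (Or.inl haW), Cfsg.Agent.H873.tv_mem_specialLinear _ _ h0⟩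
  rw [← hEq] at h1
  have h2 := ((Cfsg.Agent.H871.mem_stab_iff _ _).1 h1.1.2 u).1 huU
  rw [Cfsg.Agent.H873.tv_mulVec, hφu, one_smul] at h2
  apply haU
  have := U.sub_mem h2 huU
  rwa [add_sub_cancel_left] at this

end Cfsg.Agent.S5633
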