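import Cfsg.Statements.S5635
import Cfsg.Agent.H872.FrameForms

set_option autoImplicit false
open Cfsg

namespace Cfsg.Agent.S5635

open Matrix Cfsg.Agent.H872

variable {F : Type*} [Field F]

/-- The unit form `z ↦ z₀²` in dimension one. -/
def sqB (F : Type*) [Field F] : (Fin 1 → F) →ₗ[F] (Fin 1 → F) →ₗ[F] F :=
  LinearMap.mk₂ F (fun z w => 2 * (z 0 * w 0))
    (fun a b c => by simp only [Pi.add_apply]; ring)
    (fun a b c => by simp only [Pi.smul_apply, smul_eq_mul]; ring)
    (fun a b c => by simp only [Pi.add_apply]; ring)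
    (fun a b c => by simp only [Pi.smul_apply, smul_eq_mul]; ring)

/-- The polar form of `z₀² + z₀ z₁ + z₁²`. -/
def nrB (F : Type*) [Field F] : (Fin 2 → F) →ₗ[F] (Fin 2 → F) →ₗ[F] F :=
  LinearMap.mk₂ F (fun z w => 2 * (z 0 * w 0) + z 0 * w 1 + z 1 * w 0 + 2 * (z 1 * w 1))
    (fun a b c => by simp only [Pi.add_apply]; ring)
    (fun a b c => by simp only [Pi.smul_apply, smul_eq_mul]; ring)
    (fun a b c => by simp only [Pi.add_apply]; ring)
    (fun a b c => by simp only [Pi.smul_apply, smul_eq_mul]; ring)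

theorem sqB_apply (z w : Fin 1 → F) : sqB F z w = 2 * (z 0 * w 0) := rfl

theorem nrB_apply (z w : Fin 2 → F) :
    nrB F z w = 2 * (z 0 * w 0) + z 0 * w 1 + z 1 * w 0 + 2 * (z 1 * w 1) := rfl

theorem card_eq {n m t : ℕ} {D : Fin t → Submodule F (Fin n → F)} (hD : Geo.IsMDecomposition m D) :
    n = t * m := by
  obtain ⟨Ψ, -⟩ := exists_coord hD
  have h := Ψ.finrank_eq
  rw [Module.finrank_fintype_fun_eq_card, Fintype.card_fin] at h
  rw [h, Module.finrank_pi_fintype]
  simp

theorem one_three [Fintype F] {n t : ℕ} (hn : 13 ≤ n) {D : Fin t → Submodule F (Fin n → F)}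
    (hD : Geo.IsMDecomposition 1 D) (hq : Fintype.card F = 3) :
    ∃ K : Subgroup (GL (Fin n) F), Geo.decompositionStabilizer D ⊓ Geo.specialLinear (Fin n) F < K ∧
      K < Geo.specialLinear (Fin n) F := by
  have h3 : (3 : F) = 0 := by
    have h := Nat.cast_card_eq_zero (R := F)
    rw [hq] at h
    exact_mod_cast h
  have h2 : (2 : F) ≠ 0 := by
    intro h
    exact one_ne_zero (α := F) (by linear_combination h3 - h)
  have hc := card_eq hD
  refine exists_between_quad hD (by simp; omega) (N := fun z => z 0 ^ 2) (B := sqB F) ?_ ?_ ?_ ?_ ?_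
    (k := 4) (by norm_num) (by omega) ?_
  · intro c z; simp only [Pi.smul_apply, smul_eq_mul]; ring
  · intro z w; simp only [Pi.add_apply, sqB_apply]; ring
  · intro z w; simp only [sqB_apply]; ring
  · intro z hz
    refine ⟨fun _ => 1, ?_⟩
    rw [sqB_apply]
    have : z 0 ≠ 0 := by
      intro h
      refine hz (funext fun i => ?_)
      rw [Subsingleton.elim i 0, h]; rfl
    simp [this, h2]
  · intro z hz
    have : z 0 ≠ 0 := by
      intro h
      refine hz (funext fun i => ?_)
      rw [Subsingleton.elim i 0, h]; rfl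
    have h4 := FiniteField.pow_card_sub_one_eq_one (z 0) this
    rw [hq] at h4
    exact h4
  · push_cast; linear_combination h3

theorem two_two [Fintype F] {n t : ℕ} (hn : 13 ≤ n) {D : Fin t → Submodule F (Fin n → F)}
    (hD : Geo.IsMDecomposition 2 D) (hq : Fintype.card F = 2) :
    ∃ K : Subgroup (GL (Fin n) F), Geo.decompositionStabilizer D ⊓ Geo.specialLinear (Fin n) F < K ∧
      K < Geo.specialLinear (Fin n) F := by
  have h2 : (2 : F) = 0 := by
    have h := Nat.cast_card_eq_zero (R := F)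
    rw [hq] at h
    exact_mod_cast h
  have h01 : ∀ a : F, a = 0 ∨ a = 1 := by
    intro a
    by_cases h : a = 0
    · exact Or.inl h
    · right
      have h4 := FiniteField.pow_card_sub_one_eq_one a h
      rw [hq] at h4
      simpa using h4
  have hc := card_eq hD
  refine exists_between_quad hD (by simp; omega) (N := fun z => z 0 ^ 2 + z 0 * z 1 + z 1 ^ 2) (B := nrB F)
    ?_ ?_ ?_ ?_ ?_ (k := 3) (by norm_num) (by omega) ?_
  · intro c z; simp only [Pi.smul_apply, smul_eq_mul]; ring
  · intro z w; simp only [Pi.add_apply, nrB_apply]; ring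
  · intro z w; simp only [nrB_apply]; ring
  · intro z hz
    by_cases h0 : z 0 = 0
    · refine ⟨![1, 0], ?_⟩
      have h1 : z 1 ≠ 0 := by
        intro h
        refine hz (funext fun i => ?_)
        fin_cases i
        · exact h0
        · exact h
      rw [nrB_apply]
      simp [h0, h1]
    · refine ⟨![0, 1], ?_⟩
      rw [nrB_apply, h2]
      simp [h0]
  · intro z hz
    rcases h01 (z 0) with h | h <;> rcases h01 (z 1) with h' | h'
    · exfalso
      refine hz (funext fun i => ?_)
      fin_cases i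
      · exact h
      · exact h'
    · simp [h, h']
    · simp [h, h']
    · simp only [h, h']; linear_combination h2
  · push_cast; linear_combination h2

theorem one_two [Fintype F] {n t : ℕ} (hn : 13 ≤ n) {D : Fin t → Submodule F (Fin n → F)}
    (hD : Geo.IsMDecomposition 1 D) (hq : Fintype.card F = 2) :
    ∃ K : Subgroup (GL (Fin n) F), Geo.decompositionStabilizer D ⊓ Geo.specialLinear (Fin n) F < K ∧
      K < Geo.specialLinear (Fin n) F := by
  classical
  have h01 : ∀ a : F, a ≠ 0 → a = 1 := by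
    intro a h
    have h4 := FiniteField.pow_card_sub_one_eq_one a h
    rw [hq] at h4
    simpa using h4
  have hc := card_eq hD
  obtain ⟨Ψ, hΨ⟩ := exists_coord hD
  let s : Fin n → F := Ψ.symm fun _ _ => 1
  have hs : ∀ i, Ψ s i = fun _ => 1 := fun i => by
    rw [LinearEquiv.apply_symm_apply]
  have hones : ∀ z : Fin 1 → F, z ≠ 0 → z = fun _ => 1 := by
    intro z hz
    funext i
    refine h01 _ fun h => hz (funext fun j => ?_)
    rw [Subsingleton.elim j i, h]; rfl
  have hone0 : (fun _ => 1 : Fin 1 → F) ≠ 0 := fun h => one_ne_zero (congrFun h 0)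
  have hfix : ∀ g ∈ Geo.decompositionStabilizer D, (g : Matrix (Fin n) (Fin n) F) *ᵥ s = s := by
    intro g hg
    obtain ⟨σ, A, hA, hgA⟩ := coord_of_mem hΨ hg
    apply Ψ.injective
    funext i
    obtain ⟨i, rfl⟩ := σ.surjective i
    rw [hgA, hs, hs]
    refine hones _ fun h => hone0 (hA i ?_)
    rw [h, map_zero]
  have hs0 : s ≠ 0 := by
    intro h
    have := hs ⟨0, by omega⟩
    rw [h, map_zero] at this
    exact hone0 this.symm
  have h2 : (2 : F) = 0 := by
    have h := Nat.cast_card_eq_zero (R := F)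
    rw [hq] at h
    exact_mod_cast h
  have hmem : ∀ g : GL (Fin n) F, (g : Matrix (Fin n) (Fin n) F) *ᵥ s = s →
      g ∈ Geo.subspaceStabilizer (Submodule.span F {s}) := by
    intro g hg
    have hg' : ((g⁻¹ : GL (Fin n) F) : Matrix (Fin n) (Fin n) F) *ᵥ s = s := by
      conv_lhs => rw [← hg]
      rw [mulVec_mulVec, ← Units.val_mul, inv_mul_cancel, Units.val_one, one_mulVec]
    intro v
    change v ∈ Submodule.span F {s} ↔ (g : Matrix (Fin n) (Fin n) F) *ᵥ v ∈ Submodule.span F {s}
    rw [Submodule.mem_span_singleton, Submodule.mem_span_singleton]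
    constructor
    · rintro ⟨c, rfl⟩
      exact ⟨c, by rw [mulVec_smul, hg]⟩
    · rintro ⟨c, hc⟩
      refine ⟨c, ?_⟩
      have h1 : v = ((g⁻¹ : GL (Fin n) F) : Matrix (Fin n) (Fin n) F) *ᵥ
          ((g : Matrix (Fin n) (Fin n) F) *ᵥ v) := by
        rw [mulVec_mulVec, ← Units.val_mul, inv_mul_cancel, Units.val_one, one_mulVec]
      rw [h1, ← hc, mulVec_smul, hg']
  refine ⟨Geo.subspaceStabilizer (Submodule.span F {s}) ⊓ Geo.specialLinear (Fin n) F, ?_, ?_⟩
  · refine lt_of_le_of_ne (inf_le_inf_right _ fun g hg => hmem g (hfix g hg)) ?_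
    intro heq
    let i0 : Fin t := ⟨0, by omega⟩
    let i1 : Fin t := ⟨1, by omega⟩
    let i2 : Fin t := ⟨2, by omega⟩
    have h02 : i0 ≠ i2 := by simp [i0, i2, Fin.ext_iff]
    have h12 : i1 ≠ i2 := by simp [i1, i2, Fin.ext_iff]
    have h01' : i0 ≠ i1 := by simp [i0, i1, Fin.ext_iff]
    let ψ : (Fin n → F) →ₗ[F] F :=
      (LinearMap.proj 0 ∘ₗ LinearMap.proj i0 ∘ₗ Ψ.toLinearMap) +
      (LinearMap.proj 0 ∘ₗ LinearMap.proj i1 ∘ₗ Ψ.toLinearMap)
    have hψ : ∀ x, ψ x = Ψ x i0 0 + Ψ x i1 0 := fun x => rfl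
    let e : Fin t → (Fin n → F) := fun i => Ψ.symm (Pi.single i fun _ => 1)
    have he : ∀ i, Ψ (e i) = Pi.single i fun _ => 1 := fun i => LinearEquiv.apply_symm_apply _ _
    have hψa : ψ (e i2) = 0 := by
      rw [hψ, he, Pi.single_eq_of_ne h02, Pi.single_eq_of_ne h12]
      simp
    have hψs : ψ s = 0 := by
      rw [hψ, hs, hs]
      linear_combination h2
    have h1 : 1 + ψ (e i2) ≠ 0 := by rw [hψa, add_zero]; exact one_ne_zero
    have hg : dil ψ (e i2) h1 ∈ Geo.subspaceStabilizer (Submodule.span F {s}) ⊓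
        Geo.specialLinear (Fin n) F := by
      refine ⟨hmem _ ?_, ?_⟩
      · rw [dil_mulVec, hψs, zero_smul, add_zero]
      · exact (H905.mem_sl_iff _).2 (by rw [det_dil, hψa, add_zero])
    rw [← heq] at hg
    have hx : (dil ψ (e i2) h1 : Matrix (Fin n) (Fin n) F) *ᵥ e i0 = e i0 + e i2 := by
      rw [dil_mulVec, hψ, he, Pi.single_eq_same, Pi.single_eq_of_ne h01'.symm]
      simp
    refine not_mem_of_two hΨ (i := i0) (j := i0) (k := i2) h02 (x := e i0) ?_ ?_ ?_ hg.1
    · rw [hΨ]
      intro j hj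
      rw [he, Pi.single_eq_of_ne hj]
    · rw [hx, map_add, Pi.add_apply, he, he, Pi.single_eq_same, Pi.single_eq_of_ne h02, add_zero]
      exact hone0
    · rw [hx, map_add, Pi.add_apply, he, he, Pi.single_eq_same, Pi.single_eq_of_ne h02.symm, zero_add]
      exact hone0
  · refine lt_of_le_of_ne inf_le_right fun h => ?_
    refine H905.not_sl_le_subspaceStabilizer (W := Submodule.span F {s}) ?_ ?_ (by rw [← h]; exact inf_le_left)
    · rwa [Ne, Submodule.span_singleton_eq_bot]
    · intro htop
      have h3 : Module.finrank F (Submodule.span F {s}) ≤ 1 := by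
        simpa using finrank_span_le_card (R := F) ({s} : Set (Fin n → F))
      rw [htop, finrank_top, Module.finrank_fintype_fun_eq_card, Fintype.card_fin] at h3
      omega

theorem one_four [Fintype F] {n t : ℕ} (hn : 13 ≤ n) {D : Fin t → Submodule F (Fin n → F)}
    (hD : Geo.IsMDecomposition 1 D) (hq : Fintype.card F = 4) :
    ∃ K : Subgroup (GL (Fin n) F), Geo.decompositionStabilizer D ⊓ Geo.specialLinear (Fin n) F < K ∧
      K < Geo.specialLinear (Fin n) F := by
  classical
  have h4 : ∀ a : F, a ≠ 0 → a ^ 3 = 1 := by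
    intro a h
    have h4 := FiniteField.pow_card_sub_one_eq_one a h
    rw [hq] at h4
    simpa using h4
  have h4' : ∀ a : F, a ^ 4 = a := by
    intro a
    have h := FiniteField.pow_card a
    rwa [hq] at h
  have h2 : (2 : F) = 0 := by
    have h := Nat.cast_card_eq_zero (R := F)
    rw [hq] at h
    have h5 : (2 : F) * 2 = 0 := by
      have : ((4 : ℕ) : F) = 2 * 2 := by norm_num
      rw [← this]; exact_mod_cast h
    exact (mul_self_eq_zero.1 h5)
  have _hch : CharP F 2 := by
    have hr : ringChar F ∣ 2 := ringChar.dvd (by exact_mod_cast h2)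
    have hr1 : ringChar F ≠ 1 := CharP.ringChar_ne_one
    have hr2 : ringChar F = 2 := by
      rcases (Nat.dvd_prime Nat.prime_two).1 hr with h | h
      · exact absurd h hr1
      · exact h
    rw [← hr2]; infer_instance
  let σ : F ≃+* F := frobeniusEquiv F 2
  have hσ : ∀ a, σ a = a ^ 2 := fun a => frobeniusEquiv_apply F 2 a
  have hc := card_eq hD
  obtain ⟨Ψ, hΨ⟩ := exists_coord hD
  let f : (Fin n → F) → (Fin n → F) → F := fun v w => ∑ i, Ψ v i 0 * (Ψ w i 0) ^ 2
  have hf : ∀ v w, f v w = ∑ i, Ψ v i 0 * (Ψ w i 0) ^ 2 := fun v w => rfl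
  have hfl : ∀ x y v, f (x + y) v = f x v + f y v := by
    intro x y v
    rw [hf, hf, hf, ← Finset.sum_add_distrib]
    refine Finset.sum_congr rfl fun i _ => ?_
    rw [map_add, Pi.add_apply, Pi.add_apply]; ring
  have hfs : ∀ (c : F) x v, f (c • x) v = c * f x v := by
    intro c x v
    rw [hf, hf, Finset.mul_sum]
    refine Finset.sum_congr rfl fun i _ => ?_
    rw [map_smul, Pi.smul_apply, Pi.smul_apply, smul_eq_mul]; ring
  have hfh : ∀ v w, f v w = σ (f w v) := by
    intro v w
    rw [hf, hf, map_sum]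
    refine Finset.sum_congr rfl fun i _ => ?_
    rw [hσ, mul_pow, ← pow_mul, h4']; ring
  have hone : ∀ z : Fin 1 → F, z ≠ 0 → z 0 ≠ 0 := by
    intro z hz h
    refine hz (funext fun j => ?_)
    rw [Subsingleton.elim j 0, h]; rfl
  let e : Fin t → (Fin n → F) := fun i => Ψ.symm (Pi.single i fun _ => 1)
  have he : ∀ i, Ψ (e i) = Pi.single i fun _ => 1 := fun i => LinearEquiv.apply_symm_apply _ _
  have hfe : ∀ v i, f v (e i) = Ψ v i 0 := by
    intro v i
    rw [hf, Finset.sum_eq_single i]
    · rw [he, Pi.single_eq_same]; ring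
    · intro j _ hj
      rw [he, Pi.single_eq_of_ne hj]; simp
    · intro h; exact absurd (Finset.mem_univ _) h
  have hF : Geo.IsUnitaryForm σ f := by
    refine ⟨?_, ?_, hfl, hfs, hfh, ?_⟩
    · intro h
      have h5 : ∀ a : F, a ^ 2 = a := by
        intro a; rw [← hσ, h]; rfl
      have h6 : Fintype.card F ≤ 2 := by
        rw [← Finset.card_univ]
        have : (Finset.univ : Finset F) ⊆ {0, 1} := by
          intro a _
          have h7 : a * (a - 1) = 0 := by linear_combination h5 a
          rcases mul_eq_zero.1 h7 with h8 | h8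
          · simp [h8]
          · simp [sub_eq_zero.1 h8]
        exact (Finset.card_le_card this).trans Finset.card_le_two
      omega
    · intro a; rw [hσ, hσ, ← pow_mul]; exact h4' a
    · intro v hv
      have h1 : ∃ i, Ψ v i ≠ 0 := by
        by_contra hcon
        push Not at hcon
        exact hv (Ψ.map_eq_zero_iff.1 (funext hcon))
      obtain ⟨i, hi⟩ := h1
      have h5 : f v (e i) ≠ 0 := by rw [hfe]; exact hone _ hi
      refine ⟨⟨e i, ?_⟩, e i, h5⟩
      rw [hfh]
      exact fun h => h5 (σ.map_eq_zero_iff.1 h)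
  refine ⟨Geo.similarityGroup f ⊓ Geo.specialLinear (Fin n) F, ?_, ?_⟩
  · refine lt_of_le_of_ne (inf_le_inf_right _ ?_) ?_
    · intro g hg
      obtain ⟨τ, A, hA, hgA⟩ := coord_of_mem hΨ hg
      refine ⟨1, fun u v => ?_⟩
      rw [Units.val_one, one_mul, hf, hf, ← Equiv.sum_comp τ]
      refine Finset.sum_congr rfl fun i _ => ?_
      rw [hgA, hgA]
      have hA1 : ∀ z : Fin 1 → F, A i z 0 = z 0 * A i (fun _ => 1) 0 := by
        intro z
        have : z = z 0 • (fun _ => 1 : Fin 1 → F) := by
          funext j; rw [Subsingleton.elim j 0]; simp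
        conv_lhs => rw [this]
        rw [map_smul]; rfl
      have hA2 : A i (fun _ => 1) 0 ≠ 0 := by
        refine hone _ fun h => ?_
        have : (fun _ => 1 : Fin 1 → F) = 0 := hA i (by rw [h, map_zero])
        exact one_ne_zero (congrFun this 0)
      rw [hA1, hA1 (Ψ v i), mul_pow]
      linear_combination (Ψ u i 0 * Ψ v i 0 ^ 2) * h4 _ hA2
    · intro heq
      let i0 : Fin t := ⟨0, by omega⟩
      let i1 : Fin t := ⟨1, by omega⟩
      let i2 : Fin t := ⟨2, by omega⟩
      let i3 : Fin t := ⟨3, by omega⟩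
      have h01' : i0 ≠ i1 := by simp [i0, i1, Fin.ext_iff]
      have h02 : i0 ≠ i2 := by simp [i0, i2, Fin.ext_iff]
      have h03 : i0 ≠ i3 := by simp [i0, i3, Fin.ext_iff]
      have h12 : i1 ≠ i2 := by simp [i1, i2, Fin.ext_iff]
      have h13 : i1 ≠ i3 := by simp [i1, i3, Fin.ext_iff]
      have h23 : i2 ≠ i3 := by simp [i2, i3, Fin.ext_iff]
      let a : Fin n → F := e i0 + e i1 + e i2 + e i3
      have hfr : ∀ v x y, f v (x + y) = f v x + f v y := by
        intro v x y
        rw [hfh v (x + y), hfl, map_add, ← hfh, ← hfh]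
      have hfrs : ∀ (c : F) v x, f v (c • x) = c ^ 2 * f v x := by
        intro c v x
        rw [hfh v (c • x), hfs, map_mul, ← hfh, hσ]
      have htv : ∀ b, f b b = 0 → ∀ u v, f (u + f u b • b) (v + f v b • b) = f u v := by
        intro b hb u v
        rw [hfl, hfr, hfr, hfs, hfs, hfrs, hfrs, hb]
        have h5 : f b v = (f v b) ^ 2 := by rw [hfh, hσ]
        rw [h5]
        linear_combination (f u b * f v b ^ 2) * h2
      have hfa : ∀ v, f v a = Ψ v i0 0 + Ψ v i1 0 + Ψ v i2 0 + Ψ v i3 0 := by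
        intro v
        rw [hfr, hfr, hfr, hfe, hfe, hfe, hfe]
      have hΨa : ∀ i, Ψ a i = (Pi.single i0 (fun _ => 1) : Fin t → Fin 1 → F) i +
          (Pi.single i1 (fun _ => 1) : Fin t → Fin 1 → F) i + (Pi.single i2 (fun _ => 1) : Fin t → Fin 1 → F) i +
          (Pi.single i3 (fun _ => 1) : Fin t → Fin 1 → F) i := by
        intro i
        change Ψ (e i0 + e i1 + e i2 + e i3) i = _
        rw [map_add, map_add, map_add, he, he, he, he]
        rfl
      have hΨa0 : Ψ a i0 0 = 1 := by
        rw [hΨa, Pi.single_eq_same, Pi.single_eq_of_ne h01', Pi.single_eq_of_ne h02, Pi.single_eq_of_ne h03]; simp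
      have hΨa1 : Ψ a i1 0 = 1 := by
        rw [hΨa, Pi.single_eq_same, Pi.single_eq_of_ne h01'.symm, Pi.single_eq_of_ne h12, Pi.single_eq_of_ne h13]
        simp
      have hΨa2 : Ψ a i2 0 = 1 := by
        rw [hΨa, Pi.single_eq_same, Pi.single_eq_of_ne h02.symm, Pi.single_eq_of_ne h12.symm,
          Pi.single_eq_of_ne h23]
        simp
      have hΨa3 : Ψ a i3 0 = 1 := by
        rw [hΨa, Pi.single_eq_same, Pi.single_eq_of_ne h03.symm, Pi.single_eq_of_ne h13.symm,
          Pi.single_eq_of_ne h23.symm]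
        simp
      let ψ : (Fin n → F) →ₗ[F] F :=
        { toFun := fun x => f x a
          map_add' := fun x y => hfl x y a
          map_smul' := fun c x => hfs c x a }
      have hψ : ∀ x, ψ x = f x a := fun x => rfl
      have hψa : ψ a = 0 := by
        rw [hψ, hfa, hΨa0, hΨa1, hΨa2, hΨa3]
        linear_combination 2 * h2
      have h1 : 1 + ψ a ≠ 0 := by rw [hψa, add_zero]; exact one_ne_zero
      have hg : dil ψ a h1 ∈ Geo.similarityGroup f ⊓ Geo.specialLinear (Fin n) F := by
        refine ⟨⟨1, fun u v => ?_⟩, ?_⟩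
        · rw [dil_mulVec, dil_mulVec, hψ, hψ, Units.val_one, one_mul]
          exact htv a hψa u v
        · exact (H905.mem_sl_iff _).2 (by rw [det_dil, hψa, add_zero])
      rw [← heq] at hg
      have hx : (dil ψ a h1 : Matrix (Fin n) (Fin n) F) *ᵥ e i0 = e i0 + a := by
        rw [dil_mulVec, hψ, hfa, he, Pi.single_eq_same, Pi.single_eq_of_ne h01'.symm, Pi.single_eq_of_ne h02.symm,
          Pi.single_eq_of_ne h03.symm]
        simp
      refine not_mem_of_two hΨ (i := i0) (j := i1) (k := i2) h12 (x := e i0) ?_ ?_ ?_ hg.1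
      · rw [hΨ]
        intro j hj
        rw [he, Pi.single_eq_of_ne hj]
      · rw [hx, map_add, Pi.add_apply, he, Pi.single_eq_of_ne h01'.symm, zero_add]
        intro h; rw [h] at hΨa1; exact zero_ne_one hΨa1
      · rw [hx, map_add, Pi.add_apply, he, Pi.single_eq_of_ne h02.symm, zero_add]
        intro h; rw [h] at hΨa2; exact zero_ne_one hΨa2
  · refine lt_of_le_of_ne inf_le_right fun h => ?_
    exact H905.not_sl_le_similarityGroup_unitary (by simp; omega) hF (by rw [← h]; exact inf_le_left)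

/-- For a finite field F with q elements and n ≥ 13, let D be a decomposition of F^n into t ≥ 2 independent subspaces of equal dimension m spanning F^n, where m = 1 and q ≤ 4, or m = 2 and q = 2. Then the elements of SL_n(F) permuting the members of D form a subgroup that is not maximal: some subgroup lies strictly between it and SL_n(F). -/
theorem result {F : Type*} [Field F] [Fintype F] (n : ℕ) (hn : 13 ≤ n) {t : ℕ} (m : ℕ) (D : Fin t → Submodule F (Fin n → F)) (hD : Cfsg.Geo.IsMDecomposition m D) (h : (m = 1 ∧ Fintype.card F ≤ 4) ∨ (m = 2 ∧ Fintype.card F = 2)) : ∃ K : Subgroup (Matrix.GeneralLinearGroup (Fin n) F), Cfsg.Geo.decompositionStabilizer D ⊓ Cfsg.Geo.specialLinear (Fin n) F < K ∧ K < Cfsg.Geo.specialLinear (Fin n) F := by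
  rcases h with ⟨rfl, hq⟩ | ⟨rfl, hq⟩
  · have h1 : 1 < Fintype.card F := Fintype.one_lt_card
    obtain h2 | h2 | h2 : Fintype.card F = 2 ∨ Fintype.card F = 3 ∨ Fintype.card F = 4 := by omega
    · exact one_two hn hD h2
    · exact one_three hn hD h2
    · exact one_four hn hD h2
  · exact two_two hn hD hq

end Cfsg.Agent.S5635
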