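import Cfsg.Statements.S5638
import Cfsg.Agent.H872.TensorBasic
import Cfsg.Agent.H905.SLProper

set_option autoImplicit false
open Cfsg

namespace Cfsg.Agent.S5638

open Matrix Cfsg.Agent.H872
open scoped Kronecker

section

variable {F : Type*} [Field F]

/-- The matrix of order three. -/
def omg (F : Type*) [Field F] : Matrix (Fin 2) (Fin 2) F := !![0, 1; 1, 1]

/-- The subalgebra `{α + β ω}`. -/
def sub4 (F : Type*) [Field F] : Subalgebra F (Matrix (Fin 2) (Fin 2) F) where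
  carrier := {x | x 0 1 = x 1 0 ∧ x 1 1 = x 0 0 + x 0 1}
  mul_mem' := by
    rintro x y ⟨h1, h2⟩ ⟨h3, h4⟩
    change (x * y) 0 1 = (x * y) 1 0 ∧ (x * y) 1 1 = (x * y) 0 0 + (x * y) 0 1
    simp only [mul_apply, Fin.sum_univ_two]
    rw [← h1, h2, ← h3, h4]
    constructor <;> ring
  add_mem' := by
    rintro x y ⟨h1, h2⟩ ⟨h3, h4⟩
    change x 0 1 + y 0 1 = x 1 0 + y 1 0 ∧ x 1 1 + y 1 1 = x 0 0 + y 0 0 + (x 0 1 + y 0 1)
    rw [h1, h2, h3, h4]
    refine ⟨rfl, ?_⟩
    rw [h1, h3]; ring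
  algebraMap_mem' := by
    intro c
    simp [algebraMap_matrix_apply]

theorem mem_sub4 {x : Matrix (Fin 2) (Fin 2) F} :
    x ∈ sub4 F ↔ x 0 1 = x 1 0 ∧ x 1 1 = x 0 0 + x 0 1 := Iff.rfl

theorem eq_of_mem_sub4 {x : Matrix (Fin 2) (Fin 2) F} (hx : x ∈ sub4 F) :
    x = x 0 0 • (1 : Matrix (Fin 2) (Fin 2) F) + x 0 1 • omg F := by
  obtain ⟨h1, h2⟩ := hx
  ext i j
  fin_cases i <;> fin_cases j <;> simp [omg, h1, h2]

variable [Fintype F]

theorem zero_or_one (hq : Fintype.card F = 2) (a : F) : a = 0 ∨ a = 1 := by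
  classical
  by_contra h
  push Not at h
  have h1 : ({0, 1, a} : Finset F).card ≤ Fintype.card F := Finset.card_le_univ _
  rw [Finset.card_insert_of_notMem (by simp [h.1.symm]), Finset.card_insert_of_notMem (by simp [h.2.symm]),
    Finset.card_singleton, hq] at h1
  omega

theorem two_eq_zero (hq : Fintype.card F = 2) : (2 : F) = 0 := by
  have h := Nat.cast_card_eq_zero (R := F)
  rw [hq] at h
  exact_mod_cast h

theorem exists_inv_sub4 (hq : Fintype.card F = 2) {x : Matrix (Fin 2) (Fin 2) F} (hx : x ∈ sub4 F)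
    (h0 : x ≠ 0) : ∃ y ∈ sub4 F, x * y = 1 := by
  obtain ⟨h1, h2⟩ := hx
  have h3 : x.det = 1 := by
    rw [det_fin_two, h2, ← h1]
    have h4 : ¬ (x 0 0 = 0 ∧ x 0 1 = 0) := by
      rintro ⟨h5, h6⟩
      refine h0 ?_
      ext i j
      fin_cases i <;> fin_cases j <;> simp [h5, h6, h2, ← h1]
    have h5 := two_eq_zero hq
    rcases zero_or_one hq (x 0 0) with h6 | h6 <;> rcases zero_or_one hq (x 0 1) with h7 | h7
    · exact absurd ⟨h6, h7⟩ h4
    · rw [h6, h7]; linear_combination (-1 : F) * h5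
    · rw [h6, h7]; ring
    · rw [h6, h7]; ring
  refine ⟨x.adjugate, ?_, ?_⟩
  · rw [mem_sub4, adjugate_fin_two]
    simp only [of_apply, cons_val', cons_val_zero, cons_val_one, empty_val', cons_val_fin_one]
    rw [← h1, h2]
    exact ⟨rfl, by ring⟩
  · rw [mul_adjugate, h3, one_smul]

theorem conj_omg_mem (hq : Fintype.card F = 2) (a : GL (Fin 2) F) :
    (a : Matrix (Fin 2) (Fin 2) F) * omg F * ((a⁻¹ : GL (Fin 2) F) : Matrix (Fin 2) (Fin 2) F) ∈ sub4 F := by
  set x := (a : Matrix (Fin 2) (Fin 2) F) * omg F * ((a⁻¹ : GL (Fin 2) F) : Matrix (Fin 2) (Fin 2) F) with hx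
  have ht : x.trace = 1 := by
    rw [hx, trace_mul_comm, ← mul_assoc, ← Units.val_mul, inv_mul_cancel, Units.val_one, one_mul, omg, trace_fin_two]
    simp
  have hd : x.det = -1 := by
    rw [hx, det_mul, mul_comm, ← det_mul, ← mul_assoc, ← Units.val_mul, inv_mul_cancel, Units.val_one, one_mul,
      omg, det_fin_two]
    simp
  rw [trace_fin_two] at ht
  rw [det_fin_two] at hd
  have h5 := two_eq_zero hq
  have h11 : x 1 1 = 1 - x 0 0 := by linear_combination ht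
  rw [h11] at hd
  have h00 : x 0 0 * (1 - x 0 0) = 0 := by
    rcases zero_or_one hq (x 0 0) with h6 | h6 <;> rw [h6] <;> ring
  have h01 : x 0 1 * x 1 0 = 1 := by linear_combination h00 - hd
  have h1 : x 0 1 = 1 := by
    rcases zero_or_one hq (x 0 1) with h6 | h6
    · rw [h6, zero_mul] at h01; exact absurd h01 zero_ne_one
    · exact h6
  rw [mem_sub4]
  rw [h1, one_mul] at h01
  refine ⟨by rw [h1, h01], ?_⟩
  rw [h11, h1]; linear_combination (-(x 0 0)) * h5

theorem conj_mem_sub4 (hq : Fintype.card F = 2) (a : GL (Fin 2) F) {s : Matrix (Fin 2) (Fin 2) F} (hs : s ∈ sub4 F) :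
    (a : Matrix (Fin 2) (Fin 2) F) * s * ((a⁻¹ : GL (Fin 2) F) : Matrix (Fin 2) (Fin 2) F) ∈ sub4 F := by
  rw [eq_of_mem_sub4 hs]
  have h : (a : Matrix (Fin 2) (Fin 2) F) * (s 0 0 • (1 : Matrix (Fin 2) (Fin 2) F) + s 0 1 • omg F) *
      ((a⁻¹ : GL (Fin 2) F) : Matrix (Fin 2) (Fin 2) F) = s 0 0 • (1 : Matrix (Fin 2) (Fin 2) F) +
      s 0 1 • ((a : Matrix (Fin 2) (Fin 2) F) * omg F * ((a⁻¹ : GL (Fin 2) F) : Matrix (Fin 2) (Fin 2) F)) := by
    rw [mul_add, add_mul, mul_smul_comm, mul_smul_comm, mul_one, smul_mul_assoc, smul_mul_assoc, ← Units.val_mul,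
      mul_inv_cancel, Units.val_one]
  rw [h]
  exact (sub4 F).add_mem ((sub4 F).smul_mem (sub4 F).one_mem _) ((sub4 F).smul_mem (conj_omg_mem hq a) _)

end

section

variable {F : Type*} [Field F] {n n₂ : ℕ}

/-- `s ↦ s ⊗ 1` as an algebra homomorphism. -/
def kronL (n₂ : ℕ) (F : Type*) [Field F] : Matrix (Fin 2) (Fin 2) F →ₐ[F] Matrix (Fin 2 × Fin n₂) (Fin 2 × Fin n₂) F where
  toFun := fun s => s ⊗ₖ (1 : Matrix (Fin n₂) (Fin n₂) F)
  map_one' := one_kronecker_one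
  map_mul' := fun x y => by rw [← mul_kronecker_mul, one_mul]
  map_zero' := zero_kronecker _
  map_add' := fun x y => add_kronecker _ _ _
  commutes' := fun c => by
    rw [Algebra.algebraMap_eq_smul_one, smul_kronecker, one_kronecker_one, Algebra.algebraMap_eq_smul_one]

theorem kronL_apply (s : Matrix (Fin 2) (Fin 2) F) : kronL n₂ F s = s ⊗ₖ (1 : Matrix (Fin n₂) (Fin n₂) F) := rfl

/-- The subalgebra of the big matrix algebra. -/
def big (e : Fin n ≃ Fin 2 × Fin n₂) (P : GL (Fin n) F) : Subalgebra F (Matrix (Fin n) (Fin n) F) :=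
  (sub4 F).map ((emb e P).toAlgHom.comp (kronL n₂ F))

theorem mem_big {e : Fin n ≃ Fin 2 × Fin n₂} {P : GL (Fin n) F} {x : Matrix (Fin n) (Fin n) F} :
    x ∈ big e P ↔ ∃ s ∈ sub4 F, emb e P (s ⊗ₖ (1 : Matrix (Fin n₂) (Fin n₂) F)) = x := Iff.rfl

theorem mem_normalizer_of {K : Subalgebra F (Matrix (Fin n) (Fin n) F)} {g : GL (Fin n) F}
    (h1 : ∀ k ∈ K, (g : Matrix (Fin n) (Fin n) F) * k * ((g⁻¹ : GL (Fin n) F) : Matrix (Fin n) (Fin n) F) ∈ K)
    (h2 : ∀ k ∈ K, ((g⁻¹ : GL (Fin n) F) : Matrix (Fin n) (Fin n) F) * k * (g : Matrix (Fin n) (Fin n) F) ∈ K) :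
    g ∈ Geo.subalgebraNormalizer K := by
  intro k
  refine ⟨h1 k, fun h => ?_⟩
  have h3 := h2 _ h
  simpa [mul_assoc] using h3

theorem tensor_le (e : Fin n ≃ Fin 2 × Fin n₂) (P : GL (Fin n) F) [Fintype F] (hq : Fintype.card F = 2) :
    Geo.tensorProductSubgroup 2 n₂ e P ≤ Geo.subalgebraNormalizer (big e P) := by
  have key : ∀ g ∈ Geo.tensorProductSubgroup 2 n₂ e P, ∀ k ∈ big e P,
      (g : Matrix (Fin n) (Fin n) F) * k * ((g⁻¹ : GL (Fin n) F) : Matrix (Fin n) (Fin n) F) ∈ big e P := by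
    intro g hg k hk
    obtain ⟨a, b, hab⟩ := mem_tensorProductSubgroup.1 hg
    obtain ⟨s, hs, rfl⟩ := mem_big.1 hk
    refine mem_big.2 ⟨_, conj_mem_sub4 hq a hs, ?_⟩
    have h1 : emb e P (((a : Matrix (Fin 2) (Fin 2) F) * s * ((a⁻¹ : GL (Fin 2) F) : Matrix (Fin 2) (Fin 2) F)) ⊗ₖ (1 : Matrix (Fin n₂) (Fin n₂) F)) *
        (g : Matrix (Fin n) (Fin n) F) =
        (g : Matrix (Fin n) (Fin n) F) * emb e P (s ⊗ₖ (1 : Matrix (Fin n₂) (Fin n₂) F)) := by
      rw [hab, ← map_mul, ← map_mul, ← mul_kronecker_mul, ← mul_kronecker_mul, one_mul, mul_one, mul_assoc,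
        ← Units.val_mul, inv_mul_cancel, Units.val_one, mul_one]
    rw [← h1, mul_assoc _ (g : Matrix (Fin n) (Fin n) F), ← Units.val_mul, mul_inv_cancel, Units.val_one, mul_one]
  intro g hg
  refine mem_normalizer_of (key g hg) ?_
  have h := key g⁻¹ (Subgroup.inv_mem _ hg)
  rw [inv_inv] at h
  exact h

/-- The extra element. -/
theorem exists_extra (e : Fin n ≃ Fin 2 × Fin n₂) (P : GL (Fin n) F) (hn : 2 ≤ n₂) :
    ∃ g : GL (Fin n) F, g ∈ Geo.subalgebraNormalizer (big e P) ∧ g ∉ Geo.tensorProductSubgroup 2 n₂ e P := by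
  let i : Fin n₂ := ⟨0, by omega⟩
  let j : Fin n₂ := ⟨1, by omega⟩
  have hij : i ≠ j := by simp [i, j, Fin.ext_iff]
  set E : Matrix (Fin n₂) (Fin n₂) F := Matrix.single i j 1 with hE
  have hEE : E * E = 0 := by rw [hE, Matrix.single_mul_single_of_ne _ _ _ _ hij.symm]
  have hN : (omg F ⊗ₖ E) * (omg F ⊗ₖ E) = 0 := by rw [← mul_kronecker_mul, hEE, kronecker_zero]
  let g : GL (Fin n) F := embGL e P
    { val := 1 + omg F ⊗ₖ E
      inv := 1 - omg F ⊗ₖ E
      val_inv := by rw [mul_sub, add_mul, add_mul, hN]; simp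
      inv_val := by rw [mul_add, sub_mul, sub_mul, hN]; simp }
  have hcomm : ∀ s ∈ sub4 F, (omg F ⊗ₖ E) * (s ⊗ₖ (1 : Matrix (Fin n₂) (Fin n₂) F)) =
      (s ⊗ₖ (1 : Matrix (Fin n₂) (Fin n₂) F)) * (omg F ⊗ₖ E) := by
    intro s hs
    rw [← mul_kronecker_mul, ← mul_kronecker_mul, one_mul, mul_one]
    congr 1
    rw [eq_of_mem_sub4 hs, mul_add, add_mul, mul_smul_comm, mul_smul_comm, smul_mul_assoc, smul_mul_assoc, one_mul,
      mul_one]
  have hg1 : (g : Matrix (Fin n) (Fin n) F) = emb e P (1 + omg F ⊗ₖ E) := rfl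
  have hg2 : ((g⁻¹ : GL (Fin n) F) : Matrix (Fin n) (Fin n) F) = emb e P (1 - omg F ⊗ₖ E) := rfl
  have hc : ∀ k ∈ big e P, (g : Matrix (Fin n) (Fin n) F) * k = k * (g : Matrix (Fin n) (Fin n) F) := by
    intro k hk
    obtain ⟨s, hs, rfl⟩ := mem_big.1 hk
    rw [hg1, ← map_mul, ← map_mul, add_mul, mul_add, one_mul, mul_one, hcomm s hs]
  refine ⟨g, mem_normalizer_of ?_ ?_, ?_⟩
  · intro k hk
    rw [hc k hk, mul_assoc, ← Units.val_mul, mul_inv_cancel, Units.val_one, mul_one]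
    exact hk
  · intro k hk
    rw [mul_assoc, ← hc k hk, ← mul_assoc, ← Units.val_mul, inv_mul_cancel, Units.val_one, one_mul]
    exact hk
  · intro hg
    obtain ⟨a, b, hab⟩ := mem_tensorProductSubgroup.1 hg
    rw [hg1] at hab
    have h := (emb e P).injective hab
    have h0 := congrFun (congrFun h (0, i)) (0, i)
    have h1 := congrFun (congrFun h (0, i)) (1, i)
    have h2 := congrFun (congrFun h (0, i)) (1, j)
    simp [kroneckerMap_apply, omg, hE, one_apply, hij, Matrix.single_apply] at h0 h1 h2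
    grind

end

/-- Over the field with 2 elements, for n = 2 n₂ ≥ 13, the stabiliser in SL_n of a tensor decomposition with factors of dimensions 2 and n₂ (the conjugate by any P of the Kronecker-product subgroup transported along any bijection Fin n ≃ Fin 2 × Fin n₂, intersected with SL_n) is not a maximal subgroup: some subgroup lies strictly between it and SL_n. -/
theorem result {F : Type*} [Field F] [Fintype F] (n : ℕ) (hn : 13 ≤ n) (hq : Fintype.card F = 2) (n₂ : ℕ) (e : Fin n ≃ Fin 2 × Fin n₂) (P : Matrix.GeneralLinearGroup (Fin n) F) : ∃ K : Subgroup (Matrix.GeneralLinearGroup (Fin n) F), Cfsg.Geo.tensorProductSubgroup 2 n₂ e P ⊓ Cfsg.Geo.specialLinear (Fin n) F < K ∧ K < Cfsg.Geo.specialLinear (Fin n) F := by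
  have hn2 : 2 ≤ n₂ := by
    have h := Fintype.card_congr e
    simp at h
    omega
  have hSL : ∀ g : GL (Fin n) F, g ∈ Geo.specialLinear (Fin n) F := by
    intro g
    rw [Geo.specialLinear, MonoidHom.mem_ker]
    apply Units.ext
    rcases zero_or_one hq ((Matrix.GeneralLinearGroup.det g : Fˣ) : F) with h | h
    · exact absurd h (Units.ne_zero _)
    · rw [h, Units.val_one]
  obtain ⟨g, hg1, hg2⟩ := exists_extra e P hn2
  refine ⟨Geo.subalgebraNormalizer (big e P) ⊓ Geo.specialLinear (Fin n) F, ?_, ?_⟩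
  · refine lt_of_le_of_ne (inf_le_inf_right _ (tensor_le e P hq)) ?_
    intro h
    have h3 : g ∈ Geo.tensorProductSubgroup 2 n₂ e P ⊓ Geo.specialLinear (Fin n) F := by
      rw [h]; exact ⟨hg1, hSL g⟩
    exact hg2 h3.1
  · refine lt_of_le_of_ne inf_le_right ?_
    intro h
    have h4 : Geo.specialLinear (Fin n) F ≤ Geo.subalgebraNormalizer (big e P) := by
      rw [← h]; exact inf_le_left
    have h5 := Cfsg.Agent.H905.subalgebra_le_bot_of_sl_normalizes (by simp; omega) ?_ h4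
      (emb e P (omg F ⊗ₖ (1 : Matrix (Fin n₂) (Fin n₂) F))) (mem_big.2 ⟨_, by simp [mem_sub4, omg], rfl⟩)
    · obtain ⟨c, hc⟩ := h5
      have h6 : emb e P (omg F ⊗ₖ (1 : Matrix (Fin n₂) (Fin n₂) F)) = emb e P (c • 1) := by
        rw [hc, map_smul, map_one]
      have h7 := (emb e P).injective h6
      have h8 := congrFun (congrFun h7 (0, ⟨0, by omega⟩)) (1, ⟨0, by omega⟩)
      simp [kroneckerMap_apply, omg, one_apply] at h8
    · intro x hx hx0
      obtain ⟨s, hs, rfl⟩ := mem_big.1 hx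
      have hs0 : s ≠ 0 := by
        rintro rfl
        exact hx0 (by rw [zero_kronecker, map_zero])
      obtain ⟨y, hy, hxy⟩ := exists_inv_sub4 hq hs hs0
      exact ⟨_, mem_big.2 ⟨y, hy, rfl⟩, by rw [← map_mul, ← mul_kronecker_mul, hxy, one_mul, one_kronecker_one, map_one]⟩

end Cfsg.Agent.S5638
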