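import Cfsg.Statements.S5648
import Cfsg.Agent.H875.SpDec

set_option autoImplicit false
open Cfsg

namespace Cfsg.Agent.S5648

open Cfsg.Agent.H875 Cfsg.Agent.ClassicalGeometry.SympBasic
  Cfsg.Agent.ClassicalGeometry.SympSiegel

section

variable {F : Type*} [Field F] {m : ℕ}

local notation "V" => (Fin m ⊕ Fin m → F)
local notation "G" => Matrix.symplecticGroup (Fin m) F
local notation "f" => sympForm m F

theorem eq_zero_or_one [Fintype F] (hq : Fintype.card F = 2) (c : F) : c = 0 ∨ c = 1 := by
  classical
  by_contra h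
  rw [not_or] at h
  have : ({0, 1, c} : Finset F).card ≤ Fintype.card F := Finset.card_le_univ _
  rw [Finset.card_eq_three.2 ⟨0, 1, c, zero_ne_one, fun h' => h.1 h'.symm,
    fun h' => h.2 h'.symm, rfl⟩] at this
  omega

theorem two_eq_zero [Fintype F] (hq : Fintype.card F = 2) : (2 : F) = 0 := by
  have h1 : ((Fintype.card F : ℕ) : F) = 0 := Nat.cast_card_eq_zero F
  rw [hq] at h1
  exact_mod_cast h1

variable {t : ℕ}

open Classical in
/-- The quadratic form: the number of non-zero components modulo two. -/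
noncomputable def Q (P : Fin t → ((Fin m ⊕ Fin m → F) →ₗ[F] (Fin m ⊕ Fin m → F)))
    (v : Fin m ⊕ Fin m → F) : F :=
  ∑ i, if P i v = 0 then 0 else 1

variable {D : Fin t → Submodule F (Fin m ⊕ Fin m → F)}
  {P : Fin t → ((Fin m ⊕ Fin m → F) →ₗ[F] (Fin m ⊕ Fin m → F))}

open Classical in
theorem block_polar [Fintype F] (hq : Fintype.card F = 2) {W : Submodule F (Fin m ⊕ Fin m → F)}
    (hW : Cfsg.Geo.IsNondegenerateOn f W) (hk : Module.finrank F W = 2) {a b : V}
    (ha : a ∈ W) (hb : b ∈ W) :
    (if a + b = 0 then (0 : F) else 1) =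
      (if a = 0 then 0 else 1) + (if b = 0 then 0 else 1) + f a b := by
  have h2 := two_eq_zero hq
  by_cases ha0 : a = 0
  · subst ha0
    simp
  by_cases hb0 : b = 0
  · subst hb0
    simp
  have hdouble : ∀ x : V, x + x = 0 := by
    intro x
    rw [← two_smul F, h2, zero_smul]
  rw [if_neg ha0, if_neg hb0]
  by_cases hab : a = b
  · subst hab
    rw [if_pos (hdouble a), sympForm_self]
    linear_combination -h2
  · have hab' : a + b ≠ 0 := by
      intro h
      apply hab
      have := hdouble b
      rw [← this] at h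
      exact add_right_cancel h
    rw [if_neg hab']
    -- `a, b` span `W`
    have hfab : f a b ≠ 0 := by
      intro h0
      have hli : LinearIndependent F ![(⟨a, ha⟩ : W), ⟨b, hb⟩] := by
        rw [LinearIndependent.pair_iff]
        intro s r hsr
        have hsr' : s • a + r • b = 0 := congrArg Subtype.val hsr
        rcases eq_zero_or_one hq s with hs | hs <;> rcases eq_zero_or_one hq r with hr | hr
        · exact ⟨hs, hr⟩
        · subst hs hr
          rw [zero_smul, one_smul, zero_add] at hsr'
          exact absurd hsr' hb0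
        · subst hs hr
          rw [zero_smul, one_smul, add_zero] at hsr'
          exact absurd hsr' ha0
        · subst hs hr
          rw [one_smul, one_smul] at hsr'
          exact absurd hsr' hab'
      have hspan := hli.span_eq_top_of_card_eq_finrank (by rw [hk]; rfl)
      obtain ⟨-, x, hx, hax⟩ := hW a ha ha0
      have hx' : (⟨x, hx⟩ : W) ∈ Submodule.span F (Set.range ![(⟨a, ha⟩ : W), ⟨b, hb⟩]) := by
        rw [hspan]; trivial
      rw [Matrix.range_cons, Matrix.range_cons, Matrix.range_empty, Set.union_empty,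
        Set.singleton_union, Submodule.mem_span_pair] at hx'
      obtain ⟨s, r, hsr⟩ := hx'
      have hsr' : s • a + r • b = x := congrArg Subtype.val hsr
      rw [← hsr', sympForm_add_right, sympForm_smul_right, sympForm_smul_right, sympForm_self,
        h0, mul_zero, mul_zero, add_zero] at hax
      exact hax rfl
    rcases eq_zero_or_one hq (f a b) with h | h
    · exact absurd h hfab
    · rw [h]
      linear_combination -h2

theorem Q_add [Fintype F] (hq : Fintype.card F = 2)
    (hD : Cfsg.Geo.IsNondegenerateMDecomposition f 2 D) (hP : IsProj D P) (u v : V) :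
    Q P (u + v) = Q P u + Q P v + f u v := by
  classical
  have hf : f u v = ∑ i, f (P i u) (P i v) := by
    conv_lhs => rw [← hP.sum v, form_sum_right]
    refine Finset.sum_congr rfl fun i _ => ?_
    rw [form_proj hD hP i u (hP.mem i v)]
  rw [hf, Q, Q, Q, ← Finset.sum_add_distrib, ← Finset.sum_add_distrib]
  refine Finset.sum_congr rfl fun i _ => ?_
  rw [map_add]
  exact block_polar hq (hD.nondegenerate i) (hD.decomp.finrank_eq i) (hP.mem i u) (hP.mem i v)

theorem Q_of_mem (hP : IsProj D P) (i : Fin t) {v : V} (hv : v ∈ D i) (h0 : v ≠ 0) :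
    Q P v = 1 := by
  classical
  rw [Q, Finset.sum_eq_single i]
  · rw [hP.same i v hv, if_neg h0]
  · intro j _ hj
    rw [hP.ne j i hj v hv, if_pos rfl]
  · intro h; exact absurd (Finset.mem_univ i) h

theorem Q_transv [Fintype F] (hq : Fintype.card F = 2)
    (hD : Cfsg.Geo.IsNondegenerateMDecomposition f 2 D) (hP : IsProj D P) (u : V)
    (hu : Q P u = 1) (v : V) : Q P (transv u 1 • v) = Q P v := by
  have h2 := two_eq_zero hq
  rw [transv_smul, one_mul, Q_add hq hD hP, sympForm_smul_right]
  rcases eq_zero_or_one hq (f v u) with h | h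
  · rw [h, zero_smul]
    have : Q P (0 : V) = 0 := by simp [Q]
    rw [this]
    ring
  · rw [h, one_smul, hu]
    linear_combination h2

/-- The isometry group of `Q`. -/
def N (P : Fin t → ((Fin m ⊕ Fin m → F) →ₗ[F] (Fin m ⊕ Fin m → F))) :
    Subgroup (Matrix.symplecticGroup (Fin m) F) where
  carrier := {g | ∀ v : Fin m ⊕ Fin m → F, Q P (g • v) = Q P v}
  mul_mem' {a b} ha hb := by
    intro v
    rw [mul_smul, ha, hb]
  one_mem' := by
    intro v
    rw [one_smul]
  inv_mem' {a} ha := by
    intro v
    have := ha (a⁻¹ • v)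
    rw [smul_inv_smul] at this
    exact this.symm

end

/-- Over the field with 2 elements and for m ≥ 7, let D be a decomposition of F^(2m) into t pairwise orthogonal non-degenerate 2-dimensional subspaces for the standard alternating form (t = m ≥ 2). Then the elements of Sp_2m(2) permuting the members of D form a subgroup that is not maximal: some subgroup lies strictly between it and Sp_2m(2). -/
theorem result {F : Type*} [Field F] [Fintype F] (m : ℕ) (hm : 7 ≤ m) (hq : Fintype.card F = 2) {t : ℕ} (D : Fin t → Submodule F (Fin m ⊕ Fin m → F)) (hD : Cfsg.Geo.IsNondegenerateMDecomposition (Cfsg.sympForm m F) 2 D) : ∃ K : Subgroup (Matrix.GeneralLinearGroup (Fin m ⊕ Fin m) F), Cfsg.Geo.decompositionStabilizer D ⊓ Cfsg.spGL m F < K ∧ K < Cfsg.spGL m F := by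
  classical
  obtain ⟨P, hP⟩ := exists_isProj hD.decomp.indep hD.decomp.iSup_eq_top
  have h2 := two_eq_zero hq
  have hne : ∀ l, ∃ w ∈ D l, w ≠ 0 := by
    intro l
    apply Submodule.exists_mem_ne_zero_of_ne_bot
    intro h
    have h2 := hD.decomp.finrank_eq l
    rw [h, finrank_bot] at h2
    omega
  -- `t ≥ 3`
  have ht : 3 ≤ t := by
    let L : (Fin m ⊕ Fin m → F) →ₗ[F] (∀ i, D i) :=
      LinearMap.pi fun i => (P i).codRestrict (D i) (hP.mem i)
    have hinj : Function.Injective L := by
      intro x y hxy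
      rw [← hP.sum x, ← hP.sum y]
      refine Finset.sum_congr rfl fun i _ => ?_
      exact congrArg Subtype.val (congrFun hxy i)
    have h3 := LinearMap.finrank_le_finrank_of_injective hinj
    rw [Module.finrank_fintype_fun_eq_card, Module.finrank_pi_fintype] at h3
    simp only [hD.decomp.finrank_eq, Fintype.card_sum, Fintype.card_fin, Finset.sum_const,
      Finset.card_univ, smul_eq_mul] at h3
    omega
  let i₀ : Fin t := ⟨0, by omega⟩
  let i₁ : Fin t := ⟨1, by omega⟩
  let i₂ : Fin t := ⟨2, by omega⟩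
  have h01 : i₀ ≠ i₁ := fun h => by
    have := congrArg Fin.val h
    simp [i₀, i₁] at this
  have h02 : i₀ ≠ i₂ := fun h => by
    have := congrArg Fin.val h
    simp [i₀, i₂] at this
  have h12 : i₁ ≠ i₂ := fun h => by
    have := congrArg Fin.val h
    simp [i₁, i₂] at this
  obtain ⟨x, hx, hx0⟩ := hne i₀
  obtain ⟨y, hy, hy0⟩ := hne i₁
  obtain ⟨w, hw, hw0⟩ := hne i₂
  obtain ⟨⟨z, hz, hzx⟩, -⟩ := hD.nondegenerate i₀ x hx hx0
  have hzx1 : sympForm m F z x = 1 := by
    rcases eq_zero_or_one hq (sympForm m F z x) with h | h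
    · exact absurd h hzx
    · exact h
  have hzy : sympForm m F z y = 0 := hD.orthogonal i₀ i₁ h01 z hz y hy
  have hzw : sympForm m F z w = 0 := hD.orthogonal i₀ i₂ h02 z hz w hw
  have hxy : sympForm m F x y = 0 := hD.orthogonal i₀ i₁ h01 x hx y hy
  have hxw : sympForm m F x w = 0 := hD.orthogonal i₀ i₂ h02 x hx w hw
  have hyw : sympForm m F y w = 0 := hD.orthogonal i₁ i₂ h12 y hy w hw
  apply exists_between_of _ (N P)
  · intro g hg v
    obtain ⟨σ, hσ⟩ := smul_mem_of_mem_decompositionStabilizer hg
    have hcomp : ∀ i, P (σ i) (g • v) = g • P i v := by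
      intro i
      have e : g • v = ∑ j, g • P j v := by
        conv_lhs => rw [← hP.sum v]
        exact map_sum (Matrix.toLin' ((g : Matrix (Fin m ⊕ Fin m) (Fin m ⊕ Fin m) F))) _ _
      rw [e, map_sum, Finset.sum_eq_single i]
      · exact hP.same (σ i) _ (hσ i _ (hP.mem i v))
      · intro j _ hj
        exact hP.ne (σ i) (σ j) (fun h => hj (σ.injective h).symm) _ (hσ j _ (hP.mem j v))
      · intro h; exact absurd (Finset.mem_univ i) h
    rw [Q, Q]
    rw [← Equiv.sum_comp σ]
    refine Finset.sum_congr rfl fun i _ => ?_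
    rw [hcomp i]
    simp only [smul_eq_zero_iff' g (P i v)]
  · refine ⟨transv (x + y + w) 1, ?_, ?_⟩
    · have hQ : Q P (x + y + w) = 1 := by
        rw [Q_add hq hD hP, Q_add hq hD hP, Q_of_mem hP i₀ hx hx0, Q_of_mem hP i₁ hy hy0,
          Q_of_mem hP i₂ hw hw0, sympForm_add_left, hxy, hxw, hyw]
        linear_combination h2
      exact Q_transv hq hD hP _ hQ
    · intro hmem
      obtain ⟨σ, hσ⟩ := smul_mem_of_mem_decompositionStabilizer hmem
      have h3 := hσ i₀ z hz
      rw [transv_smul, one_mul, sympForm_add_right, sympForm_add_right, hzx1, hzy, hzw, add_zero,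
        add_zero, one_smul] at h3
      by_cases hs : σ i₀ = i₁
      · rw [hs] at h3
        have h4 := hP.ne i₂ i₁ (Ne.symm h12) _ h3
        rw [map_add, map_add, map_add, hP.ne i₂ i₀ (Ne.symm h02) _ hz,
          hP.ne i₂ i₀ (Ne.symm h02) _ hx, hP.ne i₂ i₁ (Ne.symm h12) _ hy, hP.same i₂ _ hw,
          zero_add, zero_add, zero_add] at h4
        exact hw0 h4
      · have h4 := hP.ne i₁ (σ i₀) (Ne.symm hs) _ h3
        rw [map_add, map_add, map_add, hP.ne i₁ i₀ (Ne.symm h01) _ hz,
          hP.ne i₁ i₀ (Ne.symm h01) _ hx, hP.same i₁ _ hy, hP.ne i₁ i₂ h12 _ hw,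
          zero_add, zero_add, add_zero] at h4
        exact hy0 h4
  · refine ⟨transv (x + y) 1, fun hmem => ?_⟩
    have h3 := hmem z
    have hQ : Q P (x + y) = 0 := by
      rw [Q_add hq hD hP, Q_of_mem hP i₀ hx hx0, Q_of_mem hP i₁ hy hy0, hxy]
      linear_combination h2
    rw [transv_smul, one_mul, sympForm_add_right, hzx1, hzy, add_zero, one_smul,
      Q_add hq hD hP, hQ, sympForm_add_right, hzx1, hzy] at h3
    have : (1 : F) = 0 := by linear_combination h3
    exact one_ne_zero this

end Cfsg.Agent.S5648
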