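import Cfsg.Statements.S5656
import Cfsg.Agent.H918.UProper
import Cfsg.Agent.H930.UnitaryFrame

set_option autoImplicit false
open Cfsg

namespace Cfsg.Agent.S5656

open Cfsg.Geo Cfsg.Agent.H918 Cfsg.Agent.H930
open scoped Matrix

/-- Let F be the field with 4 elements (q = 2) and n ≥ 13. Let D be a decomposition of F^n into t pairwise orthogonal 2-dimensional subspaces, each non-degenerate for the standard unitary form Σ u_i v_i². Then the elements of SU_n(2) permuting the members of D form a subgroup that is not maximal: some subgroup lies strictly between it and SU_n(2). -/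
theorem result {F : Type*} [Field F] [Fintype F] (n : ℕ) (hF : Fintype.card F = 4) (hn : 13 ≤ n) {t : ℕ} (D : Fin t → Submodule F (Fin n → F)) (hD : Cfsg.Geo.IsNondegenerateMDecomposition (Cfsg.hermForm n F 2) 2 D) : ∃ K : Subgroup (Matrix.GeneralLinearGroup (Fin n) F), Cfsg.Geo.decompositionStabilizer D ⊓ (Cfsg.GU n F 2 ⊓ Cfsg.Geo.specialLinear (Fin n) F) < K ∧ K < (Cfsg.GU n F 2 ⊓ Cfsg.Geo.specialLinear (Fin n) F) := by
  have hF' : Fintype.card F = 2 ^ 2 := by rw [hF]; norm_num
  have hf := hermForm_isUnitaryFormPow hF' n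
  have ht2 := hD.decomp.two_le
  have h20 := Cfsg.Agent.H930.two_eq_zero hF'
  obtain ⟨w, E, hwm, hw1, hw0, hEw, hE, hDE⟩ := exists_orthonormal_family hF' hf hD
  -- the two blocks
  set i0 : Fin t := ⟨0, by omega⟩ with hi0
  set i1 : Fin t := ⟨1, by omega⟩ with hi1
  have h01 : i0 ≠ i1 := by
    rw [Ne, Fin.ext_iff]
    simp [hi0, hi1]
  set v : Fin n → F := w i0 0 + w i1 0 with hv
  have hp01 : ((i0, (0 : Fin 2)) : Fin t × Fin 2) ≠ (i1, 0) := fun h => h01 (congrArg Prod.fst h)
  have hvv : hermForm n F 2 v v = 0 := by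
    rw [hv, hf.add_left, UForm.add_right hF' hf, UForm.add_right hF' hf, hw1, hw1, hw0 i0 0 i1 0 hp01,
      hw0 i1 0 i0 0 hp01.symm]
    linear_combination h20
  have hc : (1 : F) + 1 ^ 2 = 0 := by linear_combination h20
  set g := H918.tv hF' v 1 hvv hc with hg
  have hgx : ∀ x, (g : Matrix (Fin n) (Fin n) F) *ᵥ x = x + hermForm n F 2 x v • v := by
    intro x
    rw [hg, tv_mulVec, one_mul]
  set σ : Equiv.Perm (Fin t × Fin 2) := Equiv.swap (i0, 0) (i1, 0) with hσ
  have hgw : ∀ p : Fin t × Fin 2, (g : Matrix (Fin n) (Fin n) F) *ᵥ w p.1 p.2 = w (σ p).1 (σ p).2 := by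
    intro p
    rw [hgx, hv, UForm.add_right hF' hf]
    by_cases h0 : p = (i0, 0)
    · subst h0
      rw [hσ, Equiv.swap_apply_left]
      simp only
      rw [hw1, hw0 i0 0 i1 0 hp01, add_zero, one_smul, ← add_assoc]
      have : w i0 0 + w i0 0 = 0 := by
        rw [← two_smul F, h20, zero_smul]
      rw [this, zero_add]
    · by_cases h1 : p = (i1, 0)
      · subst h1
        rw [hσ, Equiv.swap_apply_right]
        simp only
        rw [hw1, hw0 i1 0 i0 0 hp01.symm, zero_add, one_smul, add_comm (w i0 0), ← add_assoc]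
        have : w i1 0 + w i1 0 = 0 := by
          rw [← two_smul F, h20, zero_smul]
        rw [this, zero_add]
      · rw [hσ, Equiv.swap_apply_of_ne_of_ne h0 h1, hw0 p.1 p.2 i0 0 h0, hw0 p.1 p.2 i1 0 h1, add_zero,
          zero_smul, add_zero]
  have hgS : g ∈ SUg n F 2 := tv_mem hF' hvv hc
  have hne : ∀ i k, w i k ≠ 0 := by
    intro i k h
    have := hw1 i k
    rw [h, UForm.zero_left hf] at this
    exact zero_ne_one this
  have hgE : g ∈ decompositionStabilizer E := by
    refine mem_decompositionStabilizer_of_fun hE.decomp.indep (fun j h => ?_) g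
      (fun j => finProdFinEquiv (σ (finProdFinEquiv.symm j))) (fun j => ?_)
    · rw [hEw, Submodule.span_singleton_eq_bot] at h
      exact hne _ _ h
    · rw [hEw, hEw, Submodule.map_span, Set.image_singleton, Matrix.toLin'_apply, hgw,
        Equiv.symm_apply_apply]
  have hgD : g ∉ decompositionStabilizer D := by
    rintro ⟨π, hπ⟩
    have h1 : w i1 0 ∈ D (π i0) := by
      rw [← hπ i0]
      refine ⟨w i0 0, hwm _ _, ?_⟩
      rw [Matrix.toLin'_apply, hgw (i0, 0), hσ, Equiv.swap_apply_left]
    have h2 : w i0 1 ∈ D (π i0) := by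
      rw [← hπ i0]
      refine ⟨w i0 1, hwm _ _, ?_⟩
      rw [Matrix.toLin'_apply, hgw (i0, 1), hσ, Equiv.swap_apply_of_ne_of_ne]
      · simp
      · simp
    have e1 : π i0 = i1 := by
      by_contra hne'
      have := hD.orthogonal _ _ hne' _ h1 _ (hwm i1 0)
      rw [hw1] at this
      exact one_ne_zero this
    have e2 : π i0 = i0 := by
      by_contra hne'
      have := hD.orthogonal _ _ hne' _ h2 _ (hwm i0 1)
      rw [hw1] at this
      exact one_ne_zero this
    exact h01 (e2.symm.trans e1)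
  refine ⟨decompositionStabilizer E ⊓ SUg n F 2, ?_, ?_⟩
  · refine lt_of_le_of_ne ?_ ?_
    · intro x hx
      exact ⟨hDE x hx.2.1 hx.1, hx.2⟩
    · intro h
      have : g ∈ decompositionStabilizer D ⊓ (GU n F 2 ⊓ specialLinear (Fin n) F) := by
        rw [h]
        exact ⟨hgE, hgS⟩
      exact hgD this.1
  · refine lt_of_le_of_ne inf_le_right ?_
    intro h
    exact SUg_not_le_decompositionStabilizer hF' (by omega) (by omega) hE.decomp (h.ge.trans inf_le_left)

end Cfsg.Agent.S5656
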