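import Cfsg.Statements.S5667
import Cfsg.Agent.H880.Tensor

set_option autoImplicit false
open Cfsg

namespace Cfsg.Agent.S5667

open Matrix Cfsg.Geo Cfsg.Agent.H880

section prelim

variable {F : Type*} [Field F] [Fintype F]

theorem tri (hq : Fintype.card F = 3) (x : F) : x = 0 ∨ x = 1 ∨ x = -1 := by
  have h := FiniteField.pow_card x
  rw [hq] at h
  have h0 : x * (x - 1) * (x + 1) = 0 := by linear_combination h
  rcases mul_eq_zero.mp h0 with h1 | h1
  · rcases mul_eq_zero.mp h1 with h2 | h2
    · left; exact h2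
    · right; left; linear_combination h2
  · right; right; linear_combination h1

theorem three (hq : Fintype.card F = 3) : (3 : F) = 0 := by
  have h := FiniteField.cast_card_eq_zero F
  rw [hq] at h
  exact_mod_cast h

theorem two_ne (hq : Fintype.card F = 3) : (2 : F) ≠ 0 := by
  intro h
  have h3 := three hq
  have : (1 : F) = 0 := by linear_combination h3 - h
  exact one_ne_zero this

/-- An orthogonal basis of equal norms. -/
theorem exists_onb (hq : Fintype.card F = 3) (f : (Fin 3 → F) → (Fin 3 → F) → F) (hf : IsSymmetricForm f) :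
    ∃ (b : Module.Basis (Fin 3) F (Fin 3 → F)) (d : F), d ≠ 0 ∧ ∀ i j, f (b i) (b j) = if i = j then d else 0 := by
  classical
  have h2 : (2 : F) ≠ 0 := two_ne hq
  have h3 := three hq
  have : Invertible (2 : F) := invertibleOfNonzero h2
  have hb := hf.bilinear
  let B : LinearMap.BilinForm F (Fin 3 → F) := LinearMap.mk₂ F f hb.add_left hb.smul_left hb.add_right hb.smul_right
  have hB : ∀ x y, B x y = f x y := fun x y => rfl
  have hsymm : LinearMap.IsSymm (M := Fin 3 → F) (R := F) B := ⟨fun x y => by simp [hB, hf.symm x y]⟩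
  obtain ⟨w0, hw0⟩ := LinearMap.BilinForm.exists_orthogonal_basis (B := B) hsymm
  have hfr : Module.finrank F (Fin 3 → F) = 3 := by simp
  let w : Module.Basis (Fin 3) F (Fin 3 → F) := w0.reindex (finCongr hfr)
  have hw : ∀ i j, i ≠ j → f (w i) (w j) = 0 := by
    intro i j hij
    have := hw0 (i := (finCongr hfr).symm i) (j := (finCongr hfr).symm j)
      (fun h => hij ((finCongr hfr).symm.injective h))
    simpa [w, hB, Function.onFun] using this
  have hne : ∀ i, f (w i) (w i) ≠ 0 := by
    intro i hi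
    obtain ⟨_, x, hx⟩ := hf.nondegenerate (w i) (w.ne_zero i)
    apply hx
    have hx1 : x = ∑ j, w.repr x j • w j := (w.sum_repr x).symm
    have h4 : B (w i) x = 0 := by
      rw [hx1, map_sum]
      refine Finset.sum_eq_zero fun j _ => ?_
      rw [map_smul, hB]
      by_cases hij : i = j
      · subst hij; rw [hi, smul_zero]
      · rw [hw i j hij, smul_zero]
    exact h4
  -- the result from a family
  have fin : ∀ (b : Fin 3 → (Fin 3 → F)) (d : F), d ≠ 0 → (∀ i j, f (b i) (b j) = if i = j then d else 0) →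
      ∃ (b : Module.Basis (Fin 3) F (Fin 3 → F)) (d : F), d ≠ 0 ∧ ∀ i j, f (b i) (b j) = if i = j then d else 0 := by
    intro b d hd hbd
    have hli : LinearIndependent F b := by
      refine LinearMap.linearIndependent_of_isOrthoᵢ (B := B) (v := b) ?_ ?_
      · intro i j hij
        show B (b i) (b j) = 0
        rw [hB, hbd, if_neg hij]
      · intro i hi
        have : B (b i) (b i) = d := by rw [hB, hbd, if_pos rfl]
        exact hd (this.symm.trans hi)
    refine ⟨basisOfLinearIndependentOfCardEqFinrank hli (by simp), d, hd, ?_⟩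
    intro i j
    simpa using hbd i j
  have ha := fun i => tri hq (f (w i) (w i))
  have hs10 : f (w 1) (w 0) = 0 := hw 1 0 (by decide)
  have hs01 : f (w 0) (w 1) = 0 := hw 0 1 (by decide)
  have hs12 : f (w 1) (w 2) = 0 := hw 1 2 (by decide)
  have hs21 : f (w 2) (w 1) = 0 := hw 2 1 (by decide)
  have hs02 : f (w 0) (w 2) = 0 := hw 0 2 (by decide)
  have hs20 : f (w 2) (w 0) = 0 := hw 2 0 (by decide)
  -- opposite norms
  have opp : ∀ i j, f (w i) (w i) ≠ f (w j) (w j) → f (w i) (w i) = - f (w j) (w j) := by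
    intro i j hij
    rcases ha i with h | h | h
    · exact absurd h (hne i)
    · rcases ha j with h' | h' | h'
      · exact absurd h' (hne j)
      · exact absurd (h.trans h'.symm) hij
      · rw [h, h']; ring
    · rcases ha j with h' | h' | h'
      · exact absurd h' (hne j)
      · rw [h, h']
      · exact absurd (h.trans h'.symm) hij
  have sub_left : ∀ x y z, f (x - y) z = f x z - f y z := by
    intro x y z
    have : B (x - y) z = B x z - B y z := by rw [map_sub]; rfl
    exact this
  have sub_right : ∀ x y z, f z (x - y) = f z x - f z y := by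
    intro x y z
    have : B z (x - y) = B z x - B z y := by rw [map_sub]
    exact this
  by_cases h01 : f (w 0) (w 0) = f (w 1) (w 1)
  · by_cases h02 : f (w 0) (w 0) = f (w 2) (w 2)
    · refine ⟨w, f (w 0) (w 0), hne 0, ?_⟩
      intro i j
      by_cases hij : i = j
      · subst hij
        rw [if_pos rfl]
        fin_cases i
        · rfl
        · exact h01.symm
        · exact h02.symm
      · rw [if_neg hij, hw i j hij]
    · have ho := opp 0 2 h02
      refine fin ![w 0 + w 1, w 0 - w 1, w 2] (f (w 2) (w 2)) (hne 2) ?_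
      intro i j
      fin_cases i <;> fin_cases j <;>
        simp [hb.add_left, hb.add_right, sub_left, sub_right, hs10, hs01, hs12, hs21, hs02, hs20, ← h01, ho]
      · linear_combination (-f (w 2) (w 2)) * h3
      · linear_combination (-f (w 2) (w 2)) * h3
  · by_cases h02 : f (w 0) (w 0) = f (w 2) (w 2)
    · have ho := opp 0 1 h01
      refine fin ![w 0 + w 2, w 1, w 0 - w 2] (f (w 1) (w 1)) (hne 1) ?_
      intro i j
      fin_cases i <;> fin_cases j <;>
        simp [hb.add_left, hb.add_right, sub_left, sub_right, hs10, hs01, hs12, hs21, hs02, hs20, ← h02, ho]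
      · linear_combination (-f (w 1) (w 1)) * h3
      · linear_combination (-f (w 1) (w 1)) * h3
    · have h12 : f (w 1) (w 1) = f (w 2) (w 2) := by
        have ho := opp 0 1 h01
        have ho2 := opp 0 2 h02
        linear_combination ho - ho2
      have ho := opp 0 1 h01
      refine fin ![w 0, w 1 + w 2, w 1 - w 2] (f (w 0) (w 0)) (hne 0) ?_
      intro i j
      fin_cases i <;> fin_cases j <;>
        simp [hb.add_left, hb.add_right, sub_left, sub_right, hs10, hs01, hs12, hs21, hs02, hs20, ← h12, ho]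
      · linear_combination (f (w 1) (w 1)) * h3
      · linear_combination (f (w 1) (w 1)) * h3

omit [Fintype F] in
/-- The form in orthogonal coordinates. -/
theorem form_coord {f : (Fin 3 → F) → (Fin 3 → F) → F} (hf : IsSymmetricForm f)
    {b : Module.Basis (Fin 3) F (Fin 3 → F)} {d : F} (hb : ∀ i j, f (b i) (b j) = if i = j then d else 0)
    (y z : Fin 3 → F) : f y z = d * ∑ i, b.repr y i * b.repr z i := by
  classical
  have hbl := hf.bilinear
  let B : LinearMap.BilinForm F (Fin 3 → F) := LinearMap.mk₂ F f hbl.add_left hbl.smul_left hbl.add_right hbl.smul_right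
  have hB : ∀ x y, B x y = f x y := fun x y => rfl
  have hy : y = ∑ j, b.repr y j • b j := (b.sum_repr y).symm
  have hz : z = ∑ j, b.repr z j • b j := (b.sum_repr z).symm
  have h1 : B y z = ∑ i, ∑ j, (b.repr y i * b.repr z j) * f (b i) (b j) := by
    conv_lhs => rw [hy, hz]
    rw [LinearMap.map_sum₂]
    refine Finset.sum_congr rfl fun i _ => ?_
    rw [map_sum]
    refine Finset.sum_congr rfl fun j _ => ?_
    rw [map_smul, map_smul, LinearMap.smul_apply, hB, smul_eq_mul, smul_eq_mul]
    ring
  rw [hB] at h1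
  rw [h1, Finset.mul_sum]
  refine Finset.sum_congr rfl fun i _ => ?_
  rw [Finset.sum_eq_single i]
  · rw [hb, if_pos rfl]; ring
  · intro j _ hj
    rw [hb, if_neg (Ne.symm hj), mul_zero]
  · intro h; exact absurd (Finset.mem_univ i) h

/-- Vectors of norm `d` are `±` the basis vectors. -/
theorem norm_cases (hq : Fintype.card F = 3) {f : (Fin 3 → F) → (Fin 3 → F) → F} (hf : IsSymmetricForm f)
    {b : Module.Basis (Fin 3) F (Fin 3 → F)} {d : F} (hd : d ≠ 0)
    (hb : ∀ i j, f (b i) (b j) = if i = j then d else 0) (y : Fin 3 → F) (hy : f y y = d) :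
    ∃ (i : Fin 3) (c : F), c ≠ 0 ∧ y = c • b i := by
  have h1 := form_coord hf hb y y
  rw [hy] at h1
  have h2 : ∑ i, b.repr y i * b.repr y i = 1 := by
    have h3 : d * (∑ i, b.repr y i * b.repr y i) = d * 1 := by rw [← h1, mul_one]
    exact mul_left_cancel₀ hd h3
  rw [Fin.sum_univ_three] at h2
  have hy3 : y = b.repr y 0 • b 0 + b.repr y 1 • b 1 + b.repr y 2 • b 2 := by
    conv_lhs => rw [← b.sum_repr y]
    rw [Fin.sum_univ_three]
  have h3 := three hq
  have h2n := two_ne hq
  have h10 : (1 : F) ≠ 0 := one_ne_zero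
  have sq : ∀ x : F, x ≠ 0 → x * x = 1 := by
    intro x hx
    rcases tri hq x with h | h | h
    · exact absurd h hx
    · rw [h]; ring
    · rw [h]; ring
  by_cases e0 : b.repr y 0 = 0
  · by_cases e1 : b.repr y 1 = 0
    · by_cases e2 : b.repr y 2 = 0
      · rw [e0, e1, e2] at h2
        exact absurd (by linear_combination h2) h10.symm
      · refine ⟨2, _, e2, ?_⟩
        conv_lhs => rw [hy3, e0, e1]
        simp
    · by_cases e2 : b.repr y 2 = 0
      · refine ⟨1, _, e1, ?_⟩
        conv_lhs => rw [hy3, e0, e2]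
        simp
      · rw [e0, sq _ e1, sq _ e2] at h2
        exact absurd (show (1 : F) = 0 by linear_combination h2) h10
  · by_cases e1 : b.repr y 1 = 0
    · by_cases e2 : b.repr y 2 = 0
      · refine ⟨0, _, e0, ?_⟩
        conv_lhs => rw [hy3, e1, e2]
        simp
      · rw [e1, sq _ e0, sq _ e2] at h2
        exact absurd (show (1 : F) = 0 by linear_combination h2) h10
    · by_cases e2 : b.repr y 2 = 0
      · rw [e2, sq _ e0, sq _ e1] at h2
        exact absurd (show (1 : F) = 0 by linear_combination h2) h10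
      · rw [sq _ e0, sq _ e1, sq _ e2] at h2
        exact absurd (show (1 : F) = 0 by linear_combination h3 - h2) h10

/-- A similitude of the three-dimensional form is monomial in the orthogonal basis. -/
theorem monomial (hq : Fintype.card F = 3) {f : (Fin 3 → F) → (Fin 3 → F) → F} (hf : IsSymmetricForm f)
    {b : Module.Basis (Fin 3) F (Fin 3 → F)} {d : F} (hd : d ≠ 0)
    (hb : ∀ i j, f (b i) (b j) = if i = j then d else 0) (g : Matrix (Fin 3) (Fin 3) F) {μ : F} (hμ : μ ≠ 0)
    (hg : ∀ v w, f (g *ᵥ v) (g *ᵥ w) = μ * f v w) :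
    ∃ σ : Equiv.Perm (Fin 3), ∀ i, ∃ c : F, c ≠ 0 ∧ g *ᵥ (b i) = c • b (σ i) := by
  classical
  -- the multiplier is a square, so it is `1`
  let C : Matrix (Fin 3) (Fin 3) F := Matrix.of fun i j => b.repr (g *ᵥ (b i)) j
  have hC : C * Cᵀ = μ • (1 : Matrix (Fin 3) (Fin 3) F) := by
    ext i j
    rw [Matrix.mul_apply]
    have h1 := form_coord hf hb (g *ᵥ (b i)) (g *ᵥ (b j))
    rw [hg, hb] at h1
    have h2 : ∑ k, C i k * Cᵀ k j = ∑ k, b.repr (g *ᵥ (b i)) k * b.repr (g *ᵥ (b j)) k := rfl
    rw [h2, Matrix.smul_apply, Matrix.one_apply]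
    by_cases hij : i = j
    · rw [if_pos hij] at h1 ⊢
      have h3 : d * (∑ k, b.repr (g *ᵥ (b i)) k * b.repr (g *ᵥ (b j)) k) = d * (μ • 1) := by
        rw [← h1, smul_eq_mul]; ring
      exact mul_left_cancel₀ hd h3
    · rw [if_neg hij] at h1 ⊢
      have h3 : d * (∑ k, b.repr (g *ᵥ (b i)) k * b.repr (g *ᵥ (b j)) k) = d * (μ • 0) := by
        rw [← h1, smul_eq_mul]; ring
      exact mul_left_cancel₀ hd h3
  have hdet : C.det * C.det = μ ^ 3 := by
    have h1 := congrArg Matrix.det hC
    rw [Matrix.det_mul, Matrix.det_transpose, Matrix.det_smul, Matrix.det_one] at h1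
    simpa using h1
  have hμ1 : μ = 1 := by
    rcases tri hq μ with h | h | h
    · exact absurd h hμ
    · exact h
    · exfalso
      rw [h] at hdet
      have h2n := two_ne hq
      rcases tri hq C.det with h' | h' | h' <;> rw [h'] at hdet
      · exact one_ne_zero (show (1 : F) = 0 by linear_combination hdet)
      · exact h2n (by linear_combination hdet)
      · exact h2n (by linear_combination hdet)
  subst hμ1
  have h1 : ∀ i, ∃ (j : Fin 3) (c : F), c ≠ 0 ∧ g *ᵥ (b i) = c • b j := by
    intro i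
    exact norm_cases hq hf hd hb _ (by rw [hg, hb, if_pos rfl, one_mul])
  choose σ c hc hσ using h1
  have hinj : Function.Injective σ := by
    intro i j hij
    by_contra hne
    have h2 := hg (b i) (b j)
    rw [hb, if_neg hne, mul_zero, hσ i, hσ j, hf.bilinear.smul_left, hf.bilinear.smul_right, hb, if_pos hij] at h2
    exact mul_ne_zero (hc i) (mul_ne_zero (hc j) hd) h2
  refine ⟨Equiv.ofBijective σ (Finite.injective_iff_bijective.mp hinj), fun i => ⟨c i, hc i, ?_⟩⟩
  exact hσ i

end prelim

section sympl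

variable {F : Type*} [Field F]

theorem sympForm_add_left (m : ℕ) (x y v : Fin m ⊕ Fin m → F) :
    sympForm m F (x + y) v = sympForm m F x v + sympForm m F y v := by
  simp [sympForm, add_dotProduct]

theorem sympForm_smul_left (m : ℕ) (c : F) (x v : Fin m ⊕ Fin m → F) :
    sympForm m F (c • x) v = c * sympForm m F x v := by
  simp [sympForm, smul_dotProduct]

theorem sympForm_add_right (m : ℕ) (x y v : Fin m ⊕ Fin m → F) :
    sympForm m F v (x + y) = sympForm m F v x + sympForm m F v y := by
  simp [sympForm, Matrix.mulVec_add, dotProduct_add]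

theorem sympForm_smul_right (m : ℕ) (c : F) (x v : Fin m ⊕ Fin m → F) :
    sympForm m F v (c • x) = c * sympForm m F v x := by
  simp [sympForm, Matrix.mulVec_smul, dotProduct_smul]

theorem sympForm_self (m : ℕ) (v : Fin m ⊕ Fin m → F) : sympForm m F v v = 0 := by
  simp only [sympForm, Matrix.J, Matrix.fromBlocks_mulVec, dotProduct, Fintype.sum_sum_type, Sum.elim_inl,
    Sum.elim_inr, Matrix.zero_mulVec, Matrix.neg_mulVec, Matrix.one_mulVec, Function.comp_apply,
    zero_add, add_zero, Pi.neg_apply]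
  rw [← Finset.sum_add_distrib]
  apply Finset.sum_eq_zero
  intro i _
  ring

theorem sympForm_skew (m : ℕ) (v w : Fin m ⊕ Fin m → F) : sympForm m F v w = - sympForm m F w v := by
  have h := sympForm_self m (v + w)
  rw [sympForm_add_left, sympForm_add_right, sympForm_add_right, sympForm_self, sympForm_self] at h
  linear_combination h

theorem transv_mulVec (m : ℕ) (v x : Fin m ⊕ Fin m → F) (c : F) :
    sympTransvection m v c *ᵥ x = x + (c * sympForm m F x v) • v := by
  rw [sympTransvection, Matrix.add_mulVec, Matrix.one_mulVec, Matrix.smul_mulVec, Matrix.vecMulVec_mulVec]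
  congr 1
  rw [sympForm, dotProduct_comm x]
  funext i
  simp only [Pi.smul_apply, smul_eq_mul, MulOpposite.smul_eq_mul_unop, MulOpposite.unop_op]
  ring

theorem transv_mul (m : ℕ) (v : Fin m ⊕ Fin m → F) (c : F) :
    sympTransvection m v c * sympTransvection m v (-c) = 1 := by
  apply Matrix.mulVec_injective
  funext x
  rw [← Matrix.mulVec_mulVec, transv_mulVec, transv_mulVec, sympForm_add_left, sympForm_smul_left, sympForm_self,
    Matrix.one_mulVec, add_assoc, ← add_smul]
  have : -c * sympForm m F x v + c * (sympForm m F x v + -c * sympForm m F x v * 0) = 0 := by ring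
  rw [this, zero_smul, add_zero]

/-- The transvection `x ↦ x + f(x, v) v` as an element of the general linear group. -/
def tr (m : ℕ) (v : Fin m ⊕ Fin m → F) : GL (Fin m ⊕ Fin m) F :=
  ⟨sympTransvection m v 1, sympTransvection m v (-1), transv_mul m v 1, by
    have := transv_mul m v (-1)
    rwa [neg_neg] at this⟩

theorem tr_mulVec (m : ℕ) (v x : Fin m ⊕ Fin m → F) :
    ((tr m v : GL (Fin m ⊕ Fin m) F) : Matrix _ _ F) *ᵥ x = x + sympForm m F x v • v := by
  have := transv_mulVec m v x 1
  rw [one_mul] at this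
  exact this

theorem tr_mem (m : ℕ) (v : Fin m ⊕ Fin m → F) : tr m v ∈ spGL m F := by
  intro x y
  show sympForm m F ((tr m v : Matrix _ _ F) *ᵥ x) ((tr m v : Matrix _ _ F) *ᵥ y) = _
  rw [tr_mulVec, tr_mulVec]
  simp only [sympForm_add_left, sympForm_add_right, sympForm_smul_left, sympForm_smul_right, sympForm_self]
  rw [sympForm_skew m v y]
  ring

end sympl

section main

variable {F : Type*} [Field F] {ι : Type} [Fintype ι] [DecidableEq ι] {n₁ : ℕ}

/-- `x ↦ P (x ⊗ v)` as a linear map. -/
def Lin (e : ι ≃ Fin n₁ × Fin 3) (P : GL ι F) (v : Fin 3 → F) : (Fin n₁ → F) →ₗ[F] (ι → F) where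
  toFun x := Phi e P (vecMulVec x v)
  map_add' x y := by rw [Matrix.add_vecMulVec, map_add]
  map_smul' c x := by rw [Matrix.smul_vecMulVec, map_smul, RingHom.id_apply]

theorem Lin_apply (e : ι ≃ Fin n₁ × Fin 3) (P : GL ι F) (v : Fin 3 → F) (x : Fin n₁ → F) :
    Lin e P v x = Phi e P (vecMulVec x v) := rfl

/-- The coordinate of a matrix along the `j`-th basis vector. -/
noncomputable def kap (b : Module.Basis (Fin 3) F (Fin 3 → F)) (j : Fin 3) (X : Matrix (Fin n₁) (Fin 3) F) : Fin n₁ → F :=
  fun i => b.repr (X i) j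

theorem kap_add (b : Module.Basis (Fin 3) F (Fin 3 → F)) (j : Fin 3) (X Y : Matrix (Fin n₁) (Fin 3) F) :
    kap b j (X + Y) = kap b j X + kap b j Y := by
  funext i
  show b.repr (X i + Y i) j = b.repr (X i) j + b.repr (Y i) j
  rw [map_add]; rfl

theorem kap_smul (b : Module.Basis (Fin 3) F (Fin 3 → F)) (j : Fin 3) (c : F) (X : Matrix (Fin n₁) (Fin 3) F) :
    kap b j (c • X) = c • kap b j X := by
  funext i
  show b.repr (c • X i) j = c * b.repr (X i) j
  rw [map_smul]; rfl

theorem kap_vec (b : Module.Basis (Fin 3) F (Fin 3 → F)) (j : Fin 3) (x : Fin n₁ → F) (v : Fin 3 → F) :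
    kap b j (vecMulVec x v) = b.repr v j • x := by
  funext i
  show b.repr (fun k => x i * v k) j = b.repr v j * x i
  have : (fun k => x i * v k) = x i • v := rfl
  rw [this, map_smul, Finsupp.smul_apply, smul_eq_mul, mul_comm]

end main

/-- Over the field with 3 elements and for m ≥ 7, suppose the standard alternating form on F^(2m) is similar, through P and e, to the tensor product of a non-degenerate symplectic form f₁ on F^(n₁) and a non-degenerate symmetric bilinear form f₂ on F^3. Then the elements of Sp_2m(3) in the stabiliser of this tensor decomposition form a subgroup that is not maximal: some subgroup lies strictly between it and Sp_2m(3). -/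
theorem result {F : Type*} [Field F] [Fintype F] (m : ℕ) (hm : 7 ≤ m) (hq : Fintype.card F = 3) (n₁ : ℕ) (e : (Fin m ⊕ Fin m) ≃ Fin n₁ × Fin 3) (P : Matrix.GeneralLinearGroup (Fin m ⊕ Fin m) F) (f₁ : (Fin n₁ → F) → (Fin n₁ → F) → F) (f₂ : (Fin 3 → F) → (Fin 3 → F) → F) (hf₁ : Cfsg.Geo.IsSymplecticForm f₁) (hf₂ : Cfsg.Geo.IsSymmetricForm f₂) (hT : Cfsg.Geo.IsTensorFormStructure id (Cfsg.sympForm m F) f₁ f₂ e P) : ∃ K : Subgroup (Matrix.GeneralLinearGroup (Fin m ⊕ Fin m) F), Cfsg.Geo.tensorProductSubgroup n₁ 3 e P ⊓ Cfsg.spGL m F < K ∧ K < Cfsg.spGL m F := by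
  classical
  obtain ⟨c, hc0, hc⟩ := hT
  obtain ⟨b, d, hd, hb⟩ := exists_onb hq f₂ hf₂
  have hform : ∀ (x y : Fin n₁ → F) (v w : Fin 3 → F), sympForm m F (Phi e P (vecMulVec x v)) (Phi e P (vecMulVec y w))
      = c * (f₁ x y * f₂ v w) := form_rankone hf₁.bilinear hf₂.bilinear e P hc
  -- a nonzero vector
  have hn₁ : 0 < n₁ := by
    rcases Nat.eq_zero_or_pos n₁ with h | h
    · subst h
      have := Fintype.card_congr e
      simp at this
      omega
    · exact h
  let z : Fin n₁ → F := Pi.single ⟨0, hn₁⟩ 1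
  have hz : z ≠ 0 := by
    intro h
    have := congrFun h ⟨0, hn₁⟩
    simp [z] at this
  obtain ⟨⟨x, hx⟩, _⟩ := hf₁.nondegenerate z hz
  have hzz : f₁ z z = 0 := hf₁.alternating z
  let D : Fin 3 → Submodule F (Fin m ⊕ Fin m → F) := fun i => LinearMap.range (Lin e P (b i))
  have hrepr : ∀ i j, b.repr (b i) j = if i = j then 1 else 0 := by
    intro i j
    rw [b.repr_self, Finsupp.single_apply]
  refine ⟨decompositionStabilizer D ⊓ spGL m F, ?_, ?_⟩
  · refine lt_of_le_of_ne ?_ ?_
    · -- the tensor stabiliser permutes the three subspaces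
      rintro g ⟨hg, hgS⟩
      refine ⟨?_, hgS⟩
      have hiso : ∀ u v, sympForm m F ((g : Matrix _ _ F) *ᵥ u) ((g : Matrix _ _ F) *ᵥ v) = sympForm m F u v := hgS
      obtain ⟨a, b', hab⟩ := (mem_tensorProductSubgroup_iff e P g).mp hg
      have hact : ∀ (x : Fin n₁ → F) (v : Fin 3 → F), (g : Matrix _ _ F) *ᵥ (Phi e P (vecMulVec x v)) =
          Phi e P (vecMulVec ((a : Matrix _ _ F) *ᵥ x) ((b' : Matrix _ _ F) *ᵥ v)) := by
        intro x v
        rw [hab, Matrix.mul_vecMulVec, Matrix.vecMulVec_mul, Matrix.vecMul_transpose]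
      have hmul : ∀ v w, f₁ ((a : Matrix _ _ F) *ᵥ x) ((a : Matrix _ _ F) *ᵥ z) *
          f₂ ((b' : Matrix _ _ F) *ᵥ v) ((b' : Matrix _ _ F) *ᵥ w) = f₁ x z * f₂ v w := by
        intro v w
        have h1 := hiso (Phi e P (vecMulVec x v)) (Phi e P (vecMulVec z w))
        rw [hact, hact, hform, hform] at h1
        exact mul_left_cancel₀ hc0 h1
      have hr : f₁ ((a : Matrix _ _ F) *ᵥ x) ((a : Matrix _ _ F) *ᵥ z) ≠ 0 := by
        intro h0
        have h1 := hmul (b 0) (b 0)
        rw [h0, hb, if_pos rfl, zero_mul] at h1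
        exact mul_ne_zero hx hd h1.symm
      obtain ⟨σ, hσ⟩ := monomial hq hf₂ hd hb (b' : Matrix _ _ F)
        (μ := (f₁ ((a : Matrix _ _ F) *ᵥ x) ((a : Matrix _ _ F) *ᵥ z))⁻¹ * f₁ x z)
        (mul_ne_zero (inv_ne_zero hr) hx)
        (fun v w => by
          have h1 := hmul v w
          rw [mul_assoc, ← h1, ← mul_assoc, inv_mul_cancel₀ hr, one_mul])
      refine ⟨σ, fun i => ?_⟩
      obtain ⟨k, hk, hki⟩ := hσ i
      ext u
      constructor
      · rintro ⟨_, ⟨y, rfl⟩, rfl⟩
        refine ⟨k • ((a : Matrix _ _ F) *ᵥ y), ?_⟩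
        rw [Matrix.toLin'_apply, Lin_apply, Lin_apply, hact, hki, Matrix.smul_vecMulVec, Matrix.vecMulVec_smul]
      · rintro ⟨y, rfl⟩
        refine ⟨Lin e P (b i) (k⁻¹ • (((a⁻¹ : GL (Fin n₁) F) : Matrix _ _ F) *ᵥ y)), ⟨_, rfl⟩, ?_⟩
        rw [Matrix.toLin'_apply, Lin_apply, Lin_apply, hact, hki, Matrix.mulVec_smul, Matrix.mulVec_mulVec,
          ← Units.val_mul, mul_inv_cancel, Units.val_one, Matrix.one_mulVec, Matrix.smul_vecMulVec,
          Matrix.vecMulVec_smul, smul_smul, inv_mul_cancel₀ hk, one_smul]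
    · -- a transvection inside the first factor
      intro heq
      let v₀ := Phi e P (vecMulVec z (b 0))
      have ht : tr m v₀ ∈ decompositionStabilizer D ⊓ spGL m F := by
        refine ⟨⟨1, fun i => ?_⟩, tr_mem m v₀⟩
        have hmv : ∀ y, (tr m v₀ : Matrix _ _ F) *ᵥ (Phi e P (vecMulVec y (b i))) =
            Phi e P (vecMulVec (y + (c * (f₁ y z * f₂ (b i) (b 0))) • z) (b i)) := by
          intro y
          rw [tr_mulVec, hform, hb, Matrix.add_vecMulVec, map_add, Matrix.smul_vecMulVec, map_smul]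
          by_cases hi : i = 0
          · subst hi; rfl
          · rw [if_neg hi]; simp
        ext u
        constructor
        · rintro ⟨_, ⟨y, rfl⟩, rfl⟩
          exact ⟨_, (hmv y).symm⟩
        · rintro ⟨y, rfl⟩
          refine ⟨Lin e P (b i) (y + (- (c * (f₁ y z * f₂ (b i) (b 0)))) • z), ⟨_, rfl⟩, ?_⟩
          rw [Matrix.toLin'_apply, Lin_apply, hmv, hf₁.bilinear.add_left, hf₁.bilinear.smul_left, hzz, Lin_apply]
          congr 2
          rw [mul_zero, add_zero, add_assoc, ← add_smul, neg_add_cancel, zero_smul, add_zero]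
      rw [← heq] at ht
      obtain ⟨a, b', hab⟩ := (mem_tensorProductSubgroup_iff e P _).mp ht.1
      have hact : ∀ (x : Fin n₁ → F) (i : Fin 3),
          vecMulVec ((a : Matrix (Fin n₁) (Fin n₁) F) *ᵥ x) ((b' : Matrix (Fin 3) (Fin 3) F) *ᵥ (b i)) =
          vecMulVec (x + (c * (f₁ x z * f₂ (b i) (b 0))) • z) (b i) := by
        intro x i
        apply (Phi e P).injective
        have h1 := hab (vecMulVec x (b i))
        rw [Matrix.mul_vecMulVec, Matrix.vecMulVec_mul, Matrix.vecMul_transpose] at h1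
        rw [← h1, tr_mulVec, hform, hb, Matrix.add_vecMulVec, map_add, Matrix.smul_vecMulVec, map_smul]
        by_cases hi : i = 0
        · subst hi; rfl
        · rw [if_neg hi]; simp
      let ρ := b.repr ((b' : Matrix _ _ F) *ᵥ (b 1)) 1
      let ρ' := b.repr ((b' : Matrix _ _ F) *ᵥ (b 0)) 0
      have h1 : ∀ x : Fin n₁ → F, ρ • ((a : Matrix (Fin n₁) (Fin n₁) F) *ᵥ x) = x := by
        intro x
        have h2 := congrArg (kap b 1) (hact x 1)
        rw [kap_vec, kap_vec, hrepr, if_pos rfl, one_smul, hb, if_neg (by decide)] at h2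
        simpa using h2
      have h2 : ∀ x : Fin n₁ → F, ρ' • ((a : Matrix (Fin n₁) (Fin n₁) F) *ᵥ x) = x + (c * (f₁ x z * d)) • z := by
        intro x
        have h2 := congrArg (kap b 0) (hact x 0)
        rw [kap_vec, kap_vec, hrepr, if_pos rfl, one_smul, hb, if_pos rfl] at h2
        exact h2
      have h3 : ∀ x : Fin n₁ → F, ρ' • x = ρ • (x + (c * (f₁ x z * d)) • z) := by
        intro x
        rw [← h2 x, smul_comm, h1]
      have h4 := h3 z
      rw [hzz] at h4
      have h5 : ρ' = ρ := by
        have := congrFun h4 ⟨0, hn₁⟩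
        simpa [z] using this
      have h6 := h3 x
      rw [h5, smul_add, left_eq_add, smul_smul] at h6
      have h7 : ρ ≠ 0 := by
        intro h0
        have := h1 z
        rw [h0, zero_smul] at this
        exact hz this.symm
      rcases smul_eq_zero.mp h6 with h8 | h8
      · exact mul_ne_zero h7 (mul_ne_zero hc0 (mul_ne_zero hx hd)) h8
      · exact hz h8
  · refine lt_of_le_of_ne inf_le_right ?_
    intro heq
    let v₀ := Phi e P (vecMulVec z (b 0) + vecMulVec z (b 1))
    have ht : tr m v₀ ∈ decompositionStabilizer D ⊓ spGL m F := by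
      rw [heq]; exact tr_mem m v₀
    obtain ⟨⟨σ, hσ⟩, _⟩ := ht
    have h1 : (tr m v₀ : Matrix _ _ F) *ᵥ (Phi e P (vecMulVec x (b 0))) ∈ D (σ 0) := by
      rw [← hσ 0]
      exact ⟨Lin e P (b 0) x, ⟨_, rfl⟩, rfl⟩
    obtain ⟨y, hy⟩ := h1
    have hs : sympForm m F (Phi e P (vecMulVec x (b 0))) v₀ = c * (f₁ x z * d) := by
      show sympForm m F (Phi e P (vecMulVec x (b 0))) (Phi e P (vecMulVec z (b 0) + vecMulVec z (b 1))) = _
      rw [map_add, sympForm_add_right, hform, hform, hb, hb, if_pos rfl, if_neg (by decide)]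
      ring
    rw [tr_mulVec, hs, Lin_apply] at hy
    have h2 : vecMulVec y (b (σ 0)) = vecMulVec x (b 0) + (c * (f₁ x z * d)) • (vecMulVec z (b 0) + vecMulVec z (b 1)) := by
      apply (Phi e P).injective
      rw [hy, map_add, map_smul]
    have hs0 : c * (f₁ x z * d) ≠ 0 := mul_ne_zero hc0 (mul_ne_zero hx hd)
    have h3 : ∀ j, (if σ 0 = j then (1 : F) else 0) • y = (if (0 : Fin 3) = j then (1 : F) else 0) • x +
        (c * (f₁ x z * d)) • ((if (0 : Fin 3) = j then (1 : F) else 0) • z + (if (1 : Fin 3) = j then (1 : F) else 0) • z) := by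
      intro j
      have := congrArg (kap b j) h2
      rw [kap_vec, kap_add, kap_smul, kap_add, kap_vec, kap_vec, kap_vec, hrepr, hrepr, hrepr] at this
      exact this
    by_cases hσ1 : σ 0 = 1
    · have h4 := h3 0
      rw [hσ1, if_neg (by decide), if_pos rfl] at h4
      simp only [zero_smul, one_smul, add_zero] at h4
      have h5 : f₁ (x + (c * (f₁ x z * d)) • z) z = 0 := by
        rw [← h4]
        have := hf₁.bilinear.smul_left 0 0 z
        simpa using this
      rw [hf₁.bilinear.add_left, hf₁.bilinear.smul_left, hzz, mul_zero, add_zero] at h5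
      exact hx h5
    · have h4 := h3 1
      rw [if_neg hσ1, if_neg (by decide), if_pos rfl] at h4
      simp only [zero_smul, one_smul, zero_add] at h4
      rcases smul_eq_zero.mp h4.symm with h8 | h8
      · exact hs0 h8
      · exact hz h8

end Cfsg.Agent.S5667
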