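import Cfsg.Statements.S5673
import Cfsg.Agent.H922.OddMax
import Cfsg.Agent.H922.OddForm

set_option autoImplicit false
open Cfsg

namespace Cfsg.Agent.S5673

/-- Subgroup structure of the odd-dimensional orthogonal groups. Let F be a finite field of odd order and m ≥ 3, let Q be the standard quadratic form x₀² + Σ x_i y_i on F^(2m+1), and let Ω be the commutator subgroup of its isometry group, viewed inside GL_(2m+1)(F). Let H be a subgroup of Ω whose product with the scalar matrices in Ω is not all of Ω. Then either H is contained in a member of one of the geometric classes of subgroups of the isometry group (with the conditions built into InOrthogonalOddClass), or H is in the residual class: modulo scalars it is almost simple, and the perfect preimage of its socle acts absolutely irreducibly, is realisable over no proper subfield, and fixes no non-degenerate unitary form. -/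
theorem result {F : Type*} [Field F] [Fintype F] (hodd : Odd (Fintype.card F)) (m : ℕ) (hm : 3 ≤ m) (H : Subgroup (Matrix.GeneralLinearGroup (Unit ⊕ (Fin m ⊕ Fin m)) F)) (hH : H ≤ Cfsg.Geo.omegaGL (Cfsg.quadFormOdd m F)) (hproper : H ⊔ (Cfsg.Geo.scalars (Unit ⊕ (Fin m ⊕ Fin m)) F ⊓ Cfsg.Geo.omegaGL (Cfsg.quadFormOdd m F)) ≠ Cfsg.Geo.omegaGL (Cfsg.quadFormOdd m F)) : (∃ M : Subgroup (Matrix.GeneralLinearGroup (Unit ⊕ (Fin m ⊕ Fin m)) F), Cfsg.Geo.InOrthogonalOddClass m F M ∧ H ≤ M) ∨ Cfsg.Geo.InOrthogonalResidualClass H := by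
  have h2 := Cfsg.Agent.H922.two_ne_zero_of_odd_card hodd
  have hcard := Cfsg.Agent.H922.card_unit_sum m
  have hQ := Cfsg.Agent.H922.isNondegenerateQuadraticForm_quadFormOdd (F := F) m h2
  rcases Cfsg.Agent.H922.odd_all_fine hQ h2 ⟨m, hcard⟩ (by omega)
    (Cfsg.Agent.H922.gram_quadFormOdd_mem m)
    (hH.trans (Cfsg.Agent.H922.omegaGL_le (Cfsg.quadFormOdd m F))) with
    ⟨W, hW0, hW, hHW⟩ | ⟨W, hW0, hW1, hW, hHW⟩ | ⟨t, k, D, hm, hD, hHD⟩ | ⟨D, hp, hD, hHD⟩ |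
    ⟨r, K, hr, hrd, hrn, hK, hsa, hHK⟩ |
    ⟨n₁, n₂, e, P, f₁, f₂, h3, hlt, hc, hf₁, hf₂, hP, hHP⟩ |
    ⟨F₁, r, P, hF₁, hr, hc, hP, hHP⟩ |
    ⟨k, t, e, P, f₁, hk, ht, hkt, h33, hf₁, hP, hHP⟩ | hS
  · exact Or.inl ⟨_, Or.inl ⟨W, hW0, hW, rfl⟩, le_inf hHW (hH.trans (Cfsg.Agent.H922.omegaGL_le _))⟩
  · exact Or.inl ⟨_, Or.inr (Or.inl ⟨W, hW0, hW1, hW, rfl⟩),
      le_inf hHW (hH.trans (Cfsg.Agent.H922.omegaGL_le _))⟩
  · exact Or.inl ⟨_, Or.inr (Or.inr (Or.inl ⟨t, k, D, hm, hD, rfl⟩)),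
      le_inf hHD (hH.trans (Cfsg.Agent.H922.omegaGL_le _))⟩
  · exact Or.inl ⟨_, Or.inr (Or.inr (Or.inr (Or.inl ⟨_, D, hp, hD, rfl⟩))),
      le_inf hHD (hH.trans (Cfsg.Agent.H922.omegaGL_le _))⟩
  · exact Or.inl ⟨_, Or.inr (Or.inr (Or.inr (Or.inr (Or.inl ⟨r, K, hr,
      fun h => hrn (by rw [hcard, h]), hK, hsa, rfl⟩)))),
      le_inf hHK (hH.trans (Cfsg.Agent.H922.omegaGL_le _))⟩
  · exact Or.inl ⟨_, Or.inr (Or.inr (Or.inr (Or.inr (Or.inr (Or.inl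
      ⟨n₁, n₂, e, P, f₁, f₂, h3, hlt, hf₁, hf₂, hP, rfl⟩))))),
      le_inf hHP (hH.trans (Cfsg.Agent.H922.omegaGL_le _))⟩
  · exact Or.inl ⟨_, Or.inr (Or.inr (Or.inr (Or.inr (Or.inr (Or.inr (Or.inl
      ⟨F₁, r, P, hr, hc, hP, rfl⟩)))))),
      le_inf hHP (hH.trans (Cfsg.Agent.H922.omegaGL_le _))⟩
  · exact Or.inl ⟨_, Or.inr (Or.inr (Or.inr (Or.inr (Or.inr (Or.inr (Or.inr
      ⟨k, t, e, P, f₁, hk, ht, h33, hf₁, hP, rfl⟩)))))),
      le_inf hHP (hH.trans (Cfsg.Agent.H922.omegaGL_le _))⟩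
  · exact Or.inr hS

end Cfsg.Agent.S5673
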