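import Cfsg.Statements.S5680
import Cfsg.Agent.H884.ExtGL5
import Cfsg.Agent.H884.OddForm

set_option autoImplicit false
open Cfsg

namespace Cfsg.Agent.S5680

/-- Let F be a finite field of odd order, m ≥ 6, Q the standard quadratic form on F^(2m+1) and Ω the commutator subgroup of its isometry group. Let K be a subfield of the algebra of (2m+1) × (2m+1) matrices over F containing the scalars, of prime degree r over F with r ≠ 2m + 1, whose elements are self-adjoint for the polar form of Q. Then the elements of Ω normalising K form a maximal subgroup of Ω. -/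
theorem result {F : Type*} [Field F] [Fintype F] (hodd : Odd (Fintype.card F)) (m : ℕ) (hm : 6 ≤ m) (r : ℕ) (hr : r.Prime) (hrn : 2 * m + 1 ≠ r) (K : Subalgebra F (Matrix (Unit ⊕ (Fin m ⊕ Fin m)) (Unit ⊕ (Fin m ⊕ Fin m)) F)) (hK : Cfsg.Geo.IsFieldSubalgebra r K) (hsa : Cfsg.Geo.IsSelfAdjointFor (QuadraticMap.polar (Cfsg.quadFormOdd m F)) K) : Cfsg.Geo.IsMaximalIn (Cfsg.Geo.omegaGL (Cfsg.quadFormOdd m F)) (Cfsg.Geo.subalgebraNormalizer K ⊓ Cfsg.Geo.omegaGL (Cfsg.quadFormOdd m F)) := by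
  have h2 : (2 : F) ≠ 0 := Cfsg.Agent.H884.OddForm.two_ne_zero_of_odd hodd
  have hQ := Cfsg.Agent.H884.OddForm.isNondegenerate_quadFormOdd hodd m
  have hcard : Fintype.card (Unit ⊕ (Fin m ⊕ Fin m)) = 2 * m + 1 := by
    simp only [Fintype.card_sum, Fintype.card_fin, Fintype.card_unit]
    ring
  have h1 := Cfsg.Agent.H923.finrank_mul hK
  rw [hcard] at h1
  have hr2 := hr.two_le
  generalize @Module.finrank K (Unit ⊕ (Fin m ⊕ Fin m) → F) _ _ _ = k at h1
  have hodd1 : Odd (r * k) := by rw [h1]; exact ⟨m, rfl⟩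
  obtain ⟨hro, hko⟩ := Nat.odd_mul.1 hodd1
  have hk1 : k ≠ 1 := by
    rintro rfl
    exact hrn (by omega)
  obtain ⟨l, hl⟩ := hko
  by_cases hk3 : k = 3
  · subst hk3
    refine Cfsg.Agent.H884.Ext.extension_field_normalizer_isMaximalIn5 h2 hQ hr ?_ hK hsa ?_
    · omega
    · rw [hcard]
      omega
  · have hk4 : 4 ≤ k := by omega
    have h4 : 4 * r ≤ 2 * m + 1 := by
      calc 4 * r = r * 4 := by ring
        _ ≤ r * k := Nat.mul_le_mul_left _ hk4
        _ = 2 * m + 1 := h1
    refine Cfsg.Agent.H884.Ext.extension_field_normalizer_isMaximalIn h2 hQ hr hK hsa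
      (by rw [hcard]; exact h4) fun h3 => ?_
    rw [hcard]
    omega

end Cfsg.Agent.S5680
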