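import Cfsg.Statements.S5687
import Cfsg.Agent.H884.SingMaxPlus

set_option autoImplicit false
open Cfsg

namespace Cfsg.Agent.S5687

/-- Let F be a finite field with q elements, n ≥ 13 even, Q a non-degenerate quadratic form on F^n of minus type (no subspace of dimension n/2 is totally singular), and Ω the commutator subgroup of the isometry group of Q, viewed inside GL_n(F). The elements of Ω stabilising a non-zero subspace on which Q vanishes form a maximal subgroup of Ω. -/
theorem result {F : Type*} [Field F] [Fintype F] {n : ℕ} (hn : 13 ≤ n) (heven : Even n) (Q : (Fin n → F) → F) (hQ : Cfsg.Geo.IsNondegenerateQuadraticForm Q) (hminus : ¬ Cfsg.Geo.IsPlusTypeOn Q ⊤) (W : Submodule F (Fin n → F)) (hW0 : W ≠ ⊥) (hW : Cfsg.Geo.IsTotallySingularQuad Q W) : Cfsg.Geo.IsMaximalIn (Cfsg.Geo.omegaGL Q) (Cfsg.Geo.subspaceStabilizer W ⊓ Cfsg.Geo.omegaGL Q) := by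
  refine Cfsg.Agent.H884.OmegaGL.singular_stabilizer_isMaximalIn Q hQ (by rw [Fintype.card_fin]; omega)
    hW0 hW ?_
  rintro ⟨x, hx, hxW, hxn⟩
  rw [Fintype.card_fin]
  have hnd := Cfsg.Agent.H884.OmegaGL.nondeg_bundle Q hQ
  have h0 := Cfsg.Agent.H884.SingMaxPlus.sup_span_singular (Q := Cfsg.Agent.H884.OmegaGL.bundle Q hQ)
    hW hx hxW
  have h1 := Cfsg.Agent.H884.SingMaxPlus.two_mul_finrank_le hnd h0
  have h2 := Cfsg.Agent.H884.SingMaxPlus.finrank_sup_span hxn
  rw [h2, Module.finrank_fintype_fun_eq_card, Fintype.card_fin] at h1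
  obtain ⟨k, hk⟩ := heven
  by_contra hlt
  apply hminus
  refine ⟨W ⊔ Submodule.span F {x}, le_top, h0, ?_⟩
  rw [h2, finrank_top, Module.finrank_fintype_fun_eq_card, Fintype.card_fin]
  omega

end Cfsg.Agent.S5687
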