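import Cfsg.Statements.S5689
import Cfsg.Agent.H885.NondegGeo
import Cfsg.Agent.H885.MinusType

set_option autoImplicit false
open Cfsg

namespace Cfsg.Agent.S5689

/-- Let F be a finite field with q elements, n ≥ 13 even, Q a non-degenerate quadratic form on F^n of minus type (no subspace of dimension n/2 is totally singular), and Ω the commutator subgroup of the isometry group of Q, viewed inside GL_n(F). Let W be a non-zero proper subspace on which the polar form of Q is non-degenerate, not of odd dimension n/2. Exclude the case q ≤ 3 in which W, or its orthogonal complement, is a plane containing a line on which Q vanishes. Then the elements of Ω stabilising W form a maximal subgroup of Ω. -/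
theorem result {F : Type*} [Field F] [Fintype F] {n : ℕ} (hn : 13 ≤ n) (heven : Even n) (Q : (Fin n → F) → F) (hQ : Cfsg.Geo.IsNondegenerateQuadraticForm Q) (hminus : ¬ Cfsg.Geo.IsPlusTypeOn Q ⊤) (W : Submodule F (Fin n → F)) (hW0 : W ≠ ⊥) (hW1 : W ≠ ⊤) (hdim : ¬ (2 * Module.finrank F W = n ∧ Odd (Module.finrank F W))) (hW : Cfsg.Geo.IsNondegenerateOn (QuadraticMap.polar Q) W) (hex : ¬ (Fintype.card F ≤ 3 ∧ (∃ U : Submodule F (Fin n → F), Module.finrank F U = 2 ∧ Cfsg.Geo.IsNondegenerateOn (QuadraticMap.polar Q) U ∧ Cfsg.Geo.IsPlusTypeOn Q U ∧ (U = W ∨ (Cfsg.Geo.AreOrthogonalFor (QuadraticMap.polar Q) U W ∧ Module.finrank F U + Module.finrank F W = n))))) : Cfsg.Geo.IsMaximalIn (Cfsg.Geo.omegaGL Q) (Cfsg.Geo.subspaceStabilizer W ⊓ Cfsg.Geo.omegaGL Q) := by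
  refine Cfsg.Agent.H885.NondegGeo.subspaceStabilizer_nondegenerate_maximal hQ
    (by rw [Fintype.card_fin]; omega) W hW0 hW1 hW ?_ ?_
  · rw [Fintype.card_fin]
    exact hex
  · intro Q' hQ' hnd U hs g hg heq
    have h1 := hs.finrank hnd
    have h2 : Module.finrank F W = Module.finrank F U := by
      rw [← heq, LinearEquiv.finrank_map_eq g U]
    rw [Module.finrank_fin_fun] at h1
    have hke : Even (Module.finrank F U) := by
      by_contra hodd
      rw [Nat.not_even_iff_odd] at hodd
      exact hdim ⟨by omega, by rw [h2]; exact hodd⟩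
    obtain ⟨X, hX1, hX2⟩ :=
      Cfsg.Agent.H885.MinusType.exists_half hnd hs hg heq rfl hke
    apply hminus
    refine ⟨X, le_top, fun x hx => by rw [← hQ']; exact hX2 x hx, ?_⟩
    rw [hX1, finrank_top, Module.finrank_fin_fun]
    omega

end Cfsg.Agent.S5689
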