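import Cfsg.Statements.S5697
import Cfsg.Agent.H887.TSMax

set_option autoImplicit false
open Cfsg

namespace Cfsg.Agent.S5697

open QuadraticMap Cfsg.Agent.LieClassical.OrthCore Cfsg.Agent.LieClassical.OrthTrans
  Cfsg.Agent.ClassicalGeometry.OrthAutBasic
  Cfsg.Agent.H887.SiegelMethod Cfsg.Agent.H887.OmegaBridge Cfsg.Agent.H887.TS

/-- Let F be a finite field with q elements, n ≥ 13 even, Q a non-degenerate quadratic form on F^n of plus type (some subspace of dimension n/2 is totally singular), and Ω the commutator subgroup of the isometry group of Q, viewed inside GL_n(F). Suppose n/2 is even and let D be a decomposition of F^n into two complementary subspaces of dimension n/2 on each of which Q vanishes. Then the elements of Ω preserving or interchanging the two subspaces form a maximal subgroup of Ω. -/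
theorem result {F : Type*} [Field F] [Fintype F] {n : ℕ} (hn : 13 ≤ n) (heven : Even n) (Q : (Fin n → F) → F) (hQ : Cfsg.Geo.IsNondegenerateQuadraticForm Q) (hplus : Cfsg.Geo.IsPlusTypeOn Q ⊤) (k : ℕ) (hk : 2 * k = n) (hke : Even k) (D : Fin 2 → Submodule F (Fin n → F)) (hD : Cfsg.Geo.IsMDecomposition k D) (hts : ∀ i, Cfsg.Geo.IsTotallySingularQuad Q (D i)) : Cfsg.Geo.IsMaximalIn (Cfsg.Geo.omegaGL Q) (Cfsg.Geo.decompositionStabilizer D ⊓ Cfsg.Geo.omegaGL Q) := by
  have hG : Good (qf Q hQ) := (big_qf Q hQ (by rw [Fintype.card_fin]; omega)).good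
  have P := tsPair_of_decomp Q hQ hD hts
  have hf0 := hD.finrank_eq 0
  have hf1 := hD.finrank_eq 1
  refine isMaximalIn_omegaGL Q hQ hG _ (decStab D) (mem_decompositionStabilizer_iff D) ?_ ?_
  · obtain ⟨g, hg, h0, h1⟩ := P.exists_move hG.nondeg (by omega)
    refine ⟨g, hg, fun h => ?_⟩
    rcases mem_decStab_two.1 h with h | h
    · exact h1 h.2
    · -- then `D 0 = D 1`
      have h2 : D 0 = D 1 := h0.symm.trans h.1
      have h3 := P.inf
      rw [← h2, inf_idem] at h3
      rw [h3, finrank_bot] at hf0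
      omega
  · intro H hHE hM hex
    obtain ⟨g, hg, hg'⟩ := hex
    obtain ⟨s, hsE, hs0, hs1⟩ := P.exists_swap hG hf0 hf1 (by omega) hke
    have hsH : s ∈ H := by
      refine hM s hsE (mem_decStab_two.2 (Or.inr ⟨?_, ?_⟩))
      · exact map_eq_of_le (by omega) (by omega) hs0
      · exact map_eq_of_le (by omega) (by omega) hs1
    have hO : Over (qf Q hQ) (D 0) (D 1) H := by
      refine ⟨hHE.trans E_le_O, fun a ha b hb hab => ?_⟩
      exact hM _ (T_mem_E a b)
        (mem_decStab_two.2 (Or.inl ⟨P.root_map ha hb hab, P.root_map' ha hb hab⟩))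
    exact hO.main P hG hf0 hf1 (by omega) hsH hs0 hs1 hg fun h => hg' (mem_decStab_two.2 h)

end Cfsg.Agent.S5697
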