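import Cfsg.Statements.S5699
import Cfsg.Agent.H887.TwoHalves

set_option autoImplicit false
open Cfsg

namespace Cfsg.Agent.S5699

open QuadraticMap Cfsg.Agent.LieClassical.OrthCore Cfsg.Agent.LieClassical.OrthTrans
  Cfsg.Agent.ClassicalGeometry.OrthAutBasic
  Cfsg.Agent.H887.SiegelMethod Cfsg.Agent.H887.OmegaBridge Cfsg.Agent.H887.TS
  Cfsg.Agent.H887.Halves

variable {F V : Type*} [Field F] [AddCommGroup V] [Module F V] {Q : QuadraticForm F V}
variable {U W : Submodule F V}

theorem root_map {a b : V} (ha : a ∈ U) (hb : b ∈ U) (ha0 : Q a = 0)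
    (hab : polar Q a b = 0) : U.map (T Q a b : V →ₗ[F] V) = U := by
  have key : ∀ {b : V}, b ∈ U → polar Q a b = 0 → ∀ u ∈ U, T Q a b u ∈ U := by
    intro b hb hab u hu
    rw [T_apply ha0 hab]
    exact U.sub_mem (U.sub_mem (U.add_mem hu (U.smul_mem _ hb)) (U.smul_mem _ ha))
      (U.smul_mem _ ha)
  refine map_eq_self_of_le (key hb hab) ?_
  rw [T_inv ha0 hab]
  exact key (U.neg_mem hb) (by rw [polar_neg_right, hab, neg_zero])

theorem root_map' (P : Orth Q U W) {a b : V} (ha : a ∈ U) (hb : b ∈ U) (ha0 : Q a = 0)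
    (hab : polar Q a b = 0) : W.map (T Q a b : V →ₗ[F] V) = W := by
  have key : ∀ {b : V}, b ∈ U → polar Q a b = 0 → ∀ u ∈ W, T Q a b u ∈ W := by
    intro b hb hab u hu
    rw [T_apply_fix ha0 hab (P.orth a ha u hu) (P.orth b hb u hu)]
    exact hu
  refine map_eq_self_of_le (key hb hab) ?_
  rw [T_inv ha0 hab]
  exact key (U.neg_mem hb) (by rw [polar_neg_right, hab, neg_zero])

theorem exists_move [Finite F] (P : Orth Q U W) (hQ : Nondeg Q) (hU : 7 ≤ Module.finrank F U)
    (hW : 7 ≤ Module.finrank F W) :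
    ∃ g ∈ E Q, U.map (g : V →ₗ[F] V) ≠ U ∧ U.map (g : V →ₗ[F] V) ≠ W := by
  obtain ⟨u, hu, huz, hu0, -⟩ := exists_sing_perp_mem (Q := Q) U ![] (by omega)
  obtain ⟨x, hx, hxz, hx0, -⟩ := exists_sing_perp_mem (Q := Q) W ![] (by omega)
  obtain ⟨u', hu', hyp⟩ := P.exists_hyp hQ hu huz hu0
  have hux : polar Q u x = 0 := P.orth u hu x hx
  have e : T Q u x u' = u' + x := by
    rw [T_apply_root hu0 hx0 hux, hyp.pair, P.orth' hu' hx]
    simp
  refine ⟨T Q u x, T_mem_E u x, ?_, ?_⟩
  · intro h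
    have h1 : T Q u x u' ∈ U := by rw [← h]; exact ⟨u', hu', rfl⟩
    rw [e] at h1
    have h2 : x ∈ U := by simpa using U.sub_mem h1 hu'
    exact hxz (P.eq_zero hQ h2 hx)
  · intro h
    have h1 : T Q u x u' ∈ W := by rw [← h]; exact ⟨u', hu', rfl⟩
    rw [e] at h1
    have h2 : u' ∈ W := by simpa using W.sub_mem h1 hx
    exact hyp.right_ne (P.eq_zero hQ hu' h2)

/-- Let F be a finite field with q elements, n ≥ 13 even, Q a non-degenerate quadratic form on F^n (of either type), and Ω the commutator subgroup of the isometry group of Q, viewed inside GL_n(F). Let D be a decomposition of F^n into two orthogonal subspaces of odd dimension n/2 on which the polar form is non-degenerate and which are not Q-isometric to each other. Then the elements of Ω permuting (necessarily fixing) the two subspaces form a maximal subgroup of Ω. -/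
theorem result {F : Type*} [Field F] [Fintype F] {n : ℕ} (hn : 13 ≤ n) (heven : Even n) (Q : (Fin n → F) → F) (hQ : Cfsg.Geo.IsNondegenerateQuadraticForm Q) (k : ℕ) (hk : 2 * k = n) (hko : Odd k) (D : Fin 2 → Submodule F (Fin n → F)) (hD : Cfsg.Geo.IsNondegenerateMDecomposition (QuadraticMap.polar Q) k D) (hni : ¬ Cfsg.Geo.AreIsometricFor Q (D 0) (D 1)) : Cfsg.Geo.IsMaximalIn (Cfsg.Geo.omegaGL Q) (Cfsg.Geo.decompositionStabilizer D ⊓ Cfsg.Geo.omegaGL Q) := by
  have hG : Good (qf Q hQ) := (big_qf Q hQ (by rw [Fintype.card_fin]; omega)).good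
  have P : Orth (qf Q hQ) (D 0) (D 1) :=
    ⟨hD.orthogonal 0 1 (by decide), (isCompl_of_decomp hD.decomp).1⟩
  have hf0 := hD.decomp.finrank_eq 0
  have hf1 := hD.decomp.finrank_eq 1
  have hk7 : 7 ≤ k := by omega
  refine isMaximalIn_omegaGL Q hQ hG _ (decStab D) (mem_decompositionStabilizer_iff D) ?_ ?_
  · obtain ⟨g, hg, h0, h1⟩ := exists_move P hG.nondeg (by omega) (by omega)
    refine ⟨g, hg, fun h => ?_⟩
    rcases mem_decStab_two.1 h with h | h
    · exact h0 h.1
    · exact h1 h.1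
  · intro H hHE hM hex
    obtain ⟨g, hg, hg'⟩ := hex
    have hO : Cfsg.Agent.H887.Halves.Over (qf Q hQ) (D 0) (D 1) H := by
      refine ⟨hHE.trans E_le_O, fun a ha b hb ha0 hab => ?_, fun a ha b hb ha0 hab => ?_⟩
      · exact hM _ (T_mem_E a b)
          (mem_decStab_two.2 (Or.inl ⟨root_map ha hb ha0 hab, root_map' P ha hb ha0 hab⟩))
      · exact hM _ (T_mem_E a b)
          (mem_decStab_two.2 (Or.inl ⟨root_map' P.symm ha hb ha0 hab, root_map ha hb ha0 hab⟩))
    exact hO.main P hG hf0 hf1 hk7 hg fun h => hg' (mem_decStab_two.2 h)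

end Cfsg.Agent.S5699
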