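import Cfsg.Statements.S5701
import Cfsg.Agent.H884.ExtGL
import Cfsg.Agent.H884.OddForm

set_option autoImplicit false
open Cfsg

namespace Cfsg.Agent.S5701

/-- Let F be a finite field with q elements, n ≥ 13 even, Q a non-degenerate quadratic form on F^n (of either type), and Ω the commutator subgroup of the isometry group of Q, viewed inside GL_n(F). Suppose q is odd. Let K be a subfield of the algebra of n × n matrices over F containing the scalars, of prime degree r over F with n/r ≥ 3, whose elements are self-adjoint for the polar form of Q. Then the elements of Ω normalising K form a maximal subgroup of Ω. -/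
theorem result {F : Type*} [Field F] [Fintype F] {n : ℕ} (hn : 13 ≤ n) (heven : Even n) (Q : (Fin n → F) → F) (hQ : Cfsg.Geo.IsNondegenerateQuadraticForm Q) (hodd : Odd (Fintype.card F)) (r : ℕ) (hr : r.Prime) (hnr : 3 * r ≤ n) (K : Subalgebra F (Matrix (Fin n) (Fin n) F)) (hK : Cfsg.Geo.IsFieldSubalgebra r K) (hsa : Cfsg.Geo.IsSelfAdjointFor (QuadraticMap.polar Q) K) : Cfsg.Geo.IsMaximalIn (Cfsg.Geo.omegaGL Q) (Cfsg.Geo.subalgebraNormalizer K ⊓ Cfsg.Geo.omegaGL Q) := by
  have h2 : (2 : F) ≠ 0 := Cfsg.Agent.H884.OddForm.two_ne_zero_of_odd hodd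
  have hne : Nonempty (Fin n) := ⟨⟨0, by omega⟩⟩
  have h1 := Cfsg.Agent.H923.finrank_mul hK
  rw [Fintype.card_fin] at h1
  have hr2 := hr.two_le
  have h4 : 4 * r ≤ n := by
    by_cases h3 : r = 2
    · subst h3; omega
    · have hro : Odd r := hr.odd_of_ne_two h3
      generalize @Module.finrank K (Fin n → F) _ _ _ = m at h1
      have hme : Even m := by
        have h5 : Even (r * m) := by rw [h1]; exact heven
        rcases Nat.even_mul.1 h5 with h6 | h6
        · exact absurd h6 (Nat.not_even_iff_odd.2 hro)
        · exact h6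
      have h6 : 3 ≤ m := by
        by_contra h7
        have : r * m ≤ r * 2 := Nat.mul_le_mul_left _ (by omega)
        omega
      have h7 : 4 ≤ m := by
        obtain ⟨k, hk⟩ := hme
        omega
      calc 4 * r = r * 4 := by ring
        _ ≤ r * m := Nat.mul_le_mul_left _ h7
        _ = n := h1
  exact Cfsg.Agent.H884.Ext.extension_field_normalizer_isMaximalIn h2 hQ hr hK hsa
    (by rw [Fintype.card_fin]; exact h4) (fun h3 => by rw [Fintype.card_fin]; omega)

end Cfsg.Agent.S5701
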