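import Cfsg.Statements.S5706
import Cfsg.Agent.H889.C7.Final
import Cfsg.Agent.H874.OddEnd
import Cfsg.Agent.GpSp.Iso
import Cfsg.Agent.H889.C7.Gen2

set_option autoImplicit false
open Cfsg

namespace Cfsg.Agent.S5706

open Cfsg.Agent.H889 Cfsg.Agent.H889.C7 Cfsg.Geo

theorem two_ne_of_odd {F : Type*} [Field F] [Fintype F] (h2 : (2 : F) ≠ 0) : Odd (Fintype.card F) := by
  have h3 : ringChar F ≠ 2 := by
    intro h3
    apply h2
    have := ringChar.Nat.cast_ringChar (R := F)
    rw [h3] at this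
    exact_mod_cast this
  exact Nat.odd_iff.2 (FiniteField.odd_card_of_char_ne_two h3)

/-- Let F be a finite field with q elements, n ≥ 13 even, Q a non-degenerate quadratic form on F^n of plus type (some subspace of dimension n/2 is totally singular), and Ω the commutator subgroup of the isometry group of Q, viewed inside GL_n(F). Suppose that, through a change of basis P and a bijection of index sets e, the polar form of Q is similar to the t-fold tensor power (t ≥ 2) of a non-degenerate symplectic form f₁ on F^k, that Q vanishes on the images of all pure tensors, that t is even if q is odd, that (q, k) is neither (2, 2) nor (3, 2), and that k ≥ 6 if q is even. Then the elements of Ω in the stabiliser of this decomposition form a maximal subgroup of Ω. -/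
theorem result {F : Type*} [Field F] [Fintype F] {n : ℕ} (hn : 13 ≤ n) (heven : Even n) (Q : (Fin n → F) → F) (hQ : Cfsg.Geo.IsNondegenerateQuadraticForm Q) (hplus : Cfsg.Geo.IsPlusTypeOn Q ⊤) (k t : ℕ) (ht : 2 ≤ t) (hqt : Odd (Fintype.card F) → Even t) (hex1 : ¬ (Fintype.card F = 2 ∧ k = 2)) (hex2 : ¬ (Fintype.card F = 3 ∧ k = 2)) (hex3 : ¬ Odd (Fintype.card F) → 6 ≤ k) (e : (Fin n) ≃ (Fin t → Fin k)) (P : Matrix.GeneralLinearGroup (Fin n) F) (f₁ : (Fin k → F) → (Fin k → F) → F) (hf₁ : Cfsg.Geo.IsSymplecticForm f₁) (hT : Cfsg.Geo.IsTensorPowerFormStructure id (QuadraticMap.polar Q) f₁ e P) (hpure : (∀ xs : Fin t → (Fin k → F), Q (Matrix.mulVec (P : Matrix (Fin n) (Fin n) F) ((fun a : Fin t → Fin k => ∏ i, xs i (a i)) ∘ e)) = 0)) : Cfsg.Geo.IsMaximalIn (Cfsg.Geo.omegaGL Q) (Cfsg.Geo.tensorWreathSubgroup k t e P ⊓ Cfsg.Geo.omegaGL Q) := by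
  classical
  obtain ⟨N, rfl⟩ : ∃ N, t = N + 2 := ⟨t - 2, by omega⟩
  -- the form `ω`
  let ω : LinearMap.BilinForm F (Fin k → F) := LinearMap.mk₂ F f₁ hf₁.bilinear.add_left
    (fun c x y => by rw [hf₁.bilinear.smul_left, smul_eq_mul]) hf₁.bilinear.add_right
    (fun c x y => by rw [hf₁.bilinear.smul_right, smul_eq_mul])
  have hωf : ∀ x y, ω x y = f₁ x y := fun x y => rfl
  have hω : Symp ω := by
    refine ⟨hf₁.alternating, fun u hu => ?_⟩
    by_contra h0
    obtain ⟨-, x, hx⟩ := hf₁.nondegenerate u h0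
    exact hx (hu x)
  have hcard : Fintype.card (Fin (N + 2) → Fin k) = n := by
    rw [← Fintype.card_congr e, Fintype.card_fin]
  -- evenness of `k`
  have hke : Even k := by
    have h := Cfsg.Agent.GpSp.Symp.even_of_nondeg ω (fun v => hω.alt v) (fun u hu => hω.nd u hu)
    rw [Module.finrank_fintype_fun_eq_card, Fintype.card_fin] at h
    obtain ⟨m, hm⟩ := h
    exact ⟨m, by omega⟩
  have hk0 : k ≠ 0 := by
    rintro rfl
    rw [Fintype.card_fun, Fintype.card_fin, Fintype.card_fin, zero_pow (by omega)] at hcard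
    omega
  have hk2 : 2 ≤ k := by
    obtain ⟨r, hr⟩ := hke
    omega
  -- the quadratic form
  obtain ⟨Q₀, hQ₀, hnd⟩ := Cfsg.Agent.H883.Bridge.exists_quadraticForm (pullForm_nondegenerate e P Q hQ)
  obtain ⟨c₀, hc₀, hpol⟩ := polar_pullForm_tp e P Q f₁ hf₁.bilinear hT
  have hQF : QForm hω Q₀ c₀ := by
    refine ⟨hc₀, ?_, ?_⟩
    · have h1 : QuadraticMap.polarBilin Q₀ = c₀ • fT ω (N + 2) := by
        refine bilin_ext fun xs ys => ?_
        rw [QuadraticMap.polarBilin_apply_apply, hQ₀, hpol]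
        change _ = c₀ • fT ω (N + 2) (tp xs) (tp ys)
        rw [fT_tp, smul_eq_mul]
        rfl
      intro x y
      have h2 := LinearMap.congr_fun (LinearMap.congr_fun h1 x) y
      exact h2
    · intro xs
      rw [hQ₀]
      exact hpure xs
  have hG := Cfsg.Agent.H883.Bridge.good_of_card hnd (by rw [hcard]; omega)
  have hchar : (2 : F) ≠ 0 → Odd (Fintype.card F) := two_ne_of_odd
  have hodd : (2 : F) ≠ 0 → Even N := by
    intro h2
    obtain ⟨r, hr⟩ := hqt (hchar h2)
    exact ⟨r - 1, by omega⟩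
  have hchar' : (2 : F) = 0 → ¬ Odd (Fintype.card F) := by
    intro h2 hodd
    have hc : ((Fintype.card F : ℕ) : F) = 0 := Nat.cast_card_eq_zero F
    obtain ⟨r, hr⟩ := hodd
    rw [hr] at hc
    push_cast at hc
    rw [h2, zero_mul, zero_add] at hc
    exact one_ne_zero hc
  have hK : KOK F k := by
    by_cases h2 : (2 : F) = 0
    · exact Or.inr (Or.inr (hex3 (hchar' h2)))
    · by_cases hk : k = 2
      · refine Or.inl ⟨hk, h2, ?_⟩
        have h3 : Fintype.card F ≠ 3 := fun h => hex2 ⟨h, hk⟩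
        have h4 := Fintype.one_lt_card (α := F)
        obtain ⟨r, hr⟩ := hchar h2
        omega
      · refine Or.inr (Or.inl ⟨?_, h2⟩)
        obtain ⟨r, hr⟩ := hke
        omega
  have hk4 : 4 ≤ k ∨ 2 ≤ N := by
    by_contra hcon
    push Not at hcon
    have hk : k = 2 := by
      obtain ⟨r, hr⟩ := hke
      omega
    subst hk
    rw [Fintype.card_fun, Fintype.card_fin, Fintype.card_fin] at hcard
    have : (2 : ℕ) ^ (N + 2) ≤ 2 ^ 3 := Nat.pow_le_pow_right (by norm_num) (by omega)
    omega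
  rw [tensorWreathSubgroup_eq]
  apply isMaximalIn_of_pull
  rw [← hQ₀]
  have hsq : ∀ c : F, ∃ d e, c = d * d + e * e := by
    intro c
    by_cases h2 : (2 : F) = 0
    · have hchar : CharP F 2 := CharTwo.of_one_ne_zero_of_two_eq_zero (one_ne_zero (α := F)) h2
      obtain ⟨d, hd⟩ := FiniteField.isSquare_of_char_two (F := F) (ringChar.eq F 2) c
      exact ⟨d, 0, by rw [mul_zero, add_zero]; exact hd⟩
    · obtain ⟨a, b, hab⟩ := FiniteField.exists_root_sum_quadratic (R := F) (f := Polynomial.X ^ 2)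
        (g := Polynomial.X ^ 2 - Polynomial.C c)
        (Polynomial.degree_X_pow 2) (by rw [Polynomial.degree_X_pow_sub_C (by norm_num)]; rfl)
        (Nat.odd_iff.1 (hchar h2))
      refine ⟨a, b, ?_⟩
      rw [Polynomial.eval_pow, Polynomial.eval_X, Polynomial.eval_sub, Polynomial.eval_pow, Polynomial.eval_X,
        Polynomial.eval_C] at hab
      linear_combination -hab
  have hkn : 4 ≤ k ∧ 1 ≤ N + 1 ∨ k = 2 ∧ 3 ≤ N + 1 := by
    obtain ⟨r, hr⟩ := hke
    omega
  exact maximal_std hω hQF hG hK hke hk4 hodd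
    (fun M' hM' hL => E_le_of_hasLong hkn hQF hG hsq hM' hL)
    (fun hk h2 M' hM' hiso => Cfsg.Agent.H874.odd_end hω hk h2 (hodd h2) hM' hiso)

end Cfsg.Agent.S5706
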