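import Cfsg.Statements.S5707
import Cfsg.Agent.H889.GammaNonmax
import Cfsg.Agent.ClassicalGeometry.SympIso
import Cfsg.Agent.GpSp.Iso

set_option autoImplicit false
set_option linter.unusedSectionVars false
open Cfsg

namespace Cfsg.Agent.S5707

open Matrix Cfsg.Geo QuadraticMap Cfsg.Agent.H889

variable {F : Type*} [Field F]

theorem add_self (h11 : (1 : F) + 1 = 0) (a : F) : a + a = 0 := by
  linear_combination a * h11

/-! ### The plane -/

/-- A symplectic form on the plane. -/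
theorem symp_two (f : (Fin 2 → F) → (Fin 2 → F) → F) (hf : IsSymplecticForm f) (x y : Fin 2 → F) :
    f x y = (x 0 * y 1 - x 1 * y 0) * f ![1, 0] ![0, 1] := by
  have hx : x = x 0 • ![1, 0] + x 1 • ![0, 1] := by
    funext i; fin_cases i <;> simp
  have hy : y = y 0 • ![1, 0] + y 1 • ![0, 1] := by
    funext i; fin_cases i <;> simp
  conv_lhs => rw [hx, hy]
  rw [hf.bilinear.add_left, hf.bilinear.add_right, hf.bilinear.add_right, hf.bilinear.smul_left,
    hf.bilinear.smul_left, hf.bilinear.smul_left, hf.bilinear.smul_left, hf.bilinear.smul_right,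
    hf.bilinear.smul_right, hf.bilinear.smul_right, hf.bilinear.smul_right, hf.alternating,
    hf.alternating, hf.skew ![0, 1] ![1, 0]]
  ring

/-- Matrices with equal diagonal entries. -/
def S2 : Submodule F (Matrix (Fin 2) (Fin 2) F) where
  carrier := {A | ∃ a b c : F, A = !![a, b; c, a]}
  add_mem' := by
    rintro _ _ ⟨a, b, c, rfl⟩ ⟨a', b', c', rfl⟩
    exact ⟨a + a', b + b', c + c', by simp⟩
  zero_mem' := ⟨0, 0, 0, by ext i j; fin_cases i <;> fin_cases j <;> rfl⟩
  smul_mem' := by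
    rintro d _ ⟨a, b, c, rfl⟩
    exact ⟨d * a, d * b, d * c, by simp⟩

theorem mem_S2 (h11 : (1 : F) + 1 = 0) {A : Matrix (Fin 2) (Fin 2) F} :
    A ∈ S2 ↔ A.trace = 0 := by
  rw [Matrix.trace_fin_two]
  constructor
  · rintro ⟨a, b, c, rfl⟩
    exact add_self h11 a
  · intro h
    refine ⟨A 0 0, A 0 1, A 1 0, ?_⟩
    have h1 : A 1 1 = A 0 0 := by linear_combination -h + A 1 1 * h11
    conv_lhs => rw [Matrix.eta_fin_two A]
    rw [h1]

theorem gammaData_two (h11 : (1 : F) + 1 = 0) (f : (Fin 2 → F) → (Fin 2 → F) → F)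
    (hf : IsSymplecticForm f) : GammaData f (S2 : Submodule F _) where
  sq := by
    rintro _ ⟨a, b, c, rfl⟩
    refine ⟨a * a + b * c, ?_⟩
    rw [Matrix.mul_fin_two, Matrix.one_fin_two, Matrix.smul_of]
    ext i j
    fin_cases i <;> fin_cases j
    · simp
    · simp
      linear_combination add_self h11 (a * b)
    · simp
      linear_combination add_self h11 (a * c)
    · simp
      ring
  adj := by
    rintro _ ⟨a, b, c, rfl⟩ x y
    rw [symp_two f hf, symp_two f hf x]
    simp only [Matrix.mulVec, dotProduct, Fin.sum_univ_two]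
    simp
    left
    linear_combination (b * x 1 * y 1 - c * x 0 * y 0) * h11
  norm := by
    intro g _ A hA
    rw [mem_S2 h11] at hA ⊢
    rw [Matrix.trace_mul_comm, ← mul_assoc, ← Units.val_mul, inv_mul_cancel, Units.val_one, one_mul,
      hA]
  clif := by
    rintro _ ⟨a, b, c, rfl⟩
    by_cases hb : b = 0
    · by_cases hc : c = 0
      · left
        refine ⟨a, ?_⟩
        rw [Matrix.one_fin_two, Matrix.smul_of]
        simp [hb, hc]
      · right
        refine ⟨!![0, c⁻¹; 0, 0], ?_⟩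
        rw [Matrix.mul_fin_two, Matrix.mul_fin_two, Matrix.one_fin_two]
        ext i j
        fin_cases i <;> fin_cases j
        · simp [hc]
        · simp
          linear_combination a * c⁻¹ * h11
        · simp
        · simp [hc]
    · right
      refine ⟨!![0, 0; b⁻¹, 0], ?_⟩
      rw [Matrix.mul_fin_two, Matrix.mul_fin_two, Matrix.one_fin_two]
      ext i j
      fin_cases i <;> fin_cases j
      · simp [hb]
      · simp
      · simp
        linear_combination a * b⁻¹ * h11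
      · simp [hb]
  elts := by
    refine ⟨!![1, 1; 0, 1], ⟨_, _, _, rfl⟩, !![0, 0; 1, 0], ⟨_, _, _, rfl⟩, !![0, 1; 1, 0],
      ⟨_, _, _, rfl⟩, ?_, ?_, ?_, 1, 0, 1, 0, 1, ?_, rfl, rfl, ?_⟩
    · rw [Matrix.mul_fin_two, Matrix.one_fin_two]
      simp [h11]
    · rw [Matrix.mul_fin_two]
      ext i j
      fin_cases i <;> fin_cases j <;> simp
    · rw [Matrix.mul_fin_two, Matrix.one_fin_two]
      simp
    · decide
    · simp only [Matrix.mul_fin_two, Matrix.add_apply]
      simp [h11]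

/-! ### Dimension four -/

/-- The standard symplectic form in dimension 4. -/
def J4 (x y : Fin 4 → F) : F := x 1 * y 0 - x 0 * y 1 + (x 3 * y 2 - x 2 * y 3)

/-- The gamma matrices in dimension 4. -/
def mat4 (a x y z w : F) : Matrix (Fin 4) (Fin 4) F :=
  !![a, 0, x, y; 0, a, z, w; w, y, a, 0; z, x, 0, a]

theorem mat4_mulVec (a x y z w : F) (v : Fin 4 → F) :
    mat4 a x y z w *ᵥ v =
      ![a * v 0 + x * v 2 + y * v 3, a * v 1 + z * v 2 + w * v 3,
        w * v 0 + y * v 1 + a * v 2, z * v 0 + x * v 1 + a * v 3] := by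
  funext i
  fin_cases i <;> simp [mat4, Matrix.mulVec, dotProduct, Fin.sum_univ_four]

theorem matrix4_ext {A B : Matrix (Fin 4) (Fin 4) F} (h : ∀ v, A *ᵥ v = B *ᵥ v) : A = B :=
  Matrix.mulVec_injective (funext h)

theorem mat4_mul_add (h11 : (1 : F) + 1 = 0) (a x y z w b x' y' z' w' : F) :
    mat4 a x y z w * mat4 b x' y' z' w' + mat4 b x' y' z' w' * mat4 a x y z w =
      (x * w' + w * x' + y * z' + z * y') • (1 : Matrix (Fin 4) (Fin 4) F) := by
  apply matrix4_ext
  intro v
  rw [Matrix.add_mulVec, ← Matrix.mulVec_mulVec, ← Matrix.mulVec_mulVec, Matrix.smul_mulVec,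
    Matrix.one_mulVec]
  simp only [mat4_mulVec]
  funext i
  fin_cases i
  · simp
    linear_combination (a * b * v 0 + b * x * v 2 + b * y * v 3 + a * x' * v 2 + a * y' * v 3) * h11
      + (x * y' * v 1 + y * x' * v 1) * h11
  · simp
    linear_combination (a * b * v 1 + b * z * v 2 + b * w * v 3 + a * z' * v 2 + a * w' * v 3) * h11
      + (z * w' * v 0 + w * z' * v 0) * h11
  · simp
    linear_combination (a * b * v 2 + b * w * v 0 + b * y * v 1 + a * w' * v 0 + a * y' * v 1) * h11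
      + (w * y' * v 3 + y * w' * v 3) * h11
  · simp
    linear_combination (a * b * v 3 + b * z * v 0 + b * x * v 1 + a * z' * v 0 + a * x' * v 1) * h11
      + (z * x' * v 2 + x * z' * v 2) * h11

theorem mat4_mul_self (h11 : (1 : F) + 1 = 0) (a x y z w : F) :
    mat4 a x y z w * mat4 a x y z w = (a * a + x * w + y * z) • (1 : Matrix (Fin 4) (Fin 4) F) := by
  apply matrix4_ext
  intro v
  rw [← Matrix.mulVec_mulVec, Matrix.smul_mulVec, Matrix.one_mulVec]
  simp only [mat4_mulVec]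
  funext i
  fin_cases i
  · simp
    linear_combination (a * x * v 2 + a * y * v 3 + x * y * v 1) * h11
  · simp
    linear_combination (a * z * v 2 + a * w * v 3 + z * w * v 0) * h11
  · simp
    linear_combination (a * w * v 0 + a * y * v 1 + w * y * v 3) * h11
  · simp
    linear_combination (a * z * v 0 + a * x * v 1 + z * x * v 2) * h11

/-- The space of gamma matrices. -/
def S4 : Submodule F (Matrix (Fin 4) (Fin 4) F) where
  carrier := {A | ∃ a x y z w : F, A = mat4 a x y z w}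
  add_mem' := by
    rintro _ _ ⟨a, x, y, z, w, rfl⟩ ⟨a', x', y', z', w', rfl⟩
    refine ⟨a + a', x + x', y + y', z + z', w + w', ?_⟩
    ext i j
    fin_cases i <;> fin_cases j <;> simp [mat4]
  zero_mem' := ⟨0, 0, 0, 0, 0, by ext i j; fin_cases i <;> fin_cases j <;> rfl⟩
  smul_mem' := by
    rintro d _ ⟨a, x, y, z, w, rfl⟩
    refine ⟨d * a, d * x, d * y, d * z, d * w, ?_⟩
    ext i j
    fin_cases i <;> fin_cases j <;> simp [mat4]

theorem J4_mat4_self (h11 : (1 : F) + 1 = 0) (a x y z w : F) (v : Fin 4 → F) :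
    J4 (mat4 a x y z w *ᵥ v) v = 0 := by
  rw [mat4_mulVec, J4]
  simp
  linear_combination (z * v 0 * v 2 + w * v 0 * v 3 - w * v 0 * v 3 + x * v 1 * v 2 - x * v 1 * v 2) * h11
    - (y * v 1 * v 3) * h11

theorem J4_mat4_adj (h11 : (1 : F) + 1 = 0) (a x y z w : F) (u v : Fin 4 → F) :
    J4 (mat4 a x y z w *ᵥ u) v = J4 u (mat4 a x y z w *ᵥ v) := by
  rw [mat4_mulVec, mat4_mulVec, J4, J4]
  simp
  linear_combination (z * u 2 * v 0 + z * u 0 * v 2 - u 1 * y * v 3 - u 3 * y * v 1) * h11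

theorem mem_S4_of (h11 : (1 : F) + 1 = 0) {A : Matrix (Fin 4) (Fin 4) F}
    (h : ∀ x, J4 (A *ᵥ x) x = 0) (hsq : ∃ α : F, A * A = α • (1 : Matrix (Fin 4) (Fin 4) F)) :
    A ∈ S4 := by
  have hneg : ∀ a : F, -a = a := fun a => by linear_combination -(add_self h11 a)
  have e : ∀ x : Fin 4 → F, J4 (A *ᵥ x) x =
      (A 1 0 * x 0 + A 1 1 * x 1 + A 1 2 * x 2 + A 1 3 * x 3) * x 0 -
      (A 0 0 * x 0 + A 0 1 * x 1 + A 0 2 * x 2 + A 0 3 * x 3) * x 1 +
      ((A 3 0 * x 0 + A 3 1 * x 1 + A 3 2 * x 2 + A 3 3 * x 3) * x 2 -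
      (A 2 0 * x 0 + A 2 1 * x 1 + A 2 2 * x 2 + A 2 3 * x 3) * x 3) := by
    intro x
    simp [J4, Matrix.mulVec, dotProduct, Fin.sum_univ_four]
  have g10 : A 1 0 = 0 := by simpa [e] using h ![1, 0, 0, 0]
  have g01 : A 0 1 = 0 := by simpa [e] using h ![0, 1, 0, 0]
  have g32 : A 3 2 = 0 := by simpa [e] using h ![0, 0, 1, 0]
  have g23 : A 2 3 = 0 := by simpa [e] using h ![0, 0, 0, 1]
  have g11 : A 1 1 = A 0 0 := by
    have := h ![1, 1, 0, 0]
    rw [e] at this
    simp [g10, g01] at this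
    linear_combination this
  have g33 : A 3 3 = A 2 2 := by
    have := h ![0, 0, 1, 1]
    rw [e] at this
    simp [g32, g23] at this
    linear_combination this
  have g30 : A 3 0 = A 1 2 := by
    have := h ![1, 0, 1, 0]
    rw [e] at this
    simp [g10, g32] at this
    linear_combination this - A 1 2 * h11
  have g20 : A 2 0 = A 1 3 := by
    have := h ![1, 0, 0, 1]
    rw [e] at this
    simp [g10, g23] at this
    linear_combination -this
  have g31 : A 3 1 = A 0 2 := by
    have := h ![0, 1, 1, 0]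
    rw [e] at this
    simp [g01, g32] at this
    linear_combination this
  have g21 : A 2 1 = A 0 3 := by
    have := h ![0, 1, 0, 1]
    rw [e] at this
    simp [g01, g23] at this
    linear_combination -this - A 0 3 * h11
  obtain ⟨α, hα⟩ := hsq
  have h00 := congrFun (congrFun hα 0) 0
  have h22 := congrFun (congrFun hα 2) 2
  simp [Matrix.mul_apply, Fin.sum_univ_four, g10, g01, g32, g23, g30, g20, g21]
    at h00 h22
  have hsqz : (A 0 0 - A 2 2) ^ 2 = 0 := by
    linear_combination h00 - h22 - A 0 0 * A 2 2 * h11 + A 2 2 * A 2 2 * h11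
  have g22 : A 2 2 = A 0 0 := by
    have := pow_eq_zero_iff (two_ne_zero) |>.1 hsqz
    linear_combination -this
  refine ⟨A 0 0, A 0 2, A 0 3, A 1 2, A 1 3, ?_⟩
  ext i j
  fin_cases i <;> fin_cases j <;>
    simp [mat4, g10, g01, g32, g23, g11, g33, g30, g20, g31, g21, g22]

theorem gammaData_four (h11 : (1 : F) + 1 = 0) : GammaData (J4 : (Fin 4 → F) → (Fin 4 → F) → F)
    (S4 : Submodule F _) where
  sq := by
    rintro _ ⟨a, x, y, z, w, rfl⟩
    exact ⟨_, mat4_mul_self h11 a x y z w⟩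
  adj := by
    rintro _ ⟨a, x, y, z, w, rfl⟩ u v
    exact J4_mat4_adj h11 a x y z w u v
  norm := by
    rintro g ⟨l, hl, hg⟩ _ ⟨a, x, y, z, w, rfl⟩
    apply mem_S4_of h11
    · intro v
      have h1 : (g.val * mat4 a x y z w * (g⁻¹).val) *ᵥ v =
          g.val *ᵥ (mat4 a x y z w *ᵥ ((g⁻¹).val *ᵥ v)) := by
        rw [Matrix.mulVec_mulVec, Matrix.mulVec_mulVec]
      have h2 : v = g.val *ᵥ ((g⁻¹).val *ᵥ v) := by
        rw [Matrix.mulVec_mulVec, ← Units.val_mul, mul_inv_cancel, Units.val_one, Matrix.one_mulVec]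
      rw [h1]
      conv_lhs => rw [h2]
      rw [Matrix.mulVec_mulVec _ (g⁻¹).val g.val, ← Units.val_mul, inv_mul_cancel, Units.val_one,
        Matrix.one_mulVec, hg, J4_mat4_self h11, mul_zero]
    · refine ⟨a * a + x * w + y * z, ?_⟩
      have h1 : g.val * mat4 a x y z w * (g⁻¹).val * (g.val * mat4 a x y z w * (g⁻¹).val) =
          g.val * (mat4 a x y z w * ((g⁻¹).val * g.val) * mat4 a x y z w) * (g⁻¹).val := by
        simp only [mul_assoc]
      rw [h1, ← Units.val_mul, inv_mul_cancel, Units.val_one, mul_one, mat4_mul_self h11,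
        Matrix.mul_smul, mul_one, Matrix.smul_mul, ← Units.val_mul, mul_inv_cancel, Units.val_one]
  clif := by
    rintro _ ⟨a, x, y, z, w, rfl⟩
    by_cases hx : x = 0
    · by_cases hy : y = 0
      · by_cases hz : z = 0
        · by_cases hw : w = 0
          · left
            refine ⟨a, ?_⟩
            ext i j
            fin_cases i <;> fin_cases j <;> simp [mat4, hx, hy, hz, hw]
          · right
            refine ⟨mat4 0 w⁻¹ 0 0 0, ?_⟩
            rw [mat4_mul_add h11]
            simp [hw]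
        · right
          refine ⟨mat4 0 0 z⁻¹ 0 0, ?_⟩
          rw [mat4_mul_add h11]
          simp [hz]
      · right
        refine ⟨mat4 0 0 0 y⁻¹ 0, ?_⟩
        rw [mat4_mul_add h11]
        simp [hy]
    · right
      refine ⟨mat4 0 0 0 0 x⁻¹, ?_⟩
      rw [mat4_mul_add h11]
      simp [hx]
  elts := by
    refine ⟨mat4 1 0 0 1 0, ⟨_, _, _, _, _, rfl⟩, mat4 0 0 0 1 0, ⟨_, _, _, _, _, rfl⟩,
      mat4 0 0 1 1 0, ⟨_, _, _, _, _, rfl⟩, ?_, ?_, ?_, 0, 0, 3, 0, 3, ?_, rfl, rfl, ?_⟩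
    · rw [mat4_mul_self h11]; simp
    · rw [mat4_mul_self h11]; simp
    · rw [mat4_mul_self h11]; simp
    · decide
    · have hB : (mat4 0 0 1 1 0 * mat4 1 0 0 1 0 * mat4 0 0 1 1 0 : Matrix (Fin 4) (Fin 4) F) =
          mat4 1 0 1 0 0 := by
        apply matrix4_ext
        intro v
        rw [← Matrix.mulVec_mulVec, ← Matrix.mulVec_mulVec]
        simp only [mat4_mulVec]
        funext i
        fin_cases i <;> simp <;> ring
      rw [hB]
      simp [mat4, Matrix.mul_apply, Fin.sum_univ_four]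

/-! ### Base change -/

/-- The bundled bilinear form. -/
def bil {k : ℕ} (f : (Fin k → F) → (Fin k → F) → F) (hf : IsBilinearForm f) :
    LinearMap.BilinForm F (Fin k → F) :=
  LinearMap.mk₂ F f hf.add_left (fun c x y => by rw [hf.smul_left, smul_eq_mul])
    (fun x y z => hf.add_right x y z) (fun c x y => by rw [hf.smul_right, smul_eq_mul])

theorem bil_apply {k : ℕ} (f : (Fin k → F) → (Fin k → F) → F) (hf : IsBilinearForm f) (x y) :
    bil f hf x y = f x y := rfl

theorem bil_nondeg {k : ℕ} (f : (Fin k → F) → (Fin k → F) → F) (hf : IsSymplecticForm f)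
    (u : Fin k → F) (hu : ∀ v, bil f hf.bilinear u v = 0) : u = 0 := by
  by_contra h
  obtain ⟨-, x, hx⟩ := hf.nondegenerate u h
  exact hx (hu x)

theorem even_of_symplectic {k : ℕ} (f : (Fin k → F) → (Fin k → F) → F) (hf : IsSymplecticForm f) :
    ∃ m, k = 2 * m := by
  have h := Cfsg.Agent.GpSp.Symp.even_of_nondeg (bil f hf.bilinear) (fun v => hf.alternating v)
    (bil_nondeg f hf)
  rwa [Module.finrank_fintype_fun_eq_card, Fintype.card_fin] at h

theorem exists_standard (f : (Fin 4 → F) → (Fin 4 → F) → F) (hf : IsSymplecticForm f) :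
    ∃ h : GL (Fin 4) F, ∀ x y, f (h.val *ᵥ x) (h.val *ᵥ y) = J4 x y := by
  obtain ⟨e, he⟩ := Cfsg.Agent.ClassicalGeometry.SympIso.exists_linearEquiv_sympForm
    (bil f hf.bilinear) (fun v => hf.alternating v) (bil_nondeg f hf) (k := 2)
    (by rw [Module.finrank_fintype_fun_eq_card, Fintype.card_fin])
  let ρ : Fin 2 ⊕ Fin 2 → Fin 4 := Sum.elim ![0, 2] ![1, 3]
  have hρ : Function.Bijective ρ := by decide
  let r : Fin 2 ⊕ Fin 2 ≃ Fin 4 := Equiv.ofBijective ρ hρ
  let E : (Fin 4 → F) ≃ₗ[F] (Fin 4 → F) := (LinearEquiv.funCongrLeft F F r).trans e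
  have hE : ∀ x y, f (E x) (E y) = J4 x y := by
    intro x y
    have h1 := he (fun i => x (r i)) (fun i => y (r i))
    change f (E x) (E y) = _ at h1
    rw [h1, Cfsg.Agent.ClassicalGeometry.SympBasic.sympForm_eq_sum, Fin.sum_univ_two, J4]
    rfl
  refine ⟨⟨LinearMap.toMatrix' E.toLinearMap, LinearMap.toMatrix' E.symm.toLinearMap, ?_, ?_⟩, ?_⟩
  · rw [← LinearMap.toMatrix'_comp]
    simp
  · rw [← LinearMap.toMatrix'_comp]
    simp
  · intro x y
    have h1 : ∀ z, LinearMap.toMatrix' E.toLinearMap *ᵥ z = E z := by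
      intro z
      rw [← Matrix.toLin'_apply, Matrix.toLin'_toMatrix']
      rfl
    change f (LinearMap.toMatrix' E.toLinearMap *ᵥ x) (LinearMap.toMatrix' E.toLinearMap *ᵥ y) = _
    rw [h1, h1, hE]

/-- Changing the base by an element of the group. -/
theorem map_conjEquiv_self {κ : Type} [Fintype κ] [DecidableEq κ] (T : Subgroup (GL κ F))
    (h : GL κ F) (hT : h ∈ T) :
    T.map (conjEquiv (Equiv.refl κ) h).toMonoidHom = T := by
  have hval : ∀ g, conjEquiv (Equiv.refl κ) h g = h * g * h⁻¹ := by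
    intro g
    rw [conjEquiv_apply]
    congr 2
  ext x
  constructor
  · rintro ⟨g, hg, rfl⟩
    change conjEquiv (Equiv.refl κ) h g ∈ T
    rw [hval]
    exact T.mul_mem (T.mul_mem hT hg) (T.inv_mem hT)
  · intro hx
    refine ⟨h⁻¹ * x * h, T.mul_mem (T.mul_mem (T.inv_mem hT) hx) hT, ?_⟩
    change conjEquiv (Equiv.refl κ) h _ = x
    rw [hval]
    group

theorem nonmax_four {t : ℕ} (h11 : (1 : F) + 1 = 0) (hcard : 9 ≤ Fintype.card (Fin t → Fin 4))
    (ht : 2 ≤ t) {Q : ((Fin t → Fin 4) → F) → F} (hQ : IsNondegenerateQuadraticForm Q)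
    {f : (Fin 4 → F) → (Fin 4 → F) → F} (hf : IsSymplecticForm f) {c : F} (hc : c ≠ 0)
    (hpol : ∀ xs ys : Fin t → (Fin 4 → F), polar Q (tp xs) (tp ys) = c * ∏ i, f (xs i) (ys i))
    (hpure : ∀ xs : Fin t → (Fin 4 → F), Q (tp xs) = 0) :
    ∃ K : Subgroup (GL (Fin t → Fin 4) F),
      tensorWreathStandard 4 t F ⊓ omegaGL Q < K ∧ K < omegaGL Q := by
  obtain ⟨h, hh⟩ := exists_standard f hf
  let H : GL (Fin t → Fin 4) F := pmGL (fun _ => h)
  have key := exists_between_of_pull (Equiv.refl (Fin t → Fin 4)) H Q (tensorWreathStandard 4 t F) ?_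
  · rwa [map_conjEquiv_self _ H (pmGL_mem _)] at key
  have hH : ∀ xs : Fin t → (Fin 4 → F), H.val *ᵥ (tp xs ∘ Equiv.refl (Fin t → Fin 4)) =
      tp (fun i => h.val *ᵥ xs i) := by
    intro xs
    exact pm_mulVec _ xs
  have hJ : IsSymplecticForm (J4 : (Fin 4 → F) → (Fin 4 → F) → F) := by
    refine ⟨⟨?_, ?_, ?_, ?_⟩, ?_, ?_, ?_⟩
    · intro x y v; simp [J4]; ring
    · intro c x v; simp [J4]; ring
    · intro v x y; simp [J4]; ring
    · intro c v x; simp [J4]; ring
    · intro v w; simp [J4]; ring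
    · intro v; simp [J4]; ring
    · intro v hv
      have hne : h.val *ᵥ v ≠ 0 := by
        intro h0
        apply hv
        have : (h⁻¹).val *ᵥ (h.val *ᵥ v) = 0 := by rw [h0, Matrix.mulVec_zero]
        rwa [Matrix.mulVec_mulVec, ← Units.val_mul, inv_mul_cancel, Units.val_one,
          Matrix.one_mulVec] at this
      have hinv : ∀ x, h.val *ᵥ ((h⁻¹).val *ᵥ x) = x := by
        intro x
        rw [Matrix.mulVec_mulVec, ← Units.val_mul, mul_inv_cancel, Units.val_one, Matrix.one_mulVec]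
      obtain ⟨⟨x, hx⟩, ⟨y, hy⟩⟩ := hf.nondegenerate _ hne
      refine ⟨⟨(h⁻¹).val *ᵥ x, ?_⟩, ⟨(h⁻¹).val *ᵥ y, ?_⟩⟩
      · rw [← hh, hinv]; exact hx
      · rw [← hh, hinv]; exact hy
  refine nonmax_of_gamma h11 hcard ht (pullForm_nondegenerate _ H Q hQ) hJ hc ?_ ?_
    (gammaData_four h11) (Or.inr ?_)
  · intro xs ys
    rw [polar_pullForm, hH, hH, hpol]
    congr 1
    exact Finset.prod_congr rfl fun i _ => hh _ _
  · intro xs
    change Q (H.val *ᵥ (tp xs ∘ Equiv.refl (Fin t → Fin 4))) = 0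
    rw [hH]
    exact hpure _
  · rintro _ ⟨a, x, y, z, w, rfl⟩ v
    exact J4_mat4_self h11 a x y z w v

theorem result {F : Type*} [Field F] [Fintype F] {n : ℕ} (hn : 13 ≤ n) (heven : Even n) (Q : (Fin n → F) → F) (hQ : Cfsg.Geo.IsNondegenerateQuadraticForm Q) (hplus : Cfsg.Geo.IsPlusTypeOn Q ⊤) (hchar : ¬ Odd (Fintype.card F)) (k t : ℕ) (ht : 2 ≤ t) (hk : k ≤ 4) (hex1 : ¬ (Fintype.card F = 2 ∧ k = 2)) (e : (Fin n) ≃ (Fin t → Fin k)) (P : Matrix.GeneralLinearGroup (Fin n) F) (f₁ : (Fin k → F) → (Fin k → F) → F) (hf₁ : Cfsg.Geo.IsSymplecticForm f₁) (hT : Cfsg.Geo.IsTensorPowerFormStructure id (QuadraticMap.polar Q) f₁ e P) (hpure : (∀ xs : Fin t → (Fin k → F), Q (Matrix.mulVec (P : Matrix (Fin n) (Fin n) F) ((fun a : Fin t → Fin k => ∏ i, xs i (a i)) ∘ e)) = 0)) : ∃ K : Subgroup (Matrix.GeneralLinearGroup (Fin n) F), Cfsg.Geo.tensorWreathSubgroup k t e P ⊓ Cfsg.Geo.omegaGL Q < K ∧ K < Cfsg.Geo.omegaGL Q := by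
  have h11 : (1 : F) + 1 = 0 := by
    have h2 : (2 : F) = 0 := by
      have h3 : ringChar F = 2 := by
        by_contra h
        exact hchar (Nat.odd_iff.2 (FiniteField.odd_card_of_char_ne_two h))
      have := ringChar.Nat.cast_ringChar (R := F)
      rw [h3] at this
      exact_mod_cast this
    rw [one_add_one_eq_two]; exact h2
  obtain ⟨c, hc, hpol⟩ := polar_pullForm_tp e P Q f₁ hf₁.bilinear hT
  have hcard : Fintype.card (Fin t → Fin k) = n := by
    rw [← Fintype.card_congr e, Fintype.card_fin]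
  rw [tensorWreathSubgroup_eq]
  apply exists_between_of_pull
  obtain ⟨m, hm⟩ := even_of_symplectic f₁ hf₁
  have hm' : m = 0 ∨ m = 1 ∨ m = 2 := by omega
  rcases hm' with rfl | rfl | rfl
  · exfalso
    subst hm
    rw [Fintype.card_fun, Fintype.card_fin, Fintype.card_fin, Nat.mul_zero, zero_pow (by omega)] at hcard
    omega
  · subst hm
    have ht3 : 3 ≤ t := by
      by_contra h
      have : t = 2 := by omega
      subst this
      simp at hcard
      omega
    exact nonmax_of_gamma h11 (by omega) ht (pullForm_nondegenerate e P Q hQ) hf₁ hc hpol hpure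
      (gammaData_two h11 f₁ hf₁) (Or.inl ht3)
  · subst hm
    have h9 : 9 ≤ Fintype.card (Fin t → Fin (2 * 2)) := by omega
    exact nonmax_four h11 h9 ht (pullForm_nondegenerate e P Q hQ) hf₁ hc hpol hpure

end Cfsg.Agent.S5707
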