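import Cfsg.Statements.S5709
import Cfsg.Agent.H882.Ten.Wrap

set_option autoImplicit false
open Cfsg

namespace Cfsg.Agent.S5709

/-- Let F be a finite field with q elements, n ≥ 13 even, Q a non-degenerate quadratic form on F^n of minus type (no subspace of dimension n/2 is totally singular), and Ω the commutator subgroup of the isometry group of Q, viewed inside GL_n(F). Suppose q is odd and that, through a change of basis P and a bijection of index sets e, the polar form of Q is similar to the tensor product of non-degenerate symmetric bilinear forms f₁ on F^(n₁), n₁ odd and at least 3, and f₂ on F^(n₂), n₂ even and at least 4 with no totally isotropic subspace of dimension n₂/2 (minus type). Unless q = 3 and n₁ = 3, the elements of Ω in the stabiliser of this tensor decomposition form a maximal subgroup of Ω. -/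
theorem result {F : Type*} [Field F] [Fintype F] {n : ℕ} (hn : 13 ≤ n) (heven : Even n) (Q : (Fin n → F) → F) (hQ : Cfsg.Geo.IsNondegenerateQuadraticForm Q) (hminus : ¬ Cfsg.Geo.IsPlusTypeOn Q ⊤) (hodd : Odd (Fintype.card F)) (n₁ n₂ : ℕ) (h1 : 3 ≤ n₁) (h1o : Odd n₁) (h2 : 4 ≤ n₂) (h2e : Even n₂) (hex : ¬ (Fintype.card F = 3 ∧ n₁ = 3)) (e : (Fin n) ≃ Fin n₁ × Fin n₂) (P : Matrix.GeneralLinearGroup (Fin n) F) (f₁ : (Fin n₁ → F) → (Fin n₁ → F) → F) (f₂ : (Fin n₂ → F) → (Fin n₂ → F) → F) (hf₁ : Cfsg.Geo.IsSymmetricForm f₁) (hf₂ : Cfsg.Geo.IsSymmetricForm f₂) (hf₂m : ¬ Cfsg.Geo.IsPlusTypeOn (fun v : Fin n₂ → F => f₂ v v) ⊤) (hT : Cfsg.Geo.IsTensorFormStructure id (QuadraticMap.polar Q) f₁ f₂ e P) : Cfsg.Geo.IsMaximalIn (Cfsg.Geo.omegaGL Q) (Cfsg.Geo.tensorProductSubgroup n₁ n₂ e P ⊓ Cfsg.Geo.omegaGL Q) := by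
  have hcard : n = n₁ * n₂ := by
    have h := Fintype.card_congr e
    simpa only [Fintype.card_fin, Fintype.card_prod] using h
  have h2n := Cfsg.Agent.H882.Ten.two_ne (F := F) hodd
  have hexc : 4 ≤ n₁ ∨ ∃ c : F, c ≠ 0 ∧ c * c ≠ 1 := by
    by_cases h4 : 4 ≤ n₁
    · exact Or.inl h4
    · right
      refine Cfsg.Agent.H882.Ten.exists_exc hodd fun h3 => hex ⟨h3, by omega⟩
  rcases lt_trichotomy n₁ n₂ with h | h | h
  · have h5 : 5 ≤ n₂ := by
      by_contra hlt
      have h3 : n₁ = 3 := by omega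
      have h4 : n₂ = 4 := by omega
      subst h3 h4
      omega
    refine Cfsg.Agent.H882.Ten.maximal_of_lt h2n hQ h1 h h5 hexc e P f₁ f₂ hf₁ hf₂ ?_ hT
    intro h4
    rw [h4] at h1o
    exact absurd h1o (by decide)
  · exfalso
    rw [h] at h1o
    exact (Nat.not_even_iff_odd.2 h1o) h2e
  · have h5 : 5 ≤ n₁ := by omega
    exact Cfsg.Agent.H882.Ten.maximal_of_gt h2n hQ (by omega) h h5 (Or.inl h2) e P f₁ f₂ hf₁ hf₂
      (fun _ => hf₂m) hT

end Cfsg.Agent.S5709
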