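import Cfsg.Statements.S5798
import Cfsg.Agent.H929.SLGeo

set_option autoImplicit false
open Cfsg

namespace Cfsg.Agent.S5798

/-- Maximal subgroups of SL_6(q) of geometric type, for a finite field F with q elements (any q); p denotes the characteristic. Each of the following subgroups of GL_6(F), intersected with SL_6(F), is a maximal subgroup of SL_6(F): (1) the stabiliser of any proper non-zero subspace of F^6; (2) for q ≥ 5, the stabiliser of any decomposition of F^6 into 6 independent 1-spaces; (3) for q ≥ 3, the stabiliser of any decomposition of F^6 into 3 independent 2-spaces; (4) the stabiliser of any decomposition of F^6 into 2 independent 3-spaces; (5) the normaliser of any degree-2 subfield of the 6 × 6 matrix algebra over F (a commutative subalgebra of dimension 2 in which every non-zero element is invertible); (6) the normaliser of any degree-3 subfield of the 6 × 6 matrix algebra over F (a commutative subalgebra of dimension 3 in which every non-zero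 element is invertible); (7) for q ≥ 3, the stabiliser of any tensor decomposition F^6 = F^2 ⊗ F^3 (a conjugate of the Kronecker-product subgroup); (8) every subfield group (a conjugate of GL_6(F₀) times the scalars of F) for a subfield F₀ with |F| = |F₀|^r, r prime; (9) for q odd, the group of similarities of any non-degenerate quadratic form on F^6 (either sign); (10) the group of similarities of any non-degenerate symplectic form on F^6; (11) the group of similarities of any non-degenerate unitary form on F^6 (these exist exactly when q is a square). -/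
theorem result {F : Type*} [Field F] [Fintype F] :
    (∀ W : Submodule F (Fin 6 → F), W ≠ ⊥ → W ≠ ⊤ → Cfsg.Geo.IsMaximalIn (Cfsg.Geo.specialLinear (Fin 6) F) (Cfsg.Geo.subspaceStabilizer W ⊓ Cfsg.Geo.specialLinear (Fin 6) F)) ∧
    (5 ≤ Fintype.card F → ∀ D : Fin 6 → Submodule F (Fin 6 → F), Cfsg.Geo.IsMDecomposition 1 D → Cfsg.Geo.IsMaximalIn (Cfsg.Geo.specialLinear (Fin 6) F) (Cfsg.Geo.decompositionStabilizer D ⊓ Cfsg.Geo.specialLinear (Fin 6) F)) ∧
    (3 ≤ Fintype.card F → ∀ D : Fin 3 → Submodule F (Fin 6 → F), Cfsg.Geo.IsMDecomposition 2 D → Cfsg.Geo.IsMaximalIn (Cfsg.Geo.specialLinear (Fin 6) F) (Cfsg.Geo.decompositionStabilizer D ⊓ Cfsg.Geo.specialLinear (Fin 6) F)) ∧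
    (∀ D : Fin 2 → Submodule F (Fin 6 → F), Cfsg.Geo.IsMDecomposition 3 D → Cfsg.Geo.IsMaximalIn (Cfsg.Geo.specialLinear (Fin 6) F) (Cfsg.Geo.decompositionStabilizer D ⊓ Cfsg.Geo.specialLinear (Fin 6) F)) ∧
    (∀ K : Subalgebra F (Matrix (Fin 6) (Fin 6) F), Cfsg.Geo.IsFieldSubalgebra 2 K → Cfsg.Geo.IsMaximalIn (Cfsg.Geo.specialLinear (Fin 6) F) (Cfsg.Geo.subalgebraNormalizer K ⊓ Cfsg.Geo.specialLinear (Fin 6) F)) ∧
    (∀ K : Subalgebra F (Matrix (Fin 6) (Fin 6) F), Cfsg.Geo.IsFieldSubalgebra 3 K → Cfsg.Geo.IsMaximalIn (Cfsg.Geo.specialLinear (Fin 6) F) (Cfsg.Geo.subalgebraNormalizer K ⊓ Cfsg.Geo.specialLinear (Fin 6) F)) ∧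
    (3 ≤ Fintype.card F → ∀ (e : Fin 6 ≃ Fin 2 × Fin 3) (P : Matrix.GeneralLinearGroup (Fin 6) F), Cfsg.Geo.IsMaximalIn (Cfsg.Geo.specialLinear (Fin 6) F) (Cfsg.Geo.tensorProductSubgroup 2 3 e P ⊓ Cfsg.Geo.specialLinear (Fin 6) F)) ∧
    (∀ (F₀ : Subfield F) (r : ℕ) (P : Matrix.GeneralLinearGroup (Fin 6) F), r.Prime → Fintype.card F = Nat.card F₀ ^ r → Cfsg.Geo.IsMaximalIn (Cfsg.Geo.specialLinear (Fin 6) F) (Cfsg.Geo.subfieldSubgroup F₀ P ⊓ Cfsg.Geo.specialLinear (Fin 6) F)) ∧
    (Odd (Fintype.card F) → ∀ Q : (Fin 6 → F) → F, Cfsg.Geo.IsNondegenerateQuadraticForm Q → Cfsg.Geo.IsMaximalIn (Cfsg.Geo.specialLinear (Fin 6) F) (Cfsg.Geo.quadSimilarityGroup Q ⊓ Cfsg.Geo.specialLinear (Fin 6) F)) ∧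
    (∀ f : (Fin 6 → F) → (Fin 6 → F) → F, Cfsg.Geo.IsSymplecticForm f → Cfsg.Geo.IsMaximalIn (Cfsg.Geo.specialLinear (Fin 6) F) (Cfsg.Geo.similarityGroup f ⊓ Cfsg.Geo.specialLinear (Fin 6) F)) ∧
    (∀ (σ : F ≃+* F) (f : (Fin 6 → F) → (Fin 6 → F) → F), Cfsg.Geo.IsUnitaryForm σ f → Cfsg.Geo.IsMaximalIn (Cfsg.Geo.specialLinear (Fin 6) F) (Cfsg.Geo.similarityGroup f ⊓ Cfsg.Geo.specialLinear (Fin 6) F)) := by
  have hn : Fintype.card (Fin 6) = 6 := Fintype.card_fin 6
  have : Nontrivial (Fin 6) := Fintype.one_lt_card_iff_nontrivial.1 (by omega)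
  refine ⟨?_, ?_, ?_, ?_, ?_, ?_, ?_, ?_, ?_, ?_, ?_⟩
  · intro W h0 h1
    exact Cfsg.Agent.H871.subspaceStabilizer_maximal W h0 h1
  · intro hF D hD
    exact Cfsg.Agent.H929.SLGeo.dec_one (by omega) hF D hD
  · intro hF D hD
    exact Cfsg.Agent.H929.SLGeo.dec_two hF (by norm_num) D hD
  · intro D hD
    exact Cfsg.Agent.H929.SLGeo.dec_three (by norm_num) D hD
  · intro K hK
    exact Cfsg.Agent.H923.ext_isMaximalIn (by norm_num) hK (by omega) (by omega)
  · intro K hK
    exact Cfsg.Agent.H923.ext_isMaximalIn (by norm_num) hK (by omega) (by omega)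
  · intro hF e P
    exact Cfsg.Agent.H872.tensorProductSubgroup_isMaximalIn (by norm_num) (by norm_num) (by omega) e P
  · intro F₀ r P hr hc
    exact Cfsg.Agent.H873.Sub.maximal (by omega) F₀ hr hc P
  · intro hodd Q hQ
    exact Cfsg.Agent.H929.quadratic_similarity_maximal
      (Cfsg.Agent.S5644.two_ne_zero_of_odd hodd) (by omega) hQ
  · intro f hf
    exact Cfsg.Agent.H929.symplectic_similarity_maximal (by omega) hf
  · intro σ f hf
    exact Cfsg.Agent.H929.unitary_similarity_maximal (by omega) hf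

end Cfsg.Agent.S5798
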