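import Cfsg.Statements.S5799
import Cfsg.Agent.S5630
import Cfsg.Agent.H915.SLWrap
import Cfsg.Agent.H905.SLProper3
-- import your own Cfsg.Agent.* helpers here

set_option autoImplicit false
open Cfsg

namespace Cfsg.Agent.S5799

/-- Every maximal subgroup of SL_6(q) is of one of the listed geometric types or lies in the residual class. Let F be a finite field with q elements (p its characteristic) and H a maximal subgroup of SL_6(F) (inside GL_6(F)). Then H is the intersection with SL_6(F) of one of: the stabiliser of a proper non-zero subspace; for q ≥ 5, the stabiliser of a decomposition into 6 independent 1-spaces; for q ≥ 3, the stabiliser of a decomposition into 3 independent 2-spaces; the stabiliser of a decomposition into 2 independent 3-spaces; the normaliser of a degree-2 subfield of the matrix algebra; the normaliser of a degree-3 subfield of the matrix algebra; for q ≥ 3, the stabiliser of a tensor decomposition F^2 ⊗ F^3; a subfield group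 for a subfield F₀ with |F| = |F₀|^r, r prime; for q odd, the similarity group of a non-degenerate quadratic form; the similarity group of a non-degenerate symplectic form; the similarity group of a non-degenerate unitary form — or else H lies in the residual class of the linear case (modulo scalars H is almost simple, with absolutely irreducible perfect socle preimage realisable over no proper subfield and fixing no non-degenerate quadratic, symplectic or unitary form). -/
theorem result {F : Type*} [Field F] [Fintype F] (H : Subgroup (Matrix.GeneralLinearGroup (Fin 6) F)) (hH : Cfsg.Geo.IsMaximalIn (Cfsg.Geo.specialLinear (Fin 6) F) H) :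
    (∃ W : Submodule F (Fin 6 → F), W ≠ ⊥ ∧ W ≠ ⊤ ∧ H = Cfsg.Geo.subspaceStabilizer W ⊓ Cfsg.Geo.specialLinear (Fin 6) F) ∨
    (5 ≤ Fintype.card F ∧ ∃ D : Fin 6 → Submodule F (Fin 6 → F), Cfsg.Geo.IsMDecomposition 1 D ∧ H = Cfsg.Geo.decompositionStabilizer D ⊓ Cfsg.Geo.specialLinear (Fin 6) F) ∨
    (3 ≤ Fintype.card F ∧ ∃ D : Fin 3 → Submodule F (Fin 6 → F), Cfsg.Geo.IsMDecomposition 2 D ∧ H = Cfsg.Geo.decompositionStabilizer D ⊓ Cfsg.Geo.specialLinear (Fin 6) F) ∨
    (∃ D : Fin 2 → Submodule F (Fin 6 → F), Cfsg.Geo.IsMDecomposition 3 D ∧ H = Cfsg.Geo.decompositionStabilizer D ⊓ Cfsg.Geo.specialLinear (Fin 6) F) ∨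
    (∃ K : Subalgebra F (Matrix (Fin 6) (Fin 6) F), Cfsg.Geo.IsFieldSubalgebra 2 K ∧ H = Cfsg.Geo.subalgebraNormalizer K ⊓ Cfsg.Geo.specialLinear (Fin 6) F) ∨
    (∃ K : Subalgebra F (Matrix (Fin 6) (Fin 6) F), Cfsg.Geo.IsFieldSubalgebra 3 K ∧ H = Cfsg.Geo.subalgebraNormalizer K ⊓ Cfsg.Geo.specialLinear (Fin 6) F) ∨
    (3 ≤ Fintype.card F ∧ ∃ (e : Fin 6 ≃ Fin 2 × Fin 3) (P : Matrix.GeneralLinearGroup (Fin 6) F), H = Cfsg.Geo.tensorProductSubgroup 2 3 e P ⊓ Cfsg.Geo.specialLinear (Fin 6) F) ∨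
    (∃ (F₀ : Subfield F) (r : ℕ) (P : Matrix.GeneralLinearGroup (Fin 6) F), r.Prime ∧ Fintype.card F = Nat.card F₀ ^ r ∧ H = Cfsg.Geo.subfieldSubgroup F₀ P ⊓ Cfsg.Geo.specialLinear (Fin 6) F) ∨
    (Odd (Fintype.card F) ∧ ∃ Q : (Fin 6 → F) → F, Cfsg.Geo.IsNondegenerateQuadraticForm Q ∧ H = Cfsg.Geo.quadSimilarityGroup Q ⊓ Cfsg.Geo.specialLinear (Fin 6) F) ∨
    (∃ f : (Fin 6 → F) → (Fin 6 → F) → F, Cfsg.Geo.IsSymplecticForm f ∧ H = Cfsg.Geo.similarityGroup f ⊓ Cfsg.Geo.specialLinear (Fin 6) F) ∨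
    (∃ (σ : F ≃+* F) (f : (Fin 6 → F) → (Fin 6 → F) → F), Cfsg.Geo.IsUnitaryForm σ f ∧ H = Cfsg.Geo.similarityGroup f ⊓ Cfsg.Geo.specialLinear (Fin 6) F) ∨
    Cfsg.Geo.InLinearResidualClass H := by
  have hgen := Cfsg.Agent.S5630.result 6 (by norm_num) H hH.1.le
    (Cfsg.Agent.H905.sup_scalars_ne_of_isMaximalIn (by rw [Fintype.card_fin]; norm_num) hH)
  rcases Cfsg.Agent.H915.sl_cases_of (by norm_num) hH hgen with
    h | ⟨t, m, D, htm, hD, h1, h2, h⟩ | ⟨r, K, hr, hrn, hK, h⟩ |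
    ⟨n₁, n₂, e, P, hn1, hn12, hnn, hq, h⟩ | h | ⟨r, k, p, e, R, -, hr, hro, -, hk, hn6, -⟩ |
    ⟨k, R, -, hn6, -⟩ | ⟨m, t, e, P, hm, ht, hmt, -⟩ | ⟨f, hf, -, -, h⟩ | h | h | h
  · exact Or.inl h
  · -- decompositions
    have hmpos := hD.pos
    have ht2 := hD.two_le
    have hcase : (t = 6 ∧ m = 1) ∨ (t = 3 ∧ m = 2) ∨ (t = 2 ∧ m = 3) := by
      have h3 : t ∣ 6 := ⟨m, htm.symm⟩
      have h4 : t ≤ 6 := Nat.le_of_dvd (by norm_num) h3
      interval_cases t <;> omega
    rcases hcase with ⟨rfl, rfl⟩ | ⟨rfl, rfl⟩ | ⟨rfl, rfl⟩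
    · exact Or.inr (Or.inl ⟨h1 rfl, D, hD, h⟩)
    · refine Or.inr (Or.inr (Or.inl ⟨?_, D, hD, h⟩))
      have h3 : 1 < Fintype.card F := Fintype.one_lt_card
      have h4 := h2 rfl
      omega
    · exact Or.inr (Or.inr (Or.inr (Or.inl ⟨D, hD, h⟩)))
  · -- fields
    have hr6 : r = 2 ∨ r = 3 := by
      have h3 : r ∣ 2 * 3 := hrn
      rcases (Nat.Prime.dvd_mul hr).1 h3 with h4 | h4
      · exact Or.inl ((Nat.prime_dvd_prime_iff_eq hr Nat.prime_two).1 h4)
      · exact Or.inr ((Nat.prime_dvd_prime_iff_eq hr Nat.prime_three).1 h4)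
    rcases hr6 with rfl | rfl
    · iterate 4 right
      exact Or.inl ⟨K, hK, h⟩
    · iterate 5 right
      exact Or.inl ⟨K, hK, h⟩
  · -- tensor products
    have hn : n₁ = 2 ∧ n₂ = 3 := by
      have h3 : n₁ < 3 := by nlinarith
      have h4 : n₁ = 2 := by omega
      subst h4
      exact ⟨rfl, by omega⟩
    obtain ⟨rfl, rfl⟩ := hn
    iterate 6 right
    refine Or.inl ⟨?_, e, P, h⟩
    have h3 : 1 < Fintype.card F := Fintype.one_lt_card
    have h4 := hq rfl
    omega
  · iterate 7 right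
    exact Or.inl h
  · -- `6` is not a power of an odd prime
    exfalso
    have h3 : r ∣ 2 * 3 := by
      have : r ∣ 6 := by rw [hn6]; exact dvd_pow_self r (by omega)
      exact this
    have h4 : (2 : ℕ) ∣ r ^ k := by rw [← hn6]; norm_num
    have h5 := Nat.prime_two.dvd_of_dvd_pow h4
    obtain ⟨a, ha⟩ := hro
    omega
  · -- `6` is not a power of two
    exfalso
    have h4 : (3 : ℕ) ∣ 2 ^ k := by rw [← hn6]; norm_num
    have h5 := Nat.prime_three.dvd_of_dvd_pow h4
    omega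
  · -- `6` is not a proper power
    exfalso
    have h3 : 3 ^ 2 ≤ m ^ t := (Nat.pow_le_pow_left hm 2).trans (Nat.pow_le_pow_right (by omega) ht)
    omega
  · iterate 9 right
    exact Or.inl ⟨f, hf, h⟩
  · iterate 10 right
    exact Or.inl h
  · iterate 8 right
    exact Or.inl h
  · iterate 11 right
    exact h

end Cfsg.Agent.S5799
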