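import Cfsg.Statements.S5802
import Cfsg.Agent.S5663
import Cfsg.Agent.H918.UWrap
import Cfsg.Agent.H913.SU6Frame
import Cfsg.Agent.H913.SU6Tensor
import Cfsg.Agent.H913.SU6Cubic
-- import your own Cfsg.Agent.* helpers here

set_option autoImplicit false
open Cfsg

namespace Cfsg.Agent.S5802

/-- Every maximal subgroup of SU_6(q) is of one of the listed geometric types or lies in the residual class. Let F be the field with q² elements, f the standard unitary form Σ u_i v_i^q on F^6, and H a maximal subgroup of SU_6(q) (inside GL_6(F)). Then H is the intersection with SU_6(q) of one of: the stabiliser of a non-zero totally isotropic subspace; the stabiliser of a non-degenerate 1- or 2-space; for q ≥ 3, the stabiliser of a decomposition into six mutually orthogonal non-degenerate 1-spaces; for q ≥ 3, of a decomposition into three mutually orthogonal non-degenerate 2-spaces; of a decomposition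 into two orthogonal non-degenerate 3-spaces; of a decomposition into two totally isotropic 3-spaces; for q ≥ 3, the normaliser of an adjoint-closed degree-3 subfield of the matrix algebra; for q ≥ 3, the stabiliser of a tensor decomposition of f into unitary forms on F^2 and F^3; a subfield group of odd prime index whose F₀-structure carries f; a subfield group of index 2 and symplectic type; for q odd, a subfield group of index 2 and orthogonal type — or else H lies in the residual class of the unitary case. -/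
theorem result {F : Type*} [Field F] [Fintype F] (q : ℕ) (hF : Fintype.card F = q ^ 2) (H : Subgroup (Matrix.GeneralLinearGroup (Fin 6) F)) (hH : Cfsg.Geo.IsMaximalIn (Cfsg.GU 6 F q ⊓ Cfsg.Geo.specialLinear (Fin 6) F) H) :
    (∃ W : Submodule F (Fin 6 → F), W ≠ ⊥ ∧ Cfsg.Geo.IsTotallySingularFor (Cfsg.hermForm 6 F q) W ∧ H = Cfsg.Geo.subspaceStabilizer W ⊓ (Cfsg.GU 6 F q ⊓ Cfsg.Geo.specialLinear (Fin 6) F)) ∨
    (∃ W : Submodule F (Fin 6 → F), W ≠ ⊥ ∧ Cfsg.Geo.IsNondegenerateOn (Cfsg.hermForm 6 F q) W ∧ 2 * Module.finrank F W < 6 ∧ H = Cfsg.Geo.subspaceStabilizer W ⊓ (Cfsg.GU 6 F q ⊓ Cfsg.Geo.specialLinear (Fin 6) F)) ∨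
    (3 ≤ q ∧ ∃ D : Fin 6 → Submodule F (Fin 6 → F), Cfsg.Geo.IsNondegenerateMDecomposition (Cfsg.hermForm 6 F q) 1 D ∧ H = Cfsg.Geo.decompositionStabilizer D ⊓ (Cfsg.GU 6 F q ⊓ Cfsg.Geo.specialLinear (Fin 6) F)) ∨
    (3 ≤ q ∧ ∃ D : Fin 3 → Submodule F (Fin 6 → F), Cfsg.Geo.IsNondegenerateMDecomposition (Cfsg.hermForm 6 F q) 2 D ∧ H = Cfsg.Geo.decompositionStabilizer D ⊓ (Cfsg.GU 6 F q ⊓ Cfsg.Geo.specialLinear (Fin 6) F)) ∨
    (∃ D : Fin 2 → Submodule F (Fin 6 → F), Cfsg.Geo.IsNondegenerateMDecomposition (Cfsg.hermForm 6 F q) 3 D ∧ H = Cfsg.Geo.decompositionStabilizer D ⊓ (Cfsg.GU 6 F q ⊓ Cfsg.Geo.specialLinear (Fin 6) F)) ∨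
    (∃ D : Fin 2 → Submodule F (Fin 6 → F), Cfsg.Geo.IsMDecomposition 3 D ∧ (∀ i, Cfsg.Geo.IsTotallySingularFor (Cfsg.hermForm 6 F q) (D i)) ∧ H = Cfsg.Geo.decompositionStabilizer D ⊓ (Cfsg.GU 6 F q ⊓ Cfsg.Geo.specialLinear (Fin 6) F)) ∨
    (3 ≤ q ∧ ∃ K : Subalgebra F (Matrix (Fin 6) (Fin 6) F), Cfsg.Geo.IsFieldSubalgebra 3 K ∧ Cfsg.Geo.IsAdjointClosedFor (Cfsg.hermForm 6 F q) K ∧ H = Cfsg.Geo.subalgebraNormalizer K ⊓ (Cfsg.GU 6 F q ⊓ Cfsg.Geo.specialLinear (Fin 6) F)) ∨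
    (3 ≤ q ∧ ∃ (e : Fin 6 ≃ Fin 2 × Fin 3) (P : Matrix.GeneralLinearGroup (Fin 6) F) (f₁ : (Fin 2 → F) → (Fin 2 → F) → F) (f₂ : (Fin 3 → F) → (Fin 3 → F) → F), Cfsg.Geo.IsUnitaryFormPow q f₁ ∧ Cfsg.Geo.IsUnitaryFormPow q f₂ ∧ Cfsg.Geo.IsTensorFormStructure (fun x : F => x ^ q) (Cfsg.hermForm 6 F q) f₁ f₂ e P ∧ H = Cfsg.Geo.tensorProductSubgroup 2 3 e P ⊓ (Cfsg.GU 6 F q ⊓ Cfsg.Geo.specialLinear (Fin 6) F)) ∨
    (∃ (F₀ : Subfield F) (r : ℕ) (P : Matrix.GeneralLinearGroup (Fin 6) F), r.Prime ∧ Odd r ∧ Fintype.card F = Nat.card F₀ ^ r ∧ Cfsg.Geo.IsFormRationalStructure (Cfsg.hermForm 6 F q) F₀ 1 P ∧ H = Cfsg.Geo.subfieldSubgroup F₀ P ⊓ (Cfsg.GU 6 F q ⊓ Cfsg.Geo.specialLinear (Fin 6) F)) ∨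
    (∃ (F₀ : Subfield F) (P : Matrix.GeneralLinearGroup (Fin 6) F) (ζ : F), Fintype.card F = Nat.card F₀ ^ 2 ∧ ζ ≠ 0 ∧ ζ + ζ ^ q = 0 ∧ Cfsg.Geo.IsFormRationalStructure (Cfsg.hermForm 6 F q) F₀ ζ P ∧ (∀ u : Fin 6 → F, (∀ i, u i ∈ F₀) → (Cfsg.hermForm 6 F q) (Matrix.mulVec (P : Matrix (Fin 6) (Fin 6) F) u) (Matrix.mulVec (P : Matrix (Fin 6) (Fin 6) F) u) = 0) ∧ H = Cfsg.Geo.subfieldSubgroup F₀ P ⊓ (Cfsg.GU 6 F q ⊓ Cfsg.Geo.specialLinear (Fin 6) F)) ∨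
    (Odd q ∧ ∃ (F₀ : Subfield F) (P : Matrix.GeneralLinearGroup (Fin 6) F), Fintype.card F = Nat.card F₀ ^ 2 ∧ Cfsg.Geo.IsFormRationalStructure (Cfsg.hermForm 6 F q) F₀ 1 P ∧ H = Cfsg.Geo.subfieldSubgroup F₀ P ⊓ (Cfsg.GU 6 F q ⊓ Cfsg.Geo.specialLinear (Fin 6) F)) ∨
    Cfsg.Geo.InUnitaryResidualClass H := by
  have hn : 3 ≤ 6 := by norm_num
  have h32 : ¬ ((6 : ℕ) = 3 ∧ q = 2) := by norm_num
  have hHG : H ≤ Cfsg.GU 6 F q := hH.1.le.trans inf_le_left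
  have hq2 : 2 ≤ q := Cfsg.Agent.LieClassical.HermBasic.two_le hF
  have hq : 3 ≤ q ∨ q = 2 := by omega
  have hnowr : ∀ k t : ℕ, 3 ≤ k → 2 ≤ t → k ^ t = 6 → False := by
    intro k t hk ht hkt
    have h3 : 3 ^ 2 ≤ k ^ t := (Nat.pow_le_pow_left hk 2).trans (Nat.pow_le_pow_right (by omega) ht)
    omega
  rcases Cfsg.Agent.H918.unitary_maximal_cases hF hn h32 hH
      (fun k t e P hk ht hkt => (hnowr k t hk ht hkt).elim)
      (Cfsg.Agent.S5663.result 6 q hF hn h32 H hH.1.le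
        (Cfsg.Agent.H918.sup_scalars_ne hF hn h32 hH)) with
    h | h | ⟨t, k, D, htk, ht, hD, h⟩ | ⟨k, D, hk, hD, hs, h⟩ | h | ⟨F₀, P, h⟩ | ⟨F₀, P, ζ, -, h⟩ |
    ⟨r, R, p, e, k, -, -, -, -, -, hro, -, hk, -, hn6, -⟩ |
    ⟨R, p, k, -, -, -, -, -, -, -, -, hn6, -⟩ | ⟨r, K, hr, hro, hrn, hK, hKa, h⟩ |
    ⟨n₁, n₂, e, P, f₁, f₂, hnn, h2, hlt, hf₁, hf₂, hf, h⟩ | ⟨k, t, -, -, -, hkt, hk, ht, -⟩ | h
  · exact Or.inl h
  · exact Or.inr (Or.inl h)
  · -- non-degenerate decompositions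
    have hkpos := hD.decomp.pos
    have hcase : (t = 6 ∧ k = 1) ∨ (t = 3 ∧ k = 2) ∨ (t = 2 ∧ k = 3) := by
      have h1 : t ∣ 6 := ⟨k, htk.symm⟩
      have h2 : t ≤ 6 := Nat.le_of_dvd (by norm_num) h1
      interval_cases t <;> omega
    rcases hcase with ⟨rfl, rfl⟩ | ⟨rfl, rfl⟩ | ⟨rfl, rfl⟩
    · rcases hq with hq | hq
      · exact Or.inr (Or.inr (Or.inl ⟨hq, D, hD, h⟩))
      · subst hq
        exact (Cfsg.Agent.H913.SU6Frame.frame_one hF hH hD (h.le.trans inf_le_left)).elim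
    · rcases hq with hq | hq
      · exact Or.inr (Or.inr (Or.inr (Or.inl ⟨hq, D, hD, h⟩)))
      · subst hq
        exact (Cfsg.Agent.H913.SU6Frame.frame_two hF hH hD (h.le.trans inf_le_left)).elim
    · exact Or.inr (Or.inr (Or.inr (Or.inr (Or.inl ⟨D, hD, h⟩))))
  · obtain rfl : k = 3 := by omega
    iterate 5 right
    exact Or.inl ⟨D, hD, hs, h⟩
  · iterate 8 right
    exact Or.inl h
  · iterate 10 right
    exact Or.inl ⟨h.1, F₀, P, h.2⟩
  · iterate 9 right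
    exact Or.inl ⟨F₀, P, ζ, h⟩
  · -- `6` is not a power of an odd prime
    exfalso
    have h4 : (2 : ℕ) ∣ r ^ k := by rw [← hn6]; norm_num
    have h5 := Nat.prime_two.dvd_of_dvd_pow h4
    obtain ⟨a, ha⟩ := hro
    omega
  · -- `6` is not a power of two
    exfalso
    have h4 : (3 : ℕ) ∣ 2 ^ k := by rw [← hn6]; norm_num
    have h5 := Nat.prime_three.dvd_of_dvd_pow h4
    omega
  · -- fields
    have hr3 : r = 3 := by
      have h3 : r ∣ 2 * 3 := hrn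
      rcases (Nat.Prime.dvd_mul hr).1 h3 with h4 | h4
      · have h5 := (Nat.prime_dvd_prime_iff_eq hr Nat.prime_two).1 h4
        obtain ⟨a, ha⟩ := hro
        omega
      · exact (Nat.prime_dvd_prime_iff_eq hr Nat.prime_three).1 h4
    subst hr3
    rcases hq with hq | hq
    · iterate 6 right
      exact Or.inl ⟨hq, K, hK, hKa, h⟩
    · subst hq
      obtain ⟨F₀, P, hc, hf, hf', hle⟩ := Cfsg.Agent.H913.SU6Cubic.cubic_le hF hK hKa
      have h1 : (1 : F) + 1 ^ 2 = 0 := by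
        rw [one_pow, Cfsg.Agent.H913.SU6Tensor.two_eq_zero hF]
      iterate 9 right
      exact Or.inl ⟨F₀, P, 1, hc, one_ne_zero, h1, hf, hf',
        Cfsg.Agent.H918.eq_inf_of_maximal hH (h.le.trans hle)
          (Cfsg.Agent.H918.SUg_not_le_subfieldSubgroup hF hn h32
            (Cfsg.Agent.H918.subfield_ne_top_of_card hF le_rfl hc) P)⟩
  · -- tensor products
    have hn12 : n₁ = 2 ∧ n₂ = 3 := by
      have h3 : n₁ < 3 := by nlinarith
      have h4 : n₁ = 2 := by omega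
      subst h4
      exact ⟨rfl, by omega⟩
    obtain ⟨rfl, rfl⟩ := hn12
    rcases hq with hq | hq
    · iterate 7 right
      exact Or.inl ⟨hq, e, P, f₁, f₂, hf₁, hf₂, hf, h⟩
    · subst hq
      obtain ⟨D, hD, hle⟩ := Cfsg.Agent.H913.SU6Tensor.tensor_le hF hf₁ hf₂ hf
      exact Or.inr (Or.inr (Or.inr (Or.inr (Or.inl ⟨D, hD,
        Cfsg.Agent.H918.eq_inf_of_maximal hH
          ((le_inf (h.le.trans inf_le_left) hHG).trans hle)
          (Cfsg.Agent.H918.SUg_not_le_decompositionStabilizer hF hn h32 hD.decomp)⟩))))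
  · exact (hnowr k t hk ht hkt).elim
  · iterate 11 right
    exact h

end Cfsg.Agent.S5802
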