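import Cfsg.Statements.S5808
import Cfsg.Agent.H915.SLCases

set_option autoImplicit false
open Cfsg

namespace Cfsg.Agent.S5808

/-- Every maximal subgroup of SL_7(q) is of one of the listed geometric types or lies in the residual class. Let F be a finite field with q elements (p its characteristic) and H a maximal subgroup of SL_7(F) (inside GL_7(F)). Then H is the intersection with SL_7(F) of one of: the stabiliser of a proper non-zero subspace; for q ≥ 5, the stabiliser of a decomposition into 7 independent 1-spaces; the normaliser of a degree-7 subfield of the matrix algebra; a subfield group for a subfield F₀ with |F| = |F₀|^r, r prime; for q = p prime with p ≡ 1 mod 7, or q = p³ with p ≡ 2 or 4 mod 7, the normaliser of an absolutely irreducible 7-subgroup R of exponent 7 and order 7^(1+2m) with centre of order 7, all of whose characteristic abelian subgroups are cyclic, F being the smallest field of characteristic p containing the seventh roots of unity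 (here R is extraspecial of order 343); for q odd, the similarity group of a non-degenerate quadratic form; the similarity group of a non-degenerate unitary form — or else H lies in the residual class of the linear case (modulo scalars H is almost simple, with absolutely irreducible perfect socle preimage realisable over no proper subfield and fixing no non-degenerate quadratic, symplectic or unitary form). -/
theorem result {F : Type*} [Field F] [Fintype F] (H : Subgroup (Matrix.GeneralLinearGroup (Fin 7) F)) (hH : Cfsg.Geo.IsMaximalIn (Cfsg.Geo.specialLinear (Fin 7) F) H) :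
    (∃ W : Submodule F (Fin 7 → F), W ≠ ⊥ ∧ W ≠ ⊤ ∧ H = Cfsg.Geo.subspaceStabilizer W ⊓ Cfsg.Geo.specialLinear (Fin 7) F) ∨
    (5 ≤ Fintype.card F ∧ ∃ D : Fin 7 → Submodule F (Fin 7 → F), Cfsg.Geo.IsMDecomposition 1 D ∧ H = Cfsg.Geo.decompositionStabilizer D ⊓ Cfsg.Geo.specialLinear (Fin 7) F) ∨
    (∃ K : Subalgebra F (Matrix (Fin 7) (Fin 7) F), Cfsg.Geo.IsFieldSubalgebra 7 K ∧ H = Cfsg.Geo.subalgebraNormalizer K ⊓ Cfsg.Geo.specialLinear (Fin 7) F) ∨
    (∃ (F₀ : Subfield F) (r : ℕ) (P : Matrix.GeneralLinearGroup (Fin 7) F), r.Prime ∧ Fintype.card F = Nat.card F₀ ^ r ∧ H = Cfsg.Geo.subfieldSubgroup F₀ P ⊓ Cfsg.Geo.specialLinear (Fin 7) F) ∨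
    ((∃ p : ℕ, p.Prime ∧ CharP F p ∧ ((Fintype.card F = p ∧ p % 7 = 1) ∨ (Fintype.card F = p ^ 3 ∧ (p % 7 = 2 ∨ p % 7 = 4)))) ∧ ∃ R : Subgroup (Matrix.GeneralLinearGroup (Fin 7) F), Cfsg.Geo.IsLinearSymplecticTypeData 7 R ∧ H = Cfsg.Geo.subgroupNormalizer R ⊓ Cfsg.Geo.specialLinear (Fin 7) F) ∨
    (Odd (Fintype.card F) ∧ ∃ Q : (Fin 7 → F) → F, Cfsg.Geo.IsNondegenerateQuadraticForm Q ∧ H = Cfsg.Geo.quadSimilarityGroup Q ⊓ Cfsg.Geo.specialLinear (Fin 7) F) ∨
    (∃ (σ : F ≃+* F) (f : (Fin 7 → F) → (Fin 7 → F) → F), Cfsg.Geo.IsUnitaryForm σ f ∧ H = Cfsg.Geo.similarityGroup f ⊓ Cfsg.Geo.specialLinear (Fin 7) F) ∨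
    Cfsg.Geo.InLinearResidualClass H := by
  have h7 : Nat.Prime 7 := by norm_num
  rcases H915.sl_cases (by norm_num) hH with h | ⟨t, m, D, htm, hD, h1, -, h⟩ |
    ⟨r, K, hr, hrd, hK, h⟩ | ⟨n₁, n₂, e, P, h2, h12, hn, -, h⟩ | ⟨F₀, r, P, hr, hc, h⟩ |
    ⟨r, k, p, e, R, hR, hr, hro, heo, hk, hnk, hrp, hmin, hZ, hc, h⟩ | ⟨k, R, hR, hnk, -⟩ |
    ⟨m, t, e, P, hm, ht, hmt, h⟩ | ⟨f, hf, hev, -⟩ | h | h | h
  · exact Or.inl h
  · have hm : m = 1 := by
      have h3 : m ∣ 7 := ⟨t, by rw [← htm, mul_comm]⟩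
      rcases (Nat.dvd_prime h7).1 h3 with h4 | h4
      · exact h4
      · exfalso
        have := hD.two_le
        subst h4
        omega
    subst hm
    have ht : t = 7 := by omega
    subst ht
    exact Or.inr (Or.inl ⟨h1 rfl, D, hD, h⟩)
  · have hr7 : r = 7 := (Nat.prime_dvd_prime_iff_eq hr h7).1 hrd
    subst hr7
    exact Or.inr (Or.inr (Or.inl ⟨K, hK, h⟩))
  · exfalso
    have h3 : n₁ ∣ 7 := ⟨n₂, hn.symm⟩
    rcases (Nat.dvd_prime h7).1 h3 with h4 | h4
    · omega
    · subst h4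
      omega
  · exact Or.inr (Or.inr (Or.inr (Or.inl ⟨F₀, r, P, hr, hc, h⟩)))
  · have hr7 : r = 7 := by
      have h3 : r ∣ 7 := by
        rw [hnk]
        exact dvd_pow_self r (by omega)
      exact (Nat.prime_dvd_prime_iff_eq hr h7).1 h3
    subst hr7
    refine Or.inr (Or.inr (Or.inr (Or.inr (Or.inl ⟨?_, R, hR, h⟩))))
    obtain ⟨hp, hchar, hcard, hdvd, hlt⟩ := hmin
    refine ⟨p, hp, hchar, ?_⟩
    have hpos : 0 < e := heo.pos
    have hdm : ∀ d : ℕ, 7 ∣ p ^ d - 1 ↔ (p % 7) ^ d % 7 = 1 := by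
      intro d
      have h1 : 1 ≤ p ^ d := Nat.one_le_pow _ _ hp.pos
      rw [← Nat.pow_mod, ← (Nat.modEq_iff_dvd' h1)]
      constructor
      · intro h3
        exact h3.symm
      · intro h3
        exact Eq.symm h3
    have hp7 : p % 7 < 7 := Nat.mod_lt _ (by norm_num)
    rw [hdm] at hdvd
    have k0 : ∀ x < 7, x ≠ 0 → x ^ 6 % 7 = 1 := by decide
    have k3 : ∀ x < 7, x ^ 3 % 7 = 1 → ¬ x ^ 1 % 7 = 1 → x = 2 ∨ x = 4 := by decide
    have k5 : ∀ x < 7, x ^ 5 % 7 = 1 → x ^ 1 % 7 = 1 := by decide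
    have h6 : e ≤ 6 := by
      by_contra hcon
      refine hlt 6 (by norm_num) (by omega) ((hdm 6).2 (k0 _ hp7 ?_))
      intro h0
      rw [h0, zero_pow hpos.ne'] at hdvd
      exact absurd hdvd (by norm_num)
    rcases heo with ⟨j, rfl⟩
    have hj : j = 0 ∨ j = 1 ∨ j = 2 := by omega
    rcases hj with rfl | rfl | rfl
    · left
      refine ⟨by simpa using hcard, ?_⟩
      simpa using hdvd
    · right
      exact ⟨hcard, k3 _ hp7 hdvd fun h => hlt 1 (by norm_num) (by norm_num) ((hdm 1).2 h)⟩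
    · exfalso
      exact hlt 1 (by norm_num) (by norm_num) ((hdm 1).2 (k5 _ hp7 hdvd))
  · exfalso
    rcases k with _ | k
    · norm_num at hnk
    · rw [pow_succ] at hnk
      omega
  · exfalso
    have h3 : m ∣ 7 := by
      rw [← hmt]
      exact dvd_pow_self m (by omega)
    rcases (Nat.dvd_prime h7).1 h3 with h4 | h4
    · omega
    · subst h4
      have h5 : 7 ^ 2 ≤ 7 ^ t := Nat.pow_le_pow_right (by norm_num) ht
      omega
  · exact absurd hev (by decide)
  · exact Or.inr (Or.inr (Or.inr (Or.inr (Or.inr (Or.inr (Or.inl h))))))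
  · exact Or.inr (Or.inr (Or.inr (Or.inr (Or.inr (Or.inl h)))))
  · exact Or.inr (Or.inr (Or.inr (Or.inr (Or.inr (Or.inr (Or.inr h))))))

end Cfsg.Agent.S5808
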