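import Cfsg.Statements.S5813
import Cfsg.Agent.H884.SingMaxPlus
import Cfsg.Agent.H884.OddForm
import Cfsg.Agent.H888.SubfieldMax
import Cfsg.Agent.H916.LowNondegGeo
import Cfsg.Agent.H916.FrameSeven

set_option autoImplicit false
open Cfsg

namespace Cfsg.Agent.S5813

/-- Maximal subgroups of Ω_7(q) of geometric type, q odd. Let F be a finite field of odd order q, Q the standard quadratic form x₀² + Σ x_i y_i on F^7 (coordinates Unit ⊕ (Fin 3 ⊕ Fin 3)), and Ω = Ω_7(q) the commutator subgroup of its isometry group, inside GL_7(F). Each of the following, intersected with Ω, is a maximal subgroup of Ω: (1) the stabiliser of any non-zero subspace on which Q vanishes identically (totally singular 1-, 2- and 3-spaces); (2) the stabiliser of any non-zero even-dimensional subspace W on which the polar form of Q is non-degenerate (equivalently of its odd-dimensional orthogonal complement), except when q = 3 and W is a 2-space containing a non-zero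 singular vector (a plus-type plane); (3) for q = p prime, the stabiliser of any decomposition of F^7 into seven pairwise orthogonal, pairwise Q-isometric non-degenerate 1-spaces; (4) every subfield group for a subfield F₀ with |F| = |F₀|^r, r prime, whose F₀-structure carries Q. -/
theorem result {F : Type*} [Field F] [Fintype F] (hodd : Odd (Fintype.card F)) :
    (∀ W : Submodule F (Unit ⊕ (Fin 3 ⊕ Fin 3) → F), W ≠ ⊥ → Cfsg.Geo.IsTotallySingularQuad (Cfsg.quadFormOdd 3 F) W → Cfsg.Geo.IsMaximalIn (Cfsg.Geo.omegaGL (Cfsg.quadFormOdd 3 F)) (Cfsg.Geo.subspaceStabilizer W ⊓ Cfsg.Geo.omegaGL (Cfsg.quadFormOdd 3 F))) ∧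
    (∀ W : Submodule F (Unit ⊕ (Fin 3 ⊕ Fin 3) → F), W ≠ ⊥ → Even (Module.finrank F W) → Cfsg.Geo.IsNondegenerateOn (QuadraticMap.polar (Cfsg.quadFormOdd 3 F)) W → ¬ (Fintype.card F = 3 ∧ Module.finrank F W = 2 ∧ Cfsg.Geo.IsPlusTypeOn (Cfsg.quadFormOdd 3 F) W) → Cfsg.Geo.IsMaximalIn (Cfsg.Geo.omegaGL (Cfsg.quadFormOdd 3 F)) (Cfsg.Geo.subspaceStabilizer W ⊓ Cfsg.Geo.omegaGL (Cfsg.quadFormOdd 3 F))) ∧
    ((Fintype.card F).Prime → ∀ D : Fin 7 → Submodule F (Unit ⊕ (Fin 3 ⊕ Fin 3) → F), Cfsg.Geo.IsOrthogonalMDecomposition (Cfsg.quadFormOdd 3 F) 1 D → Cfsg.Geo.IsMaximalIn (Cfsg.Geo.omegaGL (Cfsg.quadFormOdd 3 F)) (Cfsg.Geo.decompositionStabilizer D ⊓ Cfsg.Geo.omegaGL (Cfsg.quadFormOdd 3 F))) ∧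
    (∀ (F₀ : Subfield F) (r : ℕ) (P : Matrix.GeneralLinearGroup (Unit ⊕ (Fin 3 ⊕ Fin 3)) F), r.Prime → Fintype.card F = Nat.card F₀ ^ r → Cfsg.Geo.IsQuadFormRationalStructure (Cfsg.quadFormOdd 3 F) F₀ P → Cfsg.Geo.IsMaximalIn (Cfsg.Geo.omegaGL (Cfsg.quadFormOdd 3 F)) (Cfsg.Geo.subfieldSubgroup F₀ P ⊓ Cfsg.Geo.omegaGL (Cfsg.quadFormOdd 3 F))) := by
  have hQ := Cfsg.Agent.H884.OddForm.isNondegenerate_quadFormOdd hodd 3
  have hcard : Fintype.card (Unit ⊕ (Fin 3 ⊕ Fin 3)) = 7 := by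
    simp only [Fintype.card_sum, Fintype.card_unit, Fintype.card_fin]
  have hq3 : 3 ≤ Fintype.card F := by
    have h1 := Fintype.one_lt_card (α := F)
    rw [Nat.odd_iff] at hodd
    omega
  have h2 : (2 : F) ≠ 0 := by
    intro h2
    have : CharP F 2 := CharTwo.of_one_ne_zero_of_two_eq_zero one_ne_zero h2
    have h7 := FiniteField.even_card_of_char_two (ringChar.eq F 2)
    rw [Nat.odd_iff] at hodd
    omega
  refine ⟨fun W hW0 hW => ?_, fun W hW0 hev hW hex => ?_, fun hp D hD => ?_, fun F₀ r P hr hc hP => ?_⟩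
  · refine Cfsg.Agent.H884.OmegaGL.singular_stabilizer_isMaximalIn _ hQ (by omega) hW0 hW ?_
    rintro ⟨x, hx, hxW, hxn⟩
    have hnd := Cfsg.Agent.H884.OmegaGL.nondeg_bundle _ hQ
    have h1 := Cfsg.Agent.H884.SingMaxPlus.two_mul_finrank_le hnd
      (Cfsg.Agent.H884.SingMaxPlus.sup_span_singular (Q := Cfsg.Agent.H884.OmegaGL.bundle _ hQ) hW hx hxW)
    rw [Cfsg.Agent.H884.SingMaxPlus.finrank_sup_span hxn, Module.finrank_fintype_fun_eq_card] at h1
    omega
  · exact Cfsg.Agent.H916.LowNondegGeo.subspaceStabilizer_even_maximal hQ (by omega)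
      (by rw [hcard]; exact ⟨3, rfl⟩) hq3 W hW0 hev hW hex
  · exact Cfsg.Agent.H916.FrameSeven.frame_maximal_odd hQ h2 hp (by omega)
      (by rw [hcard]; exact ⟨3, rfl⟩) hD
  · refine Cfsg.Agent.H888.SubfieldMax.subfield_maximal (by omega) _ hQ F₀ r hr hc P 1 one_ne_zero ?_
    intro u hu
    show 1 * _ ∈ F₀
    rw [one_mul]
    exact hP u hu

end Cfsg.Agent.S5813
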