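import Cfsg.Statements.S5844
import Cfsg.Agent.S5662
import Cfsg.Agent.H931.SpWrap
import Cfsg.Agent.H914.SpExc
import Cfsg.Agent.H914.SpExc3
-- import your own Cfsg.Agent.* helpers here

set_option autoImplicit false
open Cfsg

namespace Cfsg.Agent.S5844

/-- Every maximal subgroup of Sp_10(q) is of one of the listed geometric types or lies in the residual class. Let F be a finite field with q elements (characteristic p), f the standard alternating form on F^10 (coordinates Fin 5 ⊕ Fin 5), and H a maximal subgroup of Sp_10(F) (inside GL_10(F)). Then H is the intersection with Sp_10(F) of one of: the stabiliser of a non-zero totally isotropic subspace; the stabiliser of a non-zero non-degenerate subspace of dimension less than 5; for q ≥ 3, the stabiliser of a decomposition into 5 mutually orthogonal non-degenerate 2-spaces; for q odd, of a decomposition into two totally isotropic 5-spaces; the normaliser of a degree-5 subfield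 K of the matrix algebra, self-adjoint with f(k v, v) = 0; for q odd, the normaliser of a degree-2 subfield closed under adjoints but not self-adjoint; for q odd, the stabiliser of a tensor decomposition of f into an alternating form on F^2 and a symmetric form on F^5; a subfield group (|F| = |F₀|^r, r prime) whose F₀-structure carries a non-zero multiple of f; for q even, the similarity group of a non-degenerate quadratic form polarising to f — or else H lies in the residual class of the symplectic case (modulo scalars H is almost simple, with absolutely irreducible perfect socle preimage realisable over no proper subfield and fixing no non-degenerate quadratic or unitary form). -/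
theorem result {F : Type*} [Field F] [Fintype F] (H : Subgroup (Matrix.GeneralLinearGroup (Fin 5 ⊕ Fin 5) F)) (hH : Cfsg.Geo.IsMaximalIn (Cfsg.spGL 5 F) H) :
    (∃ W : Submodule F (Fin 5 ⊕ Fin 5 → F), W ≠ ⊥ ∧ Cfsg.Geo.IsTotallySingularFor (Cfsg.sympForm 5 F) W ∧ H = Cfsg.Geo.subspaceStabilizer W ⊓ Cfsg.spGL 5 F) ∨
    (∃ W : Submodule F (Fin 5 ⊕ Fin 5 → F), W ≠ ⊥ ∧ Cfsg.Geo.IsNondegenerateOn (Cfsg.sympForm 5 F) W ∧ Module.finrank F W < 5 ∧ H = Cfsg.Geo.subspaceStabilizer W ⊓ Cfsg.spGL 5 F) ∨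
    (3 ≤ Fintype.card F ∧ ∃ D : Fin 5 → Submodule F (Fin 5 ⊕ Fin 5 → F), Cfsg.Geo.IsNondegenerateMDecomposition (Cfsg.sympForm 5 F) 2 D ∧ H = Cfsg.Geo.decompositionStabilizer D ⊓ Cfsg.spGL 5 F) ∨
    (Odd (Fintype.card F) ∧ ∃ D : Fin 2 → Submodule F (Fin 5 ⊕ Fin 5 → F), Cfsg.Geo.IsMDecomposition 5 D ∧ (∀ i, Cfsg.Geo.IsTotallySingularFor (Cfsg.sympForm 5 F) (D i)) ∧ H = Cfsg.Geo.decompositionStabilizer D ⊓ Cfsg.spGL 5 F) ∨
    (∃ K : Subalgebra F (Matrix (Fin 5 ⊕ Fin 5) (Fin 5 ⊕ Fin 5) F), Cfsg.Geo.IsFieldSubalgebra 5 K ∧ Cfsg.Geo.IsSelfAdjointFor (Cfsg.sympForm 5 F) K ∧ (∀ k ∈ K, ∀ v : (Fin 5 ⊕ Fin 5 → F), (Cfsg.sympForm 5 F) (Matrix.mulVec k v) v = 0) ∧ H = Cfsg.Geo.subalgebraNormalizer K ⊓ Cfsg.spGL 5 F) ∨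
    (Odd (Fintype.card F) ∧ ∃ K : Subalgebra F (Matrix (Fin 5 ⊕ Fin 5) (Fin 5 ⊕ Fin 5) F), Cfsg.Geo.IsFieldSubalgebra 2 K ∧ Cfsg.Geo.IsAdjointClosedFor (Cfsg.sympForm 5 F) K ∧ ¬ Cfsg.Geo.IsSelfAdjointFor (Cfsg.sympForm 5 F) K ∧ H = Cfsg.Geo.subalgebraNormalizer K ⊓ Cfsg.spGL 5 F) ∨
    (Odd (Fintype.card F) ∧ ∃ (e : (Fin 5 ⊕ Fin 5) ≃ Fin 2 × Fin 5) (P : Matrix.GeneralLinearGroup (Fin 5 ⊕ Fin 5) F) (f₁ : (Fin 2 → F) → (Fin 2 → F) → F) (f₂ : (Fin 5 → F) → (Fin 5 → F) → F), Cfsg.Geo.IsSymplecticForm f₁ ∧ Cfsg.Geo.IsSymmetricForm f₂ ∧ Cfsg.Geo.IsTensorFormStructure id (Cfsg.sympForm 5 F) f₁ f₂ e P ∧ H = Cfsg.Geo.tensorProductSubgroup 2 5 e P ⊓ Cfsg.spGL 5 F) ∨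
    (∃ (F₀ : Subfield F) (r : ℕ) (P : Matrix.GeneralLinearGroup (Fin 5 ⊕ Fin 5) F) (ζ : F), r.Prime ∧ Fintype.card F = Nat.card F₀ ^ r ∧ ζ ≠ 0 ∧ Cfsg.Geo.IsFormRationalStructure (Cfsg.sympForm 5 F) F₀ ζ P ∧ H = Cfsg.Geo.subfieldSubgroup F₀ P ⊓ Cfsg.spGL 5 F) ∨
    (¬ Odd (Fintype.card F) ∧ ∃ Q : (Fin 5 ⊕ Fin 5 → F) → F, Cfsg.Geo.IsNondegenerateQuadraticForm Q ∧ (∀ u v : (Fin 5 ⊕ Fin 5 → F), QuadraticMap.polar Q u v = (Cfsg.sympForm 5 F) u v) ∧ H = Cfsg.Geo.quadSimilarityGroup Q ⊓ Cfsg.spGL 5 F) ∨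
    Cfsg.Geo.InSymplecticResidualClass H := by
  classical
  have hm : 2 ≤ 5 := by norm_num
  have hex : ¬ (5 = 2 ∧ Fintype.card F = 2) := by omega
  have hexc : 3 ≤ 5 ∨ (5 = 2 ∧ 3 ≤ Fintype.card F) ∨ 4 ≤ Fintype.card F := Or.inl (by norm_num)
  rcases Cfsg.Agent.H931.symplectic_maximal_cases hm hex hH (by
      intro k t e P hk hto ht hkt
      exfalso
      subst hk
      have h4 : t ≤ 3 := by
        by_contra h
        have : 2 ^ 4 ≤ 2 ^ t := Nat.pow_le_pow_right (by norm_num) (by omega)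
        omega
      interval_cases t
      omega)
    (Cfsg.Agent.S5662.result 5 hm hex H hH.1.le (Cfsg.Agent.H931.spGL_sup_scalars_ne hexc hH)) with
    h | h | h | h | h | h | h | h | h | h | h | h
  · exact Or.inl h
  · obtain ⟨W, h1, h2, _, h3, h4⟩ := h
    exact Or.inr (Or.inl ⟨W, h1, h2, h3, h4⟩)
  · -- orthogonal decompositions
    obtain ⟨t, k, D, htk, hk, ht, hD, hHD⟩ := h
    have hk2 : k = 2 := by
      obtain ⟨j, hj⟩ := hk
      have hj2 : t * j = 5 := by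
        have : t * (j + j) = 10 := by rw [← hj]; omega
        nlinarith
      have hjd : j ∣ 5 := ⟨t, by rw [← hj2]; ring⟩
      rcases (Nat.dvd_prime (by norm_num)).mp hjd with h | h
      · omega
      · subst h; omega
    subst hk2
    obtain rfl : t = 5 := by omega
    by_cases hq : 3 ≤ Fintype.card F
    · exact Or.inr (Or.inr (Or.inl ⟨hq, D, hD, hHD⟩))
    · -- q = 2
      have hq2 : Fintype.card F = 2 := by
        have := Fintype.one_lt_card (α := F)
        omega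
      obtain ⟨Q, hQ, hpol, hle⟩ := Cfsg.Agent.H914.quad_of_frame_two hq2
        (Cfsg.Agent.H924.isSymplecticForm_sympForm (m := 5) (F := F)) hD
      refine Or.inr (Or.inr (Or.inr (Or.inr (Or.inr (Or.inr (Or.inr (Or.inr (Or.inl ⟨?_, Q, hQ, hpol, ?_⟩))))))))
      · rw [hq2]; decide
      · have hsub : H ≤ Cfsg.Geo.quadSimilarityGroup Q ⊓ Cfsg.spGL 5 F := by
          rw [hHD]
          exact inf_le_inf_right _ hle
        rcases hH.2 _ hsub inf_le_right with h | h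
        · exact h.symm
        · exfalso
          exact Cfsg.Agent.H931.spGL_not_le_quadSimilarityGroup hm hpol hQ.smul (inf_eq_right.mp h)
  · exact Or.inr (Or.inr (Or.inr (Or.inl (by
      obtain ⟨D, h1, h2, h3, h4⟩ := h
      exact ⟨h1, D, h2, h3, h4⟩))))
  · exact Or.inr (Or.inr (Or.inr (Or.inr (Or.inr (Or.inr (Or.inr (Or.inl h)))))))
  · exfalso
    obtain ⟨R, p, k, _, _, _, _, _, _, _, _, _, hk, _⟩ := h
    have h4 : k ≤ 3 := by
      by_contra h
      have : 2 ^ 4 ≤ 2 ^ k := Nat.pow_le_pow_right (by norm_num) (by omega)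
      omega
    interval_cases k <;> omega
  · exact Or.inr (Or.inr (Or.inr (Or.inr (Or.inr (Or.inr (Or.inr (Or.inr (Or.inl (by
      obtain ⟨Q, h1, h2, h3, h4⟩ := h
      exact ⟨h1, Q, h2, h3, h4⟩)))))))))
  · -- self-adjoint fields
    obtain ⟨r, K, hr, hrd, hK, h1, h2, h3⟩ := h
    have hr5 : r ∣ 5 := by
      have h := Cfsg.Agent.H914.two_mul_dvd_of_selfAdjoint
        (Cfsg.Agent.H924.isSymplecticForm_sympForm (m := 5) (F := F)) hK h1 h2
      have hc : Fintype.card (Fin 5 ⊕ Fin 5) = 2 * 5 := by simp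
      rw [hc] at h
      exact Nat.dvd_of_mul_dvd_mul_left (by norm_num) h
    have : r = 5 := ((Nat.dvd_prime (by norm_num)).mp hr5).resolve_left hr.one_lt.ne'
    subst this
    exact Or.inr (Or.inr (Or.inr (Or.inr (Or.inl ⟨K, hK, h1, h2, h3⟩))))
  · exact Or.inr (Or.inr (Or.inr (Or.inr (Or.inr (Or.inl (by
      obtain ⟨K, h1, h2, h3, h4, h5⟩ := h
      exact ⟨h1, K, h2, h3, h4, h5⟩))))))
  · -- tensor products
    obtain ⟨n₁, n₂, e, P, f₁, f₂, h1, h2, h3, h4, h5, h6, h7, h8, h9⟩ := h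
    have hn₁ : n₁ = 2 := by
      obtain ⟨j, hj⟩ := h3
      have hj2 : j * n₂ = 5 := by
        have : (j + j) * n₂ = 10 := by rw [← hj]; omega
        nlinarith
      have hjd : j ∣ 5 := ⟨n₂, hj2.symm⟩
      rcases (Nat.dvd_prime (by norm_num)).mp hjd with h | h
      · omega
      · subst h; omega
    subst hn₁
    obtain rfl : n₂ = 5 := by omega
    exact Or.inr (Or.inr (Or.inr (Or.inr (Or.inr (Or.inr (Or.inl ⟨h1, e, P, f₁, f₂, h6, h7, h8, h9⟩))))))
  · exfalso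
    obtain ⟨k, t, e, P, f₁, _, hkt, hk, hk2, hto, ht, _⟩ := h
    have ht3 : t ≤ 3 := by
      by_contra h
      have h5 : 2 ^ 4 ≤ 2 ^ t := Nat.pow_le_pow_right (by norm_num) (by omega)
      have h6 : 2 ^ t ≤ k ^ t := Nat.pow_le_pow_left hk2 t
      omega
    obtain rfl : t = 3 := by omega
    have hk3 : k ≤ 2 := by
      by_contra h
      have : 3 ^ 3 ≤ k ^ 3 := Nat.pow_le_pow_left (by omega) 3
      omega
    obtain rfl : k = 2 := by omega
    omega
  · exact Or.inr (Or.inr (Or.inr (Or.inr (Or.inr (Or.inr (Or.inr (Or.inr (Or.inr h))))))))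

end Cfsg.Agent.S5844
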