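import Cfsg.Statements.S5856
import Cfsg.Agent.S5663
import Cfsg.Agent.H918.UWrap

set_option autoImplicit false
open Cfsg

namespace Cfsg.Agent.S5856

open Cfsg.Agent.LieClassical.HermBasic Cfsg.Agent.H918

open scoped Matrix in
/-- Similarities in a group of order prime to `q - 1` are isometries. -/
theorem le_GU {F : Type*} [Field F] [Fintype F] {q : ℕ} (hF : Fintype.card F = q ^ 2) {n : ℕ} (hn : 0 < n)
    {R : Subgroup (Matrix.GeneralLinearGroup (Fin n) F)} {m : ℕ} (hm : Nat.card R = m) (hq : Nat.Coprime m (q - 1))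
    (hR : R ≤ Cfsg.Geo.similarityGroup (Cfsg.hermForm n F q)) : R ≤ Cfsg.GU n F q := by
  intro g hg
  obtain ⟨c, hc⟩ := hR hg
  have hq2 : 2 ≤ q := two_le hF
  have i0 : Fin n := ⟨0, hn⟩
  have hone : Cfsg.hermForm n F q (Pi.single i0 1) (Pi.single i0 1) = 1 := by
    rw [herm_single_left, Pi.single_eq_same, one_pow, one_mul]
  have hpow : ∀ k : ℕ, ∀ u v : Fin n → F, Cfsg.hermForm n F q (((g ^ k : Matrix.GeneralLinearGroup (Fin n) F) : Matrix (Fin n) (Fin n) F) *ᵥ u)
      (((g ^ k : Matrix.GeneralLinearGroup (Fin n) F) : Matrix (Fin n) (Fin n) F) *ᵥ v) = (c : F) ^ k * Cfsg.hermForm n F q u v := by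
    intro k
    induction k with
    | zero => intro u v; simp
    | succ k ih =>
      intro u v
      rw [pow_succ, Units.val_mul, ← Matrix.mulVec_mulVec, ← Matrix.mulVec_mulVec, ih, hc, pow_succ, mul_assoc]
  have h1 : c ^ m = 1 := by
    have h2 : g ^ m = 1 := by
      have h3 : (⟨g, hg⟩ : R) ^ m = 1 := by rw [← hm]; exact pow_card_eq_one'
      exact congrArg Subtype.val h3
    have h4 := hpow m (Pi.single i0 1) (Pi.single i0 1)
    rw [h2, Units.val_one, Matrix.one_mulVec, hone, mul_one] at h4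
    exact Units.ext (by rw [Units.val_pow_eq_pow_val, Units.val_one]; exact h4.symm)
  have h2 : c ^ (q - 1) = 1 := by
    have h3 := herm_self_pow hF ((g : Matrix (Fin n) (Fin n) F) *ᵥ (Pi.single i0 1))
    rw [hc, hone, mul_one] at h3
    have h4 : c ^ q = c := Units.ext (by rw [Units.val_pow_eq_pow_val]; exact h3)
    have h5 : c ^ (q - 1) * c = 1 * c := by
      rw [← pow_succ, show q - 1 + 1 = q by omega, h4, one_mul]
    exact mul_right_cancel h5
  have h3 : c = 1 := by
    have h4 : orderOf c ∣ Nat.gcd m (q - 1) := Nat.dvd_gcd (orderOf_dvd_of_pow_eq_one h1) (orderOf_dvd_of_pow_eq_one h2)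
    rw [hq] at h4
    exact orderOf_eq_one_iff.1 (Nat.dvd_one.1 h4)
  rw [mem_GU_iff]
  intro u v
  rw [hc, h3, Units.val_one, one_mul]

/-- `11 ∣ p ^ d - 1` in terms of the residue of `p`. -/
theorem eleven_dvd_iff {p d : ℕ} (hp : 1 ≤ p) : 11 ∣ p ^ d - 1 ↔ (p % 11) ^ d % 11 = 1 := by
  have h1 : 1 ≤ p ^ d := Nat.one_le_pow _ _ hp
  rw [← Nat.modEq_iff_dvd' h1, Nat.ModEq, Nat.pow_mod p d 11]
  constructor
  · intro h; rw [← h]
  · intro h; rw [h]

/-- The minimal fields for `11` with a square number of elements. -/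
theorem eleven_arith {p e q : ℕ} (hp : p.Prime) (hc : q ^ 2 = p ^ e) (h11 : 11 ∣ p ^ e - 1)
    (he : 0 < e) (hd : ∀ d : ℕ, 0 < d → d < e → ¬ 11 ∣ p ^ d - 1) :
    (q = p ∧ p % 11 = 10) ∨ (q = p ^ 5 ∧ (p % 11 = 2 ∨ p % 11 = 6 ∨ p % 11 = 7 ∨ p % 11 = 8)) := by
  have hp1 : 1 ≤ p := hp.one_lt.le
  obtain ⟨j, -, hj⟩ : ∃ j ≤ e, q = p ^ j := by
    have : q ∣ p ^ e := by rw [← hc]; exact dvd_pow_self q two_ne_zero
    exact (Nat.dvd_prime_pow hp).1 this
  have hej : e = 2 * j := by
    rw [hj, ← pow_mul] at hc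
    have := Nat.pow_right_injective hp.two_le hc
    omega
  rw [eleven_dvd_iff hp1] at h11
  have hlt : p % 11 < 11 := Nat.mod_lt _ (by norm_num)
  have h0 : p % 11 ≠ 0 := by
    intro h0
    rw [h0, zero_pow he.ne'] at h11
    omega
  have he10 : e ≤ 10 := by
    by_contra hcon
    push Not at hcon
    refine hd 10 (by norm_num) hcon ?_
    rw [eleven_dvd_iff hp1]
    generalize p % 11 = a at *
    interval_cases a <;> first | rfl | omega
  have hj5 : j ≤ 5 := by omega
  have hd1 : 1 < e → (p % 11) ^ 1 % 11 ≠ 1 := fun h => by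
    have := hd 1 one_pos h
    rwa [eleven_dvd_iff hp1] at this
  have hd2 : 2 < e → (p % 11) ^ 2 % 11 ≠ 1 := fun h => by
    have := hd 2 (by norm_num) h
    rwa [eleven_dvd_iff hp1] at this
  have hd5 : 5 < e → (p % 11) ^ 5 % 11 ≠ 1 := fun h => by
    have := hd 5 (by norm_num) h
    rwa [eleven_dvd_iff hp1] at this
  have hq1 : j = 1 → q = p := fun h => by rw [hj, h, pow_one]
  have hq5 : j = 5 → q = p ^ 5 := fun h => by rw [hj, h]
  clear hj hc hd
  subst hej
  generalize p % 11 = a at *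
  have hj0 : 0 < j := by omega
  interval_cases j
  · left
    refine ⟨hq1 rfl, ?_⟩
    have := hd1 (by norm_num)
    clear hd1 hd2 hd5 hq1 hq5
    interval_cases a <;> first | rfl | omega
  · exfalso
    have := hd1 (by norm_num)
    have := hd2 (by norm_num)
    clear hd1 hd2 hd5 hq1 hq5
    interval_cases a <;> omega
  · exfalso
    have := hd1 (by norm_num)
    have := hd2 (by norm_num)
    have := hd5 (by norm_num)
    clear hd1 hd2 hd5 hq1 hq5
    interval_cases a <;> omega
  · exfalso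
    have := hd1 (by norm_num)
    have := hd2 (by norm_num)
    have := hd5 (by norm_num)
    clear hd1 hd2 hd5 hq1 hq5
    interval_cases a <;> omega
  · right
    refine ⟨hq5 rfl, ?_⟩
    have := hd1 (by norm_num)
    have := hd2 (by norm_num)
    have := hd5 (by norm_num)
    clear hd1 hd2 hd5 hq1 hq5
    interval_cases a <;> omega

theorem coprime_of {p q : ℕ} (h : (q = p ∧ p % 11 = 10) ∨ (q = p ^ 5 ∧ (p % 11 = 2 ∨ p % 11 = 6 ∨ p % 11 = 7 ∨ p % 11 = 8))) :
    Nat.Coprime 1331 (q - 1) := by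
  have hq : q % 11 = 10 := by
    rcases h with ⟨rfl, h⟩ | ⟨rfl, h⟩
    · exact h
    · rw [Nat.pow_mod]
      rcases h with h | h | h | h <;> rw [h]
  have h11 : Nat.Prime 11 := by norm_num
  have : (1331 : ℕ) = 11 ^ 3 := by norm_num
  rw [this]
  refine Nat.Coprime.pow_left 3 ((Nat.Prime.coprime_iff_not_dvd h11).2 ?_)
  omega

/-- Every maximal subgroup of SU_11(q) is of one of the listed geometric types or lies in the residual class. Let F be the field with q² elements (characteristic p), f the standard unitary form Σ u_i v_i^q on F^11, and H a maximal subgroup of SU_11(q) (inside GL_11(F)). Then H is the intersection with SU_11(q) of one of: the stabiliser of a non-zero totally isotropic subspace; the stabiliser of a non-zero non-degenerate subspace W with 2 dim W < 11; the stabiliser of a decomposition into 11 mutually orthogonal non-degenerate 1-spaces; the normaliser of an adjoint-closed degree-11 subfield of the matrix algebra; a subfield group of odd prime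 index whose F₀-structure carries f; for q odd, a subfield group of index 2 whose F₀-structure carries f; for q = p with p ≡ 10 mod 11, or q = p⁵ with p ≡ 2, 6, 7 or 8 mod 11, the normaliser of an absolutely irreducible 11-group of exponent 11, order 11³ and centre of order 11 with all characteristic abelian subgroups cyclic consisting of isometries of f — or else H lies in the residual class of the unitary case (modulo scalars H is almost simple, with absolutely irreducible perfect socle preimage realisable over no proper subfield and fixing no non-degenerate quadratic or symplectic form). -/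
theorem result {F : Type*} [Field F] [Fintype F] (q : ℕ) (hF : Fintype.card F = q ^ 2) (H : Subgroup (Matrix.GeneralLinearGroup (Fin 11) F)) (hH : Cfsg.Geo.IsMaximalIn (Cfsg.GU 11 F q ⊓ Cfsg.Geo.specialLinear (Fin 11) F) H) :
    (∃ W : Submodule F (Fin 11 → F), W ≠ ⊥ ∧ Cfsg.Geo.IsTotallySingularFor (Cfsg.hermForm 11 F q) W ∧ H = Cfsg.Geo.subspaceStabilizer W ⊓ (Cfsg.GU 11 F q ⊓ Cfsg.Geo.specialLinear (Fin 11) F)) ∨
    (∃ W : Submodule F (Fin 11 → F), W ≠ ⊥ ∧ Cfsg.Geo.IsNondegenerateOn (Cfsg.hermForm 11 F q) W ∧ 2 * Module.finrank F W < 11 ∧ H = Cfsg.Geo.subspaceStabilizer W ⊓ (Cfsg.GU 11 F q ⊓ Cfsg.Geo.specialLinear (Fin 11) F)) ∨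
    (∃ D : Fin 11 → Submodule F (Fin 11 → F), Cfsg.Geo.IsNondegenerateMDecomposition (Cfsg.hermForm 11 F q) 1 D ∧ H = Cfsg.Geo.decompositionStabilizer D ⊓ (Cfsg.GU 11 F q ⊓ Cfsg.Geo.specialLinear (Fin 11) F)) ∨
    (∃ K : Subalgebra F (Matrix (Fin 11) (Fin 11) F), Cfsg.Geo.IsFieldSubalgebra 11 K ∧ Cfsg.Geo.IsAdjointClosedFor (Cfsg.hermForm 11 F q) K ∧ H = Cfsg.Geo.subalgebraNormalizer K ⊓ (Cfsg.GU 11 F q ⊓ Cfsg.Geo.specialLinear (Fin 11) F)) ∨
    (∃ (F₀ : Subfield F) (r : ℕ) (P : Matrix.GeneralLinearGroup (Fin 11) F), r.Prime ∧ Odd r ∧ Fintype.card F = Nat.card F₀ ^ r ∧ Cfsg.Geo.IsFormRationalStructure (Cfsg.hermForm 11 F q) F₀ 1 P ∧ H = Cfsg.Geo.subfieldSubgroup F₀ P ⊓ (Cfsg.GU 11 F q ⊓ Cfsg.Geo.specialLinear (Fin 11) F)) ∨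
    (Odd q ∧ ∃ (F₀ : Subfield F) (P : Matrix.GeneralLinearGroup (Fin 11) F), Fintype.card F = Nat.card F₀ ^ 2 ∧ Cfsg.Geo.IsFormRationalStructure (Cfsg.hermForm 11 F q) F₀ 1 P ∧ H = Cfsg.Geo.subfieldSubgroup F₀ P ⊓ (Cfsg.GU 11 F q ⊓ Cfsg.Geo.specialLinear (Fin 11) F)) ∨
    (∃ (p : ℕ) (R : Subgroup (Matrix.GeneralLinearGroup (Fin 11) F)), p.Prime ∧ CharP F p ∧ ((q = p ∧ p % 11 = 10) ∨ (q = p ^ 5 ∧ (p % 11 = 2 ∨ p % 11 = 6 ∨ p % 11 = 7 ∨ p % 11 = 8))) ∧ Cfsg.Geo.IsSymplecticTypeGroup 11 R ∧ Cfsg.Geo.ActsAbsolutelyIrreducibly (Cfsg.Geo.matrixSet R) ∧ R ≤ Cfsg.GU 11 F q ∧ Nat.card R = 1331 ∧ Nat.card (Subgroup.center R) = 11 ∧ H = Cfsg.Geo.subgroupNormalizer R ⊓ (Cfsg.GU 11 F q ⊓ Cfsg.Geo.specialLinear (Fin 11) F)) ∨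
    Cfsg.Geo.InUnitaryResidualClass H := by
  have hn : 3 ≤ 11 := by norm_num
  have h32 : ¬ ((11 : ℕ) = 3 ∧ q = 2) := by norm_num
  have hprime : Nat.Prime 11 := by norm_num
  rcases unitary_maximal_cases hF hn h32 hH (by
      intro k t e P hk ht hkt _
      exfalso
      have h1 : t < 3 := by
        by_contra hcon
        push Not at hcon
        have : 3 ^ 3 ≤ k ^ t := (Nat.pow_le_pow_left hk 3).trans (Nat.pow_le_pow_right (by omega) hcon)
        omega
      have h2 : t = 2 := by omega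
      subst h2
      have hk4 : k < 4 := by
        by_contra hcon
        have : 4 ^ 2 ≤ k ^ 2 := Nat.pow_le_pow_left (by omega) 2
        omega
      have : k = 3 := by omega
      subst this
      omega) (Cfsg.Agent.S5663.result 11 q hF hn h32 H hH.1.le (sup_scalars_ne hF hn h32 hH)) with
    h | h | ⟨t, k, D, htk, ht, hD, h⟩ | ⟨k, D, hk, hD, hs, h⟩ | h | h | ⟨F₀, P, ζ, he, h⟩ |
    ⟨r, R, p, e, k, hR, habs, hRs, hrp, hmin, hro, hz, hk, hcR, hn11, h⟩ |
    ⟨R, p, k, hp, hqp, hp4, hR, habs, hRs, hz, hcR, hn11, h⟩ | ⟨r, K, hr, hro, hrn, hK, hKf, h⟩ |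
    ⟨n₁, n₂, e, P, f₁, f₂, hnn, h2, hlt, hf₁, hf₂, hf, h⟩ | ⟨k, t, -, -, -, hkt, hk, ht, -⟩ | h
  · exact Or.inl h
  · exact Or.inr (Or.inl h)
  · -- non-degenerate decompositions
    have hkpos := hD.decomp.pos
    have h1 : t ∣ 11 := ⟨k, htk.symm⟩
    have h2 : t = 11 := ((Nat.dvd_prime hprime).1 h1).resolve_left (by omega)
    have h3 : k = 1 := by subst h2; omega
    subst h2 h3
    exact Or.inr (Or.inr (Or.inl ⟨D, hD, h⟩))
  · omega
  · iterate 4 right
    left
    exact h
  · obtain ⟨F₀, P, hq, h⟩ := h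
    iterate 5 right
    left
    exact ⟨hq, F₀, P, h⟩
  · exact absurd he (by decide)
  · -- the symplectic-type groups
    have hr : r = 11 := by
      have h1 : r ∣ 11 := by rw [hn11]; exact dvd_pow_self r (by omega)
      exact ((Nat.dvd_prime hprime).1 h1).resolve_left hR.prime.one_lt.ne'
    subst hr
    have hk1 : k = 1 := by
      have : 11 ^ k = 11 ^ 1 := by rw [← hn11]; norm_num
      exact Nat.pow_right_injective (by norm_num) this
    subst hk1
    obtain ⟨hp, hchar, hcF, h11, hd⟩ := hmin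
    rw [hz] at h11 hd
    have he : 0 < e := by
      rcases Nat.eq_zero_or_pos e with h0 | h0
      · exfalso
        rw [h0, pow_zero] at hcF
        exact absurd hcF Fintype.one_lt_card.ne'
      · exact h0
    have har := eleven_arith hp (hF ▸ hcF) h11 he hd
    have hc3 : Nat.card R = 1331 := by rw [hcR]; norm_num
    iterate 6 right
    left
    exact ⟨p, R, hp, hchar, har, hR, habs, le_GU hF (by norm_num) hc3 (coprime_of har) hRs, hc3, hz, h⟩
  · -- no power of two
    exfalso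
    rcases Nat.eq_zero_or_pos k with h0 | h0
    · subst h0; omega
    · have h1 : 2 ∣ 11 := by rw [hn11]; exact dvd_pow_self 2 (by omega)
      omega
  · have hr11 : r = 11 := ((Nat.dvd_prime hprime).1 hrn).resolve_left hr.one_lt.ne'
    subst hr11
    iterate 3 right
    left
    exact ⟨K, hK, hKf, h⟩
  · exfalso
    have h1 : n₁ ∣ 11 := ⟨n₂, hnn.symm⟩
    rcases (Nat.dvd_prime hprime).1 h1 with h1 | h1
    · omega
    · subst h1
      have : n₂ = 1 := by omega
      omega
  · exfalso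
    have h1 : t < 3 := by
      by_contra hcon
      push Not at hcon
      have : 3 ^ 3 ≤ k ^ t := (Nat.pow_le_pow_left hk 3).trans (Nat.pow_le_pow_right (by omega) hcon)
      omega
    have h2 : t = 2 := by omega
    subst h2
    have hk4 : k < 4 := by
      by_contra hcon
      have : 4 ^ 2 ≤ k ^ 2 := Nat.pow_le_pow_left (by omega) 2
      omega
    have : k = 3 := by omega
    subst this
    omega
  · iterate 7 right
    exact h

end Cfsg.Agent.S5856
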