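import Cfsg.Statements.S5877
import Cfsg.Agent.H933.ExtraStepThree

set_option autoImplicit false
open Cfsg

namespace Cfsg.Agent.S5877

open Cfsg.Agent.H933

/-- The natural module of the general linear group as a homomorphism to the endomorphisms. -/
def glRep (F : Type*) [Field F] (n : ℕ) :
    Matrix.GeneralLinearGroup (Fin n) F →* Module.End F (Fin n → F) where
  toFun g := Matrix.toLin' (g : Matrix (Fin n) (Fin n) F)
  map_one' := by simp [Module.End.one_eq_id]
  map_mul' a b := by simp [Matrix.toLin'_mul, Module.End.mul_eq_comp]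

theorem glRep_smul_iff {F : Type*} [Field F] {n : ℕ} (g : Matrix.GeneralLinearGroup (Fin n) F) (c : F) :
    glRep F n g = c • 1 ↔ (g : Matrix (Fin n) (Fin n) F) = c • (1 : Matrix (Fin n) (Fin n) F) := by
  have e : (c • (1 : Module.End F (Fin n → F))) = Matrix.toLin' (c • (1 : Matrix (Fin n) (Fin n) F)) := by
    rw [map_smul, Matrix.toLin'_one]; rfl
  rw [e]
  change Matrix.toLin' (g : Matrix (Fin n) (Fin n) F) = _ ↔ _
  exact Matrix.toLin'.injective.eq_iff

theorem setup {F : Type*} [Field F] [Fintype F] {n r : ℕ}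
    (R : Subgroup (Matrix.GeneralLinearGroup (Fin n) F)) (hr : r.Prime)
    (hZ : Nat.card (Subgroup.center R) = r) (hext : commutator R = Subgroup.center R)
    (hirr : Cfsg.Geo.ActsAbsolutelyIrreducibly (Cfsg.Geo.matrixSet R)) :
    Setup (glRep F n) (R ⊔ Cfsg.Geo.scalars (Fin n) F) r := by
  classical
  -- elements commuting with `R` are scalar
  have habs : ∀ g : Matrix.GeneralLinearGroup (Fin n) F, (∀ v ∈ R, g * v = v * g) →
      ∃ c : F, (g : Matrix (Fin n) (Fin n) F) = c • (1 : Matrix (Fin n) (Fin n) F) := by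
    intro g hg
    apply hirr.2
    rintro _ ⟨v, hv, rfl⟩
    have := hg v hv
    exact congrArg Units.val this
  have hcent : ∀ z : R, z ∈ Subgroup.center R → ∃ c : F, c ^ r = 1 ∧
      ((z : Matrix.GeneralLinearGroup (Fin n) F) : Matrix (Fin n) (Fin n) F) = c • 1 := by
    intro z hz
    obtain ⟨c, hc⟩ := habs z (fun v hv => by
      have := (Subgroup.mem_center_iff.1 hz) ⟨v, hv⟩
      exact (congrArg Subtype.val this).symm)
    by_cases hn : n = 0
    · subst hn
      exact ⟨1, one_pow r, Subsingleton.elim _ _⟩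
    · refine ⟨c, ?_, hc⟩
      have h1 : z ^ r = 1 := by
        have h2 : (⟨z, hz⟩ : Subgroup.center R) ^ Nat.card (Subgroup.center R) = 1 := pow_card_eq_one'
        rw [hZ] at h2
        exact congrArg Subtype.val h2
      have h2 : ((z : Matrix.GeneralLinearGroup (Fin n) F) : Matrix (Fin n) (Fin n) F) ^ r = 1 := by
        have h3 : (z : Matrix.GeneralLinearGroup (Fin n) F) ^ r = 1 := congrArg Subtype.val h1
        have h4 := congrArg Units.val h3
        rwa [Units.val_pow_eq_pow_val] at h4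
      rw [hc, smul_pow, one_pow] at h2
      have h3 := congrFun (congrFun h2 ⟨0, Nat.pos_of_ne_zero hn⟩) ⟨0, Nat.pos_of_ne_zero hn⟩
      simpa using h3
  refine ⟨hr, ?_, ?_, ?_, ?_⟩
  · -- non-trivial
    have hn : n ≠ 0 := by
      rintro rfl
      have hs : Subsingleton (Matrix.GeneralLinearGroup (Fin 0) F) :=
        ⟨fun a b => Units.ext (Subsingleton.elim _ _)⟩
      have hs2 : Subsingleton R := ⟨fun a b => Subtype.ext (hs.elim _ _)⟩
      have hs3 : Subsingleton (Subgroup.center R) := ⟨fun a b => Subtype.ext (hs2.elim _ _)⟩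
      have : Nat.card (Subgroup.center R) = 1 := Nat.card_unique
      rw [this] at hZ
      exact hr.one_lt.ne hZ
    have : Nonempty (Fin n) := ⟨⟨0, Nat.pos_of_ne_zero hn⟩⟩
    exact Function.nontrivial
  · -- commutators
    have hRR : ∀ x ∈ R, ∀ y ∈ R, ∃ c : F, c ^ r = 1 ∧ IsZ (glRep F n) x y c := by
      intro x hx y hy
      have h1 : (⟨x, hx⟩ * ⟨y, hy⟩ * (⟨x, hx⟩)⁻¹ * (⟨y, hy⟩)⁻¹ : R) ∈ Subgroup.center R := by
        rw [← hext, commutator_def]
        exact Subgroup.commutator_mem_commutator (Subgroup.mem_top _) (Subgroup.mem_top _)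
      obtain ⟨c, hc1, hc2⟩ := hcent _ h1
      refine ⟨c, hc1, ?_⟩
      rw [isZ_iff_comm, glRep_smul_iff]
      exact hc2
    have hs1 : ∀ s ∈ Cfsg.Geo.scalars (Fin n) F, ∀ v, IsZ (glRep F n) s v 1 := by
      intro s hs v
      rw [Cfsg.Geo.mem_scalars_iff] at hs
      obtain ⟨c, hc⟩ := hs
      have h1 := (glRep_smul_iff s (c : F)).2 hc
      unfold IsZ
      rw [h1]; simp
    have hs2 : ∀ s ∈ Cfsg.Geo.scalars (Fin n) F, ∀ v, IsZ (glRep F n) v s 1 := by
      intro s hs v
      have := (hs1 s hs v).symm one_ne_zero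
      rwa [inv_one] at this
    intro u hu v hv
    obtain ⟨x, hx, s, hs, rfl⟩ := Subgroup.mem_sup_of_normal_right.1 hu
    obtain ⟨y, hy, t, ht, rfl⟩ := Subgroup.mem_sup_of_normal_right.1 hv
    obtain ⟨c, hc1, hc2⟩ := hRR x hx y hy
    refine ⟨c, hc1, ?_⟩
    have h1 := (hc2.mul_right (hs2 t ht x)).mul_left (hs1 s hs (y * t))
    rwa [mul_one, mul_one] at h1
  · intro W hW
    apply hirr.1 W
    rintro _ ⟨x, hx, rfl⟩
    exact hW x (Subgroup.mem_sup_left hx)
  · intro g hg
    obtain ⟨c, hc⟩ := habs g (fun v hv => by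
      have := hg v (Subgroup.mem_sup_left hv)
      unfold IsZ at this
      rw [one_smul, ← map_mul, ← map_mul] at this
      apply Units.ext
      exact Matrix.toLin'.injective this)
    exact ⟨c, (glRep_smul_iff g c).2 hc⟩

theorem r_dvd {F : Type*} [Field F] [Fintype F] {n r : ℕ}
    (R : Subgroup (Matrix.GeneralLinearGroup (Fin n) F)) (hr : r.Prime)
    (hZ : Nat.card (Subgroup.center R) = r) (hext : commutator R = Subgroup.center R)
    (hirr : Cfsg.Geo.ActsAbsolutelyIrreducibly (Cfsg.Geo.matrixSet R)) : r ∣ n := by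
  classical
  have S := setup R hr hZ hext hirr
  have hnt := S.nontrivial
  obtain ⟨x, hx, y, hy, hxy⟩ : ∃ x ∈ R, ∃ y ∈ R, x * y ≠ y * x := by
    by_contra hcon
    push Not at hcon
    have h1 : commutator R = ⊥ := by
      rw [commutator_def, Subgroup.commutator_eq_bot_iff_le_centralizer]
      intro a _
      rw [Subgroup.mem_centralizer_iff]
      intro b _
      apply Subtype.ext
      exact hcon b b.2 a a.2
    rw [← hext, h1] at hZ
    have : Nat.card (⊥ : Subgroup R) = 1 := Subgroup.card_bot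
    rw [this] at hZ
    exact hr.one_lt.ne hZ
  have hxH : x ∈ R ⊔ Cfsg.Geo.scalars (Fin n) F := Subgroup.mem_sup_left hx
  have hyH : y ∈ R ⊔ Cfsg.Geo.scalars (Fin n) F := Subgroup.mem_sup_left hy
  obtain ⟨c, hc1, hc2⟩ := S.comm x hxH y hyH
  have hne : c ≠ 1 := by
    rintro rfl
    unfold IsZ at hc2
    rw [one_smul, ← map_mul, ← map_mul] at hc2
    apply hxy
    apply Units.ext
    exact Matrix.toLin'.injective hc2
  have h1 : (x : Matrix (Fin n) (Fin n) F) * y = c • ((y : Matrix (Fin n) (Fin n) F) * x) := by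
    unfold IsZ at hc2
    rw [← map_mul, ← map_mul] at hc2
    apply Matrix.toLin'.injective
    rw [map_smul]
    exact hc2
  have h2 := congrArg Matrix.det h1
  rw [Matrix.det_smul, Matrix.det_mul, Matrix.det_mul, Fintype.card_fin] at h2
  have hdx : (x : Matrix (Fin n) (Fin n) F).det ≠ 0 := by
    have := (Matrix.isUnit_iff_isUnit_det _).1 x.isUnit
    exact this.ne_zero
  have hdy : (y : Matrix (Fin n) (Fin n) F).det ≠ 0 := by
    have := (Matrix.isUnit_iff_isUnit_det _).1 y.isUnit
    exact this.ne_zero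
  have h3 : c ^ n = 1 := by
    have h4 : (c ^ n - 1) * ((y : Matrix (Fin n) (Fin n) F).det * (x : Matrix (Fin n) (Fin n) F).det) = 0 := by
      rw [sub_mul, ← h2]; ring
    rcases mul_eq_zero.1 h4 with h5 | h5
    · exact sub_eq_zero.1 h5
    · exact absurd h5 (mul_ne_zero hdy hdx)
  have hF : Fact r.Prime := ⟨hr⟩
  have ho : orderOf c = r := orderOf_eq_prime hc1 hne
  rw [← ho]
  exact orderOf_dvd_of_pow_eq_one h3

/-- Eigenspaces of elements normalising an absolutely irreducible extraspecial group. Let F be a finite field, r a prime, and R ≤ GL_n(F) an absolutely irreducible extraspecial r-group (an r-group whose centre equals its derived subgroup and has order r) of exponent r or 4. Let g ∈ GL_n(F) normalise the product of R with the scalar matrices, have prime order ϖ and not be scalar, and let W be the eigenspace of g for any c ∈ F (W may be the zero subspace). Then dim W ≤ 3n/4 if ϖ = 2, dim W ≤ 2n/3 if ϖ = 3, and dim W ≤ n/2 if ϖ > 3; moreover if ϖ = 3 and 3 does not divide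 n then dim W ≤ n/2. -/
theorem result {F : Type*} [Field F] [Fintype F] {n r ϖ : ℕ} (R : Subgroup (Matrix.GeneralLinearGroup (Fin n) F)) (hr : r.Prime) (hR : IsPGroup r R) (hZ : Nat.card (Subgroup.center R) = r) (hext : commutator R = Subgroup.center R) (hexp : Monoid.exponent R = r ∨ Monoid.exponent R = 4) (hirr : Cfsg.Geo.ActsAbsolutelyIrreducibly (Cfsg.Geo.matrixSet R)) (g : Matrix.GeneralLinearGroup (Fin n) F) (hg : g ∈ Cfsg.Geo.subgroupNormalizer (R ⊔ Cfsg.Geo.scalars (Fin n) F)) (hϖ : ϖ.Prime) (hord : orderOf g = ϖ) (hns : g ∉ Cfsg.Geo.scalars (Fin n) F) (c : F) :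
    (ϖ = 2 → 4 * Module.finrank F (Module.End.eigenspace (Matrix.toLin' (g : Matrix (Fin n) (Fin n) F)) c) ≤ 3 * n) ∧
    (ϖ = 3 → 3 * Module.finrank F (Module.End.eigenspace (Matrix.toLin' (g : Matrix (Fin n) (Fin n) F)) c) ≤ 2 * n) ∧
    (3 < ϖ → 2 * Module.finrank F (Module.End.eigenspace (Matrix.toLin' (g : Matrix (Fin n) (Fin n) F)) c) ≤ n) ∧
    (ϖ = 3 → ¬ 3 ∣ n → 2 * Module.finrank F (Module.End.eigenspace (Matrix.toLin' (g : Matrix (Fin n) (Fin n) F)) c) ≤ n) := by
  classical
  have S := setup R hr hZ hext hirr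
  have hGfin : Finite (Matrix.GeneralLinearGroup (Fin n) F) :=
    Finite.of_injective (fun g : Matrix.GeneralLinearGroup (Fin n) F => (g : Matrix (Fin n) (Fin n) F))
      (fun a b h => Units.ext h)
  have hgH : ∀ u ∈ R ⊔ Cfsg.Geo.scalars (Fin n) F, g * u * g⁻¹ ∈ R ⊔ Cfsg.Geo.scalars (Fin n) F := by
    intro u hu
    exact (Subgroup.mem_normalizer_iff.1 hg u).1 hu
  have hgH' : ∀ u ∈ R ⊔ Cfsg.Geo.scalars (Fin n) F, g⁻¹ * u * g ∈ R ⊔ Cfsg.Geo.scalars (Fin n) F := by
    intro u hu
    apply (Subgroup.mem_normalizer_iff.1 hg _).2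
    have e : g * (g⁻¹ * u * g) * g⁻¹ = u := by group
    rw [e]
    exact hu
  have hgs : ¬ ∃ b : F, glRep F n g = b • 1 := by
    rintro ⟨b, hb⟩
    rw [glRep_smul_iff] at hb
    apply hns
    rw [Cfsg.Geo.mem_scalars_iff]
    have hb0 : b ≠ 0 := by
      rintro rfl
      rw [zero_smul] at hb
      have := S.nontrivial
      have hn : Nonempty (Fin n) := by
        by_contra h
        rw [not_nonempty_iff] at h
        exact not_subsingleton (Fin n → F) inferInstance
      exact g.ne_zero hb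
    exact ⟨Units.mk0 b hb0, hb⟩
  have hgp : g ^ ϖ = 1 := by rw [← hord]; exact pow_orderOf_eq_one g
  have hgen := S.general_case hgH hgs c
  have hcop := fun (h3 : 3 ≤ ϖ) (hne : ϖ ≠ r) => S.coprime_case hgH hgH' hϖ h3 hne hgp hgs c
  rw [Module.finrank_fin_fun] at hgen hcop
  change (ϖ = 2 → 4 * Module.finrank F (Module.End.eigenspace (glRep F n g) c) ≤ 3 * n) ∧
    (ϖ = 3 → 3 * Module.finrank F (Module.End.eigenspace (glRep F n g) c) ≤ 2 * n) ∧
    (3 < ϖ → 2 * Module.finrank F (Module.End.eigenspace (glRep F n g) c) ≤ n) ∧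
    (ϖ = 3 → ¬ 3 ∣ n → 2 * Module.finrank F (Module.End.eigenspace (glRep F n g) c) ≤ n)
  set w := Module.finrank F (Module.End.eigenspace (glRep F n g) c)
  refine ⟨?_, ?_, ?_, ?_⟩
  · intro _
    have h2 := hr.two_le
    have h3 : r * (4 * w) ≤ r * (3 * n) := by
      calc r * (4 * w) = 2 * (2 * r * w) := by ring
        _ ≤ 2 * ((r + 1) * n) := by gcongr
        _ = (2 * r + 2) * n := by ring
        _ ≤ (2 * r + r) * n := by gcongr
        _ = r * (3 * n) := by ring
    exact Nat.le_of_mul_le_mul_left h3 hr.pos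
  · intro h3
    by_cases hr3 : r = 3
    · subst hr3
      omega
    · have := hcop (by omega) (by omega)
      omega
  · intro h3
    by_cases hr3 : ϖ = r
    · subst hr3
      have h5 : 5 ≤ ϖ := by
        by_contra h
        have : ϖ = 4 := by omega
        subst this
        exact absurd hϖ (by decide)
      have := S.equal_case hgH hgH' h5 hgp hgs c
      rwa [Module.finrank_fin_fun] at this
    · exact hcop (by omega) hr3
  · intro h3 hn
    apply hcop (by omega)
    rintro rfl
    apply hn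
    rw [← h3]
    exact r_dvd R hr hZ hext hirr

end Cfsg.Agent.S5877
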