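import Cfsg.Statements.S5945
import Cfsg.Agent.H949.SSix
-- import your own Cfsg.Agent.* helpers here

set_option autoImplicit false
open Cfsg

namespace Cfsg.Agent.S5945

open Cfsg.Agent.H949.SSix Equiv MulAction
open Cfsg.Agent.OddHalf.D5.SixAut (θ θ_θ)

/-- a point stabilizer of `S_6` is isomorphic to `S_5` -/
theorem stab_iso (p : Fin 6) : Nonempty (stabilizer (Perm (Fin 6)) p ≃* Perm (Fin 5)) := by
  have hr : (Perm.ofSubtype : Perm {x : Fin 6 // x ≠ p} →* Perm (Fin 6)).range =
      stabilizer (Perm (Fin 6)) p := by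
    ext σ
    constructor
    · rintro ⟨τ, rfl⟩
      rw [MulAction.mem_stabilizer_iff]
      exact Perm.ofSubtype_apply_of_not_mem τ (by simp)
    · intro hσ
      have hσp : σ p = p := hσ
      have h1 : ∀ x, σ x ≠ p ↔ x ≠ p := fun x =>
        not_congr ⟨fun h => σ.injective (h.trans hσp.symm), fun h => by rw [h, hσp]⟩
      refine ⟨σ.subtypePerm h1, ?_⟩
      apply Perm.ofSubtype_subtypePerm
      intro x hx hxp
      exact hx (by rw [hxp, hσp])
  have e1 : Perm {x : Fin 6 // x ≠ p} ≃*
      (Perm.ofSubtype : Perm {x : Fin 6 // x ≠ p} →* Perm (Fin 6)).range :=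
    MonoidHom.ofInjective Perm.ofSubtype_injective
  have e2 : {x : Fin 6 // x ≠ p} ≃ Fin 5 := by
    refine Fintype.equivFinOfCardEq ?_
    rw [Fintype.card_subtype_compl, Fintype.card_subtype_eq, Fintype.card_fin]
  exact ⟨(MulEquiv.subgroupCongr hr.symm).trans (e1.symm.trans e2.permCongrHom)⟩

/-- The symmetric group S_6 has exactly 12 subgroups of index 6; each of them is isomorphic to S_5, and at least one of them is not the stabilizer of any point. -/
theorem result : Nat.card {H : Subgroup (Equiv.Perm (Fin 6)) // H.index = 6} = 12 ∧ (∀ H : Subgroup (Equiv.Perm (Fin 6)), H.index = 6 → Nonempty (H ≃* Equiv.Perm (Fin 5))) ∧ ∃ H : Subgroup (Equiv.Perm (Fin 6)), H.index = 6 ∧ ∀ a : Fin 6, H ≠ MulAction.stabilizer (Equiv.Perm (Fin 6)) a := by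
  have hidx : ∀ p : Fin 6, ((stabilizer (Perm (Fin 6)) p).comap θ).index = 6 := fun p => by
    rw [Subgroup.index_comap_of_surjective _ thE.surjective, index_stab]
  refine ⟨?_, ?_, ?_⟩
  · let f : Fin 6 ⊕ Fin 6 → {H : Subgroup (Equiv.Perm (Fin 6)) // H.index = 6} :=
      Sum.elim (fun p => ⟨stabilizer (Perm (Fin 6)) p, index_stab p⟩)
        (fun p => ⟨(stabilizer (Perm (Fin 6)) p).comap θ, hidx p⟩)
    have hf : Function.Bijective f := by
      constructor
      · rintro (p | p) (q | q) h
        · exact congrArg Sum.inl (stab_inj (Subtype.ext_iff.mp h))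
        · exact (stab_ne_comap p q (Subtype.ext_iff.mp h)).elim
        · exact (stab_ne_comap q p (Subtype.ext_iff.mp h).symm).elim
        · exact congrArg Sum.inr (comap_inj (Subtype.ext_iff.mp h))
      · rintro ⟨H, hH⟩
        rcases classify hH with ⟨p, hp⟩ | ⟨p, hp⟩
        · exact ⟨Sum.inl p, Subtype.ext hp.symm⟩
        · exact ⟨Sum.inr p, Subtype.ext hp.symm⟩
    rw [← Nat.card_eq_of_bijective f hf]
    simp
  · intro H hH
    rcases classify hH with ⟨p, hp⟩ | ⟨p, hp⟩
    · rw [hp]
      exact stab_iso p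
    · obtain ⟨e⟩ := stab_iso p
      have h1 : H = (stabilizer (Perm (Fin 6)) p).map thE.symm.toMonoidHom := by
        rw [hp]
        ext σ
        constructor
        · intro hσ
          exact ⟨θ σ, hσ, θ_θ σ⟩
        · rintro ⟨τ, hτ, rfl⟩
          show θ (θ τ) ∈ stabilizer (Perm (Fin 6)) p
          rw [θ_θ]
          exact hτ
      rw [h1]
      exact ⟨(thE.symm.subgroupMap (stabilizer (Perm (Fin 6)) p)).symm.trans e⟩
  · exact ⟨_, hidx 0, fun a h => stab_ne_comap a 0 h.symm⟩

end Cfsg.Agent.S5945
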