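import Cfsg.Statements.S5950
import Cfsg.Agent.H950.Generic
import Cfsg.Agent.H950.Unip

set_option autoImplicit false
open scoped MatrixGroups
open Cfsg

namespace Cfsg.Agent.S5950

/-- Elements of prime order of PSL_n(q) fixing no decomposition `F^n = U ⊕ W` with `dim U = m`. Here `T = PSL_n(F)` for a field `F` with `q = p^f` elements (`n ≥ 2`, `(n, q) ≠ (2, 2), (2, 3)`); an element of `T` of prime order `r` is represented by a matrix `x` of determinant 1 with `x^r` scalar and `x` not scalar; `i` denotes the multiplicative order of `q` modulo `r` (when `r ≠ p`), and `(a)_r` the `r`-part of `a`. Let `n ≥ 3`, `1 ≤ m < n/2`, and let `r` be a prime dividing the number of such decompositions (unordered pairs `{U, W}` of complementary subspaces with `dim U = m`; since `m ≠ n − m` these are the ordered pairs with `dim U = m`). Then every element of `T` of order `r` fixes such a pair (fixes both `U` and `W` for some complementary `U, W` with `dim U = m`) if and only if one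 of: (i) `r = p > 2` and every partition of `n` into parts of size at most `p` contains, as a sub-multiset, a partition of `m`; (ii) `r = p = 2` and `n` is odd or `m` is even; (iii) `r ≠ p`, `i = 1`, and `r ∣ m` or `(q−1)_r ≥ (n)_r` (with `q ≡ 1 (mod 4)` required when `r = 2` and `n` is even); (iv) `r ≠ p`, `2 ≤ i ≤ m` and `n mod i ≥ m mod i`. -/
theorem result {F : Type*} [Field F] [Fintype F] {p : ℕ} [Fact p.Prime] [CharP F p] {q : ℕ} (hq : Fintype.card F = q)
    (n m : ℕ) (hn : 3 ≤ n) (hm : 1 ≤ m) (hmn : 2 * m < n)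
    (r : ℕ) [Fact r.Prime]
    (hrΩ : r ∣ Nat.card {P : Submodule F (Fin n → F) × Submodule F (Fin n → F) // IsCompl P.1 P.2 ∧ Module.finrank F ↥P.1 = m}) :
    (∀ x : Matrix.SpecialLinearGroup (Fin n) F,
      (∃ c : F, ((x ^ r : Matrix.SpecialLinearGroup (Fin n) F) : Matrix (Fin n) (Fin n) F) = c • (1 : Matrix (Fin n) (Fin n) F)) →
      (∀ c : F, (x : Matrix (Fin n) (Fin n) F) ≠ c • (1 : Matrix (Fin n) (Fin n) F)) →
      ∃ U W : Submodule F (Fin n → F), IsCompl U W ∧ Module.finrank F ↥U = m ∧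
        U.map (Matrix.toLin' (x : Matrix (Fin n) (Fin n) F)) ≤ U ∧ W.map (Matrix.toLin' (x : Matrix (Fin n) (Fin n) F)) ≤ W) ↔
    ((r = p ∧ 2 < p ∧ (∀ μ : Multiset ℕ, (∀ a ∈ μ, 0 < a ∧ a ≤ p) → μ.sum = n → ∃ ν : Multiset ℕ, ν ≤ μ ∧ ν.sum = m)) ∨
     (r = p ∧ p = 2 ∧ (Odd n ∨ Even m)) ∨
     (r ≠ p ∧
      ((orderOf (q : ZMod r) = 1 ∧ (r ∣ m ∨ (padicValNat r n ≤ padicValNat r (q - 1) ∧ (r = 2 → Even n → q % 4 = 1)))) ∨
       (2 ≤ orderOf (q : ZMod r) ∧ orderOf (q : ZMod r) ≤ m ∧ m % orderOf (q : ZMod r) ≤ n % orderOf (q : ZMod r))))) := by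
  classical
  subst hq
  have hrp : r.Prime := Fact.out
  have hq1 : 1 < Fintype.card F := Fintype.one_lt_card
  by_cases hrne : r = p
  · subst hrne
    have key : (∀ x : Matrix.SpecialLinearGroup (Fin n) F,
        (∃ c : F, ((x ^ r : Matrix.SpecialLinearGroup (Fin n) F) : Matrix (Fin n) (Fin n) F) = c • (1 : Matrix (Fin n) (Fin n) F)) →
        (∀ c : F, (x : Matrix (Fin n) (Fin n) F) ≠ c • (1 : Matrix (Fin n) (Fin n) F)) →
        ∃ U W : Submodule F (Fin n → F), IsCompl U W ∧ Module.finrank F ↥U = m ∧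
          U.map (Matrix.toLin' (x : Matrix (Fin n) (Fin n) F)) ≤ U ∧ W.map (Matrix.toLin' (x : Matrix (Fin n) (Fin n) F)) ≤ W) ↔
        (∀ μ : Multiset ℕ, (∀ a ∈ μ, 0 < a ∧ a ≤ r) → μ.sum = n → ∃ ν : Multiset ℕ, ν ≤ μ ∧ ν.sum = m) := by
      constructor
      · intro h μ hμ hμn
        exact H950.unip_forward (by omega) (by omega) h μ hμ hμn
      · rintro h x ⟨c, hx⟩ -
        exact H950.unip_backward (by omega) h x hx
    rw [key]
    constructor
    · intro h
      rcases Nat.lt_or_ge 2 r with h2 | h2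
      · exact Or.inl ⟨rfl, h2, h⟩
      · have h3 : r = 2 := le_antisymm h2 hrp.two_le
        subst h3
        exact Or.inr (Or.inl ⟨rfl, rfl, (H950.two_cond (by omega)).1 h⟩)
    · rintro (⟨-, -, h⟩ | ⟨-, h2, h⟩ | ⟨h, -⟩)
      · exact h
      · subst h2
        exact (H950.two_cond (by omega)).2 h
      · exact absurd rfl h
  · have hrq : ¬ r ∣ Fintype.card F := by
      obtain ⟨k, -, hk⟩ := FiniteField.card F p
      rw [hk]
      intro h
      exact hrne ((Nat.prime_dvd_prime_iff_eq hrp Fact.out).1 (hrp.dvd_of_dvd_pow h))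
    obtain ⟨j, hjm, hj⟩ := H950.exists_of_dvd_card_compl (Module.finrank_fin_fun F) (by omega) rfl hrp hrq hrΩ
    obtain ⟨hrF, -⟩ := H950.cast_ne_zero_of_not_dvd (p := p) hrp hrq
    have hi0 : 0 < orderOf (Fintype.card F : ZMod r) := H951.ord_pos hrF
    obtain ⟨hin, hmodj⟩ := H950.ord_bounds (show j < n by omega) hj
    set i := orderOf (Fintype.card F : ZMod r) with hi
    have hC : (i ≤ m ∧ m % i ≤ n % i) ↔ m % i ≤ n % i := by
      refine ⟨fun h => h.2, fun h => ⟨?_, h⟩⟩
      by_contra hlt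
      rw [Nat.mod_eq_of_lt (by omega)] at h
      omega
    rw [or_iff_right (fun h => hrne h.1), or_iff_right (fun h => hrne h.1), and_iff_right hrne, hC]
    have hinv : ∀ {x : Module.End F (Fin n → F)} {W : Submodule F (Fin n → F)}, H951.Inv x W → W.map x ≤ W :=
      fun h => H951.inv_iff_map.1 h
    refine H950.generic hrF (by omega) hin
      (fun x => ∃ U W : Submodule F (Fin n → F), IsCompl U W ∧ Module.finrank F ↥U = m ∧ U.map x ≤ U ∧ W.map x ≤ W)
      (r ∣ m) (m % i ≤ n % i) ?_ ?_ ?_ ?_ ?_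
    · rintro x d hd ⟨U, W, hUW, hU, hUx, hWx⟩
      exact ⟨U, W, hUW, hU, hinv ((H950.inv_smul_iff hd).1 (H951.inv_iff_map.2 hUx)),
        hinv ((H950.inv_smul_iff hd).1 (H951.inv_iff_map.2 hWx))⟩
    · intro x c hP hx
      have hae : Polynomial.aeval x (Polynomial.X ^ r - Polynomial.C c : Polynomial F) = 0 := by
        rw [map_sub, map_pow, Polynomial.aeval_X, Polynomial.aeval_C, hx, Algebra.algebraMap_eq_smul_one, sub_self]
      constructor
      · rintro ⟨U, W, hUW, hU, hUx, hWx⟩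
        have h1 := H950.natDegree_dvd_of_inv hP hae (H951.inv_iff_map.2 hUx)
        rwa [Polynomial.natDegree_X_pow_sub_C, hU] at h1
      · rintro ⟨k, hk⟩
        obtain ⟨U, -, hU, hUd⟩ := H950.exists_inv_natDegree hP hae (H951.inv_top (x := x)) (j := k) (by
          rw [Polynomial.natDegree_X_pow_sub_C, finrank_top, Module.finrank_fin_fun]; omega)
        rw [Polynomial.natDegree_X_pow_sub_C, ← hk] at hUd
        obtain ⟨W, hW, -, hUW, hUW'⟩ := H951.exists_rel_compl (H950.semisimple_of_irred hP hae) hU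
          (H951.inv_top (x := x)) le_top
        exact ⟨U, W, ⟨disjoint_iff.2 hUW, codisjoint_iff.2 hUW'⟩, hUd, hinv hU, hinv hW⟩
    · intro x hx h
      obtain ⟨U, -, hU, hUd⟩ := H950.exists_inv_of_mod hrF hx (H951.inv_top (x := x)) (m := m)
        (by rw [finrank_top, Module.finrank_fin_fun]; omega)
        (by rw [finrank_top, Module.finrank_fin_fun]; exact h)
      obtain ⟨W, hW, -, hUW, hUW'⟩ := H951.exists_rel_compl (H951.semisimple_of_pow hrF hx) hU
        (H951.inv_top (x := x)) le_top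
      exact ⟨U, W, ⟨disjoint_iff.2 hUW, codisjoint_iff.2 hUW'⟩, hUd, hinv hU, hinv hW⟩
    · rintro x hx hfx ⟨U, W, hUW, hU, hUx, hWx⟩
      have h1 := H950.mod_le_of_inv hrF hx (H951.inv_iff_map.2 hUx)
      rw [hU, ← hi] at h1
      refine h1.trans ?_
      rw [hi, ← hfx]
      exact Submodule.finrank_mono inf_le_right
    · intro h
      change i = 1 at h
      rw [h, Nat.mod_one, Nat.mod_one]

end Cfsg.Agent.S5950
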