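import Cfsg.Statements.S5952
import Cfsg.Agent.H951.Decomp

set_option autoImplicit false
open Cfsg

namespace Cfsg.Agent.S5952

open Module Cfsg.Agent.H951 in
/-- An invariant subspace of `C ⊔ ⨆ U_j` has dimension `dim (W ⊓ C) + a k`. -/
theorem dim_of_inv {F V : Type*} [Field F] [AddCommGroup V] [Module F V] [FiniteDimensional F V]
    {x : Module.End F V} {s a : ℕ} (U : Fin s → Submodule F V) (C : Submodule F V)
    (hUinv : ∀ j, Inv x (U j)) (hUdim : ∀ j, finrank F (U j) = a)
    (hUirr : ∀ j, ∀ W : Submodule F V, W ≤ U j → Inv x W → W = ⊥ ∨ W = U j) (hC : Inv x C)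
    (S : Finset (Fin s)) : ∀ W : Submodule F V, Inv x W → W ≤ C ⊔ ⨆ j ∈ S, U j →
      ∃ k, finrank F W = finrank F ↥(W ⊓ C) + a * k := by
  classical
  induction S using Finset.induction_on with
  | empty =>
    intro W hW hle
    refine ⟨0, ?_⟩
    have : W ⊓ C = W := by
      rw [inf_eq_left]
      simpa using hle
    rw [this]; simp
  | insert j S hj ih =>
    intro W hW hle
    set X := C ⊔ ⨆ i ∈ S, U i with hX
    have hXinv : Inv x X := hC.sup (Inv.iSup fun i => Inv.iSup fun _ => hUinv i)
    have hle' : W ≤ X ⊔ U j := by
      rw [Finset.iSup_insert] at hle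
      refine hle.trans ?_
      rw [hX, sup_assoc, sup_comm (⨆ i ∈ S, U i)]
    have hmod : X ⊔ ((W ⊔ X) ⊓ U j) = W ⊔ X := by
      have h1 : X ≤ W ⊔ X := le_sup_right
      rw [inf_comm, ← sup_inf_assoc_of_le (U j) h1]
      exact inf_eq_right.2 (sup_le hle' le_sup_left)
    by_cases hWX : W ≤ X
    · exact ih W hW hWX
    · have h2 : (W ⊔ X) ⊓ U j = U j := by
        refine (hUirr j _ inf_le_right ((hW.sup hXinv).inf (hUinv j))).resolve_left ?_
        intro h
        rw [h, sup_bot_eq] at hmod
        exact hWX (by rw [hmod]; exact le_sup_left)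
      rw [h2] at hmod
      have h3 : X ⊓ U j = ⊥ := by
        refine (hUirr j _ inf_le_right (hXinv.inf (hUinv j))).resolve_right ?_
        intro h
        have : U j ≤ X := inf_eq_right.1 h
        rw [sup_eq_left.2 this] at hmod
        exact hWX (by rw [hmod]; exact le_sup_left)
      have h4 := finrank_sup_of_disj h3
      rw [hmod, hUdim] at h4
      have h5 := Submodule.finrank_sup_add_finrank_inf_eq W X
      obtain ⟨k, hk⟩ := ih (W ⊓ X) (hW.inf hXinv) inf_le_right
      have h6 : W ⊓ X ⊓ C = W ⊓ C := by
        rw [inf_assoc, inf_eq_right.2 (show C ≤ X from le_sup_left)]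
      rw [h6] at hk
      refine ⟨k + 1, ?_⟩
      rw [mul_add, mul_one]
      omega

/-- Which dimensions of invariant subspaces a semisimple linear map has. Let `V` be a finite-dimensional vector space over a field `F` and `f` an invertible semisimple linear map of `V`. Suppose `V` is the internal direct sum of the fixed space `C_V(f)` (the eigenspace for 1) and subspaces `U_1, …, U_s`, each `f`-invariant of dimension `a ≥ 1` on which `f` acts irreducibly (no `f`-invariant subspaces other than 0 and `U_j`). Let `0 < m < dim V` and `ℓ = m mod a`. Then `f` leaves some `m`-dimensional subspace invariant if and only if `dim C_V(f) ≥ m`, or `a ≤ m` and `dim C_V(f) ≥ ℓ`. -/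
theorem result {F V : Type*} [Field F] [AddCommGroup V] [Module F V]
    [FiniteDimensional F V] (f : V →ₗ[F] V) (hf : Function.Bijective f) (hss : Module.End.IsSemisimple f)
    {s a : ℕ} (ha : 1 ≤ a) (U : Fin s → Submodule F V)
    (hUinv : ∀ j, (U j).map f ≤ U j) (hUdim : ∀ j, Module.finrank F ↥(U j) = a)
    (hUirr : ∀ j, ∀ W : Submodule F V, W ≤ U j → W.map f ≤ W → W = ⊥ ∨ W = U j)
    (hdec : DirectSum.IsInternal (fun o : Option (Fin s) => o.elim (Module.End.eigenspace f 1) U))
    (m : ℕ) (hm : 0 < m) (hmV : m < Module.finrank F V) :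
    (∃ W : Submodule F V, Module.finrank F ↥W = m ∧ W.map f ≤ W) ↔
    (m ≤ Module.finrank F ↥(Module.End.eigenspace f 1) ∨
      (a ≤ m ∧ m % a ≤ Module.finrank F ↥(Module.End.eigenspace f 1))) := by
  classical
  set C : Submodule F V := Module.End.eigenspace f 1 with hC
  have hCmem : ∀ v, v ∈ C ↔ f v = v := fun v => by
    rw [hC, Module.End.mem_eigenspace_iff, one_smul]
  have hCsub : ∀ W ≤ C, H951.Inv f W := by
    intro W hW w hw
    rw [(hCmem w).1 (hW hw)]
    exact hw
  have htop : C ⊔ ⨆ j ∈ (Finset.univ : Finset (Fin s)), U j = ⊤ := by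
    have := hdec.submodule_iSup_eq_top
    rw [iSup_option] at this
    simpa using this
  have hind : iSupIndep (fun o : Option (Fin s) => o.elim C U) := hdec.submodule_iSupIndep
  have hUinv' : ∀ j, H951.Inv f (U j) := fun j => H951.inv_iff_map.2 (hUinv j)
  have hdim : Module.finrank F V = Module.finrank F C + s * a := by
    have h1 := H951.finrank_iSup_of_indep _ hind
    rw [hdec.submodule_iSup_eq_top, finrank_top, Fintype.sum_option] at h1
    have h2 : ∑ i, Module.finrank F ↥(U i) = s * a := by
      rw [Finset.sum_congr rfl (fun i _ => hUdim i)]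
      simp
    rw [← h2]
    exact h1
  constructor
  · rintro ⟨W, hWm, hW⟩
    obtain ⟨k, hk⟩ := dim_of_inv U C hUinv' hUdim
      (fun j W hW hWi => hUirr j W hW (H951.inv_iff_map.1 hWi)) (hCsub C le_rfl) Finset.univ W
      (H951.inv_iff_map.2 hW) (by rw [htop]; exact le_top)
    have h1 : Module.finrank F ↥(W ⊓ C) ≤ Module.finrank F C := Submodule.finrank_mono inf_le_right
    rw [hWm] at hk
    rcases Nat.eq_zero_or_pos k with h0 | h0
    · left; rw [h0, mul_zero, add_zero] at hk; omega
    · right
      refine ⟨?_, ?_⟩
      · rw [hk]; nlinarith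
      · rw [hk, Nat.add_mul_mod_self_left]
        exact (Nat.mod_le _ _).trans h1
  · intro h
    have h' : m % a ≤ Module.finrank F C := by
      rcases h with h | h
      · exact (Nat.mod_le _ _).trans h
      · exact h.2
    -- number of irreducible summands used
    set t := min (m / a) s with ht
    have hts : t ≤ s := min_le_right _ _
    have hta : a * t ≤ m := (Nat.mul_le_mul_left a (min_le_left _ _)).trans (Nat.mul_div_le m a)
    have hrest : m - a * t ≤ Module.finrank F C := by
      rcases le_total (m / a) s with h2 | h2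
      · rw [ht, min_eq_left h2]
        have := Nat.div_add_mod m a
        omega
      · rw [ht, min_eq_right h2]
        rw [mul_comm a s]
        omega
    obtain ⟨C', hC', hC'd⟩ := H951.exists_sub C hrest
    obtain ⟨S, -, hS⟩ := Finset.exists_subset_card_eq (s := (Finset.univ : Finset (Fin s))) (n := t) (by simpa using hts)
    let D : Option (Fin s) → Submodule F V := fun o => o.elim C' (fun j => if j ∈ S then U j else ⊥)
    have hD : iSupIndep D := by
      refine hind.mono ?_
      rintro (_ | j)
      · exact hC'
      · change (if j ∈ S then U j else ⊥) ≤ U j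
        split_ifs
        · exact le_rfl
        · exact bot_le
    refine ⟨⨆ o, D o, ?_, ?_⟩
    · rw [H951.finrank_iSup_of_indep _ hD, Fintype.sum_option]
      have h3 : ∀ j, Module.finrank F (D (some j)) = if j ∈ S then a else 0 := by
        intro j
        by_cases hj : j ∈ S
        · have h5 : D (some j) = U j := if_pos hj
          rw [h5, if_pos hj]
          exact hUdim j
        · have h5 : D (some j) = ⊥ := if_neg hj
          rw [h5, if_neg hj]
          exact finrank_bot F V
      simp only [h3]
      have h4 : Module.finrank F (D none) = m - a * t := hC'd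
      rw [h4, Finset.sum_ite_mem, Finset.univ_inter, Finset.sum_const, hS, smul_eq_mul, mul_comm t a]
      omega
    · rw [← H951.inv_iff_map]
      refine H951.Inv.iSup fun o => ?_
      rcases o with _ | j
      · exact hCsub C' hC'
      · change H951.Inv f (if j ∈ S then U j else ⊥)
        split_ifs
        · exact hUinv' j
        · exact H951.inv_bot

end Cfsg.Agent.S5952
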