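import Cfsg.Statements.S5953
import Cfsg.Agent.H950.UEx2
import Cfsg.Agent.H950.UTwo

set_option autoImplicit false
open scoped MatrixGroups
open Cfsg

namespace Cfsg.Agent.S5953

open Module Polynomial Cfsg.Agent.H951 Cfsg.Agent.H950 Cfsg.Agent.LieClassical.HermBasic

/-- Elements of prime order of PSU_n(q) with no fixed totally isotropic `m`-space. Here `T = PSU_n(q)` (`n ≥ 3`, `(n, q) ≠ (3, 2)`), realised through the matrices of determinant 1 over the field `F` with `q²` elements preserving the Hermitian form `h(u, v) = Σ u_i v_i^q`; an element of `T` of prime order `r` is such a matrix `x` with `x^r` scalar and `x` not scalar. For `r ≠ p` let `i` be the multiplicative order of `q` modulo `r`, `b = i/2` for `i` even and `b = i` for `i` odd, `c = i, i/2, 2i` according as `i ≡ 0, 2 (mod 4)` or `i` odd, and write `k = n mod c`, `ℓ = m mod b`, `ℓ' = m mod c`, `n' = ⌊n/b⌋`, `m' = ⌊m/b⌋`, `s = (r−1)/b`; `(a)_r` is the `r`-part of `a`. Let `1 ≤ m ≤ n/2` and let `r` be a prime dividing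 the number of totally isotropic `m`-spaces. Then every element of `T` of order `r` fixes a totally isotropic `m`-space if and only if either (i) `r = 2`, `p ≠ 2`, and `m < n/2` or `(q+1)_2 ≤ (n)_2`; or (ii) `r ≠ p`, `r > 2`, `b ≤ m`, `k ≥ 2ℓ`, and either `i ≢ 2 (mod 4)`, or `i ≡ 2 (mod 4)`, `n' − 2m' ≥ s` and (`i > 2`, or `i = 2` and `r ∣ m` or `(q+1)_r ≥ (n)_r`). -/
theorem result {F : Type*} [Field F] [Fintype F] {p : ℕ} [Fact p.Prime] [CharP F p] {q : ℕ} (hq : Fintype.card F = q ^ 2)
    (n m : ℕ) (hn : 3 ≤ n) (hT : (n, q) ≠ (3, 2)) (hm : 1 ≤ m) (hmn : 2 * m ≤ n)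
    (r : ℕ) [Fact r.Prime]
    (hrΩ : r ∣ Nat.card {W : Submodule F (Fin n → F) // Module.finrank F ↥W = m ∧ (∀ u ∈ W, ∀ v ∈ W, Cfsg.hermForm n F q u v = 0)})
    (i b c : ℕ) (hi : i = orderOf (q : ZMod r)) (hb : b = if Even i then i / 2 else i)
    (hc : c = if i % 4 = 0 then i else if i % 4 = 2 then i / 2 else 2 * i) :
    (∀ x : Matrix.SpecialLinearGroup (Fin n) F, x ∈ Cfsg.SU n F q →
      (∃ z : F, ((x ^ r : Matrix.SpecialLinearGroup (Fin n) F) : Matrix (Fin n) (Fin n) F) = z • (1 : Matrix (Fin n) (Fin n) F)) →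
      (∀ z : F, (x : Matrix (Fin n) (Fin n) F) ≠ z • (1 : Matrix (Fin n) (Fin n) F)) →
      ∃ W : Submodule F (Fin n → F), Module.finrank F ↥W = m ∧ (∀ u ∈ W, ∀ v ∈ W, Cfsg.hermForm n F q u v = 0) ∧
        W.map (Matrix.toLin' (x : Matrix (Fin n) (Fin n) F)) ≤ W) ↔
    ((r = 2 ∧ p ≠ 2 ∧ (2 * m < n ∨ padicValNat 2 (q + 1) ≤ padicValNat 2 n)) ∨
     (r ≠ p ∧ 2 < r ∧ b ≤ m ∧ 2 * (m % b) ≤ n % c ∧
       (i % 4 ≠ 2 ∨ (i % 4 = 2 ∧ (r - 1) / b + 2 * (m / b) ≤ n / b ∧
         (2 < i ∨ (i = 2 ∧ (r ∣ m ∨ padicValNat r n ≤ padicValNat r (q + 1)))))))) := by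
  classical
  have hF := hq
  have hrp : r.Prime := Fact.out
  have hpp : p.Prime := Fact.out
  have hq2 : 2 ≤ q := two_le hF
  have hpq : p ∣ q := by
    obtain ⟨e, -, he⟩ := FiniteField.card F p
    have h1 : p ∣ q ^ 2 := by rw [← hF, he]; exact dvd_pow_self p e.2.ne'
    exact hpp.dvd_of_dvd_pow h1
  obtain ⟨j, hj, hjq⟩ := exists_of_dvd_card_ti hF hmn hrp hrΩ
  have hnj : 0 < n - j := by omega
  have hrq : ¬ r ∣ q := by
    intro h
    rw [(ZMod.natCast_eq_zero_iff q r).2 h, neg_zero, zero_pow hnj.ne'] at hjq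
    exact zero_ne_one hjq
  have hr : (r : F) ≠ 0 := by
    intro h
    rw [CharP.cast_eq_zero_iff F p] at h
    rw [(Nat.prime_dvd_prime_iff_eq hpp hrp).1 h] at hpq
    exact hrq hpq
  have hrp' : r ≠ p := by rintro rfl; exact hrq hpq
  have hinj0 : ∀ {x : Matrix.SpecialLinearGroup (Fin n) F} {W : Submodule F (Fin n → F)},
      W.map (Matrix.toLin' (x : Matrix (Fin n) (Fin n) F)) ≤ W ↔
        Inv (Matrix.toLin' (x : Matrix (Fin n) (Fin n) F)) W := fun {x W} => inv_iff_map.symm
  -- a scalar fixes everything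
  have hscal : ∀ {x : Matrix.SpecialLinearGroup (Fin n) F}, (∀ W : Submodule F (Fin n → F),
      TI (hermForm n F q) W → Inv (Matrix.toLin' (x : Matrix (Fin n) (Fin n) F)) W → finrank F W ≠ m) →
      ∀ z : F, (x : Matrix (Fin n) (Fin n) F) ≠ z • (1 : Matrix (Fin n) (Fin n) F) := by
    intro x hx z hz
    obtain ⟨W, -, hWti, hWd⟩ := exists_ti_plain hF (nd_top hF n) (k := m) (by
      rw [finrank_top, finrank_fin_fun]; exact hmn)
    refine hx W hWti ?_ hWd
    intro w hw
    rw [hz, map_smul, Matrix.toLin'_one, LinearMap.smul_apply]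
    exact W.smul_mem z hw
  have hpow : ∀ {x : Matrix.SpecialLinearGroup (Fin n) F} {z : F},
      ((x ^ r : Matrix.SpecialLinearGroup (Fin n) F) : Matrix (Fin n) (Fin n) F) = z • (1 : Matrix (Fin n) (Fin n) F) ↔
      (x : Matrix (Fin n) (Fin n) F) ^ r = z • (1 : Matrix (Fin n) (Fin n) F) := by
    intro x z
    rw [Matrix.SpecialLinearGroup.coe_pow]
  by_cases hr2 : r = 2
  · -- `r = 2`
    subst hr2
    have h2 : ((2 : ℕ) : F) ≠ 0 := hr
    have hqo : Odd q := by
      rw [← Nat.not_even_iff_odd, even_iff_two_dvd]; exact hrq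
    constructor
    · intro H
      left
      refine ⟨rfl, hrp'.symm, ?_⟩
      by_contra hcon
      push Not at hcon
      obtain ⟨x, hx, ⟨z, hz⟩, hns, hW⟩ := two_nec hF h2 hqo (n := n) (by omega) hcon.2
      obtain ⟨W, hWd, hWti, hWi⟩ := H x hx ⟨z, hpow.2 hz⟩ hns
      have := hW W hWti (hinj0.1 hWi)
      omega
    · rintro (⟨-, -, hcond⟩ | ⟨-, h, -⟩)
      · intro x hx ⟨z, hz⟩ _
        obtain ⟨W, hWd, hWti, hWi⟩ := two_suff hF h2 hqo (by omega) hmn hcond hx (hpow.1 hz)
        exact ⟨W, hWd, hWti, hinj0.2 hWi⟩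
      · omega
  -- `r` odd
  have hodd : Odd r := hrp.odd_of_ne_two hr2
  have hr3 : 2 < r := lt_of_le_of_ne hrp.two_le (Ne.symm hr2)
  obtain ⟨hi0, hb0, hbo, hco, hcase, hbr⟩ := orders hr2 hrq hi hb hc
  have hbo' : b = orderOf (Fintype.card F : ZMod r) := by rw [hbo, hF]
  have hc0 : 0 < c := by
    rcases hcase with ⟨h, -⟩ | ⟨h, -⟩ <;> omega
  -- `i = 2` iff `r ∣ q + 1`
  have hi2 : r ∣ q + 1 → i = 2 := by
    intro h
    have h1 : (q : ZMod r) = -1 := by
      rw [← ZMod.natCast_eq_zero_iff] at h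
      push_cast at h
      exact eq_neg_of_add_eq_zero_left h
    rw [hi, h1, orderOf_neg_one, ZMod.ringChar_zmod_n, if_neg hr2]
  have hi2' : i = 2 → r ∣ q + 1 := by
    intro h
    have h1 : (q : ZMod r) ^ 2 = 1 := by rw [← h, hi]; exact pow_orderOf_eq_one _
    have h2 : (q : ZMod r) ≠ 1 := by
      intro h3
      rw [h3, orderOf_one] at hi
      omega
    have h3 : ((q : ZMod r) - 1) * ((q : ZMod r) + 1) = 0 := by linear_combination h1
    have h4 := (mul_eq_zero.1 h3).resolve_left (sub_ne_zero.2 h2)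
    rw [← ZMod.natCast_eq_zero_iff]
    push_cast
    exact h4
  have hcnj : c ∣ n - j := by rw [hco]; exact orderOf_dvd_of_pow_eq_one hjq
  have hnc : n % c ≤ j := by
    obtain ⟨t, ht⟩ := hcnj
    have : n = j + c * t := by omega
    rw [this, Nat.add_mul_mod_self_left]
    exact Nat.mod_le _ _
  constructor
  · intro H
    right
    refine ⟨hrp', hr3, ?_⟩
    have hfirst : b ≤ m ∧ 2 * (m % b) ≤ n % c := by
      by_cases h2 : i = 2
      · have hb1 : b = 1 := by rw [hb, if_pos (by rw [h2]; exact even_two), h2]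
        rw [hb1]
        refine ⟨hm, ?_⟩
        rw [Nat.mod_one, mul_zero]; exact Nat.zero_le _
      · have hrq1 : ¬ r ∣ q + 1 := fun h => h2 (hi2 h)
        obtain ⟨x, hx, hxr, hxf⟩ := nec_one hF hr hrq hrq1 hco hc0 n
        have hxi := isom_of_SU hx
        have hxr' : (Matrix.toLin' (x : Matrix (Fin n) (Fin n) F)) ^ r = 1 := by rw [toLin'_pow_eq hxr, one_smul]
        have hns : ∀ z : F, (x : Matrix (Fin n) (Fin n) F) ≠ z • (1 : Matrix (Fin n) (Fin n) F) := by
          intro z hz
          have h3 : Matrix.toLin' (x : Matrix (Fin n) (Fin n) F) = z • (1 : Module.End F (Fin n → F)) := by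
            rw [hz, map_smul, Matrix.toLin'_one]; rfl
          have h4 := norm_of_scalar hF (show 0 < n by omega) hxi (r := 1) (z := z) (by rw [pow_one, h3])
          have h5 : z ^ r = 1 := by
            have h6 := hxr'
            rw [h3, _root_.smul_pow, one_pow] at h6
            have h7 := LinearMap.congr_fun h6 (Pi.single ⟨0, by omega⟩ 1)
            have h8 := congrFun h7 ⟨0, by omega⟩
            simpa using h8
          have h6 := Nat.dvd_gcd (orderOf_dvd_of_pow_eq_one h4) (orderOf_dvd_of_pow_eq_one h5)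
          have h7 : Nat.gcd (q + 1) r = 1 := (Nat.coprime_comm.1 ((Nat.Prime.coprime_iff_not_dvd hrp).2 hrq1))
          rw [h7, Nat.dvd_one, orderOf_eq_one_iff] at h6
          rw [h6, one_smul] at h3
          rw [h3, fx_one', finrank_top, finrank_fin_fun] at hxf
          have h8 : c ≤ n := (Nat.le_of_dvd hnj hcnj).trans (Nat.sub_le _ _)
          have h9 := Nat.mod_lt n hc0
          omega
        obtain ⟨W, hWd, hWti, hWi⟩ := H x hx ⟨1, hpow.2 hxr⟩ hns
        have hWi' := hinj0.1 hWi
        have h3 := mod_le_of_inv hr hxr' hWi'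
        rw [hWd, ← hbo'] at h3
        have hCn : Nd (hermForm n F q) (fx (Matrix.toLin' (x : Matrix (Fin n) (Fin n) F))) := by
          have := hxi.nd_inf_fx (frm_herm hF n) hr hxr' inv_top (nd_top hF n)
          rwa [top_inf_eq] at this
        have h4 := (frm_herm hF n).two_mul_finrank_le hCn (inf_le_right : W ⊓ fx _ ≤ _)
          (fun u hu v hv => hWti u hu.1 v hv.1)
        rw [hxf] at h4
        have h5 : 2 * (m % b) ≤ n % c := by omega
        refine ⟨?_, h5⟩
        by_contra hlt
        rw [Nat.mod_eq_of_lt (by omega)] at h5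
        omega
    refine ⟨hfirst.1, hfirst.2, ?_⟩
    by_cases hi4 : i % 4 = 2
    · right
      refine ⟨hi4, ?_, ?_⟩
      · -- (N2)
        obtain ⟨hcb, -, hbodd, hib, hev⟩ := hcase.resolve_left (fun h => h.2 hi4)
        by_contra hlt
        push Not at hlt
        have hmb : 1 ≤ m / b := (Nat.one_le_div_iff hb0).2 hfirst.1
        have hmn' : 2 * (m / b) ≤ n / b := by
          rw [Nat.le_div_iff_mul_le hb0]
          have := Nat.div_mul_le_self m b
          calc 2 * (m / b) * b = 2 * (m / b * b) := by ring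
            _ ≤ 2 * m := Nat.mul_le_mul_left 2 this
            _ ≤ n := hmn
        have hfin : ∀ A : ℕ, n / b + 1 ≤ A + 2 * (m / b) →
            ∀ x : Matrix.SpecialLinearGroup (Fin n) F, x ∈ SU n F q →
            (x : Matrix (Fin n) (Fin n) F) ^ r = (1 : F) • (1 : Matrix (Fin n) (Fin n) F) →
            (∀ W : Submodule F (Fin n → F), TI (hermForm n F q) W →
              Inv (Matrix.toLin' (x : Matrix (Fin n) (Fin n) F)) W → 2 * finrank F W ≤ n - b * A) → False := by
          intro A hA x hx hxr hW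
          have hlt' : n - b * A < 2 * m := by
            have h3 := Nat.div_add_mod n b
            have h4 := Nat.mod_lt n hb0
            have h5 := Nat.div_mul_le_self m b
            have h6 : b * (n / b + 1) ≤ b * (A + 2 * (m / b)) := Nat.mul_le_mul_left b hA
            rw [mul_add, mul_add, mul_one] at h6
            have h7 : b * (2 * (m / b)) = 2 * (m / b * b) := by ring
            omega
          have hne : ∀ W : Submodule F (Fin n → F), TI (hermForm n F q) W →
              Inv (Matrix.toLin' (x : Matrix (Fin n) (Fin n) F)) W → finrank F W ≠ m := by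
            intro W h3 h4 h5
            have := hW W h3 h4
            omega
          obtain ⟨W, hWd, hWti, hWi⟩ := H x hx ⟨1, hpow.2 hxr⟩ (hscal hne)
          exact hne W hWti (hinj0.1 hWi) hWd
        have hbs : b * ((r - 1) / b) = r - 1 := Nat.mul_div_cancel' hbr
        by_cases h2 : i = 2
        · have hb1 : b = 1 := by omega
          subst hb1
          rw [Nat.div_one] at hev hlt hmb hmn'
          rw [Nat.div_one] at hlt hmn'
          rw [Nat.div_one] at hlt
          obtain ⟨e, he⟩ := hev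
          -- A even in {n-2m+1, n-2m+2}
          obtain ⟨t, ht1, ht2, ht3⟩ : ∃ t, n + 1 ≤ 2 * t + 2 * m ∧ 2 * t ≤ r - 1 ∧ 2 * t ≤ n :=
            ⟨(n - 2 * m + 2) / 2, by omega, by omega, by omega⟩
          obtain ⟨x, hx, hxr, hW⟩ := nec_two' (n := n) hF (hi2' h2) ht2 ht3
          exact hfin (2 * t) (by simpa using ht1) x hx hxr (by rw [one_mul]; exact hW)
        · have hrq1 : ¬ r ∣ q + 1 := fun h => h2 (hi2 h)
          have hA1 : n / b + 1 - 2 * (m / b) ≤ (r - 1) / b := by omega
          have hA2 : b * (n / b + 1 - 2 * (m / b)) ≤ r - 1 := by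
            rw [← hbs]; exact Nat.mul_le_mul_left b hA1
          have hA3 : b * (n / b + 1 - 2 * (m / b)) ≤ n := by
            refine (Nat.mul_le_mul_left b (show n / b + 1 - 2 * (m / b) ≤ n / b by omega)).trans ?_
            exact Nat.mul_div_le n b
          obtain ⟨x, hx, hxr, hW⟩ := nec_two hF hr hrq hrq1 hbo' (hcb ▸ hco) hb0 hA2 hA3
          exact hfin _ (by omega) x hx hxr hW
      · rcases Nat.lt_or_ge 2 i with h2 | h2
        · exact Or.inl h2
        · right
          have h2' : i = 2 := by omega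
          refine ⟨h2', ?_⟩
          by_contra hcon
          push Not at hcon
          obtain ⟨x, z, hx, hxr, hz, hirr⟩ := nec_three hF hr2 (hi2' h2') (show n ≠ 0 by omega) hcon.2
          have hns : ∀ z' : F, (x : Matrix (Fin n) (Fin n) F) ≠ z' • (1 : Matrix (Fin n) (Fin n) F) := by
            intro z' hz'
            apply hz z'
            rw [hz', _root_.smul_pow, one_pow] at hxr
            have h3 := congrFun (congrFun hxr ⟨0, by omega⟩) ⟨0, by omega⟩
            simpa using h3
          obtain ⟨W, hWd, hWti, hWi⟩ := H x hx ⟨z, hpow.2 hxr⟩ hns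
          have h3 := natDegree_dvd_of_inv hirr (aeval_toLin'_eq hxr) (hinj0.1 hWi)
          rw [natDegree_X_pow_sub_C, hWd] at h3
          exact hcon.1 h3
    · exact Or.inl hi4
  · rintro (⟨h, -⟩ | ⟨-, -, hbm, hmod, hcond⟩)
    · exact absurd h hr2
    intro x hx ⟨z, hz⟩ _
    rw [hpow] at hz
    have hxi := isom_of_SU hx
    have hz' := toLin'_pow_eq hz
    have hzn := norm_of_scalar hF (show 0 < n by omega) hxi hz'
    suffices hgoal : ∃ W : Submodule F (Fin n → F), finrank F W = m ∧ TI (hermForm n F q) W ∧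
        Inv (Matrix.toLin' (x : Matrix (Fin n) (Fin n) F)) W by
      obtain ⟨W, h1, h2, h3⟩ := hgoal
      exact ⟨W, h1, h2, hinj0.2 h3⟩
    by_cases hw : ∃ w : F, w ^ (q + 1) = 1 ∧ w ^ r = z
    · obtain ⟨w, hw1, hw2⟩ := hw
      have hw0 : w ≠ 0 := by
        rintro rfl
        rw [zero_pow (by omega)] at hw1
        exact zero_ne_one hw1
      have hyr := rescale_pow hz' hw2 hw0
      have hyi := isom_smul hxi hw1
      obtain ⟨W, h1, h2, h3⟩ := suff_A hF hr hr2 hrq hyi hyr hbo' hco hb0 hbr hmn hmod (by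
        rcases hcase with ⟨h1, -⟩ | ⟨h1, h2, -⟩
        · exact Or.inl h1
        · refine Or.inr ⟨h1, ?_⟩
          rcases hcond with h3 | ⟨-, h3, -⟩
          · exact absurd h2 h3
          · exact h3)
      exact ⟨W, h1, h2, (inv_smul_iff (inv_ne_zero hw0)).1 h3⟩
    · have hrq1 : r ∣ q + 1 := by
        by_contra h
        exact hw (exists_norm_root_of_not_dvd h hzn)
      have hznp : ∀ d : F, d ^ r ≠ z := by
        intro d hd
        exact hw ⟨d, norm_root hF (not_dvd_sub_of_dvd_add hrp hr2 (by omega) hrq1) hzn hd, hd⟩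
      have hirr : Irreducible (X ^ r - C z : F[X]) := X_pow_sub_C_irreducible_of_prime hrp hznp
      have hdet := det_of_irred _ hz hirr hrp.pos
      have hd1 : (x : Matrix (Fin n) (Fin n) F).det = 1 := x.det_coe
      rw [hd1, ((hodd).add_one).neg_one_pow, one_mul] at hdet
      have hlt := padic_lt_of_nonpower hF hr2 hrq1 (show n ≠ 0 by omega) hdet.1 hznp hdet.2.symm
      have hi2'' := hi2 hrq1
      have hrm : r ∣ m := by
        rcases hcond with h3 | ⟨-, -, h3 | ⟨-, h3 | h3⟩⟩
        · rw [hi2''] at h3; exact absurd rfl h3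
        · omega
        · exact h3
        · omega
      exact suff_B hF hodd hxi hz' hirr hrm hmn

end Cfsg.Agent.S5953
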