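import Cfsg.Statements.S5955
import Cfsg.Agent.H951.STIOdd

set_option autoImplicit false
open scoped MatrixGroups
open Cfsg

namespace Cfsg.Agent.S5955

/-- Elements of prime order of PSp_n(q) with no fixed totally isotropic `m`-space. Here `T = PSp_n(q)` with `n = 2d ≥ 4`, `(n, q) ≠ (4, 2)`, realised through the symplectic matrices over the field `F` with `q` elements (preserving the standard alternating form); an element of `T` of prime order `r` is such a matrix `x` with `x^r` scalar and `x` not scalar. For `r ≠ p` let `i` be the multiplicative order of `q` modulo `r`, `c = i` for `i` even and `c = 2i` for `i` odd, and write `k = n mod c`, `ℓ = m mod i`, `ℓ' = m mod c`, `n' = ⌊n/i⌋`, `m' = ⌊m/i⌋`, `t = (r−1)/i`. Let `1 ≤ m ≤ n/2` and let `r` be a prime dividing the number of totally isotropic `m`-spaces. Then every element of `T` of order `r` fixes a totally isotropic `m`-space if and only if either (i)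 `r = 2 ≠ p` and `m` is even or `q ≡ 1 (mod 4)`; or (ii) `r ≠ p`, `r > 2`, `i ≤ m`, `k ≥ 2ℓ`, and `i` is odd or `n' − 2m' ≥ t`. -/
theorem result {F : Type*} [Field F] [Fintype F] {p : ℕ} [Fact p.Prime] [CharP F p] {q : ℕ} (hq : Fintype.card F = q)
    (d m : ℕ) (hd : 2 ≤ d) (hT : (d, q) ≠ (2, 2)) (hm : 1 ≤ m) (hmd : m ≤ d)
    (r : ℕ) [Fact r.Prime]
    (hrΩ : r ∣ Nat.card {W : Submodule F (Fin d ⊕ Fin d → F) // Module.finrank F ↥W = m ∧ (∀ u ∈ W, ∀ v ∈ W, Cfsg.sympForm d F u v = 0)})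
    (i c : ℕ) (hi : i = orderOf (q : ZMod r)) (hc : c = if Even i then i else 2 * i) :
    (∀ x : ↥(Matrix.symplecticGroup (Fin d) F),
      (∃ z : F, ((x ^ r : ↥(Matrix.symplecticGroup (Fin d) F)) : Matrix (Fin d ⊕ Fin d) (Fin d ⊕ Fin d) F) = z • (1 : Matrix (Fin d ⊕ Fin d) (Fin d ⊕ Fin d) F)) →
      (∀ z : F, (x : Matrix (Fin d ⊕ Fin d) (Fin d ⊕ Fin d) F) ≠ z • (1 : Matrix (Fin d ⊕ Fin d) (Fin d ⊕ Fin d) F)) →
      ∃ W : Submodule F (Fin d ⊕ Fin d → F), Module.finrank F ↥W = m ∧ (∀ u ∈ W, ∀ v ∈ W, Cfsg.sympForm d F u v = 0) ∧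
        W.map (Matrix.toLin' (x : Matrix (Fin d ⊕ Fin d) (Fin d ⊕ Fin d) F)) ≤ W) ↔
    ((r = 2 ∧ p ≠ 2 ∧ (Even m ∨ q % 4 = 1)) ∨
     (r ≠ p ∧ 2 < r ∧ i ≤ m ∧ 2 * (m % i) ≤ (2 * d) % c ∧ (Odd i ∨ (r - 1) / i + 2 * (m / i) ≤ (2 * d) / i))) := by
  have hF : Fintype.card F = q := hq
  have hrP : r.Prime := Fact.out
  have hpP : p.Prime := Fact.out
  have key : (∀ x : ↥(Matrix.symplecticGroup (Fin d) F),
      (∃ z : F, ((x ^ r : ↥(Matrix.symplecticGroup (Fin d) F)) : Matrix (Fin d ⊕ Fin d) (Fin d ⊕ Fin d) F) = z • (1 : Matrix (Fin d ⊕ Fin d) (Fin d ⊕ Fin d) F)) →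
      (∀ z : F, (x : Matrix (Fin d ⊕ Fin d) (Fin d ⊕ Fin d) F) ≠ z • (1 : Matrix (Fin d ⊕ Fin d) (Fin d ⊕ Fin d) F)) →
      ∃ W : Submodule F (Fin d ⊕ Fin d → F), Module.finrank F ↥W = m ∧ (∀ u ∈ W, ∀ v ∈ W, Cfsg.sympForm d F u v = 0) ∧
        W.map (Matrix.toLin' (x : Matrix (Fin d ⊕ Fin d) (Fin d ⊕ Fin d) F)) ≤ W) ↔
      H951.SStat F d r (fun W => Module.finrank F ↥W = m ∧ H951.TI (sympForm d F) W) := by
    rw [H951.SStat, ← H951.sstat_iff]
    constructor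
    · intro h x h1 h2
      obtain ⟨W, h3, h4, h5⟩ := h x h1 h2
      exact ⟨W, ⟨h3, h4⟩, h5⟩
    · intro h x h1 h2
      obtain ⟨W, ⟨h3, h4⟩, h5⟩ := h x h1 h2
      exact ⟨W, h3, h4, h5⟩
  rw [key]
  by_cases hrp : r = p
  · subst hrp
    exact absurd hrΩ (H951.not_dvd_card_ti (p := r) hF hmd)
  · have hrF : (r : F) ≠ 0 := by
      intro h
      rw [CharP.cast_eq_zero_iff F p] at h
      exact hrp ((Nat.prime_dvd_prime_iff_eq hpP hrP).1 h).symm
    by_cases h2 : r = 2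
    · subst h2
      have h2F : (2 : F) ≠ 0 := by exact_mod_cast hrF
      have hqo : q % 2 = 1 := by
        by_contra hqe
        obtain ⟨k, -, hk⟩ := FiniteField.card F p
        have h4 : 2 ∣ p ^ (k : ℕ) := by rw [← hk, hF]; omega
        exact hrp ((Nat.prime_dvd_prime_iff_eq Nat.prime_two hpP).1 (Nat.prime_two.dvd_of_dvd_pow h4))
      rw [H951.sti_two hF hd h2F hmd hqo]
      constructor
      · intro h; exact Or.inl ⟨rfl, Ne.symm hrp, h⟩
      · rintro (⟨-, -, h⟩ | ⟨-, h, -⟩)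
        · exact h
        · exact absurd h (lt_irrefl 2)
    · have h3 : 2 < r := lt_of_le_of_ne hrP.two_le (Ne.symm h2)
      rw [H951.sti_odd (p := p) hF hd hm hmd h2 hrF hrΩ hi hc]
      constructor
      · intro h; exact Or.inr ⟨hrp, h3, h⟩
      · rintro (⟨h, -⟩ | ⟨-, -, h⟩)
        · exact absurd h h2
        · exact h

end Cfsg.Agent.S5955
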