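import Cfsg.Statements.S5956
import Cfsg.Agent.H952.NdSub
import Cfsg.Agent.H952.NdCount
import Cfsg.Agent.H952.SympWrap
import Cfsg.Agent.H952.SwapElem
import Cfsg.Agent.H952.SympUnip

set_option autoImplicit false
open scoped MatrixGroups
open Cfsg

namespace Cfsg.Agent.S5956

open Module Submodule
open Cfsg.Agent.H952.Alt Cfsg.Agent.H952.Semi Cfsg.Agent.H952.SympSemi Cfsg.Agent.H952.NdSub
open Cfsg.Agent.ClassicalGeometry.SympBasic

/-- The property of the statement for all isometries. -/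
def Prop' (F : Type*) [Field F] (d m r : ℕ) : Prop :=
  ∀ x : Module.End F (Fin d ⊕ Fin d → F),
      (∀ u v, sympBilin d F (x u) (x v) = sympBilin d F u v) →
      (∃ z : F, x ^ r = z • (1 : Module.End F (Fin d ⊕ Fin d → F))) →
      (∀ z : F, x ≠ z • (1 : Module.End F (Fin d ⊕ Fin d → F))) →
      ∃ W : Submodule F (Fin d ⊕ Fin d → F), (finrank F W = m ∧ Nd (sympBilin d F) W) ∧ Inv x W

variable {F : Type*} [Field F] {d : ℕ}

theorem semi [Fintype F] {r : ℕ} [Fact r.Prime] (hr2 : r ≠ 2) (hrF : (r : F) ≠ 0) (hd : 0 < d)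
    {m : ℕ} (hme : Even m) (hmd : m < d)
    (hrΩ : r ∣ Nat.card {W : Submodule F (Fin d ⊕ Fin d → F) //
      finrank F W = m ∧ Nd (sympBilin d F) W}) :
    Prop' F d m r ↔ (cc (Fintype.card F) r ≤ m ∧
      m % cc (Fintype.card F) r ≤ (2 * d) % cc (Fintype.card F) r) := by
  have hr := (Fact.out : r.Prime)
  have hodd : Odd r := hr.eq_two_or_odd'.resolve_left hr2
  have hA : (sympBilin d F).IsAlt := sympBilin_isAlt
  have hV : finrank F (Fin d ⊕ Fin d → F) = 2 * d := H952.Wrap.finrank_eq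
  have hc0 := cc_pos (orderOf_pos (coprime_card (F := F) hrF))
  obtain ⟨k, hk⟩ := hme
  have hlt : (2 * d) % cc (Fintype.card F) r < 2 * k :=
    lt_of_dvd_card (by omega) hrF (by rw [hk, ← two_mul] at hrΩ; exact hrΩ)
  unfold Prop'
  rw [H952.Wrap.odd_iff (fun W => finrank F W = m ∧ Nd (sympBilin d F) W) hodd hd]
  set c := cc (Fintype.card F) r with hc
  constructor
  · intro H
    have hle : c ≤ 2 * d := by
      by_contra hcon
      rw [Nat.mod_eq_of_lt (by omega)] at hlt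
      omega
    obtain ⟨l, hl⟩ := (cc_even (Fintype.card F) r).mul_right (2 * d / c)
    rw [← hc] at hl
    have hmul := Nat.mul_div_le (2 * d) c
    obtain ⟨W0, _, hW0, hW0f⟩ := exists_even_dim hA l ⊤ nd_top (by rw [finrank_top, hV]; omega)
    obtain ⟨x, hx⟩ := exists_freeOn hA hrF (2 * d / c) W0 hW0 (by rw [hW0f, ← hc]; omega)
    have hfr := hx.finrank_range hA hW0
    have hrn := LinearMap.finrank_range_add_finrank_ker (x - 1)
    have hpos : 0 < c * (2 * d / c) := Nat.mul_pos hc0 (Nat.div_pos hle hc0)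
    obtain ⟨W, ⟨hWf, hW⟩, hWx⟩ := H x hx.isom hx.pow (by
      rintro rfl
      rw [sub_self, LinearMap.range_zero, finrank_bot] at hfr
      omega)
    have hdm := Nat.div_add_mod (2 * d) c
    have := of_nd_inv hA hrF hx.pow hx.isom (by rw [← hc, hV]; omega) hW hWx
    rw [← hc, hWf, hV] at this
    omega
  · rintro ⟨h1, h2⟩ x hx hxr -
    obtain ⟨W, h3, h4, h5⟩ := exists_nd_inv hA hr2 hrF hxr hx nd_top ⟨k, hk⟩
      (by rw [hV]; omega) (by rw [← hc, hV]; exact h2)
    exact ⟨W, ⟨h5, h3⟩, h4⟩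

theorem two_odd (h2 : (2 : F) ≠ 0) (hd : 0 < d) {m : ℕ} (hme : Even m) (hmd : m < d) :
    Prop' F d m 2 := by
  intro x hx ⟨z, hz⟩ _
  have hA : (sympBilin d F).IsAlt := sympBilin_isAlt
  have hV : finrank F (Fin d ⊕ Fin d → F) = 2 * d := H952.Wrap.finrank_eq
  obtain ⟨k, hk⟩ := hme
  have hzz := H952.Wrap.mul_self_of_scalar hd (H952.Wrap.isom_pow hx 2) hz
  obtain ⟨E, _, h3, h4, h5⟩ := exists_nd_inv_two hA (injective_of_isometry nd_top hx) hx h2
    (mul_self_eq_one_iff.1 hzz) (fun v => by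
      have := LinearMap.congr_fun hz v
      rw [sq] at this
      exact this) k nd_top (fun v _ => mem_top) (by rw [finrank_top, hV]; omega)
  exact ⟨E, ⟨by omega, h3⟩, h4⟩

theorem two_even (h2 : (2 : F) = 0) (hd : 0 < d) {m : ℕ} (hme : Even m) (hmd : m < d) :
    Prop' F d m 2 ↔ ((2 * d) % 4 = 2 ∨ m % 4 = 0) := by
  have hA : (sympBilin d F).IsAlt := sympBilin_isAlt
  have hV : finrank F (Fin d ⊕ Fin d → F) = 2 * d := H952.Wrap.finrank_eq
  constructor
  · intro H
    by_contra hcon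
    push Not at hcon
    have hde : Even d := by
      rw [Nat.even_iff]; omega
    obtain ⟨x, h1, h3, h4, h5, h6⟩ := exists_swap_elem (F := F) hde hd h2
    obtain ⟨W, ⟨hWf, hW⟩, hWx⟩ := H x h1 ⟨1, by
      rw [one_smul, sq]; exact LinearMap.ext h3⟩ h6
    have := four_dvd hA h1 h4 h5 hW hWx (injective_of_isometry nd_top h1)
    rw [hWf] at this
    omega
  · intro h x hx ⟨z, hz⟩ _
    have hzz := H952.Wrap.mul_self_of_scalar hd (H952.Wrap.isom_pow hx 2) hz
    have hz1 : z = 1 := by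
      rcases mul_self_eq_one_iff.1 hzz with h | h
      · exact h
      · rw [h]
        have : (1 : F) + 1 = 0 := by rw [one_add_one_eq_two, h2]
        exact (eq_neg_of_add_eq_zero_left this).symm
    obtain ⟨E, h3, h4, h5⟩ := exists_nd_inv_char_two hA (injective_of_isometry nd_top hx) hx
      (fun v => by
        have := LinearMap.congr_fun hz v
        rw [sq, hz1, one_smul] at this
        exact this) nd_top (m := m) (by rw [hV]; omega) hme (by rw [hV]; exact h)
    exact ⟨E, ⟨h5, h3⟩, h4⟩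

theorem unip [Fintype F] {p : ℕ} [Fact p.Prime] [CharP F p] (hp : 2 < p) (hd : 0 < d) {m : ℕ}
    (hme : Even m) (hmd : m < d) :
    Prop' F d m p ↔ (∀ μ : Multiset ℕ, (∀ a ∈ μ, 0 < a ∧ a ≤ p) →
      (∀ a : ℕ, Odd a → Even (μ.count a)) → μ.sum = 2 * d →
        ∃ ν : Multiset ℕ, ν ≤ μ ∧ ν.sum = m ∧ ∀ a : ℕ, Odd a → Even (ν.count a)) := by
  have hodd : Odd p := (Fact.out : p.Prime).eq_two_or_odd'.resolve_left (by omega)
  unfold Prop'
  rw [H952.Wrap.odd_iff (fun W => finrank F W = m ∧ Nd (sympBilin d F) W) hodd hd]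
  exact H952.SympUnip.main hp hme (by omega)

/-- Elements of prime order of PSp_n(q) with no fixed nondegenerate `m`-space. Here `T = PSp_n(q)` with `n = 2d ≥ 4`, `(n, q) ≠ (4, 2)`, realised through the symplectic matrices over the field `F` with `q` elements (preserving the standard alternating form); an element of `T` of prime order `r` is such a matrix `x` with `x^r` scalar and `x` not scalar. For `r ≠ p` let `i` be the multiplicative order of `q` modulo `r`, `c = i` for `i` even and `c = 2i` for `i` odd, and write `k = n mod c`, `ℓ = m mod i`, `ℓ' = m mod c`, `n' = ⌊n/i⌋`, `m' = ⌊m/i⌋`, `t = (r−1)/i`. Let `m` be even with `2 ≤ m < n/2` and let `r` be a prime dividing the number of nondegenerate `m`-spaces. Then every element of `T` of order `r` fixes a nondegenerate `m`-space if and only if one of: (i) `r = p > 2` and every partition of `n` into parts of size at most `p` in which every odd part has even multiplicity contains (as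 a sub-multiset) a partition of `m` in which every odd part has even multiplicity; (ii) `r = p = 2` and `n ≡ 2 (mod 4)` or `m ≡ 0 (mod 4)`; (iii) `r = 2 ≠ p`; (iv) `r ≠ p`, `r > 2`, `c ≤ m` and `k ≥ ℓ'`. -/
theorem result {F : Type*} [Field F] [Fintype F] {p : ℕ} [Fact p.Prime] [CharP F p] {q : ℕ} (hq : Fintype.card F = q)
    (d m : ℕ) (hd : 2 ≤ d) (hT : (d, q) ≠ (2, 2)) (hm : 2 ≤ m) (hme : Even m) (hmd : m < d)
    (r : ℕ) [Fact r.Prime]
    (hrΩ : r ∣ Nat.card {W : Submodule F (Fin d ⊕ Fin d → F) // Module.finrank F ↥W = m ∧ (∀ u ∈ W, u ≠ 0 → ∃ v ∈ W, Cfsg.sympForm d F u v ≠ 0)})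
    (i c : ℕ) (hi : i = orderOf (q : ZMod r)) (hc : c = if Even i then i else 2 * i) :
    (∀ x : ↥(Matrix.symplecticGroup (Fin d) F),
      (∃ z : F, ((x ^ r : ↥(Matrix.symplecticGroup (Fin d) F)) : Matrix (Fin d ⊕ Fin d) (Fin d ⊕ Fin d) F) = z • (1 : Matrix (Fin d ⊕ Fin d) (Fin d ⊕ Fin d) F)) →
      (∀ z : F, (x : Matrix (Fin d ⊕ Fin d) (Fin d ⊕ Fin d) F) ≠ z • (1 : Matrix (Fin d ⊕ Fin d) (Fin d ⊕ Fin d) F)) →
      ∃ W : Submodule F (Fin d ⊕ Fin d → F), Module.finrank F ↥W = m ∧ (∀ u ∈ W, u ≠ 0 → ∃ v ∈ W, Cfsg.sympForm d F u v ≠ 0) ∧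
        W.map (Matrix.toLin' (x : Matrix (Fin d ⊕ Fin d) (Fin d ⊕ Fin d) F)) ≤ W) ↔
    ((r = p ∧ 2 < p ∧ (∀ μ : Multiset ℕ, (∀ a ∈ μ, 0 < a ∧ a ≤ p) → (∀ a : ℕ, Odd a → Even (μ.count a)) → μ.sum = 2 * d →
        ∃ ν : Multiset ℕ, ν ≤ μ ∧ ν.sum = m ∧ ∀ a : ℕ, Odd a → Even (ν.count a))) ∨
     (r = p ∧ p = 2 ∧ ((2 * d) % 4 = 2 ∨ m % 4 = 0)) ∨
     (r = 2 ∧ p ≠ 2) ∨
     (r ≠ p ∧ 2 < r ∧ c ≤ m ∧ m % c ≤ (2 * d) % c)) := by
  subst hq
  have hr := (Fact.out : r.Prime)
  have hp := (Fact.out : p.Prime)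
  have hcc : c = cc (Fintype.card F) r := by
    rw [hc, hi]
    rfl
  have hP : (∀ x : ↥(Matrix.symplecticGroup (Fin d) F),
      (∃ z : F, ((x ^ r : ↥(Matrix.symplecticGroup (Fin d) F)) : Matrix (Fin d ⊕ Fin d) (Fin d ⊕ Fin d) F) = z • (1 : Matrix (Fin d ⊕ Fin d) (Fin d ⊕ Fin d) F)) →
      (∀ z : F, (x : Matrix (Fin d ⊕ Fin d) (Fin d ⊕ Fin d) F) ≠ z • (1 : Matrix (Fin d ⊕ Fin d) (Fin d ⊕ Fin d) F)) →
      ∃ W : Submodule F (Fin d ⊕ Fin d → F), Module.finrank F ↥W = m ∧ (∀ u ∈ W, u ≠ 0 → ∃ v ∈ W, Cfsg.sympForm d F u v ≠ 0) ∧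
        W.map (Matrix.toLin' (x : Matrix (Fin d ⊕ Fin d) (Fin d ⊕ Fin d) F)) ≤ W) ↔
      Prop' F d m r := by
    rw [Prop', ← H952.Wrap.wrap (fun W => finrank F W = m ∧ Nd (sympBilin d F) W) r]
    simp only [and_assoc]
    rfl
  rw [hP]
  by_cases hrp : r = p
  · subst hrp
    by_cases h2 : r = 2
    · subst h2
      rw [two_even (F := F) (CharP.cast_eq_zero F 2) (by omega) hme hmd]
      omega
    · have h3 : 2 < r := lt_of_le_of_ne hr.two_le (Ne.symm h2)
      rw [unip (F := F) h3 (by omega) hme hmd]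
      constructor
      · intro h
        exact Or.inl ⟨rfl, h3, h⟩
      · rintro (⟨_, _, h⟩ | ⟨_, h, _⟩ | ⟨h, h'⟩ | ⟨h, _⟩)
        · exact h
        · exact absurd h h2
        · exact absurd h h'
        · exact absurd rfl h
  · have hrF : (r : F) ≠ 0 := by
      intro h0
      have h1 : p ∣ r := (CharP.cast_eq_zero_iff F p r).1 h0
      exact hrp ((Nat.prime_dvd_prime_iff_eq hp hr).1 h1).symm
    by_cases h2 : r = 2
    · subst h2
      have : Prop' F d m 2 := two_odd (by exact_mod_cast hrF) (by omega) hme hmd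
      constructor
      · intro _
        exact Or.inr (Or.inr (Or.inl ⟨rfl, fun h => hrp h.symm⟩))
      · intro _
        exact this
    · have h3 : 2 < r := lt_of_le_of_ne hr.two_le (Ne.symm h2)
      rw [semi h2 hrF (by omega) hme hmd hrΩ, ← hcc]
      constructor
      · intro h
        exact Or.inr (Or.inr (Or.inr ⟨hrp, h3, h⟩))
      · rintro (⟨h, _⟩ | ⟨h, _⟩ | ⟨h, _⟩ | ⟨_, _, h⟩)
        · exact absurd h hrp
        · exact absurd h hrp
        · exact absurd h h2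
        · exact h

end Cfsg.Agent.S5956
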