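import Cfsg.Statements.S5957
import Cfsg.Agent.H951.DecompBridge

set_option autoImplicit false
open scoped MatrixGroups
open Cfsg

namespace Cfsg.Agent.S5957

open Module Polynomial Cfsg.Agent.H951

theorem zmod2_eq_one : ∀ u : ZMod 2, u ≠ 0 → u = 1 := by decide

/-- Every operator whose square is a non-zero scalar permutes a decomposition into `a`-spaces. -/
theorem pd_two {F V : Type*} [Field F] [Fintype F] [AddCommGroup V] [Module F V] [FiniteDimensional F V]
    {a t : ℕ} (hd : finrank F V = a * t) {x : Module.End F V} {z : F} (hz : z ≠ 0) (hx : x ^ 2 = z • 1) :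
    PD x a ⊤ t := by
  classical
  by_cases hsq : ∃ w : F, w ^ 2 = z
  · obtain ⟨w, hw⟩ := hsq
    have hw0 : w ≠ 0 := by rintro rfl; apply hz; rw [← hw]; ring
    set y : Module.End F V := w⁻¹ • x with hy
    have hy2 : y ^ 2 = 1 := by
      rw [hy, _root_.smul_pow, hx, smul_smul, ← hw, ← mul_pow, inv_mul_cancel₀ hw0, one_pow, one_smul]
    have hxy : x = w • y := by rw [hy, smul_smul, mul_inv_cancel₀ hw0, one_smul]
    have hinj : Function.Injective y := injective_of_pow (by norm_num) hy2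
    rw [hxy]
    refine PD.smul ?_ hw0
    by_cases h2 : (2 : F) = 0
    · obtain ⟨s, S, T, hS, hT, hST, hST'⟩ := exists_mono_two h2 hy2
      rw [← hST']
      have hfr := finrank_sup_of_disj hST
      rw [hST', finrank_top, hS.finrank, hd] at hfr
      refine pd_mono_two hinj (fun W => by rw [hy2, map_one']) hS hT hST ?_
      omega
    · have hfact : Fact (Nat.Prime 2) := ⟨Nat.prime_two⟩
      have hr : ((2 : ℕ) : F) ≠ 0 := by exact_mod_cast h2
      refine pd_semisimple (r := 2) hr hy2 inv_top (by rw [finrank_top, hd]) ?_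
      have hord : orderOf (Fintype.card F : ZMod 2) = 1 := by
        rw [orderOf_eq_one_iff]
        have hodd : ((Fintype.card F : ℕ) : ZMod 2) ≠ 0 := by
          have := ord_pos (F := F) (r := 2) hr
          intro h
          rw [h] at this
          simp at this
        exact zmod2_eq_one _ hodd
      rw [hord, Nat.div_one, one_mul]
      calc finrank F ↥(⊤ ⊓ cm y) ≤ finrank F V := Submodule.finrank_le _
        _ = a * t := hd
  · push Not at hsq
    exact pd_of_irreducible Nat.prime_two (X_pow_sub_C_irreducible_of_prime Nat.prime_two hsq) hx hz hd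

theorem result {F : Type*} [Field F] [Fintype F] {p : ℕ} [Fact p.Prime] [CharP F p] {q : ℕ} (hq : Fintype.card F = q)
    (n a t : ℕ) (hn : 2 ≤ n) (hT : (n, q) ≠ (2, 2) ∧ (n, q) ≠ (2, 3)) (hat : n = a * t) (ha : 1 ≤ a) (ht : 2 ≤ t)
    (hΩ : 2 ∣ Nat.card {D : Fin t → Submodule F (Fin n → F) // Cfsg.Geo.IsMDecomposition a D} / Nat.factorial t)
    (x : Matrix.SpecialLinearGroup (Fin n) F)
    (hx1 : ∃ z : F, ((x ^ 2 : Matrix.SpecialLinearGroup (Fin n) F) : Matrix (Fin n) (Fin n) F) = z • (1 : Matrix (Fin n) (Fin n) F))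
    (hx2 : ∀ z : F, (x : Matrix (Fin n) (Fin n) F) ≠ z • (1 : Matrix (Fin n) (Fin n) F)) :
    ∃ D : Fin t → Submodule F (Fin n → F), Cfsg.Geo.IsMDecomposition a D ∧
        ∃ σ : Equiv.Perm (Fin t), ∀ j, (D j).map (Matrix.toLin' (x : Matrix (Fin n) (Fin n) F)) = D (σ j) := by
  have : Nonempty (Fin n) := ⟨⟨0, by omega⟩⟩
  obtain ⟨z, hz⟩ := hx1
  rw [Matrix.SpecialLinearGroup.coe_pow] at hz
  have hz0 : z ≠ 0 := ne_zero_of_pow_scalar x.2 hz
  exact exists_decomp_of_pd ht ha (pd_two (by rw [Module.finrank_fin_fun, hat]) hz0 (toLin'_pow_eq hz))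

end Cfsg.Agent.S5957
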