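import Cfsg.Statements.S5958
import Cfsg.Agent.H951.DecompBridge
import Cfsg.Agent.H951.DecompCount

set_option autoImplicit false
open scoped MatrixGroups
open Cfsg

namespace Cfsg.Agent.S5958

open Module Polynomial Cfsg.Agent.H951

section lin

variable {F V : Type*} [Field F] [Fintype F] [AddCommGroup V] [Module F V] [FiniteDimensional F V]

/-- The "if" direction, for operators. -/
theorem pd_of_cond {a t r : ℕ} [Fact r.Prime] (hr : (r : F) ≠ 0) (ha : 1 ≤ a) (hd : finrank F V = a * t)
    (h : (a = 1 ∧ 1 < orderOf (Fintype.card F : ZMod r) ∧ orderOf (Fintype.card F : ZMod r) = r - 1 ∧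
        a * t ≤ ((a * t) % orderOf (Fintype.card F : ZMod r)) * r) ∨
      (orderOf (Fintype.card F : ZMod r) ≤ a ∧
        (a * t) % orderOf (Fintype.card F : ZMod r) = t * (a % orderOf (Fintype.card F : ZMod r))))
    {x : Module.End F V} {z : F} (hz : z ≠ 0) (hx : x ^ r = z • 1) : PD x a ⊤ t := by
  have hrp : r.Prime := Fact.out
  have hr1 := hrp.one_lt
  set c := orderOf (Fintype.card F : ZMod r) with hc
  have hcpos : 0 < c := ord_pos hr
  by_cases hroot : ∃ w : F, w ^ r = z
  · obtain ⟨w, hw⟩ := hroot
    have hw0 : w ≠ 0 := by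
      rintro rfl
      apply hz; rw [← hw, zero_pow hrp.ne_zero]
    set y : Module.End F V := w⁻¹ • x with hy
    have hyr : y ^ r = 1 := by
      rw [hy, _root_.smul_pow, hx, smul_smul, ← hw, ← mul_pow, inv_mul_cancel₀ hw0, one_pow, one_smul]
    have hxy : x = w • y := by rw [hy, smul_smul, mul_inv_cancel₀ hw0, one_smul]
    have hinj : Function.Injective y := injective_of_pow hrp.pos hyr
    rw [hxy]
    refine PD.smul ?_ hw0
    have htot := finrank_fx_add_cm hr hyr
    obtain ⟨M, hM⟩ := ord_dvd_finrank hyr inv_cm (inf_fx_of_le_cm hr hyr (le_refl (cm y)))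
    rw [← hc] at hM
    rcases h with ⟨rfl, h1, h2, h3⟩ | ⟨h1, h2⟩
    · -- a = 1
      rw [one_mul] at h3 hd
      have hdm := Nat.div_add_mod t c
      have hMle : M ≤ t / c := by
        rw [Nat.le_div_iff_mul_le hcpos]
        rw [hM, hd] at htot
        rw [mul_comm M c]
        omega
      have hrM : r * M ≤ t := by
        -- t = c (t / c) + k, t ≤ k r, c = r - 1
        have e1 : c * M ≤ c * (t / c) := Nat.mul_le_mul_left _ hMle
        have hrc : r = c + 1 := by omega
        have e2 : c * t ≤ c * (t % c) * r := by rw [mul_assoc]; exact Nat.mul_le_mul_left _ h3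
        -- r (t / c) ≤ t : from t ≤ k (c+1)
        have e3 : (c + 1) * (t / c) ≤ t := by
          have h4 : t ≤ (t % c) * (c + 1) := by rw [← hrc]; exact h3
          have h5 : c * (t / c) ≤ (t % c) * c := by nlinarith
          have h6 : t / c ≤ t % c := by
            have : c * (t / c) ≤ c * (t % c) := by rw [mul_comm c (t % c)]; exact h5
            exact Nat.le_of_mul_le_mul_left this hcpos
          nlinarith
        rw [hrc]
        exact (Nat.mul_le_mul_left _ hMle).trans e3
      have hfxM : M ≤ finrank F ↥(⊤ ⊓ fx y) := by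
        rw [top_inf_eq]
        rw [hM, hd] at htot
        have hrc : r = c + 1 := by omega
        rw [hrc, add_mul, one_mul] at hrM
        omega
      obtain ⟨S, T, hS, hT, hST, hST'⟩ := exists_mono_free hr hyr h2 (inv_top (x := y)) (M := M)
        (by rw [top_inf_eq, hM, h2]) hfxM
      have hSfr := hS.finrank
      have hfr := finrank_sup_of_disj hST
      rw [hST', finrank_top, hSfr, hd] at hfr
      have h5 : PD y 1 S (r * M) :=
        Cyc.pd_mul (a := 1) hrp.pos hinj (fun W => by rw [hyr, map_one']) (by rw [one_mul]; exact hS)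
      have h6 : PD y 1 T (finrank F T) := pd_of_le_fx hinj hT (by rw [one_mul])
      have h7 := h5.sup h6 hST
      rw [hST'] at h7
      have : t = r * M + finrank F T := by rw [hfr, mul_comm r M]
      rw [this]
      exact h7
    · refine pd_semisimple hr hyr inv_top (by rw [finrank_top, hd]) ?_
      rw [← hc, top_inf_eq, hM]
      have hdm := Nat.div_add_mod a c
      rw [hM, hd] at htot
      have hdm2 := Nat.div_add_mod (a * t) c
      have hMle : M ≤ (a * t) / c := by
        rw [Nat.le_div_iff_mul_le hcpos, mul_comm M c]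
        omega
      have e1 : c * M ≤ c * ((a * t) / c) := Nat.mul_le_mul_left _ hMle
      have e2 : a * t = c * (a / c) * t + t * (a % c) := by
        conv_lhs => rw [← hdm]
        ring
      omega
  · push Not at hroot
    exact pd_of_irreducible hrp (X_pow_sub_C_irreducible_of_prime hrp hroot) hx hz hd

end lin

theorem result {F : Type*} [Field F] [Fintype F] {p : ℕ} [Fact p.Prime] [CharP F p] {q : ℕ} (hq : Fintype.card F = q)
    (n a t : ℕ) (hn : 2 ≤ n) (hT : (n, q) ≠ (2, 2) ∧ (n, q) ≠ (2, 3)) (hat : n = a * t) (ha : 1 ≤ a) (ht : 2 ≤ t)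
    (r : ℕ) [Fact r.Prime] (hr2 : r ≠ 2) (hrp : r ≠ p) (hΩ : r ∣ Nat.card {D : Fin t → Submodule F (Fin n → F) // Cfsg.Geo.IsMDecomposition a D} / Nat.factorial t)
    (c : ℕ) (hc : c = orderOf (q : ZMod r)) :
    (∀ x : Matrix.SpecialLinearGroup (Fin n) F,
      (∃ z : F, ((x ^ r : Matrix.SpecialLinearGroup (Fin n) F) : Matrix (Fin n) (Fin n) F) = z • (1 : Matrix (Fin n) (Fin n) F)) →
      (∀ z : F, (x : Matrix (Fin n) (Fin n) F) ≠ z • (1 : Matrix (Fin n) (Fin n) F)) →
      ∃ D : Fin t → Submodule F (Fin n → F), Cfsg.Geo.IsMDecomposition a D ∧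
        ∃ σ : Equiv.Perm (Fin t), ∀ j, (D j).map (Matrix.toLin' (x : Matrix (Fin n) (Fin n) F)) = D (σ j)) ↔
    ((a = 1 ∧ 1 < c ∧ c = r - 1 ∧ n ≤ (n % c) * r) ∨ (c ≤ a ∧ n % c = t * (a % c))) := by
  subst hq
  have hne : Nonempty (Fin n) := ⟨⟨0, by omega⟩⟩
  have hrP : r.Prime := Fact.out
  have hr : (r : F) ≠ 0 := by
    intro h
    rw [CharP.cast_eq_zero_iff F p] at h
    exact hrp ((Nat.prime_dvd_prime_iff_eq (Fact.out : p.Prime) hrP).1 h).symm
  have hd : finrank F (Fin n → F) = a * t := by rw [Module.finrank_fin_fun, hat]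
  constructor
  · intro hall
    have hcpos : 0 < c := by rw [hc]; exact ord_pos hr
    by_cases hc1 : c = 1
    · right
      rw [hc1, Nat.mod_one, Nat.mod_one, mul_zero]
      exact ⟨ha, rfl⟩
    have hc1' : orderOf (Fintype.card F : ZMod r) ≠ 1 := by rw [← hc]; exact hc1
    -- c ≤ n
    have hcn : c ≤ n := by
      have h1 : Nat.card {D : Fin t → Submodule F (Fin n → F) // Cfsg.Geo.IsMDecomposition a D}
          = Nat.card (Dec F (Fin n → F) a t) := by
        refine Nat.card_congr (Equiv.subtypeEquivRight fun D => ?_)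
        constructor
        · intro h; exact ⟨h.finrank_eq, h.indep, h.iSup_eq_top⟩
        · intro h; exact ⟨ht, ha, h.1, h.2.1, h.2.2⟩
      rw [h1] at hΩ
      have h2 := ord_le_of_dvd_card_dec hr ha hd hΩ
      rw [Module.finrank_fin_fun] at h2
      rw [hc]; exact h2
    -- the test elements
    have test : ∀ M : ℕ, 1 ≤ M → c * M ≤ n → ∃ (x : Module.End F (Fin n → F)) (P : F[X]), Irreducible P ∧
        P.natDegree = c ∧ x ^ r = 1 ∧ finrank F ↥(cm x) = c * M ∧ (∀ v ∈ cm x, aeval x P v = 0) ∧
        ∃ (D : Fin t → Submodule F (Fin n → F)) (σ : Equiv.Perm (Fin t)), PData x a t D σ := by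
      intro M hM1 hM
      obtain ⟨P, hP, hPd⟩ := exists_factor_cyclotomic (F := F) r
      obtain ⟨x, hx, hxd, hxP⟩ := exists_end hr hP hPd (M := M) (n := n) (by rw [← hc]; exact hM)
      rw [← hc] at hxd
      obtain ⟨A, hA, hAr⟩ := exists_sl hc1' x hx
      obtain ⟨D, hD, σ, hσ⟩ := hall A ⟨1, by rw [Matrix.SpecialLinearGroup.coe_pow, hAr, one_smul]⟩ (by
        intro z hz
        have h1 : x = z • 1 := by
          rw [← hA, hz, map_smul, Matrix.toLin'_one]; rfl
        have h2 : z = 1 := by
          apply eq_one_of_pow_eq_one hc1'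
          have h3 : (z ^ r) • (1 : Module.End F (Fin n → F)) = 1 := by
            have h3' := hx
            rw [h1, _root_.smul_pow, one_pow] at h3'
            exact h3'
          obtain ⟨v, hv⟩ := exists_ne (0 : Fin n → F)
          have h4 := LinearMap.congr_fun h3 v
          rw [LinearMap.smul_apply, Module.End.one_apply] at h4
          by_contra hne1
          apply hv
          have h5 : (z ^ r - 1) • v = 0 := by rw [sub_smul, h4, one_smul, sub_self]
          exact (smul_eq_zero.1 h5).resolve_left (sub_ne_zero.2 hne1)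
        rw [h2, one_smul] at h1
        have h6 : cm x = ⊥ := by
          rw [h1, cm, sub_self, LinearMap.range_zero]
        rw [h6, finrank_bot] at hxd
        have : 0 < c * M := Nat.mul_pos hcpos hM1
        omega)
      refine ⟨x, P, hP, ?_, hx, hxd, hxP, D, σ, ⟨hD.finrank_eq, hD.indep, hD.iSup_eq_top, ?_⟩⟩
      · rw [natDegree_factor hr hP hPd, hc]
      · intro j; rw [← hσ j, hA]
    have hcr : c ≤ r - 1 := by
      rw [hc]
      apply orderOf_le_of_pow_eq_one (Nat.sub_pos_of_lt hrP.one_lt)
      apply ZMod.pow_card_sub_one_eq_one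
      intro h0
      rw [hc, h0] at hcpos
      simp at hcpos
    -- if some σ j ≠ j then c = r - 1
    have hnf : ∀ (x : Module.End F (Fin n → F)) (P : F[X]) (D : Fin t → Submodule F (Fin n → F))
        (σ : Equiv.Perm (Fin t)), Irreducible P → P.natDegree = c → x ^ r = 1 →
        (∀ v ∈ cm x, aeval x P v = 0) → PData x a t D σ → ∀ j, σ j ≠ j → c = r - 1 := by
      intro x P D σ hP hPc hx hxP hPD j hj
      have hDne : D j ≠ ⊥ := by
        intro h0
        have := hPD.dim j
        rw [h0, finrank_bot] at this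
        omega
      obtain ⟨v, hv, hv0⟩ := (Submodule.ne_bot_iff _).1 hDne
      have hPne : P ≠ 0 := hP.ne_zero
      have hX1 : (X - 1 : F[X]) ≠ 0 := X_sub_C_ne_zero 1
      have h1 := hPD.le_natDegree ha hx hj hv hv0 (g := P * (X - 1)) (mul_ne_zero hPne hX1) (by
        rw [map_mul, Module.End.mul_apply]
        apply hxP
        refine mem_cm.2 ⟨v, by simp⟩)
      rw [natDegree_mul hPne hX1, hPc] at h1
      have h2 : (X - 1 : F[X]).natDegree = 1 := natDegree_X_sub_C 1
      rw [h2] at h1
      omega
    -- the big element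
    have hdm := Nat.div_add_mod n c
    have hn'1 : 1 ≤ n / c := (Nat.one_le_div_iff hcpos).2 hcn
    obtain ⟨x, P, hP, hPc, hx, hxd, hxP, D, σ, hPD⟩ := test (n / c) hn'1 (Nat.mul_div_le n c)
    have htot := finrank_fx_add_cm hr hx
    rw [Module.finrank_fin_fun, hxd] at htot
    have hfx : finrank F ↥(fx x) = n % c := by omega
    have hmodlt := Nat.mod_lt n hcpos
    by_cases hfix : ∀ j, σ j = j
    · right
      have h1 := hPD.mul_mod_le hr hx hfix
      rw [← hc, hfx] at h1
      have h2 : n % c = t * (a % c) := by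
        have h3 : (t * (a % c)) % c = n % c := by
          rw [hat, mul_comm a t, Nat.mul_mod, Nat.mod_mod, ← Nat.mul_mod]
        rw [← h3, Nat.mod_eq_of_lt (lt_of_le_of_lt h1 hmodlt)]
      refine ⟨?_, h2⟩
      by_contra hca
      push Not at hca
      rw [Nat.mod_eq_of_lt hca, mul_comm, ← hat] at h2
      omega
    · push Not at hfix
      obtain ⟨j, hj⟩ := hfix
      have hcr1 : c = r - 1 := hnf x P D σ hP hPc hx hxP hPD j hj
      left
      -- a ≤ n % c < c
      have h1 := hPD.le_finrank_cm ha hr hx hj
      have hac : a < c := by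
        -- avg is injective on D j into fx x
        have h2 : (D j).map (avg x r) ≤ fx x := by
          rintro _ ⟨v, hv, rfl⟩
          rw [fx, LinearMap.mem_ker]
          exact LinearMap.congr_fun (sub_one_mul_avg hx) v
        have h3 : finrank F ↥((D j).map (avg x r)) = a := by
          have hL : Function.Injective ((avg x r).domRestrict (D j)) := by
            rw [← LinearMap.ker_eq_bot, eq_bot_iff]
            intro v hv
            rw [Submodule.mem_bot]
            apply Subtype.ext
            exact hPD.avg_inj ha hx hj v.2 (LinearMap.mem_ker.1 hv)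
          have h6 := LinearMap.finrank_range_of_inj hL
          rw [LinearMap.range_domRestrict, hPD.dim] at h6
          exact h6
        have h4 := Submodule.finrank_mono h2
        rw [h3, hfx] at h4
        omega
      -- fixed members are pointwise fixed
      have hpf : ∀ (x : Module.End F (Fin n → F)) (D : Fin t → Submodule F (Fin n → F))
          (σ : Equiv.Perm (Fin t)), x ^ r = 1 → PData x a t D σ → ∀ j, σ j = j → D j ≤ fx x := by
        intro x D σ hx hPD j hj
        have hinv : Inv x (D j) := by rw [inv_iff_map, hPD.perm, hj]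
        have h5 := inf_fx_sup_inf_cm hr hx hinv
        have h6 : D j ⊓ cm x = ⊥ := by
          have h7 := ord_dvd_finrank hx (hinv.inf inv_cm) (inf_fx_of_le_cm hr hx (inf_le_right : D j ⊓ cm x ≤ cm x))
          rw [← hc] at h7
          apply Submodule.finrank_eq_zero.1
          by_contra hne0
          have h8 := Nat.le_of_dvd (Nat.pos_of_ne_zero hne0) h7
          have h9 : finrank F ↥(D j ⊓ cm x) ≤ finrank F ↥(D j) := Submodule.finrank_mono inf_le_left
          rw [hPD.dim] at h9
          omega
        rw [h6, sup_bot_eq] at h5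
        rw [← h5]; exact inf_le_right
      -- a = 1
      have ha1 : a = 1 := by
        obtain ⟨x₁, P₁, hP₁, hPc₁, hx₁, hxd₁, hxP₁, D₁, σ₁, hPD₁⟩ := test 1 le_rfl (by rw [mul_one]; exact hcn)
        have hnotall : ∃ j, σ₁ j ≠ j := by
          by_contra hall'
          push Not at hall'
          have h5 : (⊤ : Submodule F (Fin n → F)) ≤ fx x₁ := by
            rw [← hPD₁.top]
            exact iSup_le fun j => hpf x₁ D₁ σ₁ hx₁ hPD₁ j (hall' j)
          have h6 := (isCompl_fx_cm hr hx₁).inf_eq_bot
          rw [top_le_iff.1 h5, top_inf_eq] at h6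
          rw [h6, finrank_bot] at hxd₁
          omega
        obtain ⟨j₁, hj₁⟩ := hnotall
        have h5 := hPD₁.le_finrank_cm ha hr hx₁ hj₁
        rw [hxd₁, mul_one, ← hcr1] at h5
        have h6 : c * a ≤ c * 1 := by rw [mul_one]; exact h5
        have := Nat.le_of_mul_le_mul_left h6 hcpos
        omega
      refine ⟨ha1, by omega, hcr1, ?_⟩
      have h5 := hPD.mul_finrank_cm_le ha hr hx (fun j hj => hpf x D σ hx hPD j hj)
      rw [← hat, hxd, ← hcr1] at h5
      have h6 : r * (n / c) ≤ n := by
        have : c * (r * (n / c)) ≤ c * n := by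
          calc c * (r * (n / c)) = r * (c * (n / c)) := by ring
            _ ≤ c * n := h5
        exact Nat.le_of_mul_le_mul_left this hcpos
      -- r n' ≤ n, n = c n' + k, r = c + 1
      have hrc : r = c + 1 := by have := hrP.one_lt; omega
      rw [hrc] at h6 ⊢
      have h7 : n / c ≤ n % c := by
        rw [add_mul, one_mul] at h6
        omega
      have h8 : c * (n / c) ≤ c * (n % c) := Nat.mul_le_mul_left _ h7
      rw [mul_add, mul_one, mul_comm (n % c) c]
      omega
  · intro hcond x hx1 _
    obtain ⟨z, hz⟩ := hx1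
    rw [Matrix.SpecialLinearGroup.coe_pow] at hz
    have hz0 : z ≠ 0 := ne_zero_of_pow_scalar x.2 hz
    refine exists_decomp_of_pd ht ha (pd_of_cond hr ha hd ?_ hz0 (toLin'_pow_eq hz))
    rw [← hc, ← hat]
    exact hcond

end Cfsg.Agent.S5958
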