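import Cfsg.Statements.S5959
import Cfsg.Agent.H952.JordanReal
import Cfsg.Agent.H952.PermBlocks

set_option autoImplicit false
open scoped MatrixGroups
open Cfsg

namespace Cfsg.Agent.S5959

open Module Cfsg.Agent.H952.Jordan

theorem sum_sub_pred_eq_count (p : ℕ) (hp : 0 < p) (μ : Multiset ℕ) (hμ : ∀ b ∈ μ, b ≤ p) :
    (μ.map (fun b => b - (p - 1))).sum = μ.count p := by
  induction μ using Multiset.induction with
  | empty => simp
  | cons b s ih =>
    have ih' := ih (fun c hc => hμ c (Multiset.mem_cons_of_mem hc))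
    have hb := hμ b (Multiset.mem_cons_self b s)
    rw [Multiset.map_cons, Multiset.sum_cons, ih', Multiset.count_cons]
    by_cases h : p = b
    · rw [if_pos h]; omega
    · rw [if_neg h]; omega

theorem sum_sub_eq_zero (p : ℕ) (μ : Multiset ℕ) (hμ : ∀ b ∈ μ, b ≤ p) :
    (μ.map (fun b => b - p)).sum = 0 := by
  apply Multiset.sum_eq_zero
  intro c hc
  obtain ⟨b, hb, rfl⟩ := Multiset.mem_map.1 hc
  exact Nat.sub_eq_zero_of_le (hμ b hb)

theorem sub_one_pow_char {F V : Type*} [Field F] [AddCommGroup V] [Module F V] (p : ℕ)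
    [Fact p.Prime] [CharP F p] (x : Module.End F V) : (x - 1) ^ p = x ^ p - 1 := by
  have h : ((Polynomial.X : Polynomial F) - 1) ^ p = Polynomial.X ^ p - 1 := by
    rw [sub_pow_char, one_pow]
  have h := congrArg (Polynomial.aeval x) h
  simpa using h

theorem abstract {F V : Type*} [Field F] [AddCommGroup V] [Module F V] [FiniteDimensional F V]
    {p : ℕ} [Fact p.Prime] [CharP F p] (a t : ℕ) (ha : 1 ≤ a) (ht : 2 ≤ t) (μ : Multiset ℕ)
    (hμ : ∀ b ∈ μ, 0 < b ∧ b ≤ p) (hcount : μ.count p < a) (x : Module.End F V)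
    (hx : ∀ k, finrank F (LinearMap.range ((x - 1) ^ k)) = (μ.map (fun b => b - k)).sum)
    (D : Fin t → Submodule F V) (hind : iSupIndep D) (htop : iSup D = ⊤)
    (hD : ∀ j, finrank F (D j) = a) (σ : Equiv.Perm (Fin t)) (hσ : ∀ j, (D j).map x = D (σ j)) :
    ∃ ν : Multiset ℕ, ν ≤ μ ∧ ν.sum = a := by
  have hp : 0 < p := (Fact.out : p.Prime).pos
  have hN : (x - 1) ^ p = 0 := by
    rw [← LinearMap.range_eq_bot, ← Submodule.finrank_eq_zero (R := F), hx]
    exact sum_sub_eq_zero p μ (fun b hb => (hμ b hb).2)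
  have hxp : x ^ p = 1 := by
    rw [sub_one_pow_char] at hN
    exact sub_eq_zero.1 hN
  have hfix := perm_eq_one p x hxp a D hind ha hD σ hσ
    (by rw [hx, sum_sub_pred_eq_count p hp μ (fun b hb => (hμ b hb).2)]; exact hcount)
  have hinv : ∀ j, (D j).map (x - 1) ≤ D j := by
    intro j
    rw [Submodule.map_le_iff_le_comap]
    intro v hv
    rw [Submodule.mem_comap, LinearMap.sub_apply, Module.End.one_apply]
    refine Submodule.sub_mem _ ?_ hv
    have : x v ∈ (D j).map x := Submodule.mem_map_of_mem hv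
    rwa [hσ, hfix] at this
  let j0 : Fin t := ⟨0, by omega⟩
  set E : Submodule F V := ⨆ i, ⨆ (_ : i ≠ j0), D i with hE
  have hEinv : E.map (x - 1) ≤ E := by
    rw [hE, Submodule.map_iSup]
    refine iSup_mono fun i => ?_
    rw [Submodule.map_iSup]
    exact iSup_mono fun _ => hinv i
  have hsup : D j0 ⊔ E = ⊤ := by
    rw [← htop]
    apply le_antisymm
    · exact sup_le (le_iSup D j0) (iSup_le fun i => iSup_le fun _ => le_iSup D i)
    · refine iSup_le fun i => ?_
      by_cases hi : i = j0
      · rw [hi]; exact le_sup_left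
      · exact le_sup_of_le_right (le_iSup₂ (f := fun i (_ : i ≠ j0) => D i) i hi)
  obtain ⟨s0, hs0, hs0'⟩ := exists_type (x - 1) p hN (D j0) (hinv j0)
  obtain ⟨s1, hs1, hs1'⟩ := exists_type (x - 1) p hN E hEinv
  have hadd : s0 + s1 = μ := by
    apply eq_of_sum_sub
    · intro b hb
      rcases Multiset.mem_add.1 hb with hb | hb
      · exact hs0 b hb
      · exact hs1 b hb
    · exact fun b hb => (hμ b hb).1
    · intro k
      rw [Multiset.map_add, Multiset.sum_add, hs0', hs1',
        ← finrank_map_sup (x - 1) (D j0) E (hinv j0) hEinv (hind j0), hsup, ← hx,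
        LinearMap.range_eq_map]
  refine ⟨s0, hadd ▸ Multiset.le_add_right s0 s1, ?_⟩
  have := hs0' 0
  rw [pow_zero, Module.End.one_eq_id, Submodule.map_id, hD] at this
  simpa using this

/-- Elements of order `p` of PSL_n(q) and imprimitive subgroups: a necessary condition. Here `T = PSL_n(F)` for a field `F` with `q = p^f` elements (`n ≥ 2`, `(n, q) ≠ (2, 2), (2, 3)`), `n = a·t` with `t ≥ 2`, and Ω is the set of direct-sum decompositions of `F^n` into `t` subspaces of dimension `a` (unordered; their number is the number of ordered ones divided by `t!`), whose stabilizers are the imprimitive subgroups of type GL_a(q) ≀ S_t (maximal except in some small cases; maximality is not assumed); an element of `T` of prime order `r` (a matrix `x` of determinant 1 with `x^r` scalar, `x` not scalar) fixes a point of Ω when it permutes the summands of some such decomposition. Suppose `p > 2` divides the number of such decompositions. If every element of `T` of order `p` stabilizes such a decomposition, then every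 partition of `n` into parts of size at most `p` in which the part `p` occurs fewer than `a` times contains (as a sub-multiset) a partition of `a`. -/
theorem result {F : Type*} [Field F] [Fintype F] {p : ℕ} [Fact p.Prime] [CharP F p] {q : ℕ} (hq : Fintype.card F = q)
    (n a t : ℕ) (hn : 2 ≤ n) (hT : (n, q) ≠ (2, 2) ∧ (n, q) ≠ (2, 3)) (hat : n = a * t) (ha : 1 ≤ a) (ht : 2 ≤ t)
    (hp : 2 < p) (hΩ : p ∣ Nat.card {D : Fin t → Submodule F (Fin n → F) // Cfsg.Geo.IsMDecomposition a D} / Nat.factorial t)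
    (h : ∀ x : Matrix.SpecialLinearGroup (Fin n) F,
      (∃ z : F, ((x ^ p : Matrix.SpecialLinearGroup (Fin n) F) : Matrix (Fin n) (Fin n) F) = z • (1 : Matrix (Fin n) (Fin n) F)) →
      (∀ z : F, (x : Matrix (Fin n) (Fin n) F) ≠ z • (1 : Matrix (Fin n) (Fin n) F)) →
      ∃ D : Fin t → Submodule F (Fin n → F), Cfsg.Geo.IsMDecomposition a D ∧
        ∃ σ : Equiv.Perm (Fin t), ∀ j, (D j).map (Matrix.toLin' (x : Matrix (Fin n) (Fin n) F)) = D (σ j)) :
    (∀ μ : Multiset ℕ, (∀ b ∈ μ, 0 < b ∧ b ≤ p) → μ.sum = n → μ.count p < a → ∃ ν : Multiset ℕ, ν ≤ μ ∧ ν.sum = a) := by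
  intro μ hμ hsum hcount
  subst hsum
  have hp0 : 0 < p := (Fact.out : p.Prime).pos
  obtain ⟨N, hN⟩ := exists_end (F := F) μ
  have hNp : N ^ p = 0 := by
    rw [← LinearMap.range_eq_bot, ← Submodule.finrank_eq_zero (R := F), hN]
    exact sum_sub_eq_zero p μ (fun b hb => (hμ b hb).2)
  have hxp : (1 + N) ^ p = 1 := by
    have e := sub_one_pow_char p (1 + N)
    rw [add_sub_cancel_left, hNp] at e
    exact (sub_eq_zero.1 e.symm)
  set M : Matrix (Fin μ.sum) (Fin μ.sum) F := LinearMap.toMatrix' (1 + N) with hM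
  have hMlin : Matrix.toLin' M = 1 + N := by rw [hM, Matrix.toLin'_toMatrix']
  have hMp : M ^ p = 1 := by
    apply Matrix.toLin'.injective
    rw [Matrix.toLin'_pow, hMlin, hxp, Matrix.toLin'_one]
    rfl
  have hdet : M.det = 1 := by
    have e : M.det ^ p = 1 := by rw [← Matrix.det_pow, hMp, Matrix.det_one]
    have e2 : (M.det - 1) ^ p = 0 := by
      rw [sub_pow_char, e, one_pow, sub_self]
    exact sub_eq_zero.1 (pow_eq_zero_iff hp0.ne' |>.1 e2)
  by_cases hsc : ∃ z : F, M = z • (1 : Matrix (Fin μ.sum) (Fin μ.sum) F)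
  · -- the scalar case
    obtain ⟨z, hz⟩ := hsc
    have hNz : N = (z - 1) • (1 : Module.End F (Fin μ.sum → F)) := by
      have e : 1 + N = z • (1 : Module.End F (Fin μ.sum → F)) := by
        rw [← hMlin, hz, map_smul, Matrix.toLin'_one]
        rfl
      apply LinearMap.ext
      intro v
      have e' : v + N v = z • v := LinearMap.congr_fun e v
      show N v = (z - 1) • v
      rw [sub_smul, one_smul, ← e', add_sub_cancel_left]
    have hz1 : z - 1 = 0 := by
      by_contra hne
      have e : ((z - 1) • (1 : Module.End F (Fin μ.sum → F))) ^ p = 0 := by rw [← hNz, hNp]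
      rw [smul_pow, one_pow] at e
      have e2 := LinearMap.congr_fun e (fun _ => 1)
      have e3 := congrFun e2 ⟨0, by omega⟩
      simp at e3
      exact hne e3.1
    have hN0 : N = 0 := by rw [hNz, hz1, zero_smul]
    have h1 : (μ.map (fun b => b - 1)).sum = 0 := by
      rw [← hN 1, pow_one, hN0, LinearMap.range_zero, finrank_bot]
    have h2 : ∀ b ∈ μ, b = 1 := by
      intro b hb
      have h3 := Multiset.single_le_sum (s := μ.map (fun b => b - 1))
        (fun _ _ => Nat.zero_le _) (b - 1) (Multiset.mem_map_of_mem _ hb)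
      have h4 := (hμ b hb).1
      omega
    have h5 : μ = Multiset.replicate (Multiset.card μ) 1 := Multiset.eq_replicate_card.2 h2
    have h6 : Multiset.card μ = μ.sum := by
      conv_rhs => rw [h5]
      rw [Multiset.sum_replicate, smul_eq_mul, mul_one]
    refine ⟨Multiset.replicate a 1, ?_, by rw [Multiset.sum_replicate, smul_eq_mul, mul_one]⟩
    rw [h5, Multiset.replicate_le_replicate, h6, hat]
    nlinarith
  · obtain ⟨X, hX⟩ : ∃ X : Matrix.SpecialLinearGroup (Fin μ.sum) F,
        (X : Matrix (Fin μ.sum) (Fin μ.sum) F) = M := ⟨⟨M, hdet⟩, rfl⟩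
    obtain ⟨D, hD, σ, hσ⟩ := h X ⟨1, by
      rw [one_smul, Matrix.SpecialLinearGroup.coe_pow, hX, hMp]⟩
      (fun z hz => hsc ⟨z, by rw [← hX, hz]⟩)
    rw [hX] at hσ
    refine abstract a t ha ht μ hμ hcount (1 + N) (fun k => by rw [add_sub_cancel_left]; exact hN k)
      D hD.indep hD.iSup_eq_top hD.finrank_eq σ (fun j => ?_)
    rw [← hMlin]
    exact hσ j

end Cfsg.Agent.S5959
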