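import Cfsg.Statements.S5961
import Cfsg.Agent.H952.SympTrans

set_option autoImplicit false
open scoped MatrixGroups
open Cfsg

namespace Cfsg.Agent.S5961

open Module Submodule
open Cfsg.Agent.H952.Alt Cfsg.Agent.H952.Semi Cfsg.Agent.H952.SympSemi Cfsg.Agent.H952.SympTrans
open Cfsg.Agent.ClassicalGeometry.SympBasic

variable {F : Type*} [Field F] [Fintype F] {d : ℕ}

theorem cc_le {q r : ℕ} [Fact r.Prime] (hr2 : r ≠ 2) (hcop : r.Coprime q) : cc q r ≤ r - 1 := by
  have hr := (Fact.out : r.Prime)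
  have h1 : orderOf ((q : ℕ) : ZMod r) ∣ r - 1 := by
    apply orderOf_dvd_of_pow_eq_one
    apply ZMod.pow_card_sub_one_eq_one
    intro h0
    exact (Nat.Prime.coprime_iff_not_dvd hr).1 hcop ((ZMod.natCast_eq_zero_iff _ _).1 h0)
  obtain ⟨k, hk⟩ := hr.eq_two_or_odd'.resolve_left hr2
  have h2 : cc q r ∣ 2 * k := by
    rw [cc_dvd_iff]
    have : r - 1 = 2 * k := by omega
    rwa [this] at h1
  have := hr.two_le
  have := Nat.le_of_dvd (by omega) h2
  omega

/-- A scalar isometry of odd order is trivial. -/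
theorem eq_one_of_scalar {r : ℕ} (hodd : Odd r) (hd : 0 < d)
    {x : Module.End F (Fin d ⊕ Fin d → F)} (hxr : x ^ r = 1)
    (hx : ∀ u v, sympBilin d F (x u) (x v) = sympBilin d F u v) {z : F}
    (hz : x = z • (1 : Module.End F (Fin d ⊕ Fin d → F))) : x = 1 := by
  let i0 : Fin d := ⟨0, by omega⟩
  let u : Fin d ⊕ Fin d → F := Pi.single (Sum.inr i0) 1
  let v : Fin d ⊕ Fin d → F := Pi.single (Sum.inl i0) 1
  have h1 : sympBilin d F u v = 1 := by
    rw [sympBilin_apply, sympForm_single_inr_left]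
    simp [v]
  have hzv : ∀ w, x w = z • w := fun w => by rw [hz]; rfl
  have h2 : z * z = 1 := by
    have h3 := hx u v
    rw [hzv, hzv, map_smul, map_smul, LinearMap.smul_apply, smul_eq_mul, smul_eq_mul, h1,
      mul_one] at h3
    exact h3
  have h3 : ∀ n : ℕ, (x ^ n) v = z ^ n • v := by
    intro n
    induction n with
    | zero => simp
    | succ n ih => rw [pow_succ', Module.End.mul_apply, ih, hzv, smul_smul, ← pow_succ']
  have h4 : z ^ r = 1 := by
    have h5 := h3 r
    rw [hxr, Module.End.one_apply] at h5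
    have h6 := congrFun h5 (Sum.inl i0)
    simpa [v] using h6.symm
  have h5 : z = 1 := by
    obtain ⟨k, hk⟩ := hodd
    rw [hk, pow_succ, pow_mul, sq, h2, one_pow, one_mul] at h4
    exact h4
  rw [hz, h5, one_smul]

theorem exists_dec {a t : ℕ} (hat : 2 * d = a * t) (ha : 2 ≤ a) (hae : Even a) (ht : 2 ≤ t) :
    ∃ D : Fin t → Submodule F (Fin d ⊕ Fin d → F), IsDec d F a t D := by
  obtain ⟨D, hD, hDf, hDtop, -, -⟩ := exists_decomp (B := sympBilin d F)
    (x := (1 : Module.End F (Fin d ⊕ Fin d → F))) sympBilin_isAlt Function.injective_id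
    (fun _ _ => rfl) 1 (fun v => by rw [one_smul]; rfl) nd_top a t hae
    (by rw [Module.finrank_fintype_fun_eq_card, Fintype.card_sum, Fintype.card_fin]; omega)
  exact ⟨D, isDec_of ht (by omega) hD hDf hDtop⟩

theorem main {r : ℕ} [Fact r.Prime] (hr2 : r ≠ 2) (hrF : (r : F) ≠ 0) (hd : 2 ≤ d)
    {a t : ℕ} (hat : 2 * d = a * t) (ha : 2 ≤ a) (hae : Even a) (ht : 2 ≤ t)
    (hΩ : r ∣ Nat.card {D // IsDec d F a t D} / Nat.factorial t) :
    (∀ x : ↥(Matrix.symplecticGroup (Fin d) F),
      (∃ z : F, ((x ^ r : ↥(Matrix.symplecticGroup (Fin d) F)) : Matrix (Fin d ⊕ Fin d) (Fin d ⊕ Fin d) F) = z • (1 : Matrix (Fin d ⊕ Fin d) (Fin d ⊕ Fin d) F)) →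
      (∀ z : F, (x : Matrix (Fin d ⊕ Fin d) (Fin d ⊕ Fin d) F) ≠ z • (1 : Matrix (Fin d ⊕ Fin d) (Fin d ⊕ Fin d) F)) →
      ∃ D : Fin t → Submodule F (Fin d ⊕ Fin d → F), IsDec d F a t D ∧
        ∃ σ : Equiv.Perm (Fin t), ∀ j, (D j).map (Matrix.toLin' (x : Matrix (Fin d ⊕ Fin d) (Fin d ⊕ Fin d) F)) = D (σ j)) ↔
    (cc (Fintype.card F) r ≤ a ∧
      (2 * d) % cc (Fintype.card F) r = t * (a % cc (Fintype.card F) r)) := by
  have hr := (Fact.out : r.Prime)
  have hcop := coprime_card (F := F) hrF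
  have hord := Cfsg.Agent.H952.SympSemi.orderOf_pos hcop
  have hc0 := cc_pos hord
  have hA : (sympBilin d F).IsAlt := sympBilin_isAlt
  have hV : finrank F (Fin d ⊕ Fin d → F) = 2 * d := by
    rw [Module.finrank_fintype_fun_eq_card, Fintype.card_sum, Fintype.card_fin]; omega
  obtain ⟨e, he⟩ := hr.eq_two_or_odd'.resolve_left hr2
  constructor
  · intro H
    -- first `c ≤ 2d`
    have hc2d : cc (Fintype.card F) r ≤ 2 * d := by
      have h1 := Cfsg.Agent.H952.CountGen.dvd_of_dvd_div t (IsDec d F a t)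
        (fun D h => h.injective) (fun D σ h => isDec_perm h σ) hΩ
      rcases card_dec_dvd (F := F) (d := d) (a := a) (t := t) hae with h2 | h2
      · exact cc_le_of_dvd hrF (h1.trans h2)
      · exfalso
        obtain ⟨D, hD⟩ := exists_dec (F := F) hat ha hae ht
        haveI : Finite (Submodule F (Fin d ⊕ Fin d → F)) := by
          haveI : Finite (Fin d ⊕ Fin d → F) := inferInstance
          exact Finite.of_injective (fun W => (W : Set (Fin d ⊕ Fin d → F)))
            SetLike.coe_injective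
        haveI : Nonempty {D // IsDec d F a t D} := ⟨⟨D, hD⟩⟩
        exact Nat.card_pos.ne' h2
    -- the elements used
    have key : ∀ m : ℕ, 0 < m → cc (Fintype.card F) r * m ≤ 2 * d →
        ∃ x : Module.End F (Fin d ⊕ Fin d → F),
          (∀ u v, sympBilin d F (x u) (x v) = sympBilin d F u v) ∧ x ^ r = 1 ∧
          finrank F (LinearMap.range (x - 1)) = cc (Fintype.card F) r * m ∧
          ∃ D : Fin t → Submodule F (Fin d ⊕ Fin d → F), IsDec d F a t D ∧
            ∃ σ : Equiv.Perm (Fin t), ∀ j, (D j).map x = D (σ j) := by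
      intro m hm0 hm
      obtain ⟨k, hk⟩ := (cc_even (Fintype.card F) r).mul_right m
      obtain ⟨W, -, hW, hWf⟩ := exists_even_dim (B := sympBilin d F) hA k ⊤ nd_top
        (by rw [finrank_top, hV]; omega)
      obtain ⟨x, hx⟩ := exists_freeOn (B := sympBilin d F) hA hrF m W hW (by omega)
      have hfr := hx.finrank_range hA hW
      obtain ⟨y, hy⟩ := exists_symplectic x hx.isom
      have hpow : Matrix.toLin' ((y ^ r : ↥(Matrix.symplecticGroup (Fin d) F)) :
          Matrix (Fin d ⊕ Fin d) (Fin d ⊕ Fin d) F) = 1 := by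
        rw [← hx.pow, ← hy, ← Matrix.toLin'_pow]
        rfl
      obtain ⟨D, hD, σ, hσ⟩ := H y ⟨1, by
          apply Matrix.toLin'.injective
          rw [hpow, one_smul, Matrix.toLin'_one]
          rfl⟩ (by
          intro z hz
          have h1 : x = z • (1 : Module.End F (Fin d ⊕ Fin d → F)) := by
            rw [← hy, hz, map_smul, Matrix.toLin'_one]
            rfl
          have h2 := eq_one_of_scalar ⟨e, he⟩ (by omega) hx.pow hx.isom h1
          rw [h2, sub_self, LinearMap.range_zero, finrank_bot] at hfr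
          have h3 : 0 < cc (Fintype.card F) r * m := Nat.mul_pos hc0 hm0
          omega)
      refine ⟨x, hx.isom, hx.pow, by rw [hfr]; omega, D, hD, σ, fun j => ?_⟩
      rw [← hy]
      exact hσ j
    -- common part
    have key2 : ∀ (x : Module.End F (Fin d ⊕ Fin d → F))
        (D : Fin t → Submodule F (Fin d ⊕ Fin d → F)) (σ : Equiv.Perm (Fin t)),
        (∀ u v, sympBilin d F (x u) (x v) = sympBilin d F u v) → x ^ r = 1 →
        IsDec d F a t D → (∀ j, (D j).map x = D (σ j)) → (∀ j, σ j = j) →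
        finrank F (LinearMap.range (x - 1)) = ∑ j, finrank F ((D j).map (x - 1)) ∧
        ∀ j, cc (Fintype.card F) r ∣ finrank F ((D j).map (x - 1)) ∧
          finrank F (D j ⊓ LinearMap.ker (x - 1) : Submodule F _) +
            finrank F ((D j).map (x - 1)) = a := by
      intro x D σ hx hxr hD hσ hfix
      have hinv : ∀ j, Inv x (D j) := fun j => Inv.of_map_eq (by rw [hσ, hfix])
      have hfam : OrthFam (sympBilin d F) (fun j => (D j).map (x - 1)) := by
        refine ⟨fun j => nd_comm hA hrF hxr hx (hD.2.1 j) (hinv j), ?_⟩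
        intro i j hij u hu v hv
        exact hD.2.2 i j hij u (map_sub_le (hinv i) hu) v (map_sub_le (hinv j) hv)
      refine ⟨?_, fun j => ⟨cc_dvd_comm hA hrF hxr hx (hD.2.1 j) (hinv j), ?_⟩⟩
      · rw [← hfam.finrank_sup hA Finset.univ, Finset.sup_univ_eq_iSup, ← Submodule.map_iSup]
        have htop : ⨆ j, D j = ⊤ := hD.1.iSup_eq_top
        rw [htop, Submodule.map_top]
      · rw [← hD.1.finrank_eq j]
        exact finrank_fix_add
    have hca : cc (Fintype.card F) r ≤ a := by
      obtain ⟨x, hx, hxr, hfr, D, hD, σ, hσ⟩ := key 1 one_pos (by omega)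
      have hfix : ∀ j, σ j = j := by
        intro j
        by_contra hj
        have h1 := (moved (x := x) hxr a (by omega) D hD.1.indep hD.1.iSup_eq_top
          hD.1.finrank_eq (by rw [hV, hat]) σ hσ hj).2
        rw [hfr, mul_one] at h1
        have h2 := cc_le hr2 hcop
        have h3 := hr.two_le
        nlinarith
      obtain ⟨h1, h2⟩ := key2 x D σ hx hxr hD hσ hfix
      obtain ⟨j, -, hj⟩ : ∃ j ∈ Finset.univ, finrank F ((D j).map (x - 1)) ≠ 0 := by
        by_contra hcon
        push Not at hcon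
        rw [Finset.sum_eq_zero hcon] at h1
        omega
      have h3 := Nat.le_of_dvd (Nat.pos_of_ne_zero hj) (h2 j).1
      have h4 := (h2 j).2
      omega
    refine ⟨hca, ?_⟩
    set c := cc (Fintype.card F) r with hc
    have hm0 : 0 < 2 * d / c := Nat.div_pos hc2d hc0
    obtain ⟨x, hx, hxr, hfr, D, hD, σ, hσ⟩ := key (2 * d / c) hm0 (Nat.mul_div_le _ _)
    have hker := LinearMap.finrank_range_add_finrank_ker (x - 1)
    rw [hV, hfr] at hker
    have hdm := Nat.div_add_mod (2 * d) c
    have hlt := Nat.mod_lt (2 * d) hc0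
    have hkerlt : finrank F (LinearMap.ker (x - 1)) < c := by omega
    have hfix : ∀ j, σ j = j := by
      intro j
      by_contra hj
      have h1 := (moved (x := x) hxr a (by omega) D hD.1.indep hD.1.iSup_eq_top
        hD.1.finrank_eq (by rw [hV, hat]) σ hσ hj).1
      omega
    obtain ⟨h1, h2⟩ := key2 x D σ hx hxr hD hσ hfix
    have h3 : ∀ j, finrank F ((D j).map (x - 1)) = a - a % c := by
      intro j
      obtain ⟨⟨k, hk⟩, h5⟩ := h2 j
      have h6 : finrank F (D j ⊓ LinearMap.ker (x - 1) : Submodule F _) ≤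
        finrank F (LinearMap.ker (x - 1)) := Submodule.finrank_mono inf_le_right
      have h7 : a % c = finrank F (D j ⊓ LinearMap.ker (x - 1) : Submodule F _) := by
        rw [← h5, hk, Nat.add_mul_mod_self_left, Nat.mod_eq_of_lt (by omega)]
      omega
    rw [hfr, Finset.sum_congr rfl (fun j _ => h3 j), Finset.sum_const, Finset.card_univ,
      Fintype.card_fin, smul_eq_mul, Nat.mul_sub] at h1
    have h4 : t * (a % c) ≤ t * a := Nat.mul_le_mul_left t (Nat.mod_le a c)
    have h5 : t * a = 2 * d := by rw [hat, mul_comm]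
    omega
  · rintro ⟨hca, hmod⟩ x ⟨z, hz⟩ -
    set X := Matrix.toLin' (x : Matrix (Fin d ⊕ Fin d) (Fin d ⊕ Fin d) F) with hX
    have hXi := toLin_isometry x
    have hXr : X ^ r = z • (1 : Module.End F (Fin d ⊕ Fin d → F)) := by
      have h1 : X ^ r = Matrix.toLin' ((x ^ r : ↥(Matrix.symplecticGroup (Fin d) F)) :
          Matrix (Fin d ⊕ Fin d) (Fin d ⊕ Fin d) F) := by
        rw [hX, ← Matrix.toLin'_pow]
        rfl
      rw [h1, hz, map_smul, Matrix.toLin'_one]
      rfl
    have hzz : z * z = 1 := by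
      let i0 : Fin d := ⟨0, by omega⟩
      let u : Fin d ⊕ Fin d → F := Pi.single (Sum.inr i0) 1
      let v : Fin d ⊕ Fin d → F := Pi.single (Sum.inl i0) 1
      have h1 : sympBilin d F u v = 1 := by
        rw [sympBilin_apply, sympForm_single_inr_left]
        simp [v]
      have h2 : ∀ n : ℕ, ∀ u v, sympBilin d F ((X ^ n) u) ((X ^ n) v) = sympBilin d F u v := by
        intro n
        induction n with
        | zero => intro u v; rfl
        | succ n ih =>
          intro u v
          rw [pow_succ', Module.End.mul_apply, Module.End.mul_apply, hXi, ih]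
      have h3 := h2 r u v
      rw [hXr, LinearMap.smul_apply, LinearMap.smul_apply, Module.End.one_apply,
        Module.End.one_apply, map_smul, map_smul, LinearMap.smul_apply, smul_eq_mul,
        smul_eq_mul, h1, mul_one] at h3
      exact h3
    have hz0 : z ≠ 0 := fun h => by rw [h, mul_zero] at hzz; exact zero_ne_one hzz
    set Y := z • X with hY
    have hYi : ∀ u v, sympBilin d F (Y u) (Y v) = sympBilin d F u v := by
      intro u v
      rw [hY, LinearMap.smul_apply, LinearMap.smul_apply, map_smul, map_smul,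
        LinearMap.smul_apply, hXi, smul_smul, hzz, one_smul]
    have hYr : Y ^ r = 1 := by
      rw [hY, smul_pow, hXr, smul_smul, he, ← pow_succ]
      have : z ^ (2 * e + 1 + 1) = 1 := by
        rw [show 2 * e + 1 + 1 = 2 * (e + 1) by ring, pow_mul, sq, hzz, one_pow]
      rw [this, one_smul]
    set c := cc (Fintype.card F) r with hc
    have hYdvd := cc_dvd_comm (B := sympBilin d F) hA hrF hYr hYi nd_top
      (fun _ _ => Submodule.mem_top)
    have hle : finrank F ((⊤ : Submodule F (Fin d ⊕ Fin d → F)).map (Y - 1)) ≤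
        c * (a / c) * t := by
      obtain ⟨k, hk⟩ := hYdvd
      rw [← hc] at hk
      have h1 : finrank F ((⊤ : Submodule F (Fin d ⊕ Fin d → F)).map (Y - 1)) ≤ 2 * d := by
        rw [← hV]
        exact Submodule.finrank_le _
      have h2 := Nat.div_add_mod (2 * d) c
      have h3 := Nat.div_add_mod a c
      have h4 : c * (2 * d / c) = c * (a / c) * t := by
        have h5 : c * (2 * d / c) + t * (a % c) = (c * (a / c) + a % c) * t := by
          rw [h3, ← hat, ← hmod, h2]
        have h6 : (c * (a / c) + a % c) * t = c * (a / c) * t + t * (a % c) := by ring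
        omega
      rw [← h4, hk]
      apply Nat.mul_le_mul_left
      rw [Nat.le_div_iff_mul_le hc0, mul_comm]
      omega
    obtain ⟨D, hD, hDf, hDtop, hDx⟩ := exists_bins (B := sympBilin d F) hA hr2 hrF hYr hYi hord
      a hae t ⊤ nd_top (fun _ _ => Submodule.mem_top) (by rw [finrank_top, hV, hat]) hle
    refine ⟨D, isDec_of ht (by omega) hD hDf hDtop, 1, fun j => ?_⟩
    rw [Equiv.Perm.one_apply]
    conv_rhs => rw [← hDx j]
    rw [hY, Submodule.map_smul _ _ _ hz0]

/-- Elements of odd prime order of PSp_n(q) and imprimitive subgroups. Here `T = PSp_n(q)`, `n = 2d ≥ 4`, `(n, q) ≠ (4, 2)`, realised through the symplectic matrices over the field `F` with `q` elements and the standard alternating form; `n = a·t` with `a` even and `t ≥ 2`, and Ω is the (nonempty) set of orthogonal decompositions of `F^n` into `t` nondegenerate subspaces of dimension `a` (unordered; counted as ordered ones divided by `t!`), whose stabilizers are the imprimitive subgroups of type Sp_a(q) ≀ S_t (maximality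 is not assumed); an element of `T` of prime order `r` (a symplectic matrix `x` with `x^r` scalar, `x` not scalar) fixes a point of Ω when it permutes the summands of some such decomposition. Let `r ≠ p` be an odd prime dividing the number of such decompositions, let `i` be the multiplicative order of `q` modulo `r`, `c = i` if `i` is even and `c = 2i` if `i` is odd, and write `k = n mod c`, `ℓ = a mod c`. Then every element of `T` of order `r` stabilizes such a decomposition if and only if `c ≤ a` and `k = t·ℓ`. -/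
theorem result {F : Type*} [Field F] [Fintype F] {p : ℕ} [Fact p.Prime] [CharP F p] {q : ℕ} (hq : Fintype.card F = q)
    (d : ℕ) (hd : 2 ≤ d) (hT : (d, q) ≠ (2, 2))
    (a t : ℕ) (hat : 2 * d = a * t) (ha : 2 ≤ a) (hae : Even a) (ht : 2 ≤ t)
    (r : ℕ) [Fact r.Prime] (hr2 : r ≠ 2) (hrp : r ≠ p) (hΩ : r ∣ Nat.card {D : Fin t → Submodule F (Fin d ⊕ Fin d → F) // (Cfsg.Geo.IsMDecomposition a D ∧ (∀ j, ∀ u ∈ D j, u ≠ 0 → ∃ v ∈ D j, Cfsg.sympForm d F u v ≠ 0) ∧
          (∀ j j', j ≠ j' → ∀ u ∈ D j, ∀ v ∈ D j', Cfsg.sympForm d F u v = 0))} / Nat.factorial t)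
    (i c : ℕ) (hi : i = orderOf (q : ZMod r)) (hc : c = if Even i then i else 2 * i) :
    (∀ x : ↥(Matrix.symplecticGroup (Fin d) F),
      (∃ z : F, ((x ^ r : ↥(Matrix.symplecticGroup (Fin d) F)) : Matrix (Fin d ⊕ Fin d) (Fin d ⊕ Fin d) F) = z • (1 : Matrix (Fin d ⊕ Fin d) (Fin d ⊕ Fin d) F)) →
      (∀ z : F, (x : Matrix (Fin d ⊕ Fin d) (Fin d ⊕ Fin d) F) ≠ z • (1 : Matrix (Fin d ⊕ Fin d) (Fin d ⊕ Fin d) F)) →
      ∃ D : Fin t → Submodule F (Fin d ⊕ Fin d → F), (Cfsg.Geo.IsMDecomposition a D ∧ (∀ j, ∀ u ∈ D j, u ≠ 0 → ∃ v ∈ D j, Cfsg.sympForm d F u v ≠ 0) ∧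
          (∀ j j', j ≠ j' → ∀ u ∈ D j, ∀ v ∈ D j', Cfsg.sympForm d F u v = 0)) ∧
        ∃ σ : Equiv.Perm (Fin t), ∀ j, (D j).map (Matrix.toLin' (x : Matrix (Fin d ⊕ Fin d) (Fin d ⊕ Fin d) F)) = D (σ j)) ↔
    (c ≤ a ∧ (2 * d) % c = t * (a % c)) := by
  subst hq
  have hrF : (r : F) ≠ 0 := by
    intro h0
    have h1 : p ∣ r := (CharP.cast_eq_zero_iff F p r).1 h0
    exact hrp ((Nat.prime_dvd_prime_iff_eq (Fact.out : p.Prime) (Fact.out : r.Prime)).1 h1).symm
  have hcc : c = cc (Fintype.card F) r := by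
    rw [hc, hi]
    rfl
  rw [hcc]
  exact main hr2 hrF hd hat ha hae ht hΩ

end Cfsg.Agent.S5961
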