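import Cfsg.Statements.S5963
import Cfsg.Agent.H952.Polar

set_option autoImplicit false
open scoped MatrixGroups
open Cfsg

namespace Cfsg.Agent.S5963

open Module Submodule
open Cfsg.Agent.H952.Alt Cfsg.Agent.H952.Semi Cfsg.Agent.H952.SympSemi
open Cfsg.Agent.ClassicalGeometry.SympBasic

variable {F : Type*} [Field F] {d : ℕ}

/-- A scalar isometry of odd order is trivial. -/
theorem eq_one_of_scalar {r : ℕ} (hodd : Odd r) (hd : 0 < d)
    {x : Module.End F (Fin d ⊕ Fin d → F)} (hxr : x ^ r = 1)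
    (hx : ∀ u v, sympBilin d F (x u) (x v) = sympBilin d F u v) {z : F}
    (hz : x = z • (1 : Module.End F (Fin d ⊕ Fin d → F))) : x = 1 := by
  let i0 : Fin d := ⟨0, by omega⟩
  let u : Fin d ⊕ Fin d → F := Pi.single (Sum.inr i0) 1
  let v : Fin d ⊕ Fin d → F := Pi.single (Sum.inl i0) 1
  have h1 : sympBilin d F u v = 1 := by
    rw [sympBilin_apply, sympForm_single_inr_left]
    simp [v]
  have hzv : ∀ w, x w = z • w := fun w => by rw [hz]; rfl
  have h2 : z * z = 1 := by
    have h3 := hx u v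
    rw [hzv, hzv, map_smul, map_smul, LinearMap.smul_apply, smul_eq_mul, smul_eq_mul, h1,
      mul_one] at h3
    exact h3
  have h3 : ∀ n : ℕ, (x ^ n) v = z ^ n • v := by
    intro n
    induction n with
    | zero => simp
    | succ n ih => rw [pow_succ', Module.End.mul_apply, ih, hzv, smul_smul, ← pow_succ']
  have h4 : z ^ r = 1 := by
    have h5 := h3 r
    rw [hxr, Module.End.one_apply] at h5
    have h6 := congrFun h5 (Sum.inl i0)
    simpa [v] using h6.symm
  have h5 : z = 1 := by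
    obtain ⟨k, hk⟩ := hodd
    rw [hk, pow_succ, pow_mul, sq, h2, one_pow, one_mul] at h4
    exact h4
  rw [hz, h5, one_smul]

/-- An isometry of odd order `r` whose commutator space has dimension the order of `q` modulo `r`
fixes no polar pair. -/
theorem no_pair [Fintype F] {r : ℕ} [Fact r.Prime] (hr2 : r ≠ 2) (hrF : (r : F) ≠ 0)
    (hd : 0 < d) {x : Module.End F (Fin d ⊕ Fin d → F)} (hxr : x ^ r = 1)
    (hx : ∀ u v, sympBilin d F (x u) (x v) = sympBilin d F u v)
    (hfr : finrank F (LinearMap.range (x - 1)) = orderOf ((Fintype.card F : ℕ) : ZMod r))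
    {U W : Submodule F (Fin d ⊕ Fin d → F)} (hc : IsCompl U W)
    (hU : TI (sympBilin d F) U) (hW : TI (sympBilin d F) W)
    (h : (U.map x = U ∧ W.map x = W) ∨ (U.map x = W ∧ W.map x = U)) : False := by
  have hr := (Fact.out : r.Prime)
  have hcop := coprime_card (F := F) hrF
  have hord := Cfsg.Agent.H952.SympSemi.orderOf_pos hcop
  have hA : (sympBilin d F).IsAlt := sympBilin_isAlt
  obtain ⟨e, he⟩ := hr.eq_two_or_odd'.resolve_left hr2
  rcases h with ⟨h1, h2⟩ | ⟨h1, h2⟩
  · have hUx := Inv.of_map_eq h1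
    have hWx := Inv.of_map_eq h2
    have hd1 := orderOf_dvd_finrank hxr (inv_map_sub hUx) (comm_inf_ker hrF hxr U)
    have hd2 := orderOf_dvd_finrank hxr (inv_map_sub hWx) (comm_inf_ker hrF hxr W)
    have hsum := Cfsg.Agent.H952.Jordan.finrank_map_sup (x - 1) U W (map_sub_le hUx)
      (map_sub_le hWx) hc.disjoint 1
    rw [pow_one, hc.sup_eq_top, Submodule.map_top, hfr] at hsum
    have hnd := nd_comm (B := sympBilin d F) hA hrF hxr hx nd_top
      (fun _ _ => Submodule.mem_top)
    rw [Submodule.map_top] at hnd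
    have hTI : TI (sympBilin d F) (LinearMap.range (x - 1)) := by
      rcases Nat.eq_zero_or_pos (finrank F (W.map (x - 1))) with h0 | h0
      · have h3 : LinearMap.range (x - 1) = U.map (x - 1) := by
          rw [← Submodule.map_top, ← hc.sup_eq_top, Submodule.map_sup,
            Submodule.finrank_eq_zero.1 h0, sup_bot_eq]
        rw [h3]
        intro a ha b hb
        exact hU a (map_sub_le hUx ha) b (map_sub_le hUx hb)
      · have h4 := Nat.le_of_dvd h0 hd2
        have h3 : LinearMap.range (x - 1) = W.map (x - 1) := by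
          rw [← Submodule.map_top, ← hc.sup_eq_top, Submodule.map_sup,
            Submodule.finrank_eq_zero.1 (show finrank F (U.map (x - 1)) = 0 by omega),
            bot_sup_eq]
        rw [h3]
        intro a ha b hb
        exact hW a (map_sub_le hWx ha) b (map_sub_le hWx hb)
    have hne : LinearMap.range (x - 1) ≠ ⊥ := by
      intro h0
      rw [h0, finrank_bot] at hfr
      omega
    obtain ⟨u, hu, hu0⟩ := Submodule.exists_mem_ne_zero_of_ne_bot hne
    obtain ⟨v, hv, hne⟩ := hnd u hu hu0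
    exact hne (hTI u hu v hv)
  · have h3 : U.map (x ^ 2) = U := by
      rw [sq, Module.End.mul_eq_comp, Submodule.map_comp, h1, h2]
    have h4 : ∀ n : ℕ, U.map ((x ^ 2) ^ n) = U := by
      intro n
      induction n with
      | zero => rw [pow_zero, Module.End.one_eq_id, Submodule.map_id]
      | succ n ih => rw [pow_succ, Module.End.mul_eq_comp, Submodule.map_comp, h3, ih]
    have h5 : U.map (x ^ r) = W := by
      rw [he, pow_succ', pow_mul, Module.End.mul_eq_comp, Submodule.map_comp, h4, h1]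
    rw [hxr, Module.End.one_eq_id, Submodule.map_id] at h5
    subst h5
    have h6 : U = ⊥ := by
      have := hc.inf_eq_bot
      rwa [inf_idem] at this
    have h7 : U = ⊤ := by
      have := hc.sup_eq_top
      rwa [sup_idem] at this
    have h8 : (Pi.single (Sum.inl ⟨0, hd⟩) 1 : Fin d ⊕ Fin d → F) ∈
        (⊥ : Submodule F (Fin d ⊕ Fin d → F)) := by
      rw [← h6, h7]; exact Submodule.mem_top
    rw [Submodule.mem_bot] at h8
    have h9 := congrFun h8 (Sum.inl ⟨0, hd⟩)
    simp at h9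

/-- Derangements of odd prime order of PSp_n(q), q odd, on pairs of complementary totally isotropic subspaces. Here `T = PSp_n(q)`, `n = 2d ≥ 4`, `q` odd, realised through the symplectic matrices over the field `F` with `q` elements; Ω is the set of unordered pairs `{U, W}` of complementary totally isotropic `d`-spaces (`F^n = U ⊕ W`), whose stabilizers are the subgroups of type GL_d(q).2 (maximal except in some small cases; maximality is not assumed); an element of `T` of prime order `r` (a symplectic matrix `x` with `x^r` scalar, `x` not scalar) fixes such a pair when it fixes or interchanges `U` and `W`. For every odd prime `r ≠ p` dividing the number of such pairs, some element of `T` of order `r` fixes no such pair (the action is never `r`-elusive for odd `r ≠ p`). -/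
theorem result {F : Type*} [Field F] [Fintype F] {p : ℕ} [Fact p.Prime] [CharP F p] {q : ℕ} (hq : Fintype.card F = q)
    (d : ℕ) (hd : 2 ≤ d) (hT : (d, q) ≠ (2, 2)) (hodd : Odd q)
    (r : ℕ) [Fact r.Prime] (hr2 : r ≠ 2) (hrp : r ≠ p) (hΩ : r ∣ Nat.card {P : Submodule F (Fin d ⊕ Fin d → F) × Submodule F (Fin d ⊕ Fin d → F) // IsCompl P.1 P.2 ∧ (∀ u ∈ P.1, ∀ v ∈ P.1, Cfsg.sympForm d F u v = 0) ∧ (∀ u ∈ P.2, ∀ v ∈ P.2, Cfsg.sympForm d F u v = 0)} / 2) :
    ∃ x : ↥(Matrix.symplecticGroup (Fin d) F),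
      (∃ z : F, ((x ^ r : ↥(Matrix.symplecticGroup (Fin d) F)) : Matrix (Fin d ⊕ Fin d) (Fin d ⊕ Fin d) F) = z • (1 : Matrix (Fin d ⊕ Fin d) (Fin d ⊕ Fin d) F)) ∧
      (∀ z : F, (x : Matrix (Fin d ⊕ Fin d) (Fin d ⊕ Fin d) F) ≠ z • (1 : Matrix (Fin d ⊕ Fin d) (Fin d ⊕ Fin d) F)) ∧
      ¬ (∃ U W : Submodule F (Fin d ⊕ Fin d → F), IsCompl U W ∧ (∀ u ∈ U, ∀ v ∈ U, Cfsg.sympForm d F u v = 0) ∧ (∀ u ∈ W, ∀ v ∈ W, Cfsg.sympForm d F u v = 0) ∧
        ((U.map (Matrix.toLin' (x : Matrix (Fin d ⊕ Fin d) (Fin d ⊕ Fin d) F)) = U ∧ W.map (Matrix.toLin' (x : Matrix (Fin d ⊕ Fin d) (Fin d ⊕ Fin d) F)) = W) ∨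
         (U.map (Matrix.toLin' (x : Matrix (Fin d ⊕ Fin d) (Fin d ⊕ Fin d) F)) = W ∧ W.map (Matrix.toLin' (x : Matrix (Fin d ⊕ Fin d) (Fin d ⊕ Fin d) F)) = U))) := by
  subst hq
  have hrF : (r : F) ≠ 0 := by
    intro h0
    have h1 : p ∣ r := (CharP.cast_eq_zero_iff F p r).1 h0
    exact hrp ((Nat.prime_dvd_prime_iff_eq (Fact.out : p.Prime) (Fact.out : r.Prime)).1 h1).symm
  have hr := (Fact.out : r.Prime)
  have hcop := coprime_card (F := F) hrF
  have hord := Cfsg.Agent.H952.SympSemi.orderOf_pos hcop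
  have hA : (sympBilin d F).IsAlt := sympBilin_isAlt
  have hV : finrank F (Fin d ⊕ Fin d → F) = 2 * d := by
    rw [Module.finrank_fintype_fun_eq_card, Fintype.card_sum, Fintype.card_fin]; omega
  have hΩ' : r ∣ Nat.card {P // Cfsg.Agent.H952.Polar.IsPair d F P} :=
    hΩ.trans (Nat.div_dvd_of_dvd (Cfsg.Agent.H952.Polar.even_card (F := F) (d := d) (by omega)))
  obtain ⟨j, hj, hjr⟩ := Cfsg.Agent.H952.Polar.exists_dvd hrF hΩ'
  obtain ⟨hev, hle⟩ := Cfsg.Agent.H952.Polar.order_even hr2 (by omega) hjr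
  have hcc : cc (Fintype.card F) r = orderOf ((Fintype.card F : ℕ) : ZMod r) := by
    rw [cc, if_pos hev]
  obtain ⟨k, hk⟩ := hev
  obtain ⟨W, -, hW, hWf⟩ := exists_even_dim (B := sympBilin d F) hA k ⊤ nd_top
    (by rw [finrank_top, hV]; omega)
  obtain ⟨x, hx⟩ := exists_freeOn (B := sympBilin d F) hA hrF 1 W hW (by omega)
  have hfr := hx.finrank_range hA hW
  obtain ⟨y, hy⟩ := exists_symplectic x hx.isom
  have hpow : Matrix.toLin' ((y ^ r : ↥(Matrix.symplecticGroup (Fin d) F)) :
      Matrix (Fin d ⊕ Fin d) (Fin d ⊕ Fin d) F) = 1 := by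
    rw [← hx.pow, ← hy, ← Matrix.toLin'_pow]
    rfl
  refine ⟨y, ⟨1, ?_⟩, ?_, ?_⟩
  · apply Matrix.toLin'.injective
    rw [hpow, one_smul, Matrix.toLin'_one]
    rfl
  · intro z hz
    have h1 : x = z • (1 : Module.End F (Fin d ⊕ Fin d → F)) := by
      rw [← hy, hz, map_smul, Matrix.toLin'_one]
      rfl
    have h2 := eq_one_of_scalar (hr.eq_two_or_odd'.resolve_left hr2) (by omega) hx.pow hx.isom h1
    rw [h2, sub_self, LinearMap.range_zero, finrank_bot] at hfr
    omega
  · rintro ⟨U, W', hc, hU, hW', h⟩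
    rw [hy] at h
    exact no_pair hr2 hrF (by omega) hx.pow hx.isom (by omega) hc hU hW' h

end Cfsg.Agent.S5963
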