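import Cfsg.Statements.S5964
import Cfsg.Agent.H953.Roots
import Cfsg.Agent.H953.Index

set_option autoImplicit false
open scoped MatrixGroups
open Cfsg

namespace Cfsg.Agent.S5964

open Polynomial Cfsg.Agent.H953

universe u

variable {F : Type u} [Field F] [Fintype F]

omit [Fintype F] in
theorem z_ne_zero {n : ℕ} (hn : 2 ≤ n) (x : Matrix.SpecialLinearGroup (Fin n) F) {m : ℕ} {z : F}
    (h : ((x ^ m : Matrix.SpecialLinearGroup (Fin n) F) : Matrix (Fin n) (Fin n) F) = z • (1 : Matrix (Fin n) (Fin n) F)) :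
    z ≠ 0 := by
  rintro rfl
  have : Nonempty (Fin n) := ⟨⟨0, by omega⟩⟩
  have h2 := (x ^ m).det_coe
  rw [h, zero_smul, Matrix.det_zero] at h2
  exact zero_ne_one h2

/-- The case of even `q`. -/
theorem even_case [CharP F 2] (n : ℕ) (hn : 2 ≤ n)
    (F₀ : Subfield F) (x : Matrix.SpecialLinearGroup (Fin n) F)
    (hx : ∃ z : F, ((x ^ 2 : Matrix.SpecialLinearGroup (Fin n) F) : Matrix (Fin n) (Fin n) F) = z • (1 : Matrix (Fin n) (Fin n) F)) :
    ∃ P : Matrix.SpecialLinearGroup (Fin n) F, P⁻¹ * x * P ∈ ((Cfsg.Geo.subfieldSubgroup F₀ 1).comap (Matrix.SpecialLinearGroup.toGL : Matrix.SpecialLinearGroup (Fin n) F →* GL (Fin n) F)) := by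
  classical
  have hne : Nonempty (Fin n) := ⟨⟨0, by omega⟩⟩
  have hnz : NeZero n := ⟨by omega⟩
  obtain ⟨z, hz⟩ := hx
  have hz0 := z_ne_zero hn x hz
  rw [Matrix.SpecialLinearGroup.coe_pow] at hz
  obtain ⟨w, u, hw, hxu, hu, hu1⟩ := exists_unipotent 2 (x : Matrix (Fin n) (Fin n) F) z hz0 hz
  obtain ⟨P, y, hP⟩ := exists_descent F₀ u _ hu (by
    intro g hg hdvd m
    obtain ⟨j, -, rfl⟩ := dvd_X_sub_one_pow hg hdvd
    exact coeff_X_sub_one_pow_mem F₀ j m)
  have hPx : (x : Matrix (Fin n) (Fin n) F) * (P : Matrix (Fin n) (Fin n) F) =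
      (P : Matrix (Fin n) (Fin n) F) * (w • y.map F₀.subtype) := by
    rw [hxu, Matrix.smul_mul, hP, Matrix.mul_smul]
  have hmem := mem_subfield_of_eq F₀ x P w y hPx
  obtain ⟨d, g, e, Q, hg, hann, hQ⟩ := exists_rcf u
  have hcomm : ∀ A : Matrix (Fin n) (Fin n) F, A * u = u * A → A * (x : Matrix (Fin n) (Fin n) F) =
      (x : Matrix (Fin n) (Fin n) F) * A := by
    intro A hA
    rw [hxu, Matrix.mul_smul, Matrix.smul_mul, hA]
  have hall : ∀ c : F, ∃ A : Matrix (Fin n) (Fin n) F,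
      A * (x : Matrix (Fin n) (Fin n) F) = (x : Matrix (Fin n) (Fin n) F) * A ∧ A.det = c := by
    intro c
    obtain ⟨i, hi⟩ := exists_index e
    have hdeg : (g i).natDegree ≤ 2 := by
      obtain ⟨j, hj, h⟩ := dvd_X_sub_one_pow (monic_of_pow (hg i)) ((hann _).mp hu i)
      rw [h]
      have : (X - 1 : F[X]) = X - C 1 := by rw [C_1]
      rw [this, natDegree_pow, natDegree_X_sub_C]
      omega
    have h3 : (g i).natDegree = 1 ∨ (g i).natDegree = 2 := by omega
    rcases h3 with h | h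
    · obtain ⟨A, hA, hd⟩ := exists_commute_scale hQ i c
      exact ⟨A, hcomm A hA, by rw [hd, h, pow_one]⟩
    · obtain ⟨b, hb⟩ := exists_pow_char 2 c
      obtain ⟨A, hA, hd⟩ := exists_commute_scale hQ i b
      exact ⟨A, hcomm A hA, by rw [hd, h, hb]⟩
  exact conj_sl_of_gl _ x hall P hmem

/-- If `x ^ r = w ^ r` is scalar, `r ≠ p`, and `q ≡ q₀ (mod r)`, then `x` is conjugate into the subfield group. -/
theorem conj_of_root {p : ℕ} [Fact p.Prime] [CharP F p] (n : ℕ) (hn : 2 ≤ n)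
    (F₀ : Subfield F) {q₀ : ℕ} (hF₀ : Nat.card F₀ = q₀) (r : ℕ) (hr : r.Prime) (hrp : r ≠ p)
    (hle : q₀ ≤ Fintype.card F) (hmod : r ∣ Fintype.card F - q₀)
    (x : Matrix.SpecialLinearGroup (Fin n) F) (w : F)
    (hx : ((x ^ r : Matrix.SpecialLinearGroup (Fin n) F) : Matrix (Fin n) (Fin n) F) = (w ^ r) • (1 : Matrix (Fin n) (Fin n) F)) :
    ∃ P : Matrix.SpecialLinearGroup (Fin n) F, P⁻¹ * x * P ∈ ((Cfsg.Geo.subfieldSubgroup F₀ 1).comap (Matrix.SpecialLinearGroup.toGL : Matrix.SpecialLinearGroup (Fin n) F →* GL (Fin n) F)) := by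
  have hne : Nonempty (Fin n) := ⟨⟨0, by omega⟩⟩
  have hnz : NeZero n := ⟨by omega⟩
  have hw : w ≠ 0 := by
    intro h
    exact z_ne_zero hn x hx (by rw [h, zero_pow hr.ne_zero])
  have hrF : (r : F) ≠ 0 := by
    rw [Ne, CharP.cast_eq_zero_iff F p]
    intro h
    exact hrp ((Nat.prime_dvd_prime_iff_eq Fact.out hr).mp h).symm
  rw [Matrix.SpecialLinearGroup.coe_pow] at hx
  set y : Matrix (Fin n) (Fin n) F := w⁻¹ • (x : Matrix (Fin n) (Fin n) F) with hy
  have hxy : (x : Matrix (Fin n) (Fin n) F) = w • y := by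
    rw [hy, smul_smul, mul_inv_cancel₀ hw, one_smul]
  have hy1 : y ^ r = 1 := by
    rw [hy, _root_.smul_pow, hx, smul_smul, inv_pow, inv_mul_cancel₀ (pow_ne_zero _ hw), one_smul]
  have hyX : aeval y (X ^ r - 1 : F[X]) = 0 := by
    rw [map_sub, map_pow, aeval_X, map_one, hy1, sub_self]
  obtain ⟨P, y₀, hP⟩ := exists_descent F₀ y _ hyX (by
    intro g hg hdvd m
    exact coeff_mem_of_dvd p F₀ hF₀ r hrF hle hmod g hg hdvd m)
  have hPx : (x : Matrix (Fin n) (Fin n) F) * (P : Matrix (Fin n) (Fin n) F) =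
      (P : Matrix (Fin n) (Fin n) F) * (w • y₀.map F₀.subtype) := by
    rw [hxy, Matrix.smul_mul, hP, Matrix.mul_smul]
  have hmem := mem_subfield_of_eq F₀ x P w y₀ hPx
  refine conj_sl_of_gl _ x ?_ P hmem
  intro c
  obtain ⟨A, hA, hd⟩ := exists_commute_det_of_squarefree y _ ((X_pow_sub_one_separable_iff.mpr hrF).squarefree) hyX c
  refine ⟨A, ?_, hd⟩
  rw [hxy, Matrix.mul_smul, Matrix.smul_mul, hA]

/-- Involutions of PSL_n(q) and subfield subgroups. Here `T = PSL_n(F)` for a field `F` with `q = p^f` elements (`n ≥ 2`, `(n, q) ≠ (2, 2), (2, 3)`), `F₀` is the subfield with `q₀` elements where `q = q₀^k` for a prime `k`, and `H` is the subgroup of matrices of determinant 1 lying in the subfield group of `F₀` (invertible matrices over `F₀` times scalars) — a maximal subgroup of type GL_n(q₀) (the non-maximal case `n = 2`, `q₀ = 2` is excluded); Ω is the set of `T`-conjugates of `H` (cosets of `H`), so an element of `T` of prime order `r` (a matrix `x` of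 determinant 1 with `x^r` scalar, `x` not scalar) fixes a point of Ω when some conjugate of `x` by a matrix of determinant 1 lies in `H`. Suppose the index of `H` is even. Then every involution of `T` is conjugate in `T` into `H` if and only if either `q` is even, or `k = 2` and `(n)_2 ≤ (q − 1)_2`. (For `q` odd and `k` odd the index of `H` is odd, so that case does not arise.) -/
theorem result {F : Type*} [Field F] [Fintype F] {p : ℕ} [Fact p.Prime] [CharP F p] {q : ℕ} (hq : Fintype.card F = q)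
    (n : ℕ) (hn : 2 ≤ n) (hT : (n, q) ≠ (2, 2) ∧ (n, q) ≠ (2, 3))
    (F₀ : Subfield F) (k q₀ : ℕ) (hk : k.Prime) (hF₀ : Nat.card ↥F₀ = q₀) (hqk : q = q₀ ^ k) (hC5 : ¬ (n = 2 ∧ q₀ = 2)) (hΩ : 2 ∣ ((Cfsg.Geo.subfieldSubgroup F₀ 1).comap (Matrix.SpecialLinearGroup.toGL : Matrix.SpecialLinearGroup (Fin n) F →* GL (Fin n) F)).index) :
    (∀ x : Matrix.SpecialLinearGroup (Fin n) F,
      (∃ z : F, ((x ^ 2 : Matrix.SpecialLinearGroup (Fin n) F) : Matrix (Fin n) (Fin n) F) = z • (1 : Matrix (Fin n) (Fin n) F)) →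
      (∀ z : F, (x : Matrix (Fin n) (Fin n) F) ≠ z • (1 : Matrix (Fin n) (Fin n) F)) →
      ∃ P : Matrix.SpecialLinearGroup (Fin n) F, P⁻¹ * x * P ∈ ((Cfsg.Geo.subfieldSubgroup F₀ 1).comap (Matrix.SpecialLinearGroup.toGL : Matrix.SpecialLinearGroup (Fin n) F →* GL (Fin n) F))) ↔
    (Odd q → (k = 2 ∧ padicValNat 2 n ≤ padicValNat 2 (q - 1))) := by
  classical
  have hfin : Fintype F₀ := Fintype.ofFinite F₀
  have hc0 : Fintype.card F₀ = q₀ := by rw [← hF₀, Nat.card_eq_fintype_card]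
  have hq01 : 1 < q₀ := hc0 ▸ Fintype.one_lt_card
  constructor
  · intro h hodd
    have hp2 : 2 ≠ p := by
      rintro rfl
      obtain ⟨l, -, hl⟩ := FiniteField.card F 2
      rw [hq] at hl
      rw [hl] at hodd
      exact (Nat.not_even_iff_odd.mpr hodd) ((even_two).pow_of_ne_zero l.ne_zero)
    have hq0odd : Odd q₀ := by
      by_contra hcon
      rw [Nat.not_odd_iff_even] at hcon
      rw [hqk] at hodd
      exact (Nat.not_even_iff_odd.mpr hodd) (hcon.pow_of_ne_zero hk.ne_zero)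
    obtain ⟨j, hj2, hjn, -, hj⟩ := exists_of_dvd_index n hn F₀ k q₀ hF₀ (hq.trans hqk) hk 2 Nat.prime_two hp2 hΩ
    have hk2 : 2 = k := by
      apply hj
      have : Odd (q₀ ^ j) := hq0odd.pow
      obtain ⟨l, hl⟩ := this
      exact ⟨l, by omega⟩
    subst hk2
    refine ⟨rfl, ?_⟩
    by_contra hcon
    push Not at hcon
    -- the element of order 2 with irreducible minimal polynomial
    have h2q : 2 ∣ Fintype.card F - 1 := by
      rw [hq]
      obtain ⟨l, hl⟩ := hodd
      exact ⟨l, by omega⟩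
    obtain ⟨z, hz0, hz1, hzn⟩ := exists_not_pow (F := F) 2 h2q
    rw [hq] at hz1
    have hn0 : n ≠ 0 := by omega
    obtain ⟨m, hm⟩ : 2 ^ (padicValNat 2 (q - 1) + 1) ∣ n := (padicValNat_dvd_iff_le hn0).mpr hcon
    set ν := padicValNat 2 (q - 1) with hν
    have hν1 : 1 ≤ ν := by
      rw [hν]
      have : q - 1 ≠ 0 := by
        have := Fintype.one_lt_card (α := F)
        omega
      rw [← padicValNat_dvd_iff_le this, pow_one, ← hq]
      exact h2q
    have hn2 : n = 2 * (2 ^ ν * m) := by rw [hm]; ring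
    subst hn2
    obtain ⟨x, hx⟩ := exists_sl_pow_eq (F := F) 2 (2 ^ ν * m) (by norm_num) z (by
      rw [pow_mul]
      have : ((-1) ^ 2 * -z) ^ 2 ^ ν = 1 := by
        have h3 : Even (2 ^ ν) := (even_two).pow_of_ne_zero (by omega)
        rw [neg_one_sq, one_mul, h3.neg_pow, hz1]
      rw [this, one_pow])
    obtain ⟨P, hP⟩ := h x ⟨z, hx⟩ (by
      intro c hc
      apply hzn c
      rw [Matrix.SpecialLinearGroup.coe_pow, hc, _root_.smul_pow, one_pow] at hx
      have h6 := congrFun (congrFun hx ⟨0, by omega⟩) ⟨0, by omega⟩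
      simpa using h6)
    obtain ⟨c, s, hc, hs, hzs⟩ := exists_of_conj (by omega) F₀ x P hx hP
    obtain ⟨t, ht⟩ := isSquare_of_mem_subfield F₀ hF₀ (hq.trans hqk) hq0odd hs
    apply hzn (c * t)
    rw [hzs, ht]
    ring
  · intro h x hx hxs
    by_cases hp : p = 2
    · subst hp
      exact even_case n hn F₀ x hx
    · have hoddq : Odd q := by
        obtain ⟨l, -, hl⟩ := FiniteField.card F p
        rw [← hq, hl]
        exact ((Fact.out : p.Prime).odd_of_ne_two hp).pow
      obtain ⟨hk2, hle⟩ := h hoddq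
      subst hk2
      have hq0odd : Odd q₀ := by
        by_contra hcon
        rw [Nat.not_odd_iff_even] at hcon
        rw [hqk] at hoddq
        exact (Nat.not_even_iff_odd.mpr hoddq) (hcon.pow_of_ne_zero two_ne_zero)
      obtain ⟨z, hz⟩ := hx
      -- z is a square
      obtain ⟨w, hw⟩ : ∃ w : F, w ^ 2 = z := by
        by_contra hcon
        push Not at hcon
        have hz' := hz
        rw [Matrix.SpecialLinearGroup.coe_pow] at hz'
        obtain ⟨d, hd, hdet⟩ := det_of_irreducible (x : Matrix (Fin n) (Fin n) F) Nat.prime_two z hz' hcon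
        rw [Fintype.card_fin] at hd
        rw [x.det_coe, neg_one_sq, one_mul] at hdet
        have hd0 : d ≠ 0 := by rintro rfl; omega
        have h3 : padicValNat 2 d < padicValNat 2 (Fintype.card F - 1) := by
          rw [hq]
          refine lt_of_lt_of_le ?_ hle
          rw [← hd, padicValNat.mul hd0 two_ne_zero, padicValNat.self (by norm_num)]
          omega
        obtain ⟨b, hb⟩ := exists_root_of_pow_eq_one (F := F) 2 hd0 hdet.symm h3
        obtain ⟨i, hi⟩ := isSquare_of_mem_subfield F₀ hF₀ (hq.trans hqk) hq0odd (F₀.neg_mem F₀.one_mem)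
        apply hcon (i * b)
        rw [mul_pow, hb, pow_two, ← hi]
        ring
      rw [← hw] at hz
      refine conj_of_root n hn F₀ hF₀ 2 Nat.prime_two (Ne.symm hp) ?_ ?_ x w hz
      · rw [hq, hqk]; exact Nat.le_self_pow two_ne_zero _
      · rw [hq, hqk]
        have : q₀ ^ 2 - q₀ = q₀ * (q₀ - 1) := by
          rw [Nat.mul_sub, mul_one, pow_two]
        rw [this]
        obtain ⟨l, hl⟩ := hq0odd
        exact Dvd.dvd.mul_left ⟨l, by omega⟩ _

end Cfsg.Agent.S5964
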