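import Cfsg.Statements.S5972
import Cfsg.Agent.H954.TSBridge

set_option autoImplicit false
open scoped MatrixGroups
open Cfsg

namespace Cfsg.Agent.S5972

open Module QuadraticMap Cfsg.Agent.LieClassical Cfsg.Agent.LieClassical.OrthCore Cfsg.Agent.H955
  Cfsg.Agent.LieClassical.OrthFinite Cfsg.Agent.H957 Cfsg.Agent.FooteOrth Cfsg.Agent.H954.TSing
  Cfsg.Agent.LieClassical.OrthForms

/-- Elements of prime order of Ω_n(q), n = 2d+1 ≥ 7, q odd, with no fixed totally singular `m`-space. Here `T = Ω_n(q)` is realised as the commutator subgroup of the isometry group of the quadratic form `x₀² + Σ xᵢyᵢ` over the field `F` with `q` elements (it has trivial centre, so its elements of prime order `r` are used directly); let `1 ≤ m ≤ d` and let `r` be a prime dividing the number of totally singular `m`-spaces. For `r ≠ p` let `i` be the multiplicative order of `q` modulo `r`, `c = i` for `i` even and `c = 2i` for `i` odd, and write `k = n mod c`,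 `ℓ = m mod i`, `n' = ⌊n/i⌋`, `m' = ⌊m/i⌋`, `t = (r−1)/i`. Then every element of `T` of order `r` fixes some totally singular `m`-space if and only if either (i) `r = 2` and (`m < (n−1)/2` or `q ≡ 1 (mod 4)`); or (ii) `r ≠ p` is odd, `i ≤ m`, `k > 2ℓ`, and `i` is odd or `n' − 2m' ≥ t`. -/
theorem result {F : Type*} [Field F] [Fintype F] {p : ℕ} [Fact p.Prime] [CharP F p] {q : ℕ} (hq : Fintype.card F = q) (hqodd : Odd q)
    (d m : ℕ) (hd : 3 ≤ d) (hm : 1 ≤ m) (hmd : m ≤ d)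
    (r : ℕ) [Fact r.Prime]
    (hrΩ : r ∣ Nat.card {W : Submodule F (Unit ⊕ (Fin d ⊕ Fin d) → F) // Module.finrank F ↥W = m ∧ (∀ w ∈ W, Cfsg.quadFormOdd d F w = 0)})
    (i c : ℕ) (hi : i = orderOf (q : ZMod r)) (hc : c = if Even i then i else 2 * i) :
    (∀ x : GL (Unit ⊕ (Fin d ⊕ Fin d)) F, x ∈ Cfsg.Geo.omegaGL (Cfsg.quadFormOdd d F) → orderOf x = r →
      ∃ W : Submodule F (Unit ⊕ (Fin d ⊕ Fin d) → F), Module.finrank F ↥W = m ∧ (∀ w ∈ W, Cfsg.quadFormOdd d F w = 0) ∧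
        W.map (Matrix.toLin' (x : Matrix (Unit ⊕ (Fin d ⊕ Fin d)) (Unit ⊕ (Fin d ⊕ Fin d)) F)) ≤ W) ↔
    ((r = 2 ∧ (m < d ∨ q % 4 = 1)) ∨
     (r ≠ p ∧ 2 < r ∧ i ≤ m ∧ 2 * (m % i) < (2 * d + 1) % c ∧ (Odd i ∨ (r - 1) / i + 2 * (m / i) ≤ (2 * d + 1) / i))) := by
  classical
  subst hq
  rw [show Cfsg.quadFormOdd d F = ⇑(oddForm d F) from (coe_oddForm d F).symm] at hrΩ ⊢
  have hrp : r.Prime := Fact.out
  -- characteristic
  have h2 : (2 : F) ≠ 0 := by
    intro h
    have h1 : ((2 : ℕ) : F) = 0 := by exact_mod_cast h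
    have h3 := (CharP.cast_eq_zero_iff F p 2).1 h1
    have h4 : p = 2 := (Nat.prime_dvd_prime_iff_eq Fact.out Nat.prime_two).1 h3
    subst h4
    obtain ⟨n, -, hn⟩ := FiniteField.card F 2
    rw [hn] at hqodd
    exact (Nat.not_even_iff_odd.2 hqodd) ((Nat.even_pow' n.ne_zero).2 even_two)
  have hQ : Nondeg (oddForm d F) := nondeg_oddForm d F h2
  have hdim : finrank F (Unit ⊕ (Fin d ⊕ Fin d) → F) = 2 * d + 1 := by
    rw [Module.finrank_fintype_fun_eq_card]
    simp only [Fintype.card_sum, Fintype.card_unit, Fintype.card_fin]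
    omega
  have hrp' : r ≠ p := not_dvd_card_of_char hQ (by omega) (tsm_nonempty_odd hQ hdim hmd) hrΩ
  have hr : (r : F) ≠ 0 := cast_ne_zero_of_ne (p := p) hrp'
  -- linear form of the left-hand side
  have hL : (∀ x : GL (Unit ⊕ (Fin d ⊕ Fin d)) F, x ∈ Cfsg.Geo.omegaGL (⇑(oddForm d F)) → orderOf x = r →
      ∃ W : Submodule F (Unit ⊕ (Fin d ⊕ Fin d) → F), Module.finrank F ↥W = m ∧ (∀ w ∈ W, oddForm d F w = 0) ∧
        W.map (Matrix.toLin' (x : Matrix (Unit ⊕ (Fin d ⊕ Fin d)) (Unit ⊕ (Fin d ⊕ Fin d)) F)) ≤ W) ↔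
      (∀ T ∈ ⁅O (oddForm d F), O (oddForm d F)⁆, T ^ r = 1 → T ≠ 1 → ∃ W ∈ TSm (oddForm d F) m, ∀ w ∈ W, T w ∈ W) := by
    constructor
    · intro H T hT hTr hT1
      obtain ⟨W, hW, hWs, hWx⟩ := H (glOf T) (mem_omega_glOf.2 hT) (orderOf_eq_prime
        (by rw [← glOf_pow, hTr, glOf_one]) (by
          intro h
          apply hT1
          rw [← eOf_glOf T, h, eOf_one]))
      rw [map_le_iff, eOf_glOf] at hWx
      exact ⟨W, ⟨hW, hWs⟩, hWx⟩
    · intro H x hx hxr
      obtain ⟨W, hW, hWx⟩ := H (eOf x) (mem_omegaGL_iff.1 hx)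
        (by rw [← eOf_pow, ← hxr, pow_orderOf_eq_one, eOf_one]) (by
          intro h
          have h1 := eOf_ne_one_of h
          rw [h1, orderOf_one] at hxr
          exact hrp.one_lt.ne hxr)
      exact ⟨W, hW.1, hW.2, map_le_iff.2 hWx⟩
  rw [hL]
  rcases hrp.two_le.lt_or_eq with hr2 | hr2
  · -- `r` odd
    have hodd : Odd r := hrp.odd_of_ne_two (by omega)
    rw [show (r = 2 ∧ (m < d ∨ Fintype.card F % 4 = 1)) ↔ False by
      constructor
      · rintro ⟨h, -⟩; omega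
      · exact False.elim, false_or]
    have hmain := main_odd h2 hr2 hr hQ hdim hmd hrΩ hi hc
    constructor
    · intro H
      have := hmain.1 fun T hT hTr hT1 => H T (mem_commutator_of_odd hQ (Or.inr (by
        simp only [Fintype.card_sum, Fintype.card_unit, Fintype.card_fin]; omega)) hodd hT hTr) hTr hT1
      exact ⟨hrp', hr2, this⟩
    · rintro ⟨-, -, h⟩ T hT hTr hT1
      exact hmain.2 h T (commutator_le_O hT) hTr hT1
  · -- `r = 2`
    subst hr2
    rw [show (2 ≠ p ∧ 2 < 2 ∧ i ≤ m ∧ 2 * (m % i) < (2 * d + 1) % c ∧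
      (Odd i ∨ (2 - 1) / i + 2 * (m / i) ≤ (2 * d + 1) / i)) ↔ False by
      constructor
      · rintro ⟨-, h, -⟩; omega
      · exact False.elim, or_false]
    have hq4 : Fintype.card F % 4 = 1 ↔ IsSquare (-1 : F) := by
      rw [FiniteField.isSquare_neg_one_iff]
      obtain ⟨k, hk⟩ := hqodd
      omega
    rw [hq4]
    constructor
    · intro H
      refine ⟨rfl, ?_⟩
      by_contra hcon
      push Not at hcon
      obtain ⟨hdm, hns⟩ := hcon
      obtain ⟨T, hTO, hTc, hT2, hT1, hTd, -, hTW⟩ := exists_refl_pair h2 hns hQ (by omega)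
      obtain ⟨W, hW, hWT⟩ := H T hTc hT2 hT1
      have h3 := hTW W hWT hW.2
      have h4 := ts_le_half (nondeg_fixS hQ hTO hr hT2) h3 hW.2
      have h5 := finrank_fixS_add_comS T
      rw [hW.1] at h4
      omega
    · rintro ⟨-, h⟩ T hT hT2 hT1
      have hTO := commutator_le_O hT
      rcases Nat.lt_or_ge m d with hlt | hge
      · exact two_odd h2 hQ hTO hT2 hdim hlt
      · have hsq := h.resolve_left (by omega)
        obtain ⟨hdet, hsg⟩ := det_sg_of_mem hT
        obtain ⟨W₁, hW₁, hW₁s, hW₁d⟩ := exists_half_of_sg h2 hsq hQ _ T hTO hT2 hdet hsg rfl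
        rw [← comS_eq_negS h2 hT2] at hW₁ hW₁d
        have h5 := finrank_fixS_add_comS T
        obtain ⟨W₀, hW₀, hW₀s, hW₀d⟩ := exists_ts_fix_odd (nondeg_fixS hQ hTO hr hT2)
          ⟨d - finrank F W₁, by omega⟩
        exact two_glue h2 hTO hT2 hW₀ hW₀s hW₁ hW₁s (by omega)

end Cfsg.Agent.S5972
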