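import Cfsg.Statements.S5973
import Cfsg.Agent.H954.TSBridge2

set_option autoImplicit false
open scoped MatrixGroups
open Cfsg

namespace Cfsg.Agent.S5973

open Module QuadraticMap Cfsg.Agent.LieClassical Cfsg.Agent.LieClassical.OrthCore Cfsg.Agent.H955
  Cfsg.Agent.LieClassical.OrthFinite Cfsg.Agent.H957 Cfsg.Agent.FooteOrth Cfsg.Agent.H954.TSing
  Cfsg.Agent.LieClassical.QuadForms

/-- Elements of prime order of PΩ⁺_n(q), n = 2d ≥ 8, with no fixed totally singular `m`-space, `m < n/2`. Here `T = PΩ⁺_n(q)` is realised through `Ω⁺_n(q)`, the commutator subgroup of the isometry group of the quadratic form `Σ xᵢyᵢ` over the field `F` with `q` elements; an element of `T` of prime order `r` is an element `x` of `Ω⁺_n(q)` with `x^r` scalar and `x` not scalar. Let `1 ≤ m < d` and let `r` be a prime dividing the number of totally singular `m`-spaces. For `r ≠ p` let `i` be the multiplicative order of `q` modulo `r`, `c = i` for `i` even and `c = 2i` for `i` odd,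 and write `k = n mod c`, `ℓ = m mod i`, `n' = ⌊n/i⌋`, `m' = ⌊m/i⌋`, `t = (r−1)/i`. Then every element of `T` of order `r` fixes some totally singular `m`-space if and only if one of: (i) `r = 2 ≠ p` and either `q ≡ 1 (mod 4)`, or `q ≡ 3 (mod 4)`, `m ≤ n/2 − 2` and (`m` even or `n ≡ 2 (mod 4)`); (ii) `r ≠ p` odd, `i` odd, `i ≤ m` and `k ≥ 2ℓ`; (iii) `r ≠ p` odd, `i` even, `i ≤ m`, `n' − 2m' ≥ t`, and one of: `i ≥ 2ℓ`, `k = 0`, `n/i` odd and `n' − 2m' > t`; or `k ≥ 2ℓ` and `n'` even; or `k > 2ℓ` and `n'` odd. -/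
theorem result {F : Type*} [Field F] [Fintype F] {p : ℕ} [Fact p.Prime] [CharP F p] {q : ℕ} (hq : Fintype.card F = q)
    (d m : ℕ) (hd : 4 ≤ d) (hm : 1 ≤ m) (hmd : m < d)
    (r : ℕ) [Fact r.Prime]
    (hrΩ : r ∣ Nat.card {W : Submodule F (Fin d ⊕ Fin d → F) // Module.finrank F ↥W = m ∧ (∀ w ∈ W, Cfsg.quadFormPlus d F w = 0)})
    (i c : ℕ) (hi : i = orderOf (q : ZMod r)) (hc : c = if Even i then i else 2 * i) :
    (∀ x : GL (Fin d ⊕ Fin d) F, x ∈ Cfsg.Geo.omegaGL (Cfsg.quadFormPlus d F) →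
      (∃ z : F, ((x ^ r : GL (Fin d ⊕ Fin d) F) : Matrix (Fin d ⊕ Fin d) (Fin d ⊕ Fin d) F) = z • (1 : Matrix (Fin d ⊕ Fin d) (Fin d ⊕ Fin d) F)) →
      (∀ z : F, (x : Matrix (Fin d ⊕ Fin d) (Fin d ⊕ Fin d) F) ≠ z • (1 : Matrix (Fin d ⊕ Fin d) (Fin d ⊕ Fin d) F)) →
      ∃ W : Submodule F (Fin d ⊕ Fin d → F), Module.finrank F ↥W = m ∧ (∀ w ∈ W, Cfsg.quadFormPlus d F w = 0) ∧
        W.map (Matrix.toLin' (x : Matrix (Fin d ⊕ Fin d) (Fin d ⊕ Fin d) F)) ≤ W) ↔
    ((r = 2 ∧ p ≠ 2 ∧ (q % 4 = 1 ∨ (q % 4 = 3 ∧ m + 2 ≤ d ∧ (Even m ∨ (2 * d) % 4 = 2)))) ∨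
     (r ≠ p ∧ 2 < r ∧ Odd i ∧ i ≤ m ∧ 2 * (m % i) ≤ (2 * d) % c) ∨
     (r ≠ p ∧ 2 < r ∧ Even i ∧ i ≤ m ∧ (r - 1) / i + 2 * (m / i) ≤ (2 * d) / i ∧
       ((2 * (m % i) ≤ i ∧ (2 * d) % c = 0 ∧ Odd ((2 * d) / i) ∧ (r - 1) / i + 2 * (m / i) < (2 * d) / i) ∨
        (2 * (m % i) ≤ (2 * d) % c ∧ Even ((2 * d) / i)) ∨
        (2 * (m % i) < (2 * d) % c ∧ Odd ((2 * d) / i))))) := by
  classical
  subst hq
  rw [show Cfsg.quadFormPlus d F = ⇑(plusForm d F) from (coe_plusForm d).symm] at hrΩ ⊢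
  have hrp : r.Prime := Fact.out
  have hQ : Nondeg (plusForm d F) := nondeg_plus d
  have hP : IsPlus (plusForm d F) := isPlus_plus d
  have hdim : finrank F (Fin d ⊕ Fin d → F) = 2 * d := finrank_plus d
  have hev : Even (finrank F (Fin d ⊕ Fin d → F)) := ⟨d, by omega⟩
  have hcard4 : Nat.card F ≠ 2 ∨ Fintype.card (Fin d ⊕ Fin d) ≠ 4 := by
    right
    simp only [Fintype.card_sum, Fintype.card_fin]; omega
  have hnt : Nontrivial (Fin d ⊕ Fin d → F) := Module.nontrivial_of_finrank_pos (R := F) (by omega)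
  have hrp' : r ≠ p := not_dvd_card_of_char hQ (by omega) (tsm_nonempty_plus hdim hP hmd.le) hrΩ
  have hr : (r : F) ≠ 0 := cast_ne_zero_of_ne (p := p) hrp'
  -- linear form of the left-hand side
  have hL : (∀ x : GL (Fin d ⊕ Fin d) F, x ∈ Cfsg.Geo.omegaGL (⇑(plusForm d F)) →
      (∃ z : F, ((x ^ r : GL (Fin d ⊕ Fin d) F) : Matrix (Fin d ⊕ Fin d) (Fin d ⊕ Fin d) F) = z • (1 : Matrix (Fin d ⊕ Fin d) (Fin d ⊕ Fin d) F)) →
      (∀ z : F, (x : Matrix (Fin d ⊕ Fin d) (Fin d ⊕ Fin d) F) ≠ z • (1 : Matrix (Fin d ⊕ Fin d) (Fin d ⊕ Fin d) F)) →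
      ∃ W : Submodule F (Fin d ⊕ Fin d → F), Module.finrank F ↥W = m ∧ (∀ w ∈ W, plusForm d F w = 0) ∧
        W.map (Matrix.toLin' (x : Matrix (Fin d ⊕ Fin d) (Fin d ⊕ Fin d) F)) ≤ W) ↔
      (∀ T ∈ ⁅O (plusForm d F), O (plusForm d F)⁆, (∃ z : F, ∀ v, (T ^ r) v = z • v) → (∀ z : F, ¬ ∀ v, T v = z • v) →
        ∃ W ∈ TSm (plusForm d F) m, ∀ w ∈ W, T w ∈ W) := by
    constructor
    · rintro H T hT ⟨z, hz⟩ hns
      obtain ⟨W, hW, hWs, hWx⟩ := H (glOf T) (mem_omega_glOf.2 hT)
        ⟨z, by rw [coe_eq_smul_one_iff, eOf_pow, eOf_glOf]; exact hz⟩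
        (fun z => by rw [Ne, coe_eq_smul_one_iff, eOf_glOf]; exact hns z)
      rw [map_le_iff, eOf_glOf] at hWx
      exact ⟨W, ⟨hW, hWs⟩, hWx⟩
    · rintro H x hx ⟨z, hz⟩ hns
      obtain ⟨W, hW, hWx⟩ := H (eOf x) (mem_omegaGL_iff.1 hx)
        ⟨z, by rw [← eOf_pow, ← coe_eq_smul_one_iff]; exact hz⟩
        (fun z => by rw [← coe_eq_smul_one_iff]; exact hns z)
      exact ⟨W, hW.1, hW.2, map_le_iff.2 hWx⟩
  rw [hL]
  rcases hrp.two_le.lt_or_eq with hr2 | hr2
  · -- `r` odd
    have hodd : Odd r := hrp.odd_of_ne_two (by omega)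
    have hmain := main_plus hr2 hr hQ hdim hP hmd.le hrΩ hi hc
    have hR : ((r = 2 ∧ p ≠ 2 ∧ (Fintype.card F % 4 = 1 ∨ (Fintype.card F % 4 = 3 ∧ m + 2 ≤ d ∧ (Even m ∨ (2 * d) % 4 = 2)))) ∨
       (r ≠ p ∧ 2 < r ∧ Odd i ∧ i ≤ m ∧ 2 * (m % i) ≤ (2 * d) % c) ∨
       (r ≠ p ∧ 2 < r ∧ Even i ∧ i ≤ m ∧ (r - 1) / i + 2 * (m / i) ≤ (2 * d) / i ∧
       ((2 * (m % i) ≤ i ∧ (2 * d) % c = 0 ∧ Odd ((2 * d) / i) ∧ (r - 1) / i + 2 * (m / i) < (2 * d) / i) ∨
        (2 * (m % i) ≤ (2 * d) % c ∧ Even ((2 * d) / i)) ∨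
        (2 * (m % i) < (2 * d) % c ∧ Odd ((2 * d) / i))))) ↔
       ((Odd i ∧ i ≤ m ∧ 2 * (m % i) ≤ (2 * d) % c) ∨
     (Even i ∧ i ≤ m ∧ (r - 1) / i + 2 * (m / i) ≤ (2 * d) / i ∧
       ((2 * (m % i) ≤ i ∧ (2 * d) % c = 0 ∧ Odd ((2 * d) / i) ∧ (r - 1) / i + 2 * (m / i) < (2 * d) / i) ∨
        (2 * (m % i) ≤ (2 * d) % c ∧ Even ((2 * d) / i)) ∨
        (2 * (m % i) < (2 * d) % c ∧ Odd ((2 * d) / i))))) := by
      constructor
      · rintro (⟨h, -⟩ | ⟨-, -, h⟩ | ⟨-, -, h⟩)
        · omega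
        · exact Or.inl h
        · exact Or.inr h
      · rintro (h | h)
        · exact Or.inr (Or.inl ⟨hrp', hr2, h⟩)
        · exact Or.inr (Or.inr ⟨hrp', hr2, h⟩)
    rw [hR, ← hmain]
    constructor
    · intro H T hT hTr hT1
      refine H T (mem_commutator_of_odd hQ hcard4 hodd hT hTr) ⟨1, fun v => by rw [hTr, one_smul]; rfl⟩ fun z hz => ?_
      apply hT1
      have hz1 : z = 1 := by
        rcases scalar_sq hQ hT hz with h | h
        · exact h
        · -- `T = -1`, `T ^ r = 1`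
          obtain ⟨v, hv⟩ := exists_ne (0 : Fin d ⊕ Fin d → F)
          have h1 : ∀ n : ℕ, (T ^ n) v = z ^ n • v := by
            intro n
            induction n with
            | zero => simp
            | succ n ih => rw [pow_succ', LinearEquiv.mul_apply, ih, map_smul, hz, smul_smul, pow_succ]
          have h3 := h1 r
          rw [hTr, h, hodd.neg_one_pow] at h3
          rw [h]
          by_contra hne
          apply hv
          have h4 : ((1 : F) - (-1)) • v = 0 := by
            rw [sub_smul, one_smul, ← h3]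
            exact sub_self v
          exact (smul_eq_zero.1 h4).resolve_left (fun h5 => hne (by linear_combination -h5))
      ext v
      rw [hz, hz1, one_smul]; rfl
    · rintro H T hT ⟨z, hz⟩ hns
      have hTO := commutator_le_O hT
      have hT1 : T ≠ 1 := by
        rintro rfl
        exact hns 1 fun v => by rw [one_smul]; rfl
      rcases scalar_sq hQ ((O (plusForm d F)).pow_mem hTO r) hz with h | h
      · refine H T hTO ?_ hT1
        ext v
        rw [hz, h, one_smul]; rfl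
      · obtain ⟨W, hW, hWT⟩ := H (negE T) (negE_mem hTO) (by
          apply LinearEquiv.ext
          intro v
          rw [negE_pow, hz, h, hodd.neg_one_pow, smul_smul, neg_mul_neg, one_mul, one_smul]; rfl) (by
          intro h1
          apply hns (-1)
          intro v
          have h3 := congrArg (fun g : (Fin d ⊕ Fin d → F) ≃ₗ[F] (Fin d ⊕ Fin d → F) => g v) h1
          have h4 : -T v = v := h3
          rw [neg_one_smul, ← h4, neg_neg, h4])
        refine ⟨W, hW, fun w hw => ?_⟩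
        have := W.neg_mem (hWT w hw)
        rwa [negE_apply, neg_neg] at this
  · -- `r = 2`
    subst hr2
    have hp2 : p ≠ 2 := hrp'.symm
    have h2 : (2 : F) ≠ 0 := by exact_mod_cast hr
    have hqodd : Odd (Fintype.card F) := by
      obtain ⟨n, hpp, hn⟩ := FiniteField.card F p
      rw [hn]
      exact (hpp.odd_of_ne_two hp2).pow
    have hq1 : Fintype.card F % 4 = 1 ↔ IsSquare (-1 : F) := by
      rw [FiniteField.isSquare_neg_one_iff]
      obtain ⟨k, hk⟩ := hqodd
      omega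
    have hq3 : Fintype.card F % 4 = 3 ↔ ¬ IsSquare (-1 : F) := by
      rw [FiniteField.isSquare_neg_one_iff]
      obtain ⟨k, hk⟩ := hqodd
      omega
    rw [hq1, hq3]
    constructor
    · intro H
      left
      refine ⟨rfl, hp2, ?_⟩
      by_cases hsq : IsSquare (-1 : F)
      · exact Or.inl hsq
      · right
        refine ⟨hsq, ?_, ?_⟩
        · by_contra hcon
          obtain ⟨T, hTO, hTc, hT2, hT1, hTd, hTP, hTW⟩ := exists_refl_pair h2 hsq hQ (by omega)
          have h5 := finrank_fixS_add_comS T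
          obtain ⟨W, hW, hWT⟩ := H T hTc ⟨1, fun v => by rw [hT2, one_smul]; rfl⟩ fun z hz => by
            apply hT1
            obtain ⟨v, hv, hv0⟩ := exists_ne_zero_of_finrank_pos (U := fixS T) (by omega)
            have h6 := mem_fixS.1 hv
            rw [hz] at h6
            have h7 : (z - 1) • v = 0 := by rw [sub_smul, h6, one_smul, sub_self]
            have h8 : z = 1 := by
              have := (smul_eq_zero.1 h7).resolve_right hv0
              linear_combination this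
            ext w
            rw [hz, h8, one_smul]; rfl
          have h3 := hTW W hWT hW.2
          have h6 := isPlus_iff_perp hQ (nondeg_comS hQ hTO hr hT2) hev (by rw [hTd]; exact even_two)
          rw [perp_comS hQ hTO] at h6
          have h7 : ¬ IsPlus (res (plusForm d F) (fixS T)) := fun h => hTP ((h6.1 hP).2 h)
          have h4 := ts_lt_half (nondeg_fixS hQ hTO hr hT2) h3 hW.2 ⟨d - 1, by omega⟩ h7
          rw [hW.1] at h4
          omega
        · by_contra hcon
          push Not at hcon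
          obtain ⟨hm1, hd1⟩ := hcon
          have hde : Even d := by
            rw [Nat.even_iff]; omega
          obtain ⟨T, hTO, hTc, hT2⟩ := exists_sq_neg_one h2 hQ hP hdim hde
          obtain ⟨W, hW, hWT⟩ := H T hTc ⟨-1, fun v => by
              rw [pow_two, LinearEquiv.mul_apply, hT2, neg_one_smul]⟩ fun z hz => by
            apply hsq
            obtain ⟨v, hv⟩ := exists_ne (0 : Fin d ⊕ Fin d → F)
            have h3 := hT2 v
            rw [hz, hz, smul_smul] at h3
            have h4 : (z * z + 1) • v = 0 := by rw [add_smul, h3, one_smul]; exact neg_add_cancel v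
            have h5 := (smul_eq_zero.1 h4).resolve_right hv
            exact ⟨z, by linear_combination -h5⟩
          have h3 := even_of_inv hsq hT2 hWT
          rw [hW.1] at h3
          exact hm1 h3
    · rintro (⟨-, -, h⟩ | ⟨-, h, -⟩ | ⟨-, h, -⟩)
      · rintro T hT ⟨z, hz⟩ hns
        have hTO := commutator_le_O hT
        rcases scalar_sq hQ ((O (plusForm d F)).pow_mem hTO 2) hz with h3 | h3
        · -- `T ^ 2 = 1`
          have hT2 : T ^ 2 = 1 := by
            ext v
            rw [hz, h3, one_smul]; rfl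
          rcases h with hsq | ⟨hns', hmd2, -⟩
          · obtain ⟨hdet, hsg⟩ := det_sg_of_mem hT
            obtain ⟨W₁, hW₁, hW₁s, hW₁d⟩ := exists_half_of_sg h2 hsq hQ _ T hTO hT2 hdet hsg rfl
            rw [← comS_eq_negS h2 hT2] at hW₁ hW₁d
            have h5 := finrank_fixS_add_comS T
            have hnc := nondeg_comS hQ hTO hr hT2
            have hPc : IsPlus (res (plusForm d F) (comS T)) := by
              refine isPlus_of_le hnc (U := W₁.comap (comS T).subtype) (fun u hu => hW₁s _ hu) ?_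
              rw [(Submodule.comapSubtypeEquivOfLe hW₁).finrank_eq]
              omega
            have h6 := isPlus_iff_perp hQ hnc hev ⟨finrank F W₁, by omega⟩
            rw [perp_comS hQ hTO] at h6
            have hPf : IsPlus (res (plusForm d F) (fixS T)) := (h6.1 hP).1 hPc
            obtain ⟨W₀, hW₀, hW₀s, hW₀p, -⟩ := exists_ts_type (nondeg_fixS hQ hTO hr hT2)
              ⟨d - finrank F W₁, by omega⟩
            have := hW₀p hPf
            exact two_glue h2 hTO hT2 hW₀ hW₀s hW₁ hW₁s (by omega)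
          · exact two_even h2 hQ hTO hT2 hdim hmd2
        · -- `T ^ 2 = -1`
          have hT2 : ∀ v, T (T v) = -v := by
            intro v
            have := hz v
            rwa [h3, neg_one_smul, pow_two, LinearEquiv.mul_apply] at this
          rcases h with hsq | ⟨hns', hmd2, hpar⟩
          · exact sq_neg_one_square h2 hsq hQ hTO hT2 hdim hmd.le
          · obtain ⟨hde, hW⟩ := sq_neg_one_even h2 hns' hQ hP hTO hT2 hdim
            rcases hpar with hme | hmo
            · exact hW m hmd.le hme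
            · exfalso
              obtain ⟨k, hk⟩ := hde
              omega
      · omega
      · omega

end Cfsg.Agent.S5973
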