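import Cfsg.Statements.S5974
import Cfsg.Agent.H958.TransTwo
import Cfsg.Agent.LieClassical.OrthForms

set_option autoImplicit false
open scoped MatrixGroups
open Cfsg

namespace Cfsg.Agent.S5974

open Cfsg.Agent.H958 Cfsg.Agent.H955 Cfsg.Agent.LieClassical.OrthCore Cfsg.Agent.LieClassical.OrthTrans
  Cfsg.Agent.LieClassical.OrthFinite Cfsg.Agent.LieClassical.OrthForms

theorem cls {F : Type*} [Field F] {ι : Type} (Q : QuadraticForm F (ι → F)) (m : ℕ)
    (W : Submodule F (ι → F)) :
    (Module.finrank F ↥W = m ∧ (∀ u ∈ W, u ≠ 0 → ∃ v ∈ W, QuadraticMap.polar (⇑Q) u v ≠ 0) ∧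
          ∃ U : Submodule F (ι → F), U ≤ W ∧ 2 * Module.finrank F ↥U = m ∧ ∀ u ∈ U, Q u = 0) =
      (Module.finrank F ↥W = m ∧ Nondeg (res Q W) ∧ (IsPlus (res Q W) ↔ True)) := by
  refine propext (and_congr_right fun hd => and_congr ?_ ?_)
  · rw [nondeg_res_iff]
    constructor
    · intro h x hx hxy
      by_contra h0
      obtain ⟨y, hy, hxy'⟩ := h x hx h0
      exact hxy' (hxy y hy)
    · intro h w hw hw0
      by_contra hcon
      push Not at hcon
      exact hw0 (h w hw hcon)
  · rw [iff_true]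
    constructor
    · rintro ⟨U, hU, hUd, hU0⟩
      refine ⟨U.comap W.subtype, fun u hu => hU0 _ hu, ?_⟩
      rw [(Submodule.comapSubtypeEquivOfLe hU).finrank_eq, hUd, hd]
    · rintro ⟨U, hU0, hUd⟩
      refine ⟨U.map W.subtype, Submodule.map_subtype_le _ _, ?_, ?_⟩
      · rw [Submodule.finrank_map_subtype_eq, hUd, hd]
      · rintro _ ⟨u, hu, rfl⟩
        exact hU0 u hu

/-- Elements of prime order of PΩ⁺_n(q), n = 2d ≥ 8, with no fixed nondegenerate hyperbolic `m`-space. Here `T = PΩ⁺_n(q)` is realised through `Ω⁺_n(q)`, the commutator subgroup of the isometry group of `Q = Σ xᵢyᵢ` over the field `F` with `q` elements; an element of `T` of prime order `r` is an element `x` of `Ω⁺_n(q)` with `x^r` scalar and `x` not scalar. A hyperbolic `m`-space is a subspace `W` of even dimension `m` on which the polar form of `Q` is nondegenerate and which contains a totally singular subspace of dimension `m/2`. Let `m` be even with `2 ≤ m < n/2`, and let `r` be a prime dividing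 the number of hyperbolic `m`-spaces, with `r = 2` or `r ≠ p`. For `r ≠ p` let `i` be the multiplicative order of `q` modulo `r`, `c = i` for `i` even and `c = 2i` for `i` odd, and write `k = n mod c`, `ℓ' = m mod c`. Then every element of `T` of order `r` fixes some hyperbolic `m`-space if and only if one of: (i) `r = 2` and `n ≡ 2 (mod 4)`, or `m ≡ 0 (mod 4)`, or `q ≡ 1 (mod 4)`; (ii) `r ≠ p` odd, `i` odd, `c ≤ m` and `k ≥ ℓ'`; (iii) `r ≠ p` odd, `i` even, and either `k = 0` and (`n/i` odd, or `ℓ' = 0` and `m/i` even), or `i ≤ m` and (`k > ℓ' > 0`, or `k = ℓ' > 0` and `(n + m − 2k)/i` even, or `k > ℓ' = 0` and `m/i` even). -/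
theorem result {F : Type*} [Field F] [Fintype F] {p : ℕ} [Fact p.Prime] [CharP F p] {q : ℕ} (hq : Fintype.card F = q)
    (d m : ℕ) (hd : 4 ≤ d) (hm : 2 ≤ m) (hme : Even m) (hmd : m < d)
    (r : ℕ) [Fact r.Prime] (hr : r = 2 ∨ r ≠ p)
    (hrΩ : r ∣ Nat.card {W : Submodule F (Fin d ⊕ Fin d → F) // (Module.finrank F ↥W = m ∧ (∀ u ∈ W, u ≠ 0 → ∃ v ∈ W, QuadraticMap.polar (Cfsg.quadFormPlus d F) u v ≠ 0) ∧
          ∃ U : Submodule F (Fin d ⊕ Fin d → F), U ≤ W ∧ 2 * Module.finrank F ↥U = m ∧ ∀ u ∈ U, Cfsg.quadFormPlus d F u = 0)})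
    (i c : ℕ) (hi : i = orderOf (q : ZMod r)) (hc : c = if Even i then i else 2 * i) :
    (∀ x : GL (Fin d ⊕ Fin d) F, x ∈ Cfsg.Geo.omegaGL (Cfsg.quadFormPlus d F) →
      (∃ z : F, ((x ^ r : GL (Fin d ⊕ Fin d) F) : Matrix (Fin d ⊕ Fin d) (Fin d ⊕ Fin d) F) = z • (1 : Matrix (Fin d ⊕ Fin d) (Fin d ⊕ Fin d) F)) →
      (∀ z : F, (x : Matrix (Fin d ⊕ Fin d) (Fin d ⊕ Fin d) F) ≠ z • (1 : Matrix (Fin d ⊕ Fin d) (Fin d ⊕ Fin d) F)) →
      ∃ W : Submodule F (Fin d ⊕ Fin d → F), (Module.finrank F ↥W = m ∧ (∀ u ∈ W, u ≠ 0 → ∃ v ∈ W, QuadraticMap.polar (Cfsg.quadFormPlus d F) u v ≠ 0) ∧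
          ∃ U : Submodule F (Fin d ⊕ Fin d → F), U ≤ W ∧ 2 * Module.finrank F ↥U = m ∧ ∀ u ∈ U, Cfsg.quadFormPlus d F u = 0) ∧
        W.map (Matrix.toLin' (x : Matrix (Fin d ⊕ Fin d) (Fin d ⊕ Fin d) F)) ≤ W) ↔
    ((r = 2 ∧ ((2 * d) % 4 = 2 ∨ m % 4 = 0 ∨ q % 4 = 1)) ∨
     (r ≠ p ∧ 2 < r ∧ Odd i ∧ c ≤ m ∧ m % c ≤ (2 * d) % c) ∨
     (r ≠ p ∧ 2 < r ∧ Even i ∧
       (((2 * d) % c = 0 ∧ (Odd ((2 * d) / i) ∨ (m % c = 0 ∧ Even (m / i)))) ∨
        (i ≤ m ∧ ((m % c < (2 * d) % c ∧ 0 < m % c) ∨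
                  ((2 * d) % c = m % c ∧ 0 < m % c ∧ Even ((2 * d + m - 2 * ((2 * d) % c)) / i)) ∨
                  (0 < (2 * d) % c ∧ m % c = 0 ∧ Even (m / i))))))) := by
  rw [← coe_plusForm] at hrΩ ⊢
  have hQ : Nondeg (plusForm d F) := nondeg_plus d
  have hdim : Module.finrank F (Fin d ⊕ Fin d → F) = 2 * d := finrank_plus d
  have hQp : IsPlus (plusForm d F) := isPlus_plus d
  set Q := plusForm d F with hQdef
  have hG : Good Q := good_of_finite hQ (by rw [hdim]; omega)
  obtain ⟨m', rfl⟩ : ∃ m', m = 2 * m' := ⟨m / 2, by obtain ⟨k, hk⟩ := hme; omega⟩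
  simp only [cls] at hrΩ ⊢
  have hVe : Even (Module.finrank F (Fin d ⊕ Fin d → F)) := by rw [hdim]; exact even_two_mul d
  by_cases hr2 : r = 2
  · subst hr2
    obtain ⟨W, hWn, hWd, hWp⟩ := exists_subspace hQ hVe m' (by omega) (by omega) True
    have hWe : Even (Module.finrank F W) := by rw [hWd]; exact even_two_mul _
    by_cases hp2 : p = 2
    · -- `r = p = 2`
      have hq2 : q % 2 = 0 := by
        rw [← hq]
        exact FiniteField.even_card_of_char_two (by rw [ringChar.eq F p]; exact hp2)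
      have h2 : (2 : F) = 0 := by
        have := CharP.cast_eq_zero F p
        rw [hp2] at this
        exact_mod_cast this
      by_cases hcond : Odd d ∨ Even m'
      · refine iff_of_true ?_ ?_
        · rw [transfer_two (W₀ := W) hG _ (fun W' => by
            rw [← class_even hQ hWn hWe, hWd, hWp])]
          exact two_two h2 hQ hdim hWn hWd (by omega) (by omega)
            (Or.inl ⟨hQp, hWp.2 trivial, hcond⟩)
        · left
          refine ⟨rfl, ?_⟩
          rcases hcond with ⟨k, hk⟩ | ⟨k, hk⟩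
          · left; omega
          · right; left; omega
      · push Not at hcond
        obtain ⟨hd1, hd2⟩ := hcond
        rw [Nat.not_odd_iff_even] at hd1
        rw [Nat.not_even_iff_odd] at hd2
        refine iff_of_false ?_ ?_
        · obtain ⟨U, hU, hUd⟩ : ∃ U : Submodule F (Fin d ⊕ Fin d → F), (∀ u ∈ U, Q u = 0) ∧
              Module.finrank F U = 2 * (d / 2) := by
            obtain ⟨k, hk⟩ := hd1
            obtain ⟨U, hU, hUd⟩ := hQp
            exact ⟨U, hU, by omega⟩
          obtain ⟨T, hT, hJ, hTU⟩ := exists_JTwo hQ hU hUd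
          have hTp : T ^ 2 = 1 := by
            have : CharP F 2 := hp2 ▸ (inferInstance : CharP F p)
            exact hJ.pow_char
          refine not_of_elt hG _ hT hTp (hJ.not_scalar hQ (by rw [hTU]; omega)) ?_
          rintro X ⟨hXd, hX, hXp⟩ hXT
          obtain ⟨a, b, hab, ha2, -, ha, hb, -, -⟩ := hJ.split hQ hX hXT
          have hPd := finrank_add_perp hQ X
          rw [hTU, hUd] at hab
          rw [hXd] at ha hPd
          rw [hdim] at hPd
          obtain ⟨k, hk⟩ := hd1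
          obtain ⟨l, hl⟩ := hd2
          obtain ⟨e, he⟩ := ha2
          omega
        · obtain ⟨k, hk⟩ := hd1
          obtain ⟨l, hl⟩ := hd2
          rintro (⟨-, h⟩ | ⟨h, -⟩ | ⟨h, -⟩)
          · omega
          · exact h hp2.symm
          · exact h hp2.symm
    · have h2 : (2 : F) ≠ 0 := two_ne_zero_of_ne hp2
      rw [transfer_two (W₀ := W) hG _ (fun W' => by
        rw [← class_even hQ hWn hWe, hWd, hWp]),
        two_main h2 hG hdim hWn hWd (by omega) (by omega), FiniteField.isSquare_neg_one_iff,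
        FiniteField.isSquare_two_iff, hq]
      have hqo : q % 2 = 1 := by
        rw [← hq]
        exact FiniteField.odd_card_of_char_ne_two (by rwa [ringChar.eq F p])
      simp only [hQp, hWp, true_iff, false_iff, Nat.even_iff, Nat.odd_iff, lt_irrefl, false_and,
        and_false, or_false, true_and, ne_eq, hp2, not_false_eq_true]
      omega
  · have hrp : r ≠ p := hr.resolve_left hr2
    have hr3 : 2 < r := lt_of_le_of_ne (Fact.out : r.Prime).two_le (Ne.symm hr2)
    have hrF : (r : F) ≠ 0 := cast_ne_zero hrp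
    have hbk := bk_eq' hq hi hc
    obtain ⟨h1, h2⟩ := even_main hG hr3 hrF hdim (even_two_mul d) (by omega : 0 < m') (by omega) True
      hrΩ hbk
    have hc0 : 0 < c := by rw [← hbk]; exact bk_pos hrF
    rw [h1]
    simp only [hQp, true_iff] at h2 ⊢
    rcases Nat.even_or_odd i with hie | hio
    · have hci : c = i := by rw [hc, if_pos hie]
      simp only [dl_even hq hi hie] at h2 ⊢
      rw [num_pp_even hc0 (by omega) (fun h => (h2 h).1), hci]
      simp only [hr2, hrp, hr3, hie, Nat.not_odd_iff_even.2 hie, false_and, and_false, false_or,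
        true_and, ne_eq, not_false_eq_true]
    · simp only [dl_odd hq hi hio, true_iff] at h2 ⊢
      rw [num_pp_odd (fun h => (h2 h).1)]
      simp only [hr2, hrp, hr3, hio, Nat.not_even_iff_odd.2 hio, false_and, and_false, false_or,
        or_false, true_and, ne_eq, not_false_eq_true]

end Cfsg.Agent.S5974
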