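import Cfsg.Statements.S5976
import Cfsg.Agent.H955.JUnitary
import Cfsg.Agent.H955.KMat2
-- import your own Cfsg.Agent.* helpers here

set_option autoImplicit false
open scoped MatrixGroups
open Cfsg

namespace Cfsg.Agent.S5976

open Cfsg.Agent.H955 Cfsg.Agent.LieClassical.OrthFinite ClassicalGeometry.SympBasic Module

/-- scalars in the symplectic group have square one. -/
theorem scalar_sq {F : Type*} [Field F] {d : ℕ} (hd : 0 < d)
    {T : (Fin d ⊕ Fin d → F) ≃ₗ[F] (Fin d ⊕ Fin d → F)}
    (hT : T ∈ IsoB (F := F) (V := Fin d ⊕ Fin d → F) (sympBilin d F)) {z : F}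
    (h : ∀ v, T v = z • v) : z * z = 1 := by
  classical
  let i0 : Fin d := ⟨0, hd⟩
  let v0 : Fin d ⊕ Fin d → F := Pi.single (.inl i0) 1
  let w0 : Fin d ⊕ Fin d → F := Pi.single (.inr i0) 1
  have hv0 : sympForm d F w0 v0 = 1 := by
    rw [sympForm_single_inr_left]
    simp [v0]
  have h3 := hT w0 v0
  rw [h, h] at h3
  change sympForm d F (z • w0) (z • v0) = sympForm d F w0 v0 at h3
  rwa [sympForm_smul_left, sympForm_smul_right, hv0, mul_one] at h3

set_option maxHeartbeats 1000000 in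
theorem index_arith {F : Type*} [Field F] [Fintype F] {q : ℕ} (hq : Fintype.card F = q)
    (h2 : (2 : F) ≠ 0) (d : ℕ) (hd : 2 ≤ d)
    (K : Subalgebra F (Matrix (Fin d ⊕ Fin d) (Fin d ⊕ Fin d) F)) (hK : Cfsg.Geo.IsFieldSubalgebra 2 K)
    {M : Matrix (Fin d ⊕ Fin d) (Fin d ⊕ Fin d) F} (hM : M ∈ K) {μ : F}
    (hMM : M * M = μ • (1 : Matrix (Fin d ⊕ Fin d) (Fin d ⊕ Fin d) F)) (hns : ¬ IsSquare μ)
    (hJS : JS (F := F) (V := Fin d ⊕ Fin d → F) (sympBilin d F) (Matrix.toLin' M) μ)
    (hnorm : ∀ g : Matrix.GeneralLinearGroup (Fin d ⊕ Fin d) F,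
      g ∈ Cfsg.Geo.subalgebraNormalizer K ↔
      (∀ v, glEquiv (Fin d ⊕ Fin d) F g (Matrix.toLin' M v) =
        Matrix.toLin' M (glEquiv (Fin d ⊕ Fin d) F g v)) ∨
      (∀ v, glEquiv (Fin d ⊕ Fin d) F g (Matrix.toLin' M v) =
        - Matrix.toLin' M (glEquiv (Fin d ⊕ Fin d) F g v)))
    {r : ℕ} [Fact r.Prime] (hrq : ¬ r ∣ q)
    (hΩ : r ∣ (Cfsg.Geo.subalgebraNormalizer K).relIndex (Cfsg.spGL d F)) :
    ∃ j, 1 ≤ j ∧ j ≤ d ∧ (q : ZMod r) ^ j = - (-1) ^ j := by
  classical
  have hne : Nonempty (Fin d ⊕ Fin d) := ⟨.inl ⟨0, by omega⟩⟩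
  have hNat : Nat.card F = q := by rw [Nat.card_eq_fintype_card, hq]
  have hq1 : 1 < q := by rw [← hq]; exact Fintype.one_lt_card
  obtain ⟨L, _, _, φ, hφ, hφd⟩ := H954.FieldSub.exists_field hK
  let φ' : L →ₐ[F] Module.End F (Fin d ⊕ Fin d → F) :=
    (Matrix.toLinAlgEquiv' : Matrix (Fin d ⊕ Fin d) (Fin d ⊕ Fin d) F ≃ₐ[F] _).toAlgHom.comp φ
  let _ : Module L (Fin d ⊕ Fin d → F) :=
    Module.compHom (Fin d ⊕ Fin d → F) (φ' : L →+* Module.End F (Fin d ⊕ Fin d → F))
  have hsm : ∀ (a : L) (v : Fin d ⊕ Fin d → F), a • v = (φ a).mulVec v := fun a v => rfl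
  have : IsScalarTower F L (Fin d ⊕ Fin d → F) := ⟨fun c a v => by
    rw [hsm, hsm, map_smul, Matrix.smul_mulVec]⟩
  obtain ⟨l, hl⟩ : ∃ l, φ l = M := by
    rw [← hφ] at hM
    exact hM
  have hll : l * l = algebraMap F L μ := by
    apply φ.toRingHom.injective
    change φ (l * l) = φ (algebraMap F L μ)
    rw [map_mul, hl, hMM, AlgHom.commutes, Algebra.algebraMap_eq_smul_one]
  obtain ⟨f, hfi, hf⟩ := hJS.exists_GU h2 hns hφd hll (fun v => by rw [hsm, hl]; rfl)
    (d := d) (by omega) (finrank_symp d F)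
  let f' : Cfsg.GU d L (Fintype.card F) →*
      ((Cfsg.Geo.subalgebraNormalizer K).subgroupOf (Cfsg.spGL d F)) :=
    { toFun := fun A => ⟨⟨(glEquiv (Fin d ⊕ Fin d) F).symm (f A), by
        rw [mem_spGL_iff, MulEquiv.apply_symm_apply]
        exact (hf A).1⟩, by
        rw [Subgroup.mem_subgroupOf, hnorm]
        left
        intro v
        rw [MulEquiv.apply_symm_apply]
        exact (hf A).2 v⟩
      map_one' := by
        apply Subtype.ext
        apply Subtype.ext
        change (glEquiv (Fin d ⊕ Fin d) F).symm (f 1) = 1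
        rw [map_one, map_one]
      map_mul' := fun A A' => by
        apply Subtype.ext
        apply Subtype.ext
        change (glEquiv (Fin d ⊕ Fin d) F).symm (f (A * A')) = _
        rw [map_mul, map_mul]
        rfl }
  have hf'i : Function.Injective f' := by
    intro A A' hAA
    apply hfi
    apply (glEquiv (Fin d ⊕ Fin d) F).symm.injective
    exact congrArg (fun x => (x.1.1 : Matrix.GeneralLinearGroup (Fin d ⊕ Fin d) F)) hAA
  have h3 := Subgroup.card_dvd_of_injective f' hf'i
  have h4 := Subgroup.card_mul_index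
    ((Cfsg.Geo.subalgebraNormalizer K).subgroupOf (Cfsg.spGL d F))
  have h5 : (Cfsg.Geo.subalgebraNormalizer K).relIndex (Cfsg.spGL d F) *
      Nat.card (Cfsg.GU d L (Fintype.card F)) ∣ Nat.card (Cfsg.spGL d F) := by
    rw [← h4, mul_comm]
    exact Nat.mul_dvd_mul_right h3 _
  have hLf : Finite L := by
    have : FiniteDimensional F L := Module.finite_of_finrank_pos (by omega)
    exact Module.finite_of_finite F
  have := Fintype.ofFinite L
  have hLc : Fintype.card L = (Fintype.card F) ^ 2 := by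
    rw [Module.card_eq_pow_finrank (K := F) (V := L), hφd]
  rw [Cfsg.Agent.S0277.result hLc, card_spGL, hNat, hq] at h5
  exact exists_of_dvd hq1 hrq hΩ h5

set_option maxHeartbeats 1000000 in
/-- Elements of prime order of PSp_n(q), q odd, and the subgroups of type GU_{n/2}(q). Here `T = PSp_{2d}(F)` for a field `F` with `q` elements, `q` odd, `d ≥ 2`, realised through the matrices preserving the standard alternating form `f`; `K` is a subalgebra of the `2d × 2d` matrices that is a field of degree 2 over `F`, closed under taking adjoints for `f` but not consisting of self-adjoint elements (so `F^{2d}` becomes a `d`-dimensional space over `K ≅ F_{q²}` on which `f` is the trace of a multiple of a non-degenerate hermitian form); `H` is the subgroup of `T` normalizing `K` — the symplectic maps that are `K`-linear or `K`-semilinear, a subgroup of type GU_d(q) (maximality is not assumed). Ω is the set of cosets of `H` in `T`, so an element of `T` of prime order `r` (`x ∈ T` with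 `x^r` scalar, `x` not scalar) fixes a point of Ω exactly when some `T`-conjugate of `x` normalizes `K`. Let `r` be a prime dividing the index of `H`. Then every element of `T` of order `r` fixes a point of Ω if and only if `r = 2`. -/
theorem result {F : Type*} [Field F] [Fintype F] {p : ℕ} [Fact p.Prime] [CharP F p] {q : ℕ} (hq : Fintype.card F = q)
    (hodd : Odd q) (d : ℕ) (hd : 2 ≤ d)
    (K : Subalgebra F (Matrix (Fin d ⊕ Fin d) (Fin d ⊕ Fin d) F)) (hK : Cfsg.Geo.IsFieldSubalgebra 2 K)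
    (hKf : Cfsg.Geo.IsAdjointClosedFor (Cfsg.sympForm d F) K) (hKns : ¬ Cfsg.Geo.IsSelfAdjointFor (Cfsg.sympForm d F) K)
    (r : ℕ) [Fact r.Prime]
    (hΩ : r ∣ (Cfsg.Geo.subalgebraNormalizer K).relIndex (Cfsg.spGL d F)) :
    (∀ x ∈ Cfsg.spGL d F, (∃ z : F, ((x ^ r : GL (Fin d ⊕ Fin d) F) : Matrix (Fin d ⊕ Fin d) (Fin d ⊕ Fin d) F) = z • (1 : Matrix (Fin d ⊕ Fin d) (Fin d ⊕ Fin d) F)) →
      (∀ z : F, (x : Matrix (Fin d ⊕ Fin d) (Fin d ⊕ Fin d) F) ≠ z • (1 : Matrix (Fin d ⊕ Fin d) (Fin d ⊕ Fin d) F)) →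
      ∃ g ∈ Cfsg.spGL d F, g⁻¹ * x * g ∈ Cfsg.Geo.subalgebraNormalizer K) ↔ r = 2 := by
  classical
  have hr := (Fact.out : r.Prime)
  have h2 : (2 : F) ≠ 0 := by
    intro h
    have h3 : ((2 : ℕ) : F) = 0 := by exact_mod_cast h
    have h4 := (CharP.cast_eq_zero_iff F p 2).1 h3
    have h5 : p = 2 := (Nat.prime_dvd_prime_iff_eq (Fact.out : p.Prime) Nat.prime_two).1 h4
    obtain ⟨n, -, hn⟩ := FiniteField.card F p
    rw [← hq, hn, h5] at hodd
    exact (Nat.not_even_iff_odd.2 hodd) ((even_two).pow_of_ne_zero n.ne_zero)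
  have hne : Nonempty (Fin d ⊕ Fin d) := ⟨.inl ⟨0, by omega⟩⟩
  have hNat : Nat.card F = q := by rw [Nat.card_eq_fintype_card, hq]
  obtain ⟨M, hM, μ, hMM, hns, hspan⟩ := exists_gen h2 hK
  have hμ : μ ≠ 0 := by
    rintro rfl
    exact hns ⟨0, by simp⟩
  -- `M` is skew-adjoint
  have hskew : ∀ u v, sympForm d F (M.mulVec u) v = - sympForm d F u (M.mulVec v) := by
    obtain ⟨M', hM', hadj⟩ := hKf M hM
    have h3 : M' * M' = M * M := by
      apply Matrix.mulVec_injective
      funext v
      apply eq_of_forall_sympForm_left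
      intro u
      rw [← Matrix.mulVec_mulVec, ← hadj, ← hadj, Matrix.mulVec_mulVec, hMM, Matrix.smul_mulVec,
        Matrix.smul_mulVec, Matrix.one_mulVec, Matrix.one_mulVec, sympForm_smul_left,
        sympForm_smul_right]
    rcases eq_or_eq_neg hK hM hM' h3 with h4 | h4
    · exfalso
      apply hKns
      intro k hk u v
      obtain ⟨x, y, rfl⟩ := hspan k hk
      rw [h4] at hadj
      rw [Matrix.add_mulVec, Matrix.add_mulVec, Matrix.smul_mulVec, Matrix.smul_mulVec,
        Matrix.smul_mulVec, Matrix.smul_mulVec, Matrix.one_mulVec, Matrix.one_mulVec,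
        sympForm_add_left, sympForm_add_right, sympForm_smul_left, sympForm_smul_left,
        sympForm_smul_right, sympForm_smul_right, hadj]
    · intro u v
      rw [hadj, h4, Matrix.neg_mulVec, sympForm_neg_right]
  have hJS : JS (F := F) (V := Fin d ⊕ Fin d → F) (sympBilin d F) (Matrix.toLin' M) μ := by
    refine ⟨isSp_sympBilin d F, fun v => ?_, fun u v => ?_⟩
    · rw [Matrix.toLin'_apply, Matrix.toLin'_apply, Matrix.mulVec_mulVec, hMM, Matrix.smul_mulVec,
        Matrix.one_mulVec]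
    · exact hskew u v
  have hnorm := fun g => mem_normalizer_iff (g := g) hK hM hMM hspan
  constructor
  · -- only `r = 2` is possible
    intro hall
    by_contra hr2
    have hr3 : 2 < r := lt_of_le_of_ne hr.two_le (Ne.symm hr2)
    have hro : Odd r := hr.odd_of_ne_two hr2
    by_cases hrq : r ∣ q
    · -- a transvection
      have hrp : r = p := by
        obtain ⟨n, -, hn⟩ := FiniteField.card F p
        rw [← hq, hn] at hrq
        exact (Nat.prime_dvd_prime_iff_eq hr (Fact.out : p.Prime)).1 (hr.dvd_of_dvd_pow hrq)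
      have hrF : (r : F) = 0 := by rw [hrp]; exact CharP.cast_eq_zero F p
      let i0 : Fin d := ⟨0, by omega⟩
      let v0 : Fin d ⊕ Fin d → F := Pi.single (.inl i0) 1
      let w0 : Fin d ⊕ Fin d → F := Pi.single (.inr i0) 1
      have hv0 : sympForm d F w0 v0 = 1 := by
        rw [sympForm_single_inr_left]
        simp [v0]
      let t : Matrix.GeneralLinearGroup (Fin d ⊕ Fin d) F := Matrix.GeneralLinearGroup.mk''
        (sympTransvection d v0 1) (SymplecticGroup.symplectic_det (sympTransvection_mem v0 1))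
      have htv : ∀ v, (t : Matrix (Fin d ⊕ Fin d) (Fin d ⊕ Fin d) F).mulVec v =
          v + (sympForm d F v v0) • v0 := by
        intro v
        have := sympTransvection_mulVec v0 v (1 : F)
        rw [one_mul] at this
        exact this
      have htpow : ∀ n : ℕ, ((t ^ n : Matrix.GeneralLinearGroup (Fin d ⊕ Fin d) F) :
          Matrix (Fin d ⊕ Fin d) (Fin d ⊕ Fin d) F) = sympTransvection d v0 (n : F) := by
        intro n
        induction n with
        | zero => rw [pow_zero, Nat.cast_zero, sympTransvection_zero]; rfl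
        | succ n ih =>
          rw [pow_succ, Units.val_mul, ih]
          change sympTransvection d v0 (n : F) * sympTransvection d v0 1 = _
          rw [sympTransvection_mul, Nat.cast_succ]
      have htr : t ^ r = 1 := by
        apply Units.ext
        rw [htpow, hrF, sympTransvection_zero]
        rfl
      have htsp : t ∈ Cfsg.spGL d F := fun u v => sympForm_mulVec (sympTransvection_mem v0 1) u v
      obtain ⟨g, hg, hgN⟩ := hall t htsp ⟨1, by rw [htr, one_smul]; rfl⟩ (by
        intro z hz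
        have h3 := htv w0
        rw [hz, Matrix.smul_mulVec, Matrix.one_mulVec, hv0, one_smul] at h3
        have h4 := congrFun h3 (.inl i0)
        simp [v0, w0] at h4)
      rw [hnorm] at hgN
      set T := glEquiv (Fin d ⊕ Fin d) F (g⁻¹ * t * g) with hTdef
      have hTr : T ^ r = 1 := by rw [hTdef, ← map_pow, conj_pow_eq_one htr, map_one]
      have hTJ := comm_of_odd h2 hro hTr hgN
      have hTg : ∀ v, T v = ((g⁻¹ : Matrix.GeneralLinearGroup (Fin d ⊕ Fin d) F) :
          Matrix (Fin d ⊕ Fin d) (Fin d ⊕ Fin d) F).mulVec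
            ((t : Matrix (Fin d ⊕ Fin d) (Fin d ⊕ Fin d) F).mulVec
              ((g : Matrix (Fin d ⊕ Fin d) (Fin d ⊕ Fin d) F).mulVec v)) := by
        intro v
        rw [hTdef, glEquiv_apply, Matrix.mulVec_mulVec, Matrix.mulVec_mulVec, Units.val_mul,
          Units.val_mul, mul_assoc]
      have hgg : ∀ v, ((g⁻¹ : Matrix.GeneralLinearGroup (Fin d ⊕ Fin d) F) :
          Matrix (Fin d ⊕ Fin d) (Fin d ⊕ Fin d) F).mulVec
              ((g : Matrix (Fin d ⊕ Fin d) (Fin d ⊕ Fin d) F).mulVec v) = v := by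
        intro v
        rw [Matrix.mulVec_mulVec, ← Units.val_mul, inv_mul_cancel, Units.val_one, Matrix.one_mulVec]
      have hgg' : ∀ v, (g : Matrix (Fin d ⊕ Fin d) (Fin d ⊕ Fin d) F).mulVec
          (((g⁻¹ : Matrix.GeneralLinearGroup (Fin d ⊕ Fin d) F) :
          Matrix (Fin d ⊕ Fin d) (Fin d ⊕ Fin d) F).mulVec v) = v := by
        intro v
        rw [Matrix.mulVec_mulVec, ← Units.val_mul, mul_inv_cancel, Units.val_one, Matrix.one_mulVec]
      refine not_comm_of_rank_one hJS.sq hns (T := T)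
        (w := ((g⁻¹ : Matrix.GeneralLinearGroup (Fin d ⊕ Fin d) F) :
          Matrix (Fin d ⊕ Fin d) (Fin d ⊕ Fin d) F).mulVec v0) ?_ ?_ hTJ
      · intro v
        refine ⟨sympForm d F ((g : Matrix (Fin d ⊕ Fin d) (Fin d ⊕ Fin d) F).mulVec v) v0, ?_⟩
        rw [hTg, htv, Matrix.mulVec_add, hgg, Matrix.mulVec_smul]
        abel
      · refine ⟨((g⁻¹ : Matrix.GeneralLinearGroup (Fin d ⊕ Fin d) F) :
          Matrix (Fin d ⊕ Fin d) (Fin d ⊕ Fin d) F).mulVec w0, ?_⟩
        intro h3
        rw [hTg, hgg', htv, hv0, one_smul] at h3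
        have h4 := congrArg (fun v => (g : Matrix (Fin d ⊕ Fin d) (Fin d ⊕ Fin d) F).mulVec v) h3
        simp only [hgg'] at h4
        have h5 : v0 = 0 := by simpa using h4
        have h6 := congrFun h5 (.inl i0)
        simp [v0] at h6
    · -- semisimple elements
      have hrN : ¬ r ∣ Nat.card F := by rw [hNat]; exact hrq
      have hq1 : 1 < q := by rw [← hq]; exact Fintype.one_lt_card
      -- the index
      obtain ⟨j, hj1, hjd, hj⟩ : ∃ j, 1 ≤ j ∧ j ≤ d ∧ (q : ZMod r) ^ j = - (-1) ^ j := by 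
        exact index_arith hq h2 d hd K hK hM hMM hns hJS hnorm hrq hΩ
      obtain ⟨hc, hm⟩ := unitary_arith hr3 hj1 hjd hj
      obtain ⟨T, hT, hTr, hTd⟩ := exists_min_sp (r := r) hrN (isSp_sympBilin d F)
        (by rw [finrank_symp, hNat]; exact hc)
      obtain ⟨m, hm2⟩ := even_cc q r
      have hcpos := cc_pos (q := q) hrq
      set t := (glEquiv (Fin d ⊕ Fin d) F).symm T with ht
      have hTt : glEquiv (Fin d ⊕ Fin d) F t = T := MulEquiv.apply_symm_apply _ _
      have htr : t ^ r = 1 := by rw [ht, ← map_pow, hTr, map_one]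
      obtain ⟨g, hg, hgN⟩ := hall t (by rw [mem_spGL_iff, hTt]; exact hT)
        ⟨1, by rw [htr, one_smul]; rfl⟩ (by
        intro z hz
        -- a scalar has trivial or full commutator space
        have h3 : ∀ v, T v = z • v := fun v => by
          rw [← hTt, glEquiv_apply, hz, Matrix.smul_mulVec, Matrix.one_mulVec]
        have h4 : z * z = 1 := scalar_sq (by omega) hT h3
        rw [comS_eq_bot_of_scalar h3 h4 hro hTr, finrank_bot, hNat] at hTd
        omega)
      rw [hnorm, map_mul, map_mul, map_inv, hTt] at hgN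
      have hTr' := conj_pow_eq_one (g := glEquiv (Fin d ⊕ Fin d) F g) hTr
      have hTJ := comm_of_odd h2 hro hTr' hgN
      rw [mem_spGL_iff] at hg
      refine hm m (by omega) ?_
      rw [← hNat]
      refine hJS.pow_eq h2 hns hrN (T := (glEquiv (Fin d ⊕ Fin d) F g)⁻¹ * T *
        glEquiv (Fin d ⊕ Fin d) F g) ?_ hTr' hTJ ?_
      · exact mul_mem (mul_mem (inv_mem hg) hT) hg
      · rw [finrank_comS_conj, hTd, hNat]
        omega
  · -- involutions
    intro hr2 x hx hxz _
    subst hr2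
    obtain ⟨z, hz⟩ := hxz
    rw [mem_spGL_iff] at hx
    set X := glEquiv (Fin d ⊕ Fin d) F x with hX
    have hXX : ∀ v, X (X v) = z • v := by
      intro v
      have h3 : X (X v) = ((x ^ 2 : Matrix.GeneralLinearGroup (Fin d ⊕ Fin d) F) :
          Matrix (Fin d ⊕ Fin d) (Fin d ⊕ Fin d) F).mulVec v := by
        rw [hX, glEquiv_apply, glEquiv_apply, Matrix.mulVec_mulVec, pow_two, Units.val_mul]
      rw [h3, hz, Matrix.smul_mulVec, Matrix.one_mulVec]
    have hz2 : z = 1 ∨ z = -1 :=
      mul_self_eq_one_iff.1 (scalar_sq (by omega) (mul_mem hx hx) hXX)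
    have hfin : ∀ g ∈ IsoB (F := F) (V := Fin d ⊕ Fin d → F) (sympBilin d F),
        ((∀ v, (g * X * g⁻¹) (Matrix.toLin' M v) = Matrix.toLin' M ((g * X * g⁻¹) v)) ∨
        (∀ v, (g * X * g⁻¹) (Matrix.toLin' M v) = - Matrix.toLin' M ((g * X * g⁻¹) v))) →
        ∃ g ∈ Cfsg.spGL d F, g⁻¹ * x * g ∈ Cfsg.Geo.subalgebraNormalizer K := by
      intro g hg h3
      refine ⟨((glEquiv (Fin d ⊕ Fin d) F).symm g)⁻¹, ?_, ?_⟩
      · rw [mem_spGL_iff, map_inv, MulEquiv.apply_symm_apply]
        exact inv_mem hg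
      · rw [hnorm, inv_inv, map_mul, map_mul, map_inv, MulEquiv.apply_symm_apply, ← hX]
        exact h3
    rcases hz2 with rfl | rfl
    · obtain ⟨g, hg, hgJ⟩ := hJS.invol h2 hμ hx (fun v => by rw [hXX, one_smul])
      exact hfin g hg (Or.inl hgJ)
    · obtain ⟨g, hg, hgJ⟩ := hJS.anti h2 hμ hx (fun v => by rw [hXX, neg_one_smul])
      exact hfin g hg (Or.inr hgJ)

end Cfsg.Agent.S5976
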