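import Cfsg.Statements.S5979
import Cfsg.Agent.H956.TensorElt
import Cfsg.Agent.H956.ConjIrr
import Cfsg.Agent.H956.DiagElt
import Cfsg.Agent.H956.FieldArith

set_option autoImplicit false
open scoped MatrixGroups
open Cfsg

namespace Cfsg.Agent.S5979

open Matrix Polynomial
open scoped Kronecker
open Cfsg.Agent.H956.EigMult Cfsg.Agent.H956.PrimeElt Cfsg.Agent.H956.TensorElt Cfsg.Agent.H956.Conj
open Cfsg.Agent.H956.DiagElt Cfsg.Agent.H956.FieldArith Cfsg.Agent.H956.ConjIrr

theorem mem_sl {ι : Type} [Fintype ι] [DecidableEq ι] {F : Type*} [Field F] (x : GL ι F) :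
    x ∈ Cfsg.Geo.specialLinear ι F ↔ (x : Matrix ι ι F).det = 1 := by
  unfold Cfsg.Geo.specialLinear
  rw [MonoidHom.mem_ker, ← Units.val_inj]
  rfl

variable {F : Type*} [Field F] [Fintype F]

theorem forward {p : ℕ} [Fact p.Prime] [CharP F p] {q : ℕ} (hq : Fintype.card F = q)
    (n a b : ℕ) (hab : n = a * b) (ha : 2 ≤ a) (hlt : a < b) (e : Fin n ≃ Fin a × Fin b) (P : GL (Fin n) F)
    (r : ℕ) [Fact r.Prime]
    (hΩ : r ∣ (Cfsg.Geo.tensorProductSubgroup a b e P).relIndex (Cfsg.Geo.specialLinear (Fin n) F))
    (H : ∀ x ∈ Cfsg.Geo.specialLinear (Fin n) F, (∃ z : F, ((x ^ r : GL (Fin n) F) : Matrix (Fin n) (Fin n) F) = z • (1 : Matrix (Fin n) (Fin n) F)) →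
      (∀ z : F, (x : Matrix (Fin n) (Fin n) F) ≠ z • (1 : Matrix (Fin n) (Fin n) F)) →
      ∃ g ∈ Cfsg.Geo.specialLinear (Fin n) F, g⁻¹ * x * g ∈ Cfsg.Geo.tensorProductSubgroup a b e P) :
    (r = 2 ∧ a = 2 ∧ Odd q ∧ padicValNat 2 (q - 1) ≤ padicValNat 2 n) := by
  classical
  have hrp : r.Prime := Fact.out
  have hb : 3 ≤ b := by omega
  have hn : 6 ≤ n := by rw [hab]; nlinarith
  have hbn : b < n := by rw [hab]; nlinarith
  have hcard : Fintype.card (Fin n) = n := Fintype.card_fin n
  by_cases hr : (r : F) = 0
  · exfalso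
    have hrp' : r = p := by
      have h1 := (CharP.cast_eq_zero_iff F p r).1 hr
      exact ((Nat.prime_dvd_prime_iff_eq Fact.out hrp).1 h1).symm
    subst hrp'
    obtain ⟨x, hx1, hx2, hx3, hx4⟩ := exists_transvection (F := F) r (⟨0, by omega⟩ : Fin n) ⟨1, by omega⟩ (by simp)
    obtain ⟨g, -, hg⟩ := H x ((mem_sl x).2 hx2) ⟨1, by rw [hx3, one_smul, Units.val_one]⟩ (by
      intro z hz
      have h1 := congrFun (congrFun hz (⟨0, by omega⟩ : Fin n)) ⟨1, by omega⟩
      rw [hx1] at h1
      simp [Matrix.transvection, Matrix.single_apply] at h1)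
    exact false_of_conj_rank_one ha (by omega) e P g x hx4 hg
  · by_cases h1 : orderOf (q : ZMod r) = 1
    · have hrq : r ∣ q - 1 := by
        have hq1 : 0 < q := by rw [← hq]; exact Fintype.card_pos
        have := (dvd_pow_sub_one_iff (r := r) hq1 1).2 (by rw [h1])
        rwa [pow_one] at this
      -- the basic contradiction for diagonal elements
      have key : ∀ (m : Multiset F) (w z s : F), (∀ c ∈ m, c ^ r = s) → s ≠ 0 → Multiset.card m = n → m.prod = 1 →
          ¬ a ∣ m.count z → n < m.count w + b → (∃ c ∈ m, c ≠ w) → False := by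
        intro m w z s hm hs hc hprod hz hw hne
        obtain ⟨x, d, hxd, hd0, hdm, hdet⟩ := exists_diag_elt (ι := Fin n) m (by
          intro c hc0 h0
          have := hm c hc0
          rw [h0, zero_pow hrp.ne_zero] at this
          exact hs this.symm) (by rw [hc, hcard])
        have hpow : (x : Matrix (Fin n) (Fin n) F) ^ r = s • (1 : Matrix (Fin n) (Fin n) F) := by
          rw [hxd]
          exact diagonal_pow_eq d r s fun i => hm _ (by rw [← hdm]; exact Multiset.mem_map_of_mem _ (Finset.mem_univ_val i))
        have hwm : w ∈ m := by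
          rw [← Multiset.count_pos]
          omega
        obtain ⟨c, hcm, hcw⟩ := hne
        obtain ⟨g, -, hg⟩ := H x ((mem_sl x).2 (by rw [hdet, hprod])) ⟨s, by rw [Units.val_pow_eq_pow_val, hpow]⟩ (by
          intro y hy
          rw [← hdm] at hcm hwm
          obtain ⟨i, -, hi⟩ := Multiset.mem_map.1 hcm
          obtain ⟨j, -, hj⟩ := Multiset.mem_map.1 hwm
          have e1 := congrFun (congrFun hy i) i
          have e2 := congrFun (congrFun hy j) j
          rw [hxd] at e1 e2
          simp only [Matrix.diagonal_apply_eq, Matrix.smul_apply, Matrix.one_apply_eq, smul_eq_mul, mul_one] at e1 e2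
          exact hcw (by rw [← hi, ← hj, e1, e2]))
        have heig := eig_of_eq_diagonal (E := AlgebraicClosure F) (x : Matrix (Fin n) (Fin n) F) d m hxd hdm
        have hinj : Function.Injective (algebraMap F (AlgebraicClosure F)) := (algebraMap F (AlgebraicClosure F)).injective
        refine false_of_conj (AlgebraicClosure F) hq (by omega) (by omega) e P g x hr hpow hg
          (algebraMap F (AlgebraicClosure F) z) (algebraMap F (AlgebraicClosure F) w) ?_ ?_
        · rw [heig, Multiset.count_map_eq_count' _ _ hinj]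
          exact hz
        · rw [heig, Multiset.count_map_eq_count' _ _ hinj, ← hab]
          exact hw
      by_cases hr2 : r = 2
      · subst hr2
        have h20 : (2 : F) ≠ 0 := by exact_mod_cast hr
        have hneg : (-1 : F) ≠ 1 := neg_one_ne_one h20
        have ha2 : a = 2 := by
          by_contra hane
          refine key (Multiset.replicate 2 (-1) + Multiset.replicate (n - 2) 1) 1 (-1) 1 ?_ one_ne_zero ?_ ?_ ?_ ?_ ?_
          · intro c hc
            rcases Multiset.mem_add.1 hc with h | h
            · rw [Multiset.eq_of_mem_replicate h]; norm_num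
            · rw [Multiset.eq_of_mem_replicate h]; norm_num
          · rw [Multiset.card_add, Multiset.card_replicate, Multiset.card_replicate]; omega
          · rw [Multiset.prod_add, Multiset.prod_replicate, Multiset.prod_replicate]; norm_num
          · rw [Multiset.count_add, Multiset.count_replicate, Multiset.count_replicate, if_pos rfl, if_neg hneg.symm]
            intro hd
            have := Nat.le_of_dvd (by norm_num) hd
            omega
          · rw [Multiset.count_add, Multiset.count_replicate, Multiset.count_replicate, if_neg hneg, if_pos rfl]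
            omega
          · exact ⟨-1, by simp, hneg⟩
        refine ⟨rfl, ha2, odd_of_two_ne_zero hq h20, ?_⟩
        by_contra hv
        push Not at hv
        obtain ⟨s, hs, hs0⟩ := exists_pow_eq_neg_one hq (n := n) (by omega) hv
        have hsne : -s ≠ s := by
          intro h
          have : (2 : F) * s = 0 := by linear_combination -h
          rcases mul_eq_zero.1 this with h' | h'
          · exact h20 h'
          · exact hs0 h'
        refine key (-s ::ₘ Multiset.replicate (n - 1) s) s (-s) (s ^ 2) ?_ (pow_ne_zero _ hs0) ?_ ?_ ?_ ?_ ?_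
        · intro c hc
          rcases Multiset.mem_cons.1 hc with h | h
          · rw [h]; ring
          · rw [Multiset.eq_of_mem_replicate h]
        · rw [Multiset.card_cons, Multiset.card_replicate]; omega
        · rw [Multiset.prod_cons, Multiset.prod_replicate]
          have : s ^ n = s * s ^ (n - 1) := by rw [← pow_succ']; congr 1; omega
          rw [hs] at this
          linear_combination this
        · rw [Multiset.count_cons_self, Multiset.count_replicate, if_neg hsne.symm]
          intro hd
          have := Nat.le_of_dvd (by norm_num) hd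
          omega
        · rw [Multiset.count_cons_of_ne hsne.symm, Multiset.count_replicate, if_pos rfl]
          omega
        · exact ⟨-s, by simp, hsne⟩
      · exfalso
        obtain ⟨ζ, hζ⟩ := exists_prim hq hrq
        have hr3 : 3 ≤ r := by
          have := hrp.two_le
          omega
        have hζ0 : ζ ≠ 0 := hζ.ne_zero hrp.ne_zero
        have hζ1 : ζ ≠ 1 := hζ.ne_one (by omega)
        have hζi : ζ⁻¹ ≠ ζ := by
          intro h
          have h2 : ζ ^ 2 = 1 := by rw [pow_two]; nth_rewrite 1 [← h]; exact inv_mul_cancel₀ hζ0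
          have := Nat.le_of_dvd (by norm_num) (hζ.dvd_of_pow_eq_one _ h2)
          omega
        have hζi1 : ζ⁻¹ ≠ 1 := by rwa [Ne, inv_eq_one]
        refine key (ζ ::ₘ ζ⁻¹ ::ₘ Multiset.replicate (n - 2) 1) 1 ζ 1 ?_ one_ne_zero ?_ ?_ ?_ ?_ ?_
        · intro c hc
          rcases Multiset.mem_cons.1 hc with h | h
          · rw [h]; exact hζ.pow_eq_one
          · rcases Multiset.mem_cons.1 h with h | h
            · rw [h, inv_pow, hζ.pow_eq_one, inv_one]
            · rw [Multiset.eq_of_mem_replicate h, one_pow]
        · rw [Multiset.card_cons, Multiset.card_cons, Multiset.card_replicate]; omega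
        · rw [Multiset.prod_cons, Multiset.prod_cons, Multiset.prod_replicate, one_pow, mul_one, mul_inv_cancel₀ hζ0]
        · rw [Multiset.count_cons_self, Multiset.count_cons_of_ne hζi.symm, Multiset.count_replicate,
            if_neg hζ1.symm]
          intro hd
          have := Nat.le_of_dvd (by norm_num) hd
          omega
        · rw [Multiset.count_cons_of_ne hζ1.symm, Multiset.count_cons_of_ne hζi1.symm, Multiset.count_replicate,
            if_pos rfl]
          omega
        · exact ⟨ζ, by simp, hζ1⟩
    · exfalso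
      have hi : orderOf (q : ZMod r) ≤ n := by
        apply orderOf_le_of_dvd_card_GL hq hr
        exact hΩ.trans ((Subgroup.relIndex_dvd_card _ _).trans (Subgroup.card_subgroup_dvd_card _))
      obtain ⟨x, hxdet, hxr, O, hO, hxO⟩ := exists_block (AlgebraicClosure F) (ι := Fin n) hq hr h1 (by rwa [hcard])
      have hi0 : orderOf (q : ZMod r) ≠ 0 := by
        exact (orderOf_pos' (not_dvd_card hq hr)).ne'
      have hcO := hO.card_eq
      obtain ⟨z, hz⟩ : ∃ z, z ∈ O := by
        apply Multiset.card_pos_iff_exists_mem.1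
        omega
      have hz1 : z ≠ 1 := (hO.prim z hz).ne_one hrp.one_lt
      have h1O : (1 : AlgebraicClosure F) ∉ O := fun h => (hO.prim 1 h).ne_one hrp.one_lt rfl
      obtain ⟨g, -, hg⟩ := H x ((mem_sl x).2 hxdet) ⟨1, by rw [hxr, one_smul, Units.val_one]⟩
        (ne_scalar_of_mem (E := AlgebraicClosure F) (z := z) (w := z ^ q)
          (by rw [hxO]; exact Multiset.mem_add.2 (Or.inl hz))
          (by rw [hxO]; exact Multiset.mem_add.2 (Or.inl (hO.frob z hz)))
          (hO.frob_ne (by omega) hz).symm)
      refine false_of_conj_orbit (AlgebraicClosure F) hq (by omega) (by omega) e P g x hr h1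
        (by rw [← Units.val_pow_eq_pow_val, hxr, Units.val_one]) hg z ?_ ?_
      · rw [hxO, Multiset.count_add, Multiset.count_replicate, if_neg hz1.symm, Multiset.count_eq_one_of_mem hO.nodup hz]
        intro hd
        have := Nat.le_of_dvd (by norm_num) hd
        omega
      · rw [hxO, Multiset.count_add, Multiset.count_eq_zero_of_notMem h1O, Multiset.count_replicate, if_pos rfl, hcard,
          ← hab]
        have h2 : 2 ≤ orderOf (q : ZMod r) := by omega
        have h3 : 3 * (orderOf (q : ZMod r) - 1) ≤ b * (orderOf (q : ZMod r) - 1) := Nat.mul_le_mul_right _ hb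
        omega

/-- multiplicities of `f ∘ snd`. -/
theorem map_snd {α : Type*} [DecidableEq α] {n₁ n₂ : ℕ} (f : Fin n₂ → α) :
    (Finset.univ : Finset (Fin n₁ × Fin n₂)).val.map (fun p => f p.2) = n₁ • (Finset.univ : Finset (Fin n₂)).val.map f := by
  ext z
  rw [Multiset.count_nsmul, Multiset.count_map, Multiset.count_map]
  have h1 : Multiset.card (Multiset.filter (fun a : Fin n₁ × Fin n₂ => z = f a.2)
      (Finset.univ : Finset (Fin n₁ × Fin n₂)).val) =
      ((Finset.univ : Finset (Fin n₁ × Fin n₂)).filter (fun a => z = f a.2)).card := rfl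
  have h2 : Multiset.card (Multiset.filter (fun a : Fin n₂ => z = f a)
      (Finset.univ : Finset (Fin n₂)).val) = ((Finset.univ : Finset (Fin n₂)).filter (fun a => z = f a)).card := rfl
  rw [h1, h2]
  have h3 : ((Finset.univ : Finset (Fin n₁ × Fin n₂)).filter (fun a => z = f a.2)) =
      (Finset.univ : Finset (Fin n₁)) ×ˢ ((Finset.univ : Finset (Fin n₂)).filter (fun a => z = f a)) := by
    ext ⟨i, j⟩
    simp
  rw [h3, Finset.card_product, Finset.card_univ, Fintype.card_fin]

/-- a family with values in `{s, t}` -/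
theorem map_two_valued {κ α : Type*} [Fintype κ] [DecidableEq α] {s t : α} (hst : s ≠ t) (d : κ → α)
    (hd : ∀ i, d i = s ∨ d i = t) :
    (Finset.univ : Finset κ).val.map d = Multiset.replicate ((Finset.univ.filter (fun i => d i = t)).card) t +
      Multiset.replicate (Fintype.card κ - (Finset.univ.filter (fun i => d i = t)).card) s := by
  have h0 : (Finset.univ.filter (fun i => d i = t)).card + (Finset.univ.filter (fun i => ¬ d i = t)).card =
      Fintype.card κ := by
    rw [Finset.card_filter_add_card_filter_not]; rfl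
  ext z
  rw [Multiset.count_map, Multiset.count_add, Multiset.count_replicate, Multiset.count_replicate]
  have h1 : Multiset.card (Multiset.filter (fun a : κ => z = d a) (Finset.univ : Finset κ).val) =
      ((Finset.univ : Finset κ).filter (fun a => z = d a)).card := rfl
  rw [h1]
  by_cases hz : t = z
  · subst hz
    rw [if_pos rfl, if_neg hst, add_zero]
    congr 1
    ext i
    simp [eq_comm]
  · rw [if_neg hz, zero_add]
    by_cases hz2 : s = z
    · subst hz2
      rw [if_pos rfl]
      have h2 : (Finset.univ.filter (fun a => s = d a)) = (Finset.univ.filter (fun i => ¬ d i = t)) := by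
        ext i
        simp only [Finset.mem_filter, Finset.mem_univ, true_and]
        rcases hd i with h | h
        · rw [h]; simp [hst]
        · rw [h]; simp [hst]
      rw [h2]
      omega
    · rw [if_neg hz2, Finset.card_eq_zero]
      ext i
      simp only [Finset.mem_filter, Finset.mem_univ, true_and, Finset.notMem_empty, iff_false]
      rcases hd i with h | h
      · rw [h]; exact fun h' => hz2 h'.symm
      · rw [h]; exact fun h' => hz h'.symm

theorem backward {q : ℕ} (hq : Fintype.card F = q)
    (n b : ℕ) (hab : n = 2 * b) (hlt : 2 < b) (e : Fin n ≃ Fin 2 × Fin b) (P : GL (Fin n) F)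
    (hodd : Odd q) (hv : padicValNat 2 (q - 1) ≤ padicValNat 2 n)
    (x : GL (Fin n) F) (hx : x ∈ Cfsg.Geo.specialLinear (Fin n) F)
    (hz : ∃ z : F, ((x ^ 2 : GL (Fin n) F) : Matrix (Fin n) (Fin n) F) = z • (1 : Matrix (Fin n) (Fin n) F)) :
    ∃ g ∈ Cfsg.Geo.specialLinear (Fin n) F, g⁻¹ * x * g ∈ Cfsg.Geo.tensorProductSubgroup 2 b e P := by
  classical
  have h20 := two_ne_zero_of_odd hq hodd
  have hne : Nonempty (Fin n) := ⟨⟨0, by omega⟩⟩
  obtain ⟨z, hz⟩ := hz
  rw [Units.val_pow_eq_pow_val] at hz
  rw [mem_sl] at hx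
  have hz0 : z ≠ 0 := by
    rintro rfl
    rw [zero_smul] at hz
    have h2 := congrArg Matrix.det hz
    rw [Matrix.det_pow, hx, one_pow, Matrix.det_zero] at h2
    exact one_ne_zero h2
  by_cases hsq : IsSquare z
  · obtain ⟨s, rfl⟩ := hsq
    have hs0 : s ≠ 0 := by rintro rfl; simp at hz0
    have hsne : s ≠ -s := by
      intro h
      have : (2 : F) * s = 0 := by linear_combination h
      rcases mul_eq_zero.1 this with h' | h'
      · exact h20 h'
      · exact hs0 h'
    obtain ⟨S, d, hSd, hd⟩ := exists_of_sq_eq h20 hs0 (x : Matrix (Fin n) (Fin n) F) (by rw [hz, pow_two])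
    set k := (Finset.univ.filter (fun i => d i = -s)).card with hk
    have hkn : k ≤ n := by
      calc k ≤ (Finset.univ : Finset (Fin n)).card := Finset.card_filter_le _ _
        _ = n := by simp
    have hmap := map_two_valued hsne d hd
    rw [← hk, Fintype.card_fin] at hmap
    -- `k` is even
    have hdet : (x : Matrix (Fin n) (Fin n) F).det = s ^ n * (-1) ^ k := by
      rw [hSd, Matrix.det_mul, Matrix.det_mul, mul_right_comm, ← Matrix.det_mul, mul_inv_self', Matrix.det_one, one_mul,
        Matrix.det_diagonal]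
      have : ∏ i, d i = ((Finset.univ : Finset (Fin n)).val.map d).prod := rfl
      rw [this, hmap, Multiset.prod_add, Multiset.prod_replicate, Multiset.prod_replicate, neg_pow, mul_assoc,
        ← pow_add, mul_comm]
      congr 2
      omega
    rw [hx] at hdet
    have hkev : Even k := by
      by_contra hodd
      rw [Nat.not_even_iff_odd] at hodd
      rw [hodd.neg_one_pow] at hdet
      exact pow_ne_neg_one hq h20 (by omega) hv s (by linear_combination hdet)
    obtain ⟨k', hk'⟩ := hkev
    obtain ⟨β, hβ⟩ := exists_family (ι := Fin b) (Multiset.replicate k' (-s) + Multiset.replicate (b - k') s) (by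
      rw [Multiset.card_add, Multiset.card_replicate, Multiset.card_replicate, Fintype.card_fin]; omega)
    have hβ0 : ∀ l, β l ≠ 0 := by
      intro l
      have h1 : β l ∈ Multiset.replicate k' (-s) + Multiset.replicate (b - k') s := by
        rw [← hβ]; exact Multiset.mem_map_of_mem _ (Finset.mem_univ_val l)
      rcases Multiset.mem_add.1 h1 with h | h
      · rw [Multiset.eq_of_mem_replicate h]; exact neg_ne_zero.2 hs0
      · rw [Multiset.eq_of_mem_replicate h]; exact hs0
    obtain ⟨y, hy, hyeq⟩ := exists_mem_tensor e P (1 : GL (Fin 2) F) (diagU β hβ0)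
    have hyd : (y : Matrix (Fin n) (Fin n) F) = (P : Matrix (Fin n) (Fin n) F) *
        Matrix.diagonal (fun i => β (e i).2) * ((P⁻¹ : GL (Fin n) F) : Matrix (Fin n) (Fin n) F) := by
      rw [hyeq]
      congr 2
      rw [coe_diagU, Units.val_one, ← Matrix.diagonal_one, Matrix.diagonal_kronecker_diagonal]
      ext i j
      simp only [Matrix.reindex_apply, Matrix.submatrix_apply, Matrix.diagonal_apply, one_mul, Equiv.symm_symm]
      simp
    obtain ⟨g, hg1, hg2⟩ := conj_of_diag x y S P d _ hSd hyd (by
      have h1 : (Finset.univ : Finset (Fin n)).val.map (fun i => β (e i).2) =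
          ((Finset.univ : Finset (Fin n)).val.map e).map (fun p => β p.2) := by rw [Multiset.map_map]; rfl
      rw [h1, Multiset.map_univ_val_equiv, map_snd, hβ, hmap, smul_add, Multiset.nsmul_replicate,
        Multiset.nsmul_replicate]
      congr 2
      · omega
      · omega)
    exact ⟨g, (mem_sl g).2 hg1, by rw [hg2]; exact hy⟩
  · have hirr : Irreducible (X ^ 2 - C z : F[X]) := by
      apply X_pow_sub_C_irreducible_of_prime Nat.prime_two
      intro b hb
      exact hsq ⟨b, by rw [← hb, pow_two]⟩
    let J : Matrix (Fin 2) (Fin 2) F := !![0, z; 1, 0]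
    let JU : GL (Fin 2) F := Matrix.GeneralLinearGroup.mkOfDetNeZero J (by
      simp [J, Matrix.det_fin_two, hz0])
    obtain ⟨y, hy, hyeq⟩ := exists_mem_tensor e P JU (1 : GL (Fin b) F)
    have hy2 : (y : Matrix (Fin n) (Fin n) F) ^ 2 = z • (1 : Matrix (Fin n) (Fin n) F) := by
      have hJ : (JU : Matrix (Fin 2) (Fin 2) F) * (JU : Matrix (Fin 2) (Fin 2) F) = z • (1 : Matrix (Fin 2) (Fin 2) F) := by
        change J * J = _
        simp only [J]
        ext i j
        fin_cases i <;> fin_cases j <;> simp [Matrix.mul_apply, Fin.sum_univ_two]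
      have hre : ∀ M : Matrix (Fin 2 × Fin b) (Fin 2 × Fin b) F,
        Matrix.reindex e.symm e.symm M = Matrix.reindexAlgEquiv F F e.symm M := fun _ => rfl
      rw [hyeq, pow_two, hre]
      calc (P : Matrix (Fin n) (Fin n) F) * Matrix.reindexAlgEquiv F F e.symm
            ((JU : Matrix (Fin 2) (Fin 2) F) ⊗ₖ ((1 : GL (Fin b) F) : Matrix (Fin b) (Fin b) F)) *
            ((P⁻¹ : GL (Fin n) F) : Matrix (Fin n) (Fin n) F) *
            ((P : Matrix (Fin n) (Fin n) F) * Matrix.reindexAlgEquiv F F e.symm
            ((JU : Matrix (Fin 2) (Fin 2) F) ⊗ₖ ((1 : GL (Fin b) F) : Matrix (Fin b) (Fin b) F)) *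
            ((P⁻¹ : GL (Fin n) F) : Matrix (Fin n) (Fin n) F))
          = (P : Matrix (Fin n) (Fin n) F) * Matrix.reindexAlgEquiv F F e.symm
            ((JU : Matrix (Fin 2) (Fin 2) F) ⊗ₖ ((1 : GL (Fin b) F) : Matrix (Fin b) (Fin b) F)) *
            (((P⁻¹ : GL (Fin n) F) : Matrix (Fin n) (Fin n) F) *
            (P : Matrix (Fin n) (Fin n) F)) * Matrix.reindexAlgEquiv F F e.symm
            ((JU : Matrix (Fin 2) (Fin 2) F) ⊗ₖ ((1 : GL (Fin b) F) : Matrix (Fin b) (Fin b) F)) *
            ((P⁻¹ : GL (Fin n) F) : Matrix (Fin n) (Fin n) F) := by simp only [Matrix.mul_assoc]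
        _ = (P : Matrix (Fin n) (Fin n) F) * (Matrix.reindexAlgEquiv F F e.symm
            ((JU : Matrix (Fin 2) (Fin 2) F) ⊗ₖ ((1 : GL (Fin b) F) : Matrix (Fin b) (Fin b) F)) *
            Matrix.reindexAlgEquiv F F e.symm
            ((JU : Matrix (Fin 2) (Fin 2) F) ⊗ₖ ((1 : GL (Fin b) F) : Matrix (Fin b) (Fin b) F))) *
            ((P⁻¹ : GL (Fin n) F) : Matrix (Fin n) (Fin n) F) := by
            rw [inv_mul_self', Matrix.mul_one]; simp only [Matrix.mul_assoc]
        _ = _ := by
            rw [← map_mul, ← Matrix.mul_kronecker_mul, hJ, Units.val_one, Matrix.one_mul, Matrix.smul_kronecker,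
              Matrix.one_kronecker_one, map_smul, map_one, Matrix.mul_smul, Matrix.smul_mul, Matrix.mul_one,
              mul_inv_self']
    have haev : ∀ w : GL (Fin n) F, (w : Matrix (Fin n) (Fin n) F) ^ 2 = z • (1 : Matrix (Fin n) (Fin n) F) →
        aeval (w : Matrix (Fin n) (Fin n) F) (X ^ 2 - C z : F[X]) = 0 := by
      intro w hw
      rw [map_sub, map_pow, aeval_X, aeval_C, hw, Algebra.algebraMap_eq_smul_one, sub_self]
    obtain ⟨g, hg1, hg2⟩ := exists_conj_sl hirr x y (haev x hz) (haev y hy2)
    exact ⟨g, (mem_sl g).2 hg1, by rw [hg2]; exact hy⟩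

/-- Elements of prime order of PSL_n(q) and the stabilizers of tensor decompositions with factors of different dimensions. Here `T = PSL_n(F)` for a field `F` with `q` elements and `n = a·b` with `2 ≤ a < b`; a tensor decomposition `F^n ≅ F^a ⊗ F^b` is given by a bijection `e` of index sets and a change of basis `P`, and `H` is the subgroup of matrices of determinant 1 in its stabilizer (the conjugate by `P` of the group of Kronecker products `g₁ ⊗ g₂`) — a subgroup of type GL_a(q) ⊗ GL_b(q) (maximality is not assumed); Ω is the set of cosets of `H` in `T`, so an element of `T` of prime order `r` (a matrix `x` of determinant 1 with `x^r` scalar, `x` not scalar) fixes a point of Ω exactly when some conjugate of `x` by a matrix of determinant 1 lies in `H`. Let `r` be a prime dividing the index of `H`. Then every element of `T` of order `r` fixes a point of Ω if and only if `r = 2`, `a = 2`, `q` is odd and `(q − 1)_2 ≤ (n)_2` (2-parts). -/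
theorem result {F : Type*} [Field F] [Fintype F] {p : ℕ} [Fact p.Prime] [CharP F p] {q : ℕ} (hq : Fintype.card F = q)
    (n a b : ℕ) (hab : n = a * b) (ha : 2 ≤ a) (hlt : a < b) (e : Fin n ≃ Fin a × Fin b) (P : GL (Fin n) F)
    (r : ℕ) [Fact r.Prime]
    (hΩ : r ∣ (Cfsg.Geo.tensorProductSubgroup a b e P).relIndex (Cfsg.Geo.specialLinear (Fin n) F)) :
    (∀ x ∈ Cfsg.Geo.specialLinear (Fin n) F, (∃ z : F, ((x ^ r : GL (Fin n) F) : Matrix (Fin n) (Fin n) F) = z • (1 : Matrix (Fin n) (Fin n) F)) →
      (∀ z : F, (x : Matrix (Fin n) (Fin n) F) ≠ z • (1 : Matrix (Fin n) (Fin n) F)) →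
      ∃ g ∈ Cfsg.Geo.specialLinear (Fin n) F, g⁻¹ * x * g ∈ Cfsg.Geo.tensorProductSubgroup a b e P) ↔
    (r = 2 ∧ a = 2 ∧ Odd q ∧ padicValNat 2 (q - 1) ≤ padicValNat 2 n) := by
  constructor
  · exact fun H => forward hq n a b hab ha hlt e P r hΩ H
  · rintro ⟨rfl, rfl, hodd, hv⟩ x hx hz -
    exact backward hq n b hab hlt e P hodd hv x hx hz

end Cfsg.Agent.S5979
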