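import Cfsg.Statements.S5980
import Cfsg.Agent.S5979
import Cfsg.Agent.H956.TensorElt2
import Cfsg.Agent.H956.SpElt
import Cfsg.Agent.H956.SpConj
import Cfsg.Agent.H956.OrthSim

set_option autoImplicit false
open scoped MatrixGroups
open Cfsg

namespace Cfsg.Agent.S5980

open Matrix Polynomial
open scoped Kronecker
open Cfsg.Agent.H956.EigMult Cfsg.Agent.H956.PrimeElt Cfsg.Agent.H956.TensorElt Cfsg.Agent.H956.Conj
open Cfsg.Agent.H956.DiagElt Cfsg.Agent.H956.FieldArith Cfsg.Agent.H956.TensorElt2 Cfsg.Agent.H956.SpElt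
open Cfsg.Agent.ClassicalGeometry.SympBasic Cfsg.Agent.H955

variable {F : Type*} [Field F]

/-- diagonal symplectic matrices -/
theorem diag_mem_sp {d : ℕ} (δ : Fin d ⊕ Fin d → F) (hδ : ∀ i, δ i ≠ 0)
    (h : ∀ i, δ (Sum.inl i) * δ (Sum.inr i) = 1) : diagU δ hδ ∈ Cfsg.spGL d F := by
  intro u v
  change sympForm d F ((diagU δ hδ : Matrix _ _ F) *ᵥ u) ((diagU δ hδ : Matrix _ _ F) *ᵥ v) = sympForm d F u v
  rw [coe_diagU, sympForm_eq_sum, sympForm_eq_sum]
  refine Finset.sum_congr rfl fun i _ => ?_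
  simp only [Matrix.mulVec_diagonal]
  linear_combination (u (Sum.inr i) * v (Sum.inl i) - u (Sum.inl i) * v (Sum.inr i)) * h i

/-- transvections in the symplectic group -/
theorem transvection_mem_sp {d : ℕ} (i : Fin d) (x : GL (Fin d ⊕ Fin d) F)
    (hx : (x : Matrix (Fin d ⊕ Fin d) (Fin d ⊕ Fin d) F) = Matrix.transvection (Sum.inl i) (Sum.inr i) 1) :
    x ∈ Cfsg.spGL d F := by
  intro u v
  change sympForm d F ((x : Matrix _ _ F) *ᵥ u) ((x : Matrix _ _ F) *ᵥ v) = sympForm d F u v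
  have h1 : (x : Matrix (Fin d ⊕ Fin d) (Fin d ⊕ Fin d) F) = sympTransvection d (Pi.single (Sum.inl i) 1) 1 := by
    rw [hx, sympTransvection_def, Matrix.transvection, one_smul]
    congr 1
    ext k l
    rw [Matrix.vecMulVec_apply, Matrix.single_apply]
    rcases l with l | l
    · have h0 : (Pi.single (Sum.inl i) (1 : F) : Fin d ⊕ Fin d → F) (Sum.inr l) = 0 :=
        Pi.single_eq_of_ne (by simp) _
      rw [J_mulVec_inl, h0, neg_zero, mul_zero, if_neg]
      rintro ⟨-, h⟩
      exact absurd h (by simp)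
    · rw [J_mulVec_inr]
      by_cases hk : Sum.inl i = k
      · subst hk
        by_cases hl : i = l
        · subst hl
          simp
        · rw [if_neg (by
            rintro ⟨-, h⟩
            exact hl (Sum.inr_injective h)), Pi.single_eq_same, Pi.single_eq_of_ne (by
            intro h
            exact hl (Sum.inl_injective h).symm), mul_zero]
      · rw [if_neg (by
          rintro ⟨h, -⟩
          exact hk h), Pi.single_eq_of_ne (fun h => hk h.symm), zero_mul]
  rw [h1]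
  exact sympForm_mulVec (sympTransvection_mem _ _) u v

theorem forward [Fintype F] {p : ℕ} [Fact p.Prime] [CharP F p] {q : ℕ} (hq : Fintype.card F = q)
    (hodd : Odd q) (d : ℕ) (hd : 2 ≤ d) (a b : ℕ) (hab : 2 * d = a * b) (ha : Even a) (ha2 : 2 ≤ a) (hb : 3 ≤ b)
    (e : (Fin d ⊕ Fin d) ≃ Fin a × Fin b) (P : GL (Fin d ⊕ Fin d) F)
    (r : ℕ) [Fact r.Prime]
    (hΩ : r ∣ (Cfsg.Geo.tensorProductSubgroup a b e P).relIndex (Cfsg.spGL d F))
    (H : ∀ x ∈ Cfsg.spGL d F, (∃ z : F, ((x ^ r : GL (Fin d ⊕ Fin d) F) : Matrix (Fin d ⊕ Fin d) (Fin d ⊕ Fin d) F) = z • (1 : Matrix (Fin d ⊕ Fin d) (Fin d ⊕ Fin d) F)) →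
      (∀ z : F, (x : Matrix (Fin d ⊕ Fin d) (Fin d ⊕ Fin d) F) ≠ z • (1 : Matrix (Fin d ⊕ Fin d) (Fin d ⊕ Fin d) F)) →
      ∃ g ∈ Cfsg.spGL d F, g⁻¹ * x * g ∈ Cfsg.Geo.tensorProductSubgroup a b e P) : r = 2 ∧ a = 2 := by
  classical
  have hrp : r.Prime := Fact.out
  have h2 := two_ne_zero_of_odd hq hodd
  by_contra hneg
  by_cases hrF : (r : F) = 0
  · have hrp' : r = p := by
      have h1 := (CharP.cast_eq_zero_iff F p r).1 hrF
      exact ((Nat.prime_dvd_prime_iff_eq Fact.out hrp).1 h1).symm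
    subst hrp'
    let i0 : Fin d := ⟨0, by omega⟩
    obtain ⟨x, hx1, hx2, hx3, hx4⟩ := exists_transvection (F := F) r (Sum.inl i0 : Fin d ⊕ Fin d) (Sum.inr i0) (by simp)
    obtain ⟨g, -, hg⟩ := H x (transvection_mem_sp i0 x hx1) ⟨1, by rw [hx3, one_smul, Units.val_one]⟩ (by
      intro z hz
      have h1 := congrFun (congrFun hz (Sum.inl i0)) (Sum.inr i0)
      rw [hx1] at h1
      simp [Matrix.transvection] at h1)
    exact false_of_conj_rank_one ha2 (by omega) e P g x hx4 hg
  -- a diagonal element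
  have key : ∀ ζ : F, ζ ^ r = 1 → ζ ≠ 1 → (¬ a ∣ (if ζ = ζ⁻¹ then 2 else 1)) → False := by
    intro ζ hζr hζ1 hdvd
    have hζ0 : ζ ≠ 0 := by
      rintro rfl
      rw [zero_pow hrp.ne_zero] at hζr
      exact zero_ne_one hζr
    have hζi1 : ζ⁻¹ ≠ 1 := by rwa [Ne, inv_eq_one]
    let i0 : Fin d := ⟨0, by omega⟩
    let i1 : Fin d := ⟨1, by omega⟩
    have hi01 : i1 ≠ i0 := by simp [i0, i1]
    let δ : Fin d ⊕ Fin d → F := Sum.elim (Function.update (fun _ => 1) i0 ζ) (Function.update (fun _ => 1) i0 ζ⁻¹)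
    have hδl : ∀ i, δ (Sum.inl i) = if i = i0 then ζ else 1 := by
      intro i
      simp only [δ, Sum.elim_inl, Function.update_apply]
    have hδr : ∀ i, δ (Sum.inr i) = if i = i0 then ζ⁻¹ else 1 := by
      intro i
      simp only [δ, Sum.elim_inr, Function.update_apply]
    have hδ0 : ∀ i, δ i ≠ 0 := by
      rintro (i | i)
      · rw [hδl]; split_ifs
        · exact hζ0
        · exact one_ne_zero
      · rw [hδr]; split_ifs
        · exact inv_ne_zero hζ0
        · exact one_ne_zero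
    have hδ : ∀ i, δ (Sum.inl i) * δ (Sum.inr i) = 1 := by
      intro i
      rw [hδl, hδr]
      split_ifs
      · exact mul_inv_cancel₀ hζ0
      · exact mul_one 1
    have hδpow : ∀ i, δ i ^ r = 1 := by
      rintro (i | i)
      · rw [hδl]; split_ifs
        · exact hζr
        · exact one_pow r
      · rw [hδr]; split_ifs
        · rw [inv_pow, hζr, inv_one]
        · exact one_pow r
    let x := diagU δ hδ0
    have hx : (x : Matrix (Fin d ⊕ Fin d) (Fin d ⊕ Fin d) F) = Matrix.diagonal δ := coe_diagU δ hδ0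
    have hpow : (x : Matrix (Fin d ⊕ Fin d) (Fin d ⊕ Fin d) F) ^ r = (1 : F) • (1 : Matrix (Fin d ⊕ Fin d) (Fin d ⊕ Fin d) F) := by
      rw [hx]
      exact diagonal_pow_eq δ r 1 hδpow
    obtain ⟨g, -, hg⟩ := H x (diag_mem_sp δ hδ0 hδ) ⟨1, by rw [Units.val_pow_eq_pow_val, hpow]⟩ (by
      intro z hz
      have e1 := congrFun (congrFun hz (Sum.inl i0)) (Sum.inl i0)
      have e2 := congrFun (congrFun hz (Sum.inl i1)) (Sum.inl i1)
      rw [hx] at e1 e2
      simp only [Matrix.diagonal_apply_eq, Matrix.smul_apply, Matrix.one_apply_eq, smul_eq_mul, mul_one] at e1 e2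
      rw [hδl, if_pos rfl] at e1
      rw [hδl, if_neg hi01] at e2
      exact hζ1 (by rw [e1, e2]))
    have heig : eig (AlgebraicClosure F) (x : Matrix (Fin d ⊕ Fin d) (Fin d ⊕ Fin d) F) =
        ((Finset.univ : Finset (Fin d ⊕ Fin d)).val.map δ).map (algebraMap F (AlgebraicClosure F)) :=
      eig_of_eq_diagonal _ δ _ hx rfl
    have hinj : Function.Injective (algebraMap F (AlgebraicClosure F)) := (algebraMap F (AlgebraicClosure F)).injective
    have hcnt : ∀ w : F, (eig (AlgebraicClosure F) (x : Matrix (Fin d ⊕ Fin d) (Fin d ⊕ Fin d) F)).count (algebraMap F _ w) =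
        ((Finset.univ : Finset (Fin d ⊕ Fin d)).filter (fun k => w = δ k)).card := by
      intro w
      rw [heig, Multiset.count_map_eq_count' _ _ hinj, Multiset.count_map]
      rfl
    have hcard : Fintype.card (Fin d ⊕ Fin d) = 2 * d := by
      rw [Fintype.card_sum, Fintype.card_fin]; ring
    refine false_of_conj (AlgebraicClosure F) hq (by omega) (by omega) e P g x hrF hpow hg
      (algebraMap F (AlgebraicClosure F) ζ) (algebraMap F (AlgebraicClosure F) 1) ?_ ?_
    · rw [hcnt]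
      have h3 : ((Finset.univ : Finset (Fin d ⊕ Fin d)).filter (fun k => ζ = δ k)).card = if ζ = ζ⁻¹ then 2 else 1 := by
        by_cases hζζ : ζ = ζ⁻¹
        · rw [if_pos hζζ]
          have h4 : ((Finset.univ : Finset (Fin d ⊕ Fin d)).filter (fun k => ζ = δ k)) = {Sum.inl i0, Sum.inr i0} := by
            ext k
            simp only [Finset.mem_filter, Finset.mem_univ, true_and, Finset.mem_insert, Finset.mem_singleton]
            rcases k with k | k
            · rw [hδl]
              by_cases hk : k = i0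
              · simp [hk]
              · rw [if_neg hk]
                constructor
                · intro h; exact absurd h hζ1
                · rintro (h | h)
                  · exact absurd (Sum.inl_injective h) hk
                  · exact absurd h (by simp)
            · rw [hδr]
              by_cases hk : k = i0
              · simp [hk, ← hζζ]
              · rw [if_neg hk]
                constructor
                · intro h; exact absurd h hζ1
                · rintro (h | h)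
                  · exact absurd h (by simp)
                  · exact absurd (Sum.inr_injective h) hk
          rw [h4, Finset.card_pair (by simp)]
        · rw [if_neg hζζ]
          have h4 : ((Finset.univ : Finset (Fin d ⊕ Fin d)).filter (fun k => ζ = δ k)) = {Sum.inl i0} := by
            ext k
            simp only [Finset.mem_filter, Finset.mem_univ, true_and, Finset.mem_singleton]
            rcases k with k | k
            · rw [hδl]
              by_cases hk : k = i0
              · simp [hk]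
              · rw [if_neg hk]
                constructor
                · intro h; exact absurd h hζ1
                · intro h
                  exact absurd (Sum.inl_injective h) hk
            · rw [hδr]
              by_cases hk : k = i0
              · rw [if_pos hk]
                constructor
                · intro h; exact absurd h hζζ
                · intro h; exact absurd h (by simp)
              · rw [if_neg hk]
                constructor
                · intro h; exact absurd h hζ1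
                · intro h; exact absurd h (by simp)
          rw [h4, Finset.card_singleton]
      rw [h3]
      exact hdvd
    · rw [hcnt, ← hab]
      have h5 : ((Finset.univ : Finset (Fin d ⊕ Fin d)).filter (fun k => ¬ (1 : F) = δ k)).card ≤ 2 := by
        have h4 : ((Finset.univ : Finset (Fin d ⊕ Fin d)).filter (fun k => ¬ (1 : F) = δ k)) ⊆ {Sum.inl i0, Sum.inr i0} := by
          intro k hk
          simp only [Finset.mem_filter, Finset.mem_univ, true_and] at hk
          simp only [Finset.mem_insert, Finset.mem_singleton]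
          rcases k with k | k
          · rw [hδl] at hk
            by_cases h : k = i0
            · exact Or.inl (by rw [h])
            · rw [if_neg h] at hk
              exact absurd rfl hk
          · rw [hδr] at hk
            by_cases h : k = i0
            · exact Or.inr (by rw [h])
            · rw [if_neg h] at hk
              exact absurd rfl hk
        exact (Finset.card_le_card h4).trans Finset.card_le_two
      have h6 := Finset.card_filter_add_card_filter_not (s := (Finset.univ : Finset (Fin d ⊕ Fin d))) (fun k => (1 : F) = δ k)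
      rw [Finset.card_univ, hcard] at h6
      omega
  by_cases hr2 : r = 2
  · subst hr2
    have hneg1 : (-1 : F) ≠ 1 := neg_one_ne_one h2
    refine key (-1) (by norm_num) hneg1 ?_
    rw [if_pos (by norm_num)]
    intro h
    have h1 := Nat.le_of_dvd (by norm_num) h
    exact hneg ⟨rfl, by omega⟩
  have hrq : ¬ r ∣ q := not_dvd_card hq hrF
  have hq0 : 0 < q := by rw [← hq]; exact Fintype.card_pos
  by_cases h1 : orderOf (q : ZMod r) = 1
  · have hrq1 : r ∣ q - 1 := by
      have := (dvd_pow_sub_one_iff (r := r) hq0 1).2 (by rw [h1])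
      rwa [pow_one] at this
    obtain ⟨ζ, hζ⟩ := exists_prim hq hrq1
    have hζ0 : ζ ≠ 0 := hζ.ne_zero hrp.ne_zero
    refine key ζ hζ.pow_eq_one (hζ.ne_one hrp.one_lt) ?_
    rw [if_neg]
    · intro h
      have := Nat.le_of_dvd (by norm_num) h
      omega
    · intro h
      have h2 : ζ ^ 2 = 1 := by rw [pow_two]; nth_rewrite 2 [h]; exact mul_inv_cancel₀ hζ0
      have h3 := Nat.le_of_dvd (by norm_num) (hζ.dvd_of_pow_eq_one _ h2)
      have := hrp.two_le
      omega
  -- `i ≥ 2`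
  have hi0 : orderOf (q : ZMod r) ≠ 0 := (orderOf_pos' hrq).ne'
  have hcc : cc q r ≤ 2 * d := by
    have h3 : r ∣ Nat.card (Cfsg.spGL d F) := hΩ.trans (Subgroup.relIndex_dvd_card _ _)
    rw [card_spGL, Nat.card_eq_fintype_card, hq] at h3
    rcases (Nat.Prime.dvd_mul hrp).1 h3 with h | h
    · exact absurd (hrp.dvd_of_dvd_pow h) hrq
    rw [Prime.dvd_finsetProd_iff (Nat.prime_iff.1 hrp)] at h
    obtain ⟨j, hj, hj'⟩ := h
    have hjd := Finset.mem_range.1 hj
    have h4 := (dvd_pow_sub_one_iff hq0 _).1 hj'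
    unfold cc
    split_ifs with he
    · have := Nat.le_of_dvd (by omega) h4
      omega
    · have h5 : orderOf (q : ZMod r) ∣ j + 1 :=
        Nat.Coprime.dvd_of_dvd_mul_left (Nat.coprime_two_right.2 (Nat.not_even_iff_odd.1 he)) h4
      have := Nat.le_of_dvd (by omega) h5
      omega
  obtain ⟨x, hx, hxr, hc1, z, hz, hz1, hzp, hcz⟩ := exists_sp_elt (AlgebraicClosure F) hq hrF hr2 hcc
  have hxr' : (x : Matrix (Fin d ⊕ Fin d) (Fin d ⊕ Fin d) F) ^ r = 1 := by
    rw [← Units.val_pow_eq_pow_val, hxr, Units.val_one]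
  have hz0 : z ≠ 0 := hzp.ne_zero hrp.ne_zero
  have hnsc : ∀ s : F, (x : Matrix (Fin d ⊕ Fin d) (Fin d ⊕ Fin d) F) ≠ s • (1 : Matrix (Fin d ⊕ Fin d) (Fin d ⊕ Fin d) F) := by
    intro s hs
    rw [hs, eig_scalar] at hcz
    have h3 := hz
    rw [hs, eig_scalar] at h3
    rw [Multiset.eq_of_mem_replicate h3, Multiset.count_replicate, if_pos rfl, Fintype.card_sum, Fintype.card_fin] at hcz
    omega
  obtain ⟨g, -, hg⟩ := H x hx ⟨1, by rw [hxr, one_smul, Units.val_one]⟩ hnsc
  refine false_of_conj_two (AlgebraicClosure F) hq (by omega) (by omega) e P g x hrF h1 hxr' hg z ?_ ?_ ?_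
  · rw [hcz]
    intro h
    have := Nat.le_of_dvd (by norm_num) h
    omega
  · rw [hcz]
    intro h
    have := Nat.le_of_dvd (by norm_num) h
    omega
  · rw [← hab]
    have h3 : 3 * (orderOf (q : ZMod r) - 1) ≤ b * (orderOf (q : ZMod r) - 1) := Nat.mul_le_mul_right _ hb
    unfold cc at hc1
    by_cases he : Even (orderOf (q : ZMod r))
    · rw [if_pos he] at hc1
      omega
    · rw [if_neg he] at hc1
      have hodd' := Nat.not_even_iff_odd.1 he
      obtain ⟨k, hk⟩ := hodd'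
      by_cases h4 : orderOf (q : ZMod r) = 3
      · by_cases hb3 : b = 3
        · obtain ⟨l, hl⟩ := ha
          by_cases ha' : a = 2
          · left; omega
          · right; right; right
            have h5 : 4 ≤ a := by omega
            have h6 : 4 * (orderOf (q : ZMod r) - 1) ≤ a * (orderOf (q : ZMod r) - 1) := Nat.mul_le_mul_right _ h5
            omega
        · have h6 : 4 * (orderOf (q : ZMod r) - 1) ≤ b * (orderOf (q : ZMod r) - 1) :=
            Nat.mul_le_mul_right _ (by omega)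
          omega
      · omega

/-- tensor products of isometries are isometries. -/
theorem mem_sp_of_tensor {d a b : ℕ} (e : (Fin d ⊕ Fin d) ≃ Fin a × Fin b) (P : GL (Fin d ⊕ Fin d) F)
    (f₁ : (Fin a → F) → (Fin a → F) → F) (f₂ : (Fin b → F) → (Fin b → F) → F)
    (hS : Cfsg.Geo.IsTensorFormStructure id (Cfsg.sympForm d F) f₁ f₂ e P)
    (A : Matrix (Fin a) (Fin a) F) (B : Matrix (Fin b) (Fin b) F)
    (hA : Aᵀ * Cfsg.Geo.gramMatrix f₁ * A = Cfsg.Geo.gramMatrix f₁)
    (hB : Bᵀ * Cfsg.Geo.gramMatrix f₂ * B = Cfsg.Geo.gramMatrix f₂)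
    (y : GL (Fin d ⊕ Fin d) F) (hy : (y : Matrix (Fin d ⊕ Fin d) (Fin d ⊕ Fin d) F) =
      (P : Matrix (Fin d ⊕ Fin d) (Fin d ⊕ Fin d) F) * Matrix.reindex e.symm e.symm (A ⊗ₖ B) *
        ((P⁻¹ : GL (Fin d ⊕ Fin d) F) : Matrix (Fin d ⊕ Fin d) (Fin d ⊕ Fin d) F)) : y ∈ Cfsg.spGL d F := by
  obtain ⟨c, hc, hS⟩ := hS
  have hform : ∀ (G : Matrix (Fin a × Fin b) (Fin a × Fin b) F) (x y : Fin a × Fin b → F),
      Cfsg.Geo.formOfGram id G x y = x ⬝ᵥ (G *ᵥ y) := by
    intro G x y
    simp only [Cfsg.Geo.formOfGram, dotProduct, Matrix.mulVec, Finset.mul_sum, id_eq, mul_assoc]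
  have hrep : ∀ u : Fin d ⊕ Fin d → F, (P : Matrix (Fin d ⊕ Fin d) (Fin d ⊕ Fin d) F) *ᵥ
      (((((P⁻¹ : GL (Fin d ⊕ Fin d) F) : Matrix (Fin d ⊕ Fin d) (Fin d ⊕ Fin d) F) *ᵥ u) ∘ e.symm) ∘ e) = u := by
    intro u
    have h1 : (((((P⁻¹ : GL (Fin d ⊕ Fin d) F) : Matrix (Fin d ⊕ Fin d) (Fin d ⊕ Fin d) F) *ᵥ u) ∘ e.symm) ∘ e) =
        (((P⁻¹ : GL (Fin d ⊕ Fin d) F) : Matrix (Fin d ⊕ Fin d) (Fin d ⊕ Fin d) F) *ᵥ u) := by
      ext i
      simp
    rw [h1, Matrix.mulVec_mulVec, mul_inv_self', Matrix.one_mulVec]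
  have hact : ∀ u : Fin d ⊕ Fin d → F, (y : Matrix (Fin d ⊕ Fin d) (Fin d ⊕ Fin d) F) *ᵥ u =
      (P : Matrix (Fin d ⊕ Fin d) (Fin d ⊕ Fin d) F) *ᵥ (((A ⊗ₖ B) *ᵥ
        ((((P⁻¹ : GL (Fin d ⊕ Fin d) F) : Matrix (Fin d ⊕ Fin d) (Fin d ⊕ Fin d) F) *ᵥ u) ∘ e.symm)) ∘ e) := by
    intro u
    rw [hy, ← Matrix.mulVec_mulVec, ← Matrix.mulVec_mulVec, Matrix.reindex_apply, Equiv.symm_symm,
      Matrix.submatrix_mulVec_equiv]
  intro u v
  change sympForm d F ((y : Matrix _ _ F) *ᵥ u) ((y : Matrix _ _ F) *ᵥ v) = sympForm d F u v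
  conv_rhs => rw [← hrep u, ← hrep v]
  rw [hact, hact, hS, hS, hform, hform]
  congr 1
  rw [← Matrix.vecMul_transpose, ← Matrix.dotProduct_mulVec, Matrix.mulVec_mulVec, Matrix.mulVec_mulVec]
  congr 2
  have h2 : (A ⊗ₖ B)ᵀ = Aᵀ ⊗ₖ Bᵀ := by
    ext i j
    rfl
  rw [h2, ← Matrix.mul_kronecker_mul, ← Matrix.mul_kronecker_mul, hA, hB]

theorem conj_mul_conj {κ : Type*} [Fintype κ] [DecidableEq κ] (P : GL κ F) (M N : Matrix κ κ F) :
    (P : Matrix κ κ F) * M * ((P⁻¹ : GL κ F) : Matrix κ κ F) * ((P : Matrix κ κ F) * N * ((P⁻¹ : GL κ F) : Matrix κ κ F)) =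
      (P : Matrix κ κ F) * (M * N) * ((P⁻¹ : GL κ F) : Matrix κ κ F) := by
  calc (P : Matrix κ κ F) * M * ((P⁻¹ : GL κ F) : Matrix κ κ F) * ((P : Matrix κ κ F) * N * ((P⁻¹ : GL κ F) : Matrix κ κ F))
      = (P : Matrix κ κ F) * M * (((P⁻¹ : GL κ F) : Matrix κ κ F) * (P : Matrix κ κ F)) * N *
        ((P⁻¹ : GL κ F) : Matrix κ κ F) := by simp only [Matrix.mul_assoc]
    _ = _ := by rw [inv_mul_self', Matrix.mul_one, ← Matrix.mul_assoc]

/-- a bilinear form in terms of its Gram matrix -/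
theorem bil_eq {κ : Type} [Fintype κ] [DecidableEq κ] {f : (κ → F) → (κ → F) → F} (hf : Cfsg.Geo.IsBilinearForm f)
    (u v : κ → F) : f u v = u ⬝ᵥ (Cfsg.Geo.gramMatrix f *ᵥ v) := by
  let B : (κ → F) →ₗ[F] (κ → F) →ₗ[F] F :=
    LinearMap.mk₂ F f (fun x y v => hf.add_left x y v) (fun c x v => by rw [hf.smul_left, smul_eq_mul])
      (fun x y v => hf.add_right x y v) (fun c x v => by rw [hf.smul_right, smul_eq_mul])
  have hB : ∀ u v, B u v = f u v := fun u v => rfl
  rw [← hB]
  have hu : u = ∑ i, u i • (Pi.single i (1 : F) : κ → F) := pi_eq_sum_univ' u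
  have hv : v = ∑ i, v i • (Pi.single i (1 : F) : κ → F) := pi_eq_sum_univ' v
  have h1 : B u v = ∑ i, u i * ∑ j, v j * B (Pi.single i 1) (Pi.single j 1) := by
    conv_lhs => rw [hu, hv]
    simp only [map_sum, map_smul, LinearMap.sum_apply, LinearMap.smul_apply, smul_eq_mul, Finset.mul_sum]
    rw [Finset.sum_comm]
    refine Finset.sum_congr rfl fun i _ => Finset.sum_congr rfl fun j _ => ?_
    ring
  rw [h1]
  simp only [dotProduct, Matrix.mulVec, Cfsg.Geo.gramMatrix, hB]
  refine Finset.sum_congr rfl fun i _ => ?_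
  congr 1
  refine Finset.sum_congr rfl fun j _ => mul_comm _ _

open Cfsg.Agent.LieClassical.OrthFinite

/-- conjugacy in `spGL` from a conjugating isometry. -/
theorem conj_of_iso {d : ℕ} (x y : GL (Fin d ⊕ Fin d) F)
    (h : ∃ g : (Fin d ⊕ Fin d → F) ≃ₗ[F] (Fin d ⊕ Fin d → F),
      (∀ u v, sympBilin d F (g u) (g v) = sympBilin d F u v) ∧
      ∀ v, g ((x : Matrix (Fin d ⊕ Fin d) (Fin d ⊕ Fin d) F) *ᵥ v) = (y : Matrix (Fin d ⊕ Fin d) (Fin d ⊕ Fin d) F) *ᵥ (g v)) :
    ∃ g ∈ Cfsg.spGL d F, g⁻¹ * x * g = y := by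
  obtain ⟨g, hg, hgx⟩ := h
  let G := (glEquiv (Fin d ⊕ Fin d) F).symm g
  have hG : glEquiv (Fin d ⊕ Fin d) F G = g := MulEquiv.apply_symm_apply _ _
  have hG' : ∀ v, (G : Matrix (Fin d ⊕ Fin d) (Fin d ⊕ Fin d) F) *ᵥ v = g v := by
    intro v
    rw [← hG]
    rfl
  refine ⟨G⁻¹, inv_mem (mem_spGL_iff.2 (by rw [hG]; exact hg)), ?_⟩
  rw [inv_inv]
  have key : G * x = y * G := by
    ext1
    apply Matrix.toLin'.injective
    apply LinearMap.ext
    intro v
    rw [Matrix.toLin'_apply, Matrix.toLin'_apply, Units.val_mul, Units.val_mul, ← Matrix.mulVec_mulVec,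
      ← Matrix.mulVec_mulVec, hG', hG', hgx]
  rw [key, mul_inv_cancel_right]

theorem finrank_comS {d : ℕ} (x : GL (Fin d ⊕ Fin d) F) :
    Module.finrank F (comS (glEquiv (Fin d ⊕ Fin d) F x)) =
      ((x : Matrix (Fin d ⊕ Fin d) (Fin d ⊕ Fin d) F) - 1).rank := by
  rw [Matrix.rank]
  have h1 : Matrix.mulVecLin ((x : Matrix (Fin d ⊕ Fin d) (Fin d ⊕ Fin d) F) - 1) =
      (glEquiv (Fin d ⊕ Fin d) F x : (Fin d ⊕ Fin d → F) →ₗ[F] (Fin d ⊕ Fin d → F)) - LinearMap.id := by
    apply LinearMap.ext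
    intro v
    rw [Matrix.mulVecLin_apply, Matrix.sub_mulVec, Matrix.one_mulVec]
    rfl
  rw [h1]
  rfl

theorem backward [Fintype F] {q : ℕ} (hq : Fintype.card F = q)
    (hodd : Odd q) (d : ℕ) (hd : 2 ≤ d) (b : ℕ) (hab : 2 * d = 2 * b)
    (e : (Fin d ⊕ Fin d) ≃ Fin 2 × Fin b) (P : GL (Fin d ⊕ Fin d) F)
    (f₁ : (Fin 2 → F) → (Fin 2 → F) → F) (f₂ : (Fin b → F) → (Fin b → F) → F)
    (hf₁ : Cfsg.Geo.IsSymplecticForm f₁) (hf₂ : Cfsg.Geo.IsSymmetricForm f₂)
    (hS : Cfsg.Geo.IsTensorFormStructure id (Cfsg.sympForm d F) f₁ f₂ e P)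
    (x : GL (Fin d ⊕ Fin d) F) (hx : x ∈ Cfsg.spGL d F) {z : F}
    (hxz : (x : Matrix (Fin d ⊕ Fin d) (Fin d ⊕ Fin d) F) ^ 2 = z • (1 : Matrix (Fin d ⊕ Fin d) (Fin d ⊕ Fin d) F)) :
    ∃ g ∈ Cfsg.spGL d F, g⁻¹ * x * g ∈ Cfsg.Geo.tensorProductSubgroup 2 b e P := by
  classical
  have h2 := two_ne_zero_of_odd hq hodd
  have hbd : b = d := by omega
  have : Nonempty (Fin b) := ⟨⟨0, by omega⟩⟩
  -- `z = ± 1`
  have hz : z = 1 ∨ z = -1 := by
    have h1 := transpose_mul_J hx
    have h3 : ((x : Matrix (Fin d ⊕ Fin d) (Fin d ⊕ Fin d) F) ^ 2)ᵀ * Matrix.J (Fin d) F *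
        (x : Matrix (Fin d ⊕ Fin d) (Fin d ⊕ Fin d) F) ^ 2 = Matrix.J (Fin d) F := by
      rw [pow_two, Matrix.transpose_mul]
      calc (x : Matrix (Fin d ⊕ Fin d) (Fin d ⊕ Fin d) F)ᵀ * (x : Matrix (Fin d ⊕ Fin d) (Fin d ⊕ Fin d) F)ᵀ *
            Matrix.J (Fin d) F * ((x : Matrix (Fin d ⊕ Fin d) (Fin d ⊕ Fin d) F) *
            (x : Matrix (Fin d ⊕ Fin d) (Fin d ⊕ Fin d) F))
          = (x : Matrix (Fin d ⊕ Fin d) (Fin d ⊕ Fin d) F)ᵀ * ((x : Matrix (Fin d ⊕ Fin d) (Fin d ⊕ Fin d) F)ᵀ *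
            Matrix.J (Fin d) F * (x : Matrix (Fin d ⊕ Fin d) (Fin d ⊕ Fin d) F)) *
            (x : Matrix (Fin d ⊕ Fin d) (Fin d ⊕ Fin d) F) := by simp only [Matrix.mul_assoc]
        _ = _ := by rw [h1, h1]
    rw [hxz, Matrix.transpose_smul, Matrix.transpose_one, Matrix.smul_mul, Matrix.one_mul, Matrix.mul_smul,
      Matrix.mul_one, smul_smul] at h3
    have h4 := congrFun (congrFun h3 (Sum.inr ⟨0, by omega⟩)) (Sum.inl ⟨0, by omega⟩)
    have h5 : Matrix.J (Fin d) F (Sum.inr ⟨0, by omega⟩) (Sum.inl ⟨0, by omega⟩) = 1 := by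
      simp [Matrix.J]
    rw [Matrix.smul_apply, h5, smul_eq_mul, mul_one] at h4
    exact mul_self_eq_one_iff.1 h4
  rcases hz with rfl | rfl
  · -- involutions
    rw [one_smul] at hxz
    have hxx : x ^ 2 = 1 := by
      ext1
      rw [Units.val_pow_eq_pow_val, hxz, Units.val_one]
    -- the rank is even
    let T := glEquiv (Fin d ⊕ Fin d) F x
    have hT : T ∈ IsoB (F := F) (V := Fin d ⊕ Fin d → F) (sympBilin d F) := mem_spGL_iff.1 hx
    have hTT : T ^ 2 = 1 := by
      simp only [T]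
      rw [← map_pow, hxx, map_one]
    have h2' : ((2 : ℕ) : F) ≠ 0 := by exact_mod_cast h2
    have hnd := ndOn_comS (isSp_sympBilin d F).nd hT h2' hTT
    obtain ⟨k, hk⟩ := (isSp_sympBilin d F).even_of_ndOn hnd
    rw [finrank_comS] at hk
    have hkb : k ≤ b := by
      have := Matrix.rank_le_card_width ((x : Matrix (Fin d ⊕ Fin d) (Fin d ⊕ Fin d) F) - 1)
      rw [Fintype.card_sum, Fintype.card_fin] at this
      omega
    -- the orthogonal involution
    have hG2T : (Cfsg.Geo.gramMatrix f₂)ᵀ = Cfsg.Geo.gramMatrix f₂ := by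
      ext i j
      exact hf₂.symm _ _
    have hG2 : (Cfsg.Geo.gramMatrix f₂).det ≠ 0 := by
      intro h
      obtain ⟨v, hv, hv'⟩ := Matrix.exists_mulVec_eq_zero_iff.2 h
      obtain ⟨-, ⟨w, hw⟩⟩ := hf₂.nondegenerate v hv
      apply hw
      rw [hf₂.symm, bil_eq hf₂.bilinear, hv', dotProduct_zero]
    let i0 : Fin b := ⟨0, by omega⟩
    obtain ⟨P₂, -, hP₂⟩ := Cfsg.Agent.H956.OrthSim.exists_diag h2 (Cfsg.Geo.gramMatrix f₂) hG2T hG2
      (Function.update (fun _ => (1 : F)) i0 (Cfsg.Geo.gramMatrix f₂).det)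
      (by rw [Finset.prod_update_of_mem (Finset.mem_univ i0)]; simp)
    let δ : Fin b → F := fun j => if (j : ℕ) < k then -1 else 1
    have hδ0 : ∀ j, δ j ≠ 0 := by
      intro j
      simp only [δ]
      split_ifs
      · exact neg_ne_zero.2 one_ne_zero
      · exact one_ne_zero
    have hδδ : ∀ j, δ j * δ j = 1 := by
      intro j
      simp only [δ]
      split_ifs <;> ring
    let D := diagU δ hδ0
    have hD : (D : Matrix (Fin b) (Fin b) F) = Matrix.diagonal δ := coe_diagU δ hδ0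
    have hDD : D * D = 1 := by
      ext1
      rw [Units.val_mul, hD, Matrix.diagonal_mul_diagonal, Units.val_one]
      simp only [hδδ]
      exact Matrix.diagonal_one
    let B₂ : GL (Fin b) F := P₂ * D * P₂⁻¹
    have hBB : B₂ * B₂ = 1 := by
      calc B₂ * B₂ = P₂ * (D * D) * P₂⁻¹ := by simp only [B₂]; group
        _ = 1 := by rw [hDD, mul_one, mul_inv_cancel]
    obtain ⟨y, hyH, hy⟩ := exists_mem_tensor e P (1 : GL (Fin 2) F) B₂
    have hysp : y ∈ Cfsg.spGL d F := by
      refine mem_sp_of_tensor e P f₁ f₂ hS ((1 : GL (Fin 2) F) : Matrix (Fin 2) (Fin 2) F)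
        (B₂ : Matrix (Fin b) (Fin b) F) (by
          rw [Units.val_one, Matrix.transpose_one, Matrix.one_mul, Matrix.mul_one]) ?_ y hy
      have hPt : ((P₂⁻¹ : GL (Fin b) F) : Matrix (Fin b) (Fin b) F)ᵀ * (P₂ : Matrix (Fin b) (Fin b) F)ᵀ = 1 := by
        rw [← Matrix.transpose_mul, mul_inv_self', Matrix.transpose_one]
      calc (B₂ : Matrix (Fin b) (Fin b) F)ᵀ * Cfsg.Geo.gramMatrix f₂ * (B₂ : Matrix (Fin b) (Fin b) F)
          = ((P₂⁻¹ : GL (Fin b) F) : Matrix (Fin b) (Fin b) F)ᵀ * (Matrix.diagonal δ *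
            ((P₂ : Matrix (Fin b) (Fin b) F)ᵀ * Cfsg.Geo.gramMatrix f₂ * (P₂ : Matrix (Fin b) (Fin b) F)) *
            Matrix.diagonal δ) * ((P₂⁻¹ : GL (Fin b) F) : Matrix (Fin b) (Fin b) F) := by
            simp only [B₂]
            rw [Units.val_mul, Units.val_mul, Matrix.transpose_mul, Matrix.transpose_mul, hD, Matrix.diagonal_transpose]
            simp only [Matrix.mul_assoc]
        _ = ((P₂⁻¹ : GL (Fin b) F) : Matrix (Fin b) (Fin b) F)ᵀ *
            ((P₂ : Matrix (Fin b) (Fin b) F)ᵀ * Cfsg.Geo.gramMatrix f₂ * (P₂ : Matrix (Fin b) (Fin b) F)) *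
            ((P₂⁻¹ : GL (Fin b) F) : Matrix (Fin b) (Fin b) F) := by
            congr 2
            rw [hP₂, Matrix.diagonal_mul_diagonal, Matrix.diagonal_mul_diagonal]
            congr 1
            ext j
            rw [mul_comm, ← mul_assoc, hδδ, one_mul]
        _ = (((P₂⁻¹ : GL (Fin b) F) : Matrix (Fin b) (Fin b) F)ᵀ * (P₂ : Matrix (Fin b) (Fin b) F)ᵀ) *
            Cfsg.Geo.gramMatrix f₂ * ((P₂ : Matrix (Fin b) (Fin b) F) *
              ((P₂⁻¹ : GL (Fin b) F) : Matrix (Fin b) (Fin b) F)) := by simp only [Matrix.mul_assoc]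
        _ = _ := by rw [hPt, mul_inv_self', Matrix.one_mul, Matrix.mul_one]
    have hyy : y ^ 2 = 1 := by
      ext1
      rw [pow_two, Units.val_mul, hy]
      have h6 : Matrix.reindex e.symm e.symm (((1 : GL (Fin 2) F) : Matrix (Fin 2) (Fin 2) F) ⊗ₖ
          (B₂ : Matrix (Fin b) (Fin b) F)) * Matrix.reindex e.symm e.symm (((1 : GL (Fin 2) F) :
          Matrix (Fin 2) (Fin 2) F) ⊗ₖ (B₂ : Matrix (Fin b) (Fin b) F)) = 1 := by
        rw [Matrix.reindex_apply, Matrix.submatrix_mul_equiv, ← Matrix.mul_kronecker_mul, Units.val_one, Matrix.one_mul,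
          ← Units.val_mul, hBB, Units.val_one, Matrix.one_kronecker_one, Matrix.submatrix_one_equiv]
      rw [conj_mul_conj, h6, Matrix.mul_one, mul_inv_self', Units.val_one]
    have hrank : ((y : Matrix (Fin d ⊕ Fin d) (Fin d ⊕ Fin d) F) - 1).rank = k + k := by
      have h6 : (y : Matrix (Fin d ⊕ Fin d) (Fin d ⊕ Fin d) F) - 1 =
          (P : Matrix (Fin d ⊕ Fin d) (Fin d ⊕ Fin d) F) * Matrix.reindex e.symm e.symm
            ((1 : Matrix (Fin 2) (Fin 2) F) ⊗ₖ ((B₂ : Matrix (Fin b) (Fin b) F) - 1)) *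
          ((P⁻¹ : GL (Fin d ⊕ Fin d) F) : Matrix (Fin d ⊕ Fin d) (Fin d ⊕ Fin d) F) := by
        have h7 : Matrix.reindex e.symm e.symm ((1 : Matrix (Fin 2) (Fin 2) F) ⊗ₖ ((B₂ : Matrix (Fin b) (Fin b) F) - 1)) =
            Matrix.reindex e.symm e.symm ((1 : Matrix (Fin 2) (Fin 2) F) ⊗ₖ (B₂ : Matrix (Fin b) (Fin b) F)) - 1 := by
          ext i j
          simp only [Matrix.reindex_apply, Matrix.submatrix_apply, Matrix.kroneckerMap_apply, Matrix.sub_apply,
            Equiv.symm_symm, mul_sub]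
          congr 1
          rw [Matrix.one_apply, Matrix.one_apply, Matrix.one_apply]
          by_cases hij : i = j
          · subst hij; simp
          · rw [if_neg hij]
            by_cases h8 : (e i).1 = (e j).1
            · rw [if_neg (fun h9 => hij (e.injective (Prod.ext h8 h9))), mul_zero]
            · rw [if_neg h8, zero_mul]
        rw [h7, Matrix.mul_sub, Matrix.sub_mul, Matrix.mul_one, mul_inv_self', hy, Units.val_one]
      have h9 : ((B₂ : Matrix (Fin b) (Fin b) F) - 1) = (P₂ : Matrix (Fin b) (Fin b) F) *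
          Matrix.diagonal (fun j => δ j - 1) * ((P₂⁻¹ : GL (Fin b) F) : Matrix (Fin b) (Fin b) F) := by
        have h10 : (Matrix.diagonal (fun j => δ j - 1) : Matrix (Fin b) (Fin b) F) = Matrix.diagonal δ - 1 := by
          rw [← Matrix.diagonal_one, Matrix.diagonal_sub]
        rw [h10, Matrix.mul_sub, Matrix.sub_mul, Matrix.mul_one, mul_inv_self']
        simp only [B₂]
        rw [Units.val_mul, Units.val_mul, hD]
      have hdetU : ∀ {κ : Type} [Fintype κ] [DecidableEq κ] (g : GL κ F), IsUnit (g : Matrix κ κ F).det :=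
        fun g => (Matrix.isUnit_iff_isUnit_det _).1 g.isUnit
      rw [h6, Matrix.rank_mul_eq_left_of_isUnit_det _ _ (hdetU _), Matrix.rank_mul_eq_right_of_isUnit_det _ _ (hdetU _),
        Matrix.rank_reindex]
      have h11 : (1 : Matrix (Fin 2) (Fin 2) F) ⊗ₖ ((B₂ : Matrix (Fin b) (Fin b) F) - 1) =
          ((1 : Matrix (Fin 2) (Fin 2) F) ⊗ₖ (P₂ : Matrix (Fin b) (Fin b) F)) *
          (Matrix.diagonal (fun p : Fin 2 × Fin b => δ p.2 - 1)) *
          ((1 : Matrix (Fin 2) (Fin 2) F) ⊗ₖ ((P₂⁻¹ : GL (Fin b) F) : Matrix (Fin b) (Fin b) F)) := by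
        have h12 : (Matrix.diagonal (fun p : Fin 2 × Fin b => δ p.2 - 1) : Matrix (Fin 2 × Fin b) (Fin 2 × Fin b) F) =
            (1 : Matrix (Fin 2) (Fin 2) F) ⊗ₖ Matrix.diagonal (fun j => δ j - 1) := by
          rw [← Matrix.diagonal_one, Matrix.diagonal_kronecker_diagonal]
          simp
        rw [h12, ← Matrix.mul_kronecker_mul, ← Matrix.mul_kronecker_mul, Matrix.one_mul, Matrix.one_mul, h9]
      rw [h11, Matrix.rank_mul_eq_left_of_isUnit_det, Matrix.rank_mul_eq_right_of_isUnit_det, Matrix.rank_diagonal]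
      · rw [Fintype.card_subtype]
        have h13 : (Finset.univ.filter (fun p : Fin 2 × Fin b => δ p.2 - 1 ≠ 0)) =
            (Finset.univ : Finset (Fin 2)) ×ˢ (Finset.univ.filter (fun j : Fin b => (j : ℕ) < k)) := by
          ext ⟨i, j⟩
          simp only [Finset.mem_filter, Finset.mem_univ, true_and, Finset.mem_product, δ]
          by_cases h : (j : ℕ) < k
          · rw [if_pos h]
            simp only [h, iff_true]
            intro h14
            apply h2
            linear_combination -h14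
          · rw [if_neg h]
            simp [h]
        rw [h13, Finset.card_product, Finset.card_univ, Fintype.card_fin]
        have h14 : (Finset.univ.filter (fun j : Fin b => (j : ℕ) < k)).card = k := by
          rw [Fin.card_filter_val_lt]
          exact min_eq_right hkb
        rw [h14]
        ring
      · rw [Matrix.det_kronecker]
        exact IsUnit.mul (by rw [Matrix.det_one]; exact isUnit_one.pow _) ((hdetU P₂).pow _)
      · rw [Matrix.det_kronecker]
        exact IsUnit.mul (by rw [Matrix.det_one]; exact isUnit_one.pow _) ((hdetU (P₂⁻¹)).pow _)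
    obtain ⟨g, hg, hg'⟩ := conj_of_iso x y (by
      obtain ⟨g, hg, hg'⟩ := Cfsg.Agent.H956.SpConj.conj_of_sq_one h2
        (isSp_sympBilin d F) (isSp_sympBilin d F) hT (mem_spGL_iff.1 hysp) hTT
        (by rw [← map_pow, hyy, map_one]) rfl (by
          rw [finrank_comS, finrank_comS, hrank, hk])
      exact ⟨g, hg, hg'⟩)
    exact ⟨g, hg, by rw [hg']; exact hyH⟩
  · -- square roots of `-1`
    let J₂ : Matrix (Fin 2) (Fin 2) F := !![0, -1; 1, 0]
    have hJdet : J₂.det = 1 := by simp [J₂, Matrix.det_fin_two]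
    let A : GL (Fin 2) F := Matrix.GeneralLinearGroup.mkOfDetNeZero J₂ (by rw [hJdet]; exact one_ne_zero)
    obtain ⟨y, hyH, hy⟩ := exists_mem_tensor e P A 1
    have hAJ : (A : Matrix (Fin 2) (Fin 2) F) = J₂ := rfl
    have hJJ : J₂ * J₂ = -1 := by
      ext i j
      fin_cases i <;> fin_cases j <;> simp [J₂, Matrix.mul_apply, Fin.sum_univ_two]
    have hy2 : (y : Matrix (Fin d ⊕ Fin d) (Fin d ⊕ Fin d) F) * y = -1 := by
      rw [hy]
      have h6 : Matrix.reindex e.symm e.symm ((A : Matrix (Fin 2) (Fin 2) F) ⊗ₖ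
          ((1 : GL (Fin b) F) : Matrix (Fin b) (Fin b) F)) * Matrix.reindex e.symm e.symm ((A : Matrix (Fin 2) (Fin 2) F) ⊗ₖ
          ((1 : GL (Fin b) F) : Matrix (Fin b) (Fin b) F)) = -1 := by
        rw [Matrix.reindex_apply, Matrix.submatrix_mul_equiv, ← Matrix.mul_kronecker_mul, Units.val_one, Matrix.one_mul,
          hAJ, hJJ]
        ext i j
        simp only [Matrix.submatrix_apply, Matrix.kroneckerMap_apply, Matrix.neg_apply, Matrix.one_apply,
          Equiv.symm_symm]
        by_cases hij : i = j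
        · subst hij; simp
        · rw [if_neg hij]
          by_cases h8 : (e i).1 = (e j).1
          · rw [if_neg (fun h9 => hij (e.injective (Prod.ext h8 h9))), mul_zero, neg_zero]
          · rw [if_neg h8, neg_zero, zero_mul]
      rw [conj_mul_conj, h6, Matrix.mul_neg, Matrix.mul_one, Matrix.neg_mul, mul_inv_self']
    have hysp : y ∈ Cfsg.spGL d F := by
      refine mem_sp_of_tensor e P f₁ f₂ hS (A : Matrix (Fin 2) (Fin 2) F)
        ((1 : GL (Fin b) F) : Matrix (Fin b) (Fin b) F) ?_ (by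
          rw [Units.val_one, Matrix.transpose_one, Matrix.one_mul, Matrix.mul_one]) y hy
      rw [hAJ]
      have e00 : Cfsg.Geo.gramMatrix f₁ 0 0 = 0 := hf₁.alternating _
      have e11 : Cfsg.Geo.gramMatrix f₁ 1 1 = 0 := hf₁.alternating _
      have e01 : Cfsg.Geo.gramMatrix f₁ 0 1 = - Cfsg.Geo.gramMatrix f₁ 1 0 := hf₁.skew _ _
      ext i j
      fin_cases i <;> fin_cases j <;> simp [J₂, Matrix.mul_apply, Fin.sum_univ_two, e00, e11, e01]
    obtain ⟨g, hg, hg'⟩ := conj_of_iso x y (by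
      obtain ⟨g, hg, hg'⟩ := Cfsg.Agent.H956.SpConj.conj_neg_one h2 d (sympBilin d F) (sympBilin d F)
        (isSp_sympBilin d F) (isSp_sympBilin d F) (Matrix.mulVecLin (x : Matrix (Fin d ⊕ Fin d) (Fin d ⊕ Fin d) F))
        (Matrix.mulVecLin (y : Matrix (Fin d ⊕ Fin d) (Fin d ⊕ Fin d) F)) (fun u v => hx u v) (fun u v => hysp u v)
        (fun v => by
          rw [Matrix.mulVecLin_apply, Matrix.mulVecLin_apply, Matrix.mulVec_mulVec, ← pow_two, hxz, neg_one_smul,
            Matrix.neg_mulVec, Matrix.one_mulVec])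
        (fun v => by
          rw [Matrix.mulVecLin_apply, Matrix.mulVecLin_apply, Matrix.mulVec_mulVec, hy2, Matrix.neg_mulVec,
            Matrix.one_mulVec])
        (finrank_symp d F) (finrank_symp d F)
      exact ⟨g, hg, hg'⟩)
    exact ⟨g, hg, by rw [hg']; exact hyH⟩

/-- Elements of prime order of PSp_n(q), q odd, and the stabilizers of tensor decompositions Sp_a(q) ⊗ O_b(q). Here `T = PSp_{2d}(F)` for a field `F` with `q` elements, `q` odd, `d ≥ 2`, realised through the matrices preserving the standard alternating form `f`; `2d = a·b` with `a` even, `b ≥ 3`, and the bijection `e` and change of basis `P` exhibit `f` as a non-zero scalar multiple of the tensor product of a non-degenerate alternating form `f₁` on `F^a` and a non-degenerate symmetric bilinear form `f₂` on `F^b`; `H` is the subgroup of `T` stabilizing this tensor decomposition (the elements of `T` in the conjugate by `P` of the group of Kronecker products) — a subgroup of type Sp_a(q) ⊗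 O^ε_b(q) (maximality is not assumed). Ω is the set of cosets of `H` in `T`, so an element of `T` of prime order `r` (`x ∈ T` with `x^r` scalar, `x` not scalar) fixes a point of Ω exactly when some `T`-conjugate of `x` lies in `H`. Let `r` be a prime dividing the index of `H`. Then every element of `T` of order `r` fixes a point of Ω if and only if `r = 2` and `a = 2`. -/
theorem result {F : Type*} [Field F] [Fintype F] {p : ℕ} [Fact p.Prime] [CharP F p] {q : ℕ} (hq : Fintype.card F = q)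
    (hodd : Odd q) (d : ℕ) (hd : 2 ≤ d) (a b : ℕ) (hab : 2 * d = a * b) (ha : Even a) (ha2 : 2 ≤ a) (hb : 3 ≤ b)
    (e : (Fin d ⊕ Fin d) ≃ Fin a × Fin b) (P : GL (Fin d ⊕ Fin d) F)
    (f₁ : (Fin a → F) → (Fin a → F) → F) (f₂ : (Fin b → F) → (Fin b → F) → F)
    (hf₁ : Cfsg.Geo.IsSymplecticForm f₁) (hf₂ : Cfsg.Geo.IsSymmetricForm f₂)
    (hS : Cfsg.Geo.IsTensorFormStructure id (Cfsg.sympForm d F) f₁ f₂ e P)
    (r : ℕ) [Fact r.Prime]
    (hΩ : r ∣ (Cfsg.Geo.tensorProductSubgroup a b e P).relIndex (Cfsg.spGL d F)) :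
    (∀ x ∈ Cfsg.spGL d F, (∃ z : F, ((x ^ r : GL (Fin d ⊕ Fin d) F) : Matrix (Fin d ⊕ Fin d) (Fin d ⊕ Fin d) F) = z • (1 : Matrix (Fin d ⊕ Fin d) (Fin d ⊕ Fin d) F)) →
      (∀ z : F, (x : Matrix (Fin d ⊕ Fin d) (Fin d ⊕ Fin d) F) ≠ z • (1 : Matrix (Fin d ⊕ Fin d) (Fin d ⊕ Fin d) F)) →
      ∃ g ∈ Cfsg.spGL d F, g⁻¹ * x * g ∈ Cfsg.Geo.tensorProductSubgroup a b e P) ↔ (r = 2 ∧ a = 2) := by
  refine ⟨forward hq hodd d hd a b hab ha ha2 hb e P r hΩ, ?_⟩
  rintro ⟨rfl, rfl⟩ x hx ⟨z, hz⟩ _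
  exact backward hq hodd d hd b hab e P f₁ f₂ hf₁ hf₂ hS x hx (by rw [← Units.val_pow_eq_pow_val, hz])

end Cfsg.Agent.S5980
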