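import Cfsg.Statements.S5981
import Cfsg.Agent.S5979
import Cfsg.Agent.H956.OrthSim2
import Cfsg.Agent.H956.OrthIndex
import Cfsg.Agent.H956.FreeElt
import Cfsg.Agent.H956.BadMs
import Cfsg.Agent.H956.SmallPrime

set_option autoImplicit false
open scoped MatrixGroups
open Cfsg

namespace Cfsg.Agent.S5981

open Matrix Polynomial
open Cfsg.Agent.H956.EigMult Cfsg.Agent.H956.PrimeElt Cfsg.Agent.H956.TensorElt Cfsg.Agent.H956.Conj
open Cfsg.Agent.H956.DiagElt Cfsg.Agent.H956.FieldArith Cfsg.Agent.H956.OrthSim Cfsg.Agent.H956.OrthSim2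
open Cfsg.Agent.H956.OrthIndex Cfsg.Agent.H956.FreeElt
open Cfsg.Agent.S5979 (mem_sl)

variable {F : Type*} [Field F]

/-- multipliers of powers. -/
theorem sim_pow {ι : Type} [Fintype ι] [DecidableEq ι] {Q : (ι → F) → F} (y : GL ι F) (c : F)
    (h : ∀ v, Q ((y : Matrix ι ι F) *ᵥ v) = c * Q v) (k : ℕ) :
    ∀ v, Q (((y ^ k : GL ι F) : Matrix ι ι F) *ᵥ v) = c ^ k * Q v := by
  induction k with
  | zero => intro v; simp
  | succ k ih =>
    intro v
    rw [pow_succ', Units.val_mul, ← Matrix.mulVec_mulVec, h, ih, pow_succ']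
    ring

theorem exists_Q_ne {ι : Type} [Fintype ι] [DecidableEq ι] [Nonempty ι] {Q : (ι → F) → F}
    (hQ : Cfsg.Geo.IsNondegenerateQuadraticForm Q) : ∃ v, Q v ≠ 0 := by
  by_contra hcon
  push Not at hcon
  obtain ⟨i⟩ := ‹Nonempty ι›
  have hne : (Pi.single i (1 : F) : ι → F) ≠ 0 := by
    intro h
    have := congrFun h i
    simp at this
  obtain ⟨⟨w, hw⟩, -⟩ := hQ.nondegenerate _ hne
  apply hw
  unfold QuadraticMap.polar
  rw [hcon, hcon, hcon]
  ring

/-- transvections are not conjugate to similarities. -/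
theorem transvection_not_sim [Fintype F] {p : ℕ} [Fact p.Prime] [CharP F p] {n : ℕ} (h2 : (2 : F) ≠ 0) {Q : (Fin n → F) → F}
    (hQ : Cfsg.Geo.IsNondegenerateQuadraticForm Q) (i j : Fin n) (hij : i ≠ j) (x : GL (Fin n) F)
    (hx : (x : Matrix (Fin n) (Fin n) F) = Matrix.transvection i j 1) (hxp : x ^ p = 1) (g : GL (Fin n) F) :
    g⁻¹ * x * g ∉ Cfsg.Geo.quadSimilarityGroup Q := by
  classical
  intro hg
  have : Nonempty (Fin n) := ⟨i⟩
  obtain ⟨c, hc⟩ := hg
  -- `c = 1`
  have hc1 : (c : F) = 1 := by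
    obtain ⟨v, hv⟩ := exists_Q_ne hQ
    have h1 := sim_pow _ (c : F) hc p v
    have h3 : (g⁻¹ * x * g) ^ p = 1 := by
      have := conj_pow (a := g⁻¹) (b := x) (i := p)
      rw [inv_inv] at this
      rw [this, hxp, mul_one, inv_mul_cancel]
    rw [h3, Units.val_one, Matrix.one_mulVec] at h1
    have h4 : (c : F) ^ p = 1 := (mul_right_cancel₀ hv (by rw [one_mul]; exact h1)).symm
    have h5 : frobenius F p (c : F) = frobenius F p 1 := by rw [frobenius_def, frobenius_def, h4, one_pow]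
    exact frobenius_inj F p h5
  rw [hc1] at hc
  -- the action
  set a : Fin n → F := ((g⁻¹ : GL (Fin n) F) : Matrix (Fin n) (Fin n) F) *ᵥ Pi.single i 1 with ha
  let φ : (Fin n → F) →ₗ[F] F := (LinearMap.proj j).comp (Matrix.mulVecLin (g : Matrix (Fin n) (Fin n) F))
  have hφ : ∀ v, φ v = ((g : Matrix (Fin n) (Fin n) F) *ᵥ v) j := fun v => rfl
  have hact : ∀ v, ((g⁻¹ * x * g : GL (Fin n) F) : Matrix (Fin n) (Fin n) F) *ᵥ v = v + φ v • a := by
    intro v
    have h1 : (x : Matrix (Fin n) (Fin n) F) *ᵥ ((g : Matrix (Fin n) (Fin n) F) *ᵥ v) =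
        (g : Matrix (Fin n) (Fin n) F) *ᵥ v + φ v • (Pi.single i 1 : Fin n → F) := by
      rw [hx, Matrix.transvection, Matrix.add_mulVec, Matrix.one_mulVec]
      congr 1
      ext k
      rw [Matrix.single_mulVec]
      simp [hφ, Pi.single_apply, Function.update_apply]
    rw [Units.val_mul, Units.val_mul, ← Matrix.mulVec_mulVec, ← Matrix.mulVec_mulVec, h1, Matrix.mulVec_add,
      Matrix.mulVec_smul, ← ha, Matrix.mulVec_mulVec, inv_mul_self', Matrix.one_mulVec]
  have hφa : φ a = 0 := by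
    rw [hφ, ha, Matrix.mulVec_mulVec, mul_inv_self', Matrix.one_mulVec, Pi.single_eq_of_ne hij.symm]
  have ha0 : a ≠ 0 := by
    intro h
    have h1 := congrArg (fun v => (g : Matrix (Fin n) (Fin n) F) *ᵥ v) h
    simp only [ha, Matrix.mulVec_mulVec, mul_inv_self', Matrix.one_mulVec, Matrix.mulVec_zero] at h1
    have := congrFun h1 i
    simp at this
  have hφ0 : φ ≠ 0 := by
    intro h
    have h1 := LinearMap.congr_fun h (((g⁻¹ : GL (Fin n) F) : Matrix (Fin n) (Fin n) F) *ᵥ Pi.single j 1)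
    rw [hφ, Matrix.mulVec_mulVec, mul_inv_self', Matrix.one_mulVec, Pi.single_eq_same] at h1
    exact one_ne_zero h1
  -- `Q (v + φ v a) = Q v`
  have hl := hQ.polar_bilinear.add_left
  have hs := hQ.polar_bilinear.smul_left
  let ψ : (Fin n → F) →ₗ[F] F :=
    { toFun := fun v => QuadraticMap.polar Q v a + Q a * φ v
      map_add' := fun u v => by rw [hl, map_add]; ring
      map_smul' := fun s v => by rw [hs, map_smul, smul_eq_mul, RingHom.id_apply, smul_eq_mul]; ring }
  have hψ : ∀ v, ψ v = QuadraticMap.polar Q v a + Q a * φ v := fun v => rfl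
  have key : ∀ v, φ v * ψ v = 0 := by
    intro v
    have h1 := hc v
    rw [hact, one_mul] at h1
    have h3 : Q (v + φ v • a) = Q v + Q (φ v • a) + QuadraticMap.polar Q v (φ v • a) := by
      unfold QuadraticMap.polar; ring
    rw [h3, hQ.smul, polar_comm', hs, polar_comm' Q a] at h1
    rw [hψ]
    linear_combination h1
  rcases eq_zero_or_eq_zero φ ψ key with h | h
  · exact hφ0 h
  · have h1 : ∀ v, QuadraticMap.polar Q v a + Q a * φ v = 0 := fun v => by
      rw [← hψ, h, LinearMap.zero_apply]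
    have h3 := h1 a
    rw [hφa, mul_zero, add_zero] at h3
    have h4 : QuadraticMap.polar Q a a = 2 * Q a := by
      unfold QuadraticMap.polar
      rw [← two_smul F a, hQ.smul]
      ring
    rw [h4] at h3
    have h5 := (mul_eq_zero.1 h3).resolve_left h2
    obtain ⟨-, ⟨w, hw⟩⟩ := hQ.nondegenerate a ha0
    apply hw
    have := h1 w
    rw [h5, zero_mul, add_zero] at this
    rw [polar_comm']
    exact this

theorem forward [Fintype F] {p : ℕ} [Fact p.Prime] [CharP F p] {q : ℕ} (hq : Fintype.card F = q)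
    (hodd : Odd q) (n : ℕ) (hn : 3 ≤ n) (Q : (Fin n → F) → F) (hQ : Cfsg.Geo.IsNondegenerateQuadraticForm Q)
    (r : ℕ) [Fact r.Prime] (hgap : ¬ (n = 6 ∧ r = 3))
    (hΩ : r ∣ (Cfsg.Geo.quadSimilarityGroup Q).relIndex (Cfsg.Geo.specialLinear (Fin n) F))
    (H : ∀ x ∈ Cfsg.Geo.specialLinear (Fin n) F, (∃ z : F, ((x ^ r : GL (Fin n) F) : Matrix (Fin n) (Fin n) F) = z • (1 : Matrix (Fin n) (Fin n) F)) →
      (∀ z : F, (x : Matrix (Fin n) (Fin n) F) ≠ z • (1 : Matrix (Fin n) (Fin n) F)) →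
      ∃ g ∈ Cfsg.Geo.specialLinear (Fin n) F, g⁻¹ * x * g ∈ Cfsg.Geo.quadSimilarityGroup Q) :
    (r = 2 ∨ ((r = 3 ∨ r = 5) ∧ n = r ∧ padicValNat r (q - 1) = 1)) := by
  classical
  have hrp : r.Prime := Fact.out
  have h2 := two_ne_zero_of_odd hq hodd
  have hcard : Fintype.card (Fin n) = n := Fintype.card_fin n
  have hne : Nonempty (Fin n) := ⟨⟨0, by omega⟩⟩
  by_contra hneg
  push Not at hneg
  obtain ⟨hr2, hneg⟩ := hneg
  by_cases hrF : (r : F) = 0
  · have hrp' : r = p := by
      have h1 := (CharP.cast_eq_zero_iff F p r).1 hrF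
      exact ((Nat.prime_dvd_prime_iff_eq Fact.out hrp).1 h1).symm
    subst hrp'
    have hij : (⟨0, by omega⟩ : Fin n) ≠ ⟨1, by omega⟩ := by simp
    obtain ⟨x, hx1, hx2, hx3, hx4⟩ := exists_transvection (F := F) r (⟨0, by omega⟩ : Fin n) ⟨1, by omega⟩ hij
    obtain ⟨g, -, hg⟩ := H x ((mem_sl x).2 hx2) ⟨1, by rw [hx3, one_smul, Units.val_one]⟩ (by
      intro z hz
      have h1 := congrFun (congrFun hz (⟨0, by omega⟩ : Fin n)) ⟨1, by omega⟩
      rw [hx1] at h1
      simp [Matrix.transvection] at h1)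
    exact transvection_not_sim h2 hQ _ _ hij x hx1 hx3 g hg
  have hq0 : 0 < q := by rw [← hq]; exact Fintype.card_pos
  have hrq : ¬ r ∣ q := not_dvd_card hq hrF
  by_cases h1 : orderOf (q : ZMod r) = 1
  · have hrq1 : r ∣ q - 1 := by
      have := (dvd_pow_sub_one_iff (r := r) hq0 1).2 (by rw [h1])
      rwa [pow_one] at this
    have hN0 : q - 1 ≠ 0 := by
      have : 1 < q := by rw [← hq]; exact Fintype.one_lt_card
      omega
    obtain ⟨m, s, hc, hprod, hs0, hms, -, ⟨a, ha, b, hb, hab⟩, hbad⟩ :=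
      Cfsg.Agent.H956.BadMs.exists_bad (F := F) hq hrp hr2 (dvd_refl (q - 1)) hN0 hrq1 hn hgap (by
        rintro ⟨h, h', h''⟩
        exact hneg h h' h'')
    obtain ⟨x, d, hxd, hd0, hdm, hdet⟩ := exists_diag_elt (ι := Fin n) m (by
      intro c hc0 h0
      have := hms c hc0
      rw [h0, zero_pow hrp.ne_zero] at this
      exact hs0 this.symm) (by rw [hc, hcard])
    have hpow : (x : Matrix (Fin n) (Fin n) F) ^ r = s • (1 : Matrix (Fin n) (Fin n) F) := by
      rw [hxd]
      exact diagonal_pow_eq d r s fun i => hms _ (by rw [← hdm]; exact Multiset.mem_map_of_mem _ (Finset.mem_univ_val i))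
    have heig := eig_of_eq_diagonal (E := AlgebraicClosure F) (x : Matrix (Fin n) (Fin n) F) d m hxd hdm
    have hinj : Function.Injective (algebraMap F (AlgebraicClosure F)) := (algebraMap F (AlgebraicClosure F)).injective
    obtain ⟨g, -, hg⟩ := H x ((mem_sl x).2 (by rw [hdet, hprod])) ⟨s, by rw [Units.val_pow_eq_pow_val, hpow]⟩
      (ne_scalar_of_mem (E := AlgebraicClosure F) (z := algebraMap F _ a) (w := algebraMap F _ b)
        (by rw [heig]; exact Multiset.mem_map_of_mem _ ha)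
        (by rw [heig]; exact Multiset.mem_map_of_mem _ hb)
        (fun h => hab (hinj h)))
    obtain ⟨c, hc0, hc'⟩ := eig_of_sim h2 hQ (AlgebraicClosure F) hg hrF hs0 hpow
    rw [heig, Multiset.map_map] at hc'
    apply hbad c
    apply Multiset.map_injective hinj
    rw [Multiset.map_map]
    refine Eq.trans ?_ hc'.symm
    refine Multiset.map_congr rfl fun z _ => ?_
    simp
  have hi0 : orderOf (q : ZMod r) ≠ 0 := (orderOf_pos' hrq).ne'
  rcases Nat.even_or_odd (orderOf (q : ZMod r)) with he | ho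
  · -- `i` even
    obtain ⟨Q', hQ', hnd⟩ := Cfsg.Agent.H883.Bridge.exists_quadraticForm hQ
    obtain ⟨m, hm, hcase⟩ := even_case hq h2 (by omega) Q' hQ' hQ hnd hrF he hΩ
    have hmn : orderOf (q : ZMod r) ∣ n := by
      apply orderOf_dvd_of_pow_eq_one
      rw [hm, mul_comm, pow_mul]
      rcases hcase with ⟨-, h⟩ | ⟨-, h⟩ <;> rw [h] <;> ring
    obtain ⟨x, hxdet, hxr, hxfree⟩ := exists_free hq hrF h1 hmn
    obtain ⟨g, -, hg⟩ := H x ((mem_sl x).2 hxdet) ⟨1, by rw [hxr, one_smul, Units.val_one]⟩ (by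
      intro z hz
      have hz1 : z = 1 := by
        apply det_eq_one_of_pow hq h1
        have h3 := congrArg (fun y => y ^ r) hz
        simp only [← Units.val_pow_eq_pow_val, hxr, Units.val_one] at h3
        rw [_root_.smul_pow, one_pow] at h3
        have h4 := congrFun (congrFun h3 ⟨0, by omega⟩) ⟨0, by omega⟩
        rw [Matrix.one_apply_eq, Matrix.smul_apply, Matrix.one_apply_eq, smul_eq_mul, mul_one] at h4
        exact h4.symm
      have h5 := hxfree (Pi.single ⟨0, by omega⟩ 1) (by rw [hz, hz1, one_smul, Matrix.one_mulVec])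
      have h6 := congrFun h5 ⟨0, by omega⟩
      simp at h6)
    obtain ⟨c, hc⟩ := hg
    set y := g⁻¹ * x * g with hy
    have hyr : y ^ r = 1 := by
      have := conj_pow (a := g⁻¹) (b := x) (i := r)
      rw [inv_inv] at this
      rw [hy, this, hxr, mul_one, inv_mul_cancel]
    have hc1 : (c : F) = 1 := by
      apply det_eq_one_of_pow hq h1
      obtain ⟨v, hv⟩ := exists_Q_ne hQ
      have h1 := sim_pow y (c : F) hc r v
      rw [hyr, Units.val_one, Matrix.one_mulVec] at h1
      exact (mul_right_cancel₀ hv (by rw [one_mul]; exact h1)).symm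
    rw [hc1] at hc
    let T : (Fin n → F) ≃ₗ[F] (Fin n → F) := Cfsg.Agent.LieClassical.OrthFinite.glEquiv (Fin n) F y
    have hTv : ∀ v, T v = (y : Matrix (Fin n) (Fin n) F) *ᵥ v := fun v => rfl
    have hTO : T ∈ Cfsg.Agent.LieClassical.OrthCore.O Q' := by
      intro v
      rw [hTv, hQ', hc, one_mul]
    have hTr : T ^ r = 1 := by
      simp only [T]
      rw [← map_pow, hyr, map_one]
    have hfree : ∀ v, T v = v → v = 0 := by
      intro v hv
      rw [hTv, hy, Units.val_mul, Units.val_mul, ← Matrix.mulVec_mulVec, ← Matrix.mulVec_mulVec] at hv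
      have h3 := congrArg (fun w => (g : Matrix (Fin n) (Fin n) F) *ᵥ w) hv
      rw [Matrix.mulVec_mulVec (M := (g : Matrix (Fin n) (Fin n) F)) (N := ((g⁻¹ : GL (Fin n) F) : Matrix (Fin n) (Fin n) F)),
        mul_inv_self', Matrix.one_mulVec] at h3
      have h4 := hxfree _ h3
      have h5 := congrArg (fun w => ((g⁻¹ : GL (Fin n) F) : Matrix (Fin n) (Fin n) F) *ᵥ w) h4
      simp only [Matrix.mulVec_mulVec, inv_mul_self', Matrix.one_mulVec, Matrix.mulVec_zero] at h5
      exact h5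
    have hr3 : 2 < r := by
      have := hrp.two_le
      omega
    have hNq : Nat.card F = q := by rw [Nat.card_eq_fintype_card, hq]
    have hfin := Cfsg.Agent.H955.isPlus_iff_of_free hnd (m := m) (by rw [Module.finrank_fin_fun, hm]) hTO hr3
      (by rw [hNq]; exact hrq) hTr hfree
    rw [hNq] at hfin
    rcases hcase with ⟨h, h'⟩ | ⟨h, h'⟩
    · rw [hfin.1 h] at h'
      have h7 : ((2 : ℕ) : ZMod r) = 0 := by
        push_cast
        linear_combination h'
      rw [ZMod.natCast_eq_zero_iff] at h7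
      exact hr2 ((Nat.prime_dvd_prime_iff_eq hrp Nat.prime_two).1 h7)
    · exact h (hfin.2 h')
  · -- `i` odd
    have hi : orderOf (q : ZMod r) ≤ n := by
      apply orderOf_le_of_dvd_card_GL hq hrF
      exact hΩ.trans ((Subgroup.relIndex_dvd_card _ _).trans (Subgroup.card_subgroup_dvd_card _))
    obtain ⟨x, hxdet, hxr, O, hO, hxO⟩ := exists_block (AlgebraicClosure F) (ι := Fin n) hq hrF h1 (by rwa [hcard])
    have hcO := hO.card_eq
    obtain ⟨z, hz⟩ : ∃ z, z ∈ O := by
      apply Multiset.card_pos_iff_exists_mem.1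
      omega
    have hz1 : z ≠ 1 := (hO.prim z hz).ne_one hrp.one_lt
    obtain ⟨g, -, hg⟩ := H x ((mem_sl x).2 hxdet) ⟨1, by rw [hxr, one_smul, Units.val_one]⟩
      (ne_scalar_of_mem (E := AlgebraicClosure F) (z := z) (w := z ^ q)
        (by rw [hxO]; exact Multiset.mem_add.2 (Or.inl hz))
        (by rw [hxO]; exact Multiset.mem_add.2 (Or.inl (hO.frob z hz)))
        (hO.frob_ne (by omega) hz).symm)
    have hpow : (x : Matrix (Fin n) (Fin n) F) ^ r = (1 : F) • (1 : Matrix (Fin n) (Fin n) F) := by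
      rw [← Units.val_pow_eq_pow_val, hxr, one_smul, Units.val_one]
    obtain ⟨c, hc0, hc'⟩ := eig_of_sim h2 hQ (AlgebraicClosure F) hg hrF one_ne_zero hpow
    have hmemr : ∀ y ∈ eig (AlgebraicClosure F) (x : Matrix (Fin n) (Fin n) F), y ^ r = 1 := by
      intro y hy
      rw [hxO] at hy
      rcases Multiset.mem_add.1 hy with h | h
      · exact (hO.prim y h).pow_eq_one
      · rw [Multiset.eq_of_mem_replicate h, one_pow]
    have hzmem : z ∈ eig (AlgebraicClosure F) (x : Matrix (Fin n) (Fin n) F) := by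
      rw [hxO]; exact Multiset.mem_add.2 (Or.inl hz)
    have hmem : algebraMap F (AlgebraicClosure F) c / z ∈ eig (AlgebraicClosure F) (x : Matrix (Fin n) (Fin n) F) := by
      rw [hc']
      exact Multiset.mem_map_of_mem (fun z => algebraMap F (AlgebraicClosure F) c / z) hzmem
    have hz0 : z ≠ 0 := (hO.prim z hz).ne_zero hrp.ne_zero
    have hcr : c ^ r = 1 := by
      have h3 := hmemr _ hmem
      rw [div_pow, (hO.prim z hz).pow_eq_one, div_one, ← map_pow] at h3
      exact (algebraMap F (AlgebraicClosure F)).injective (by rw [h3, map_one])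
    have hc1 : c = 1 := det_eq_one_of_pow hq h1 hcr
    rw [hc1, map_one, one_div, hxO] at hmem
    have hzO : z⁻¹ ∈ O := by
      rcases Multiset.mem_add.1 hmem with h | h
      · exact h
      · exfalso
        have := Multiset.eq_of_mem_replicate h
        exact hz1 (by rw [← inv_inv z, this, inv_one])
    obtain ⟨j, -, hj⟩ := (hO.mem_iff hz _).1 hzO
    have h3 : z ^ (q ^ j + 1) = 1 := by
      rw [pow_succ, ← hj, inv_mul_cancel₀ hz0]
    have h4 := (hO.prim z hz).dvd_of_pow_eq_one _ h3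
    have h5 : (q : ZMod r) ^ j = -1 := by
      rw [← ZMod.natCast_eq_zero_iff] at h4
      push_cast at h4
      linear_combination h4
    have hne1 : (-1 : ZMod r) ≠ 1 := by
      intro h
      have h2 : ((2 : ℕ) : ZMod r) = 0 := by
        push_cast
        linear_combination -h
      rw [ZMod.natCast_eq_zero_iff] at h2
      exact hr2 ((Nat.prime_dvd_prime_iff_eq hrp Nat.prime_two).1 h2)
    have h6 : orderOf (q : ZMod r) ∣ 2 * j := by
      apply orderOf_dvd_of_pow_eq_one
      rw [mul_comm, pow_mul, h5]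
      ring
    have h7 : orderOf (q : ZMod r) ∣ j := (Nat.Coprime.dvd_of_dvd_mul_left (Nat.coprime_two_right.2 ho) h6)
    rw [orderOf_dvd_iff_pow_eq_one, h5] at h7
    exact hne1 h7

theorem backward [Fintype F] {q : ℕ} (hq : Fintype.card F = q)
    (hodd : Odd q) (n : ℕ) (hn : 3 ≤ n) (Q : (Fin n → F) → F) (hQ : Cfsg.Geo.IsNondegenerateQuadraticForm Q)
    (r : ℕ) [Fact r.Prime]
    (h : (r = 2 ∨ ((r = 3 ∨ r = 5) ∧ n = r ∧ padicValNat r (q - 1) = 1)))
    (x : GL (Fin n) F) (hdet : (x : Matrix (Fin n) (Fin n) F).det = 1) {z : F}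
    (hx : (x : Matrix (Fin n) (Fin n) F) ^ r = z • (1 : Matrix (Fin n) (Fin n) F)) :
    ∃ g : GL (Fin n) F, (g : Matrix (Fin n) (Fin n) F).det = 1 ∧ g⁻¹ * x * g ∈ Cfsg.Geo.quadSimilarityGroup Q := by
  classical
  have h2 := two_ne_zero_of_odd hq hodd
  have hrp : r.Prime := Fact.out
  rcases h with h | ⟨hr, hnr, hv⟩
  · subst h
    have hz0 : z ≠ 0 := by
      rintro rfl
      rw [zero_smul] at hx
      have h2 := congrArg Matrix.det hx
      have : Nonempty (Fin n) := ⟨⟨0, by omega⟩⟩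
      rw [Matrix.det_pow, hdet, one_pow, Matrix.det_zero] at h2
      exact one_ne_zero h2
    by_cases hsq : IsSquare z
    · obtain ⟨s, rfl⟩ := hsq
      have hs0 : s ≠ 0 := by rintro rfl; simp at hz0
      obtain ⟨S, d, hSd, hd⟩ := exists_of_sq_eq h2 hs0 (x : Matrix (Fin n) (Fin n) F) (by rw [hx, pow_two])
      refine diag_sim_sl h2 hQ x S d hSd 1 (fun i => rfl) (i0 := ⟨0, by omega⟩) rfl hz0 (fun k => ?_)
      rw [Equiv.Perm.one_apply]
      rcases hd k with h | h <;> rw [h]
      ring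
    · exact nonsquare_sim (by omega) h2 hQ hsq x hx
  · obtain ⟨ζ, hζ, S, a, π, c, hxS, hπ, hc⟩ := Cfsg.Agent.H956.SmallPrime.main hq hr hv hnr x hdet hx
    have hne' : NeZero r := ⟨hrp.ne_zero⟩
    have hζ0 : ζ ≠ 0 := hζ.ne_zero hrp.ne_zero
    obtain ⟨i0, hi0⟩ := Equiv.Perm.exists_fixed_point_of_prime (p := 2) (n := 1) (σ := π) (by
      rw [Fintype.card_fin, hnr]
      rcases hr with h | h <;> rw [h] <;> norm_num) (by
      ext i
      rw [pow_one, pow_two, Equiv.Perm.mul_apply, hπ, Equiv.Perm.one_apply])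
    refine diag_sim_sl h2 hQ x S _ hxS π hπ hi0 (c := ζ ^ c.val) (pow_ne_zero _ hζ0) (fun k => ?_)
    rw [Cfsg.Agent.H956.SmallPrime.pow_val_mul hζ.pow_eq_one, hc]

/-- Elements of prime order of PSL_n(q), q odd, and the subgroups of orthogonal type. Here `T = PSL_n(F)` for a field `F` with `q` elements, `q` odd, `n ≥ 3`; `Q` is a non-degenerate quadratic form on `F^n` (of either type when `n` is even) and `H` is the subgroup of matrices of determinant 1 that preserve `Q` up to a scalar — a subgroup of type O^ε_n(q) (maximality is not assumed); Ω is the set of cosets of `H` in `T`, so an element of `T` of prime order `r` (a matrix `x` of determinant 1 with `x^r` scalar, `x` not scalar) fixes a point of Ω exactly when some conjugate of `x` by a matrix of determinant 1 preserves `Q` up to a scalar. Let `r` be a prime dividing the index of `H`, with `(n, r) ≠ (6, 3)`. Then every element of `T` of order `r` fixes a point of Ω if and only if `r = 2`, or `r ∈ {3, 5}`,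 `n = r` and `(q − 1)_r = r` (the `r`-part of `q − 1` is exactly `r`). The case `(n, r) = (6, 3)` is not covered by this statement. -/
theorem result {F : Type*} [Field F] [Fintype F] {p : ℕ} [Fact p.Prime] [CharP F p] {q : ℕ} (hq : Fintype.card F = q)
    (hodd : Odd q) (n : ℕ) (hn : 3 ≤ n) (Q : (Fin n → F) → F) (hQ : Cfsg.Geo.IsNondegenerateQuadraticForm Q)
    (r : ℕ) [Fact r.Prime] (hgap : ¬ (n = 6 ∧ r = 3))
    (hΩ : r ∣ (Cfsg.Geo.quadSimilarityGroup Q).relIndex (Cfsg.Geo.specialLinear (Fin n) F)) :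
    (∀ x ∈ Cfsg.Geo.specialLinear (Fin n) F, (∃ z : F, ((x ^ r : GL (Fin n) F) : Matrix (Fin n) (Fin n) F) = z • (1 : Matrix (Fin n) (Fin n) F)) →
      (∀ z : F, (x : Matrix (Fin n) (Fin n) F) ≠ z • (1 : Matrix (Fin n) (Fin n) F)) →
      ∃ g ∈ Cfsg.Geo.specialLinear (Fin n) F, g⁻¹ * x * g ∈ Cfsg.Geo.quadSimilarityGroup Q) ↔
    (r = 2 ∨ ((r = 3 ∨ r = 5) ∧ n = r ∧ padicValNat r (q - 1) = 1)) := by
  refine ⟨forward hq hodd n hn Q hQ r hgap hΩ, fun h x hx hz _ => ?_⟩
  obtain ⟨z, hz⟩ := hz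
  rw [Units.val_pow_eq_pow_val] at hz
  obtain ⟨g, hg, hg'⟩ := backward hq hodd n hn Q hQ r h x ((mem_sl x).1 hx) hz
  exact ⟨g, (mem_sl g).2 hg, hg'⟩

end Cfsg.Agent.S5981
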