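import Cfsg.Statements.S5982
import Cfsg.Agent.S5979
import Cfsg.Agent.H956.DetIrr
import Cfsg.Agent.H956.UnitIndex
import Cfsg.Agent.H956.UnitSim
import Cfsg.Agent.H956.BadMs
import Cfsg.Agent.H956.SymMs
import Cfsg.Agent.H956.UnitSim2
import Cfsg.Agent.H956.SmallPrime

set_option autoImplicit false
open scoped MatrixGroups
open Cfsg

namespace Cfsg.Agent.S5982

open Matrix Polynomial
open Cfsg.Agent.LieClassical.HermBasic
open Cfsg.Agent.H956.EigMult Cfsg.Agent.H956.PrimeElt Cfsg.Agent.H956.TensorElt Cfsg.Agent.H956.Conj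
open Cfsg.Agent.H956.DiagElt Cfsg.Agent.H956.FieldArith Cfsg.Agent.H956.ConjIrr Cfsg.Agent.H956.DetIrr
open Cfsg.Agent.H956.UnitSim Cfsg.Agent.H956.UnitIndex Cfsg.Agent.H956.UnitSim2
open Cfsg.Agent.S5979 (mem_sl)

variable {F : Type*} [Field F] [Fintype F]

/-- `r = 2`: if `(n)_2 > (q-1)_2` there is a bad element. -/
theorem bad_two {q : ℕ} (hq : Fintype.card F = q) (q₀ : ℕ) (hq₀ : q = q₀ ^ 2) (n : ℕ) (hn : 3 ≤ n)
    (f : (Fin n → F) → (Fin n → F) → F) (hf : Cfsg.Geo.IsUnitaryFormPow q₀ f) (h2 : (2 : F) ≠ 0)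
    (hv : padicValNat 2 (q - 1) < padicValNat 2 n) :
    ∃ x : GL (Fin n) F, (x : Matrix (Fin n) (Fin n) F).det = 1 ∧ (∃ z : F, (x : Matrix (Fin n) (Fin n) F) ^ 2 =
      z • (1 : Matrix (Fin n) (Fin n) F)) ∧ (∀ z : F, (x : Matrix (Fin n) (Fin n) F) ≠ z • (1 : Matrix (Fin n) (Fin n) F)) ∧
      ∀ g : GL (Fin n) F, g⁻¹ * x * g ∉ Cfsg.Geo.similarityGroup f := by
  classical
  have hFq : Fintype.card F = q₀ ^ 2 := by rw [hq, hq₀]
  have hodd := odd_of_two_ne_zero hq h2
  have hringChar : ringChar F ≠ 2 := by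
    intro h
    apply h2
    have := ringChar.Nat.cast_ringChar (R := F)
    rw [h] at this
    exact_mod_cast this
  -- a non-square `w` whose order is `(q-1)_2`
  have hq1 : q - 1 ≠ 0 := by
    have : 1 < q := by rw [← hq]; exact Fintype.one_lt_card
    omega
  obtain ⟨w, hw⟩ := exists_prim (F := F) hq (N := 2 ^ padicValNat 2 (q - 1)) pow_padicValNat_dvd
  have hw0 : w ≠ 0 := hw.ne_zero (by positivity)
  have hv1 : 1 ≤ padicValNat 2 (q - 1) := by
    apply one_le_padicValNat_of_dvd hq1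
    obtain ⟨k, hk⟩ := hodd
    exact ⟨k, by omega⟩
  have hwsq : ¬ IsSquare w := by
    rw [FiniteField.isSquare_iff hringChar hw0]
    intro h
    have h1 := hw.dvd_of_pow_eq_one _ h
    have h3 : Fintype.card F / 2 * 2 = q - 1 := by
      obtain ⟨k, hk⟩ := hodd
      rw [hq]
      omega
    have h4 : 2 ^ (padicValNat 2 (q - 1) + 1) ∣ q - 1 := by
      rw [pow_succ, ← h3]
      exact Nat.mul_dvd_mul (by rwa [h3]) (dvd_refl 2)
    have h5 := (padicValNat_dvd_iff_le hq1).1 h4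
    omega
  have hm1 : IsSquare (-1 : F) := by
    rw [FiniteField.isSquare_neg_one_iff, hq, hq₀]
    have h5 : q₀ % 2 = 1 := by
      have : Odd (q₀ ^ 2) := by rw [← hq₀]; exact hodd
      rw [Nat.odd_pow_iff (by norm_num)] at this
      exact Nat.odd_iff.1 this
    obtain ⟨k, hk⟩ : ∃ k, q₀ = 2 * k + 1 := ⟨q₀ / 2, by omega⟩
    rw [hk, show (2 * k + 1) ^ 2 = 4 * (k ^ 2 + k) + 1 by ring]
    omega
  have hnsq : ¬ IsSquare (-w) := by
    intro h
    apply hwsq
    have := h.mul hm1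
    rwa [mul_neg_one, neg_neg] at this
  -- the element
  obtain ⟨m, hm⟩ : ∃ m, n = 2 * m := by
    have : 2 ∣ n := by
      apply dvd_of_one_le_padicValNat
      omega
    exact this
  have hcard : Fintype.card (Fin n) = Fintype.card (Fin 2 × Fin m) := by
    simp [hm]
  let e : Fin n ≃ Fin 2 × Fin m := Fintype.equivOfCardEq hcard
  let J : Matrix (Fin 2) (Fin 2) F := !![0, -w; 1, 0]
  have hJ : J * J = (-w) • (1 : Matrix (Fin 2) (Fin 2) F) := by
    ext i j
    fin_cases i <;> fin_cases j <;> simp [J, Matrix.mul_apply, Fin.sum_univ_two]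
  let M : Matrix (Fin n) (Fin n) F := Matrix.reindex e.symm e.symm (Matrix.kroneckerMap (· * ·) J (1 : Matrix (Fin m) (Fin m) F))
  have hMdet : M.det = 1 := by
    simp only [M]
    rw [Matrix.det_reindex_self, Matrix.det_kronecker, Matrix.det_one, one_pow, mul_one]
    have h6 : J.det = w := by
      simp [J, Matrix.det_fin_two]
    rw [h6, Fintype.card_fin]
    have h7 : 2 ^ padicValNat 2 (q - 1) ∣ m := by
      have h8 : 2 ^ (padicValNat 2 (q - 1) + 1) ∣ n := by
        rw [padicValNat_dvd_iff_le (by omega)]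
        omega
      rw [hm, pow_succ, mul_comm] at h8
      exact Nat.dvd_of_mul_dvd_mul_left (by norm_num) h8
    obtain ⟨k, hk⟩ := h7
    rw [hk, pow_mul, hw.pow_eq_one, one_pow]
  have hMsq : M ^ 2 = (-w) • (1 : Matrix (Fin n) (Fin n) F) := by
    simp only [M]
    rw [pow_two, Matrix.reindex_apply, Matrix.submatrix_mul_equiv, ← Matrix.mul_kronecker_mul, hJ, Matrix.one_mul,
      Matrix.smul_kronecker, Matrix.one_kronecker_one]
    ext i j
    simp only [Matrix.submatrix_apply, Matrix.smul_apply, Matrix.one_apply, smul_eq_mul,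
      EmbeddingLike.apply_eq_iff_eq, Equiv.symm_symm]
  let x : GL (Fin n) F := Matrix.GeneralLinearGroup.mkOfDetNeZero M (by rw [hMdet]; exact one_ne_zero)
  have hxM : (x : Matrix (Fin n) (Fin n) F) = M := rfl
  refine ⟨x, by rw [hxM]; exact hMdet, ⟨-w, by rw [hxM]; exact hMsq⟩, ?_, ?_⟩
  · intro z hz
    rw [hxM] at hz
    rw [hz] at hMsq
    apply hnsq
    have h9 := congrFun (congrFun hMsq ⟨0, by omega⟩) ⟨0, by omega⟩
    rw [_root_.smul_pow, one_pow, Matrix.smul_apply, Matrix.smul_apply, Matrix.one_apply_eq, smul_eq_mul, smul_eq_mul, mul_one,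
      mul_one] at h9
    exact ⟨z, by rw [← h9, pow_two]⟩
  · intro g hg
    obtain ⟨c, hc⟩ := hg
    have hcf := mult_fixed hf hc (by omega)
    -- apply twice
    have hsq : (g⁻¹ * x * g) * (g⁻¹ * x * g) = g⁻¹ * (x * x) * g := by group
    have hsq' : (((g⁻¹ * x * g) * (g⁻¹ * x * g) : GL (Fin n) F) : Matrix (Fin n) (Fin n) F) =
        (-w) • (1 : Matrix (Fin n) (Fin n) F) := by
      rw [hsq, Units.val_mul, Units.val_mul, Units.val_mul, hxM, ← pow_two, hMsq, Matrix.mul_smul, Matrix.smul_mul,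
        Matrix.mul_one, ← Units.val_mul, inv_mul_cancel, Units.val_one]
    have hne : (Pi.single (⟨0, by omega⟩ : Fin n) (1 : F) : Fin n → F) ≠ 0 := by
      intro h0
      have := congrFun h0 ⟨0, by omega⟩
      simp at this
    obtain ⟨-, v, hv'⟩ := hf.nondegenerate _ hne
    set u : Fin n → F := Pi.single (⟨0, by omega⟩ : Fin n) (1 : F) with hu
    have h1 := hc (((g⁻¹ * x * g : GL (Fin n) F) : Matrix (Fin n) (Fin n) F) *ᵥ u)
      (((g⁻¹ * x * g : GL (Fin n) F) : Matrix (Fin n) (Fin n) F) *ᵥ v)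
    rw [Matrix.mulVec_mulVec, Matrix.mulVec_mulVec, ← Units.val_mul, hsq', hc, Matrix.smul_mulVec, Matrix.smul_mulVec,
      Matrix.one_mulVec, Matrix.one_mulVec, hf.smul_left, smul_right hf, ← mul_assoc, ← mul_assoc] at h1
    have h3 := mul_right_cancel₀ hv' h1
    apply hnsq
    rw [FiniteField.isSquare_iff hringChar (by rwa [neg_ne_zero])]
    have h5 : q₀ % 2 = 1 := by
      have : Odd (q₀ ^ 2) := by rw [← hq₀]; exact hodd
      rw [Nat.odd_pow_iff (by norm_num)] at this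
      exact Nat.odd_iff.1 this
    obtain ⟨k, hk⟩ : ∃ k, q₀ = 2 * k + 1 := ⟨q₀ / 2, by omega⟩
    have h6 : Fintype.card F / 2 = (1 + q₀) * k := by
      rw [hFq, hk, show (2 * k + 1) ^ 2 = 2 * ((1 + (2 * k + 1)) * k) + 1 by ring]
      omega
    rw [h6, pow_mul, pow_add, pow_one, h3, ← pow_two, ← pow_mul]
    have h7 : (c : F) ^ (2 * k) * (c : F) = c := by
      rw [← pow_succ, ← hk, hcf]
    exact mul_right_cancel₀ c.ne_zero (by rw [h7, one_mul])

theorem forward {p : ℕ} [Fact p.Prime] [CharP F p] {q : ℕ} (hq : Fintype.card F = q)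
    (q₀ : ℕ) (hq₀ : q = q₀ ^ 2) (n : ℕ) (hn : 3 ≤ n) (f : (Fin n → F) → (Fin n → F) → F) (hf : Cfsg.Geo.IsUnitaryFormPow q₀ f)
    (r : ℕ) [Fact r.Prime] (hr : r = 2 ∨ r ≠ p) (hgap : ¬ (n = 6 ∧ r = 3))
    (hΩ : r ∣ (Cfsg.Geo.similarityGroup f).relIndex (Cfsg.Geo.specialLinear (Fin n) F))
    (H : ∀ x ∈ Cfsg.Geo.specialLinear (Fin n) F, (∃ z : F, ((x ^ r : GL (Fin n) F) : Matrix (Fin n) (Fin n) F) = z • (1 : Matrix (Fin n) (Fin n) F)) →
      (∀ z : F, (x : Matrix (Fin n) (Fin n) F) ≠ z • (1 : Matrix (Fin n) (Fin n) F)) →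
      ∃ g ∈ Cfsg.Geo.specialLinear (Fin n) F, g⁻¹ * x * g ∈ Cfsg.Geo.similarityGroup f) :
    ((r = 2 ∧ (p = 2 ∨ padicValNat 2 n ≤ padicValNat 2 (q - 1))) ∨ ((r = 3 ∨ r = 5) ∧ n = r ∧ padicValNat r (q₀ - 1) = 1)) := by
  classical
  have hrp : r.Prime := Fact.out
  have hFq : Fintype.card F = q₀ ^ 2 := by rw [hq, hq₀]
  have hcard : Fintype.card (Fin n) = n := Fintype.card_fin n
  by_contra hneg
  push Not at hneg
  obtain ⟨hneg1, hneg2⟩ := hneg
  by_cases hr2 : r = 2
  · subst hr2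
    obtain ⟨hp2, hv⟩ := hneg1 rfl
    have h20 : (2 : F) ≠ 0 := by
      intro h
      have h1 : ((2 : ℕ) : F) = 0 := by exact_mod_cast h
      have h2 := (CharP.cast_eq_zero_iff F p 2).1 h1
      exact hp2 ((Nat.prime_dvd_prime_iff_eq Fact.out Nat.prime_two).1 h2)
    obtain ⟨x, hx1, ⟨z, hx2⟩, hx3, hx4⟩ := bad_two hq q₀ hq₀ n hn f hf h20 hv
    obtain ⟨g, -, hg⟩ := H x ((mem_sl x).2 hx1) ⟨z, by rw [Units.val_pow_eq_pow_val, hx2]⟩ hx3
    exact hx4 g hg
  have hrF : (r : F) ≠ 0 := by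
    intro h
    have h2 := (CharP.cast_eq_zero_iff F p r).1 h
    have h3 := (Nat.prime_dvd_prime_iff_eq Fact.out hrp).1 h2
    rcases hr with h | h
    · exact hr2 h
    · exact h h3.symm
  have hrq0 : ¬ r ∣ q₀ := by
    intro h
    exact not_dvd_card hFq hrF (h.trans (Dvd.intro_left (q₀ ^ 1) (by ring)))
  have hpos0 : 0 < orderOf (q₀ : ZMod r) := orderOf_pos' hrq0
  have hqq : (q : ZMod r) = (q₀ : ZMod r) ^ 2 := by rw [hq₀]; push_cast; rfl
  -- the order of `q₀` is not `2` mod `4`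
  have hi4 : ¬ ∃ k, Odd k ∧ orderOf (q₀ : ZMod r) = 2 * k := by
    rintro ⟨k, hk, hk'⟩
    exact not_dvd_relIndex hFq hf (by omega) hrF hr2 hk hk' hΩ
  by_cases h1 : orderOf (q : ZMod r) = 1
  · -- `r ∣ q₀ - 1`
    have hsq1 : (q₀ : ZMod r) ^ 2 = 1 := by rw [← hqq]; exact orderOf_eq_one_iff.1 h1
    have hq01 : (q₀ : ZMod r) = 1 := by
      by_contra hne
      apply hi4
      refine ⟨1, odd_one, ?_⟩
      rw [mul_one]
      exact orderOf_eq_prime hsq1 hne
    have hrN : r ∣ q₀ - 1 := by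
      have hpos : 1 ≤ q₀ := q_pos hFq
      rw [← ZMod.natCast_eq_zero_iff, Nat.cast_sub hpos, hq01]
      simp
    have hN0 : q₀ - 1 ≠ 0 := by
      have := two_le hFq
      omega
    have hNdvd : q₀ - 1 ∣ q - 1 := by
      rw [hq₀]
      exact ⟨q₀ + 1, by
        have := Nat.sq_sub_sq q₀ 1
        rw [one_pow] at this
        rw [this, mul_comm]⟩
    obtain ⟨m, s, hc, hprod, hs0, hms, hmN, ⟨a, ha, b, hb, hab⟩, hbad⟩ :=
      Cfsg.Agent.H956.BadMs.exists_bad (F := F) hq hrp hr2 hNdvd hN0 hrN hn hgap (by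
        rintro ⟨h, h', h''⟩
        exact hneg2 h h' h'')
    obtain ⟨x, d, hxd, hd0, hdm, hdet⟩ := exists_diag_elt (ι := Fin n) m (by
      intro c hc0 h0
      have := hms c hc0
      rw [h0, zero_pow hrp.ne_zero] at this
      exact hs0 this.symm) (by rw [hc, hcard])
    have hpow : (x : Matrix (Fin n) (Fin n) F) ^ r = s • (1 : Matrix (Fin n) (Fin n) F) := by
      rw [hxd]
      exact diagonal_pow_eq d r s fun i => hms _ (by rw [← hdm]; exact Multiset.mem_map_of_mem _ (Finset.mem_univ_val i))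
    have heig := eig_of_eq_diagonal (E := AlgebraicClosure F) (x : Matrix (Fin n) (Fin n) F) d m hxd hdm
    have hinj : Function.Injective (algebraMap F (AlgebraicClosure F)) := (algebraMap F (AlgebraicClosure F)).injective
    obtain ⟨g, -, hg⟩ := H x ((mem_sl x).2 (by rw [hdet, hprod])) ⟨s, by rw [Units.val_pow_eq_pow_val, hpow]⟩
      (ne_scalar_of_mem (E := AlgebraicClosure F) (z := algebraMap F _ a) (w := algebraMap F _ b)
        (by rw [heig]; exact Multiset.mem_map_of_mem _ ha)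
        (by rw [heig]; exact Multiset.mem_map_of_mem _ hb)
        (fun h => hab (hinj h)))
    obtain ⟨c, hc0, hcf, hc'⟩ := eig_of_sim hFq (by omega) hf (AlgebraicClosure F) hg hrF hs0 hpow
    rw [heig, Multiset.map_map, Multiset.map_map] at hc'
    apply hbad c
    apply Multiset.map_injective hinj
    rw [Multiset.map_map]
    have e1 : m.map (⇑(algebraMap F (AlgebraicClosure F)) ∘ fun a => c / a) =
        m.map ((fun z => algebraMap F (AlgebraicClosure F) c / z) ∘ ⇑(algebraMap F (AlgebraicClosure F))) := by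
      refine Multiset.map_congr rfl fun z _ => ?_
      simp
    rw [e1, ← hc']
    refine Multiset.map_congr rfl fun z hz => ?_
    have hzN := hmN z hz
    simp only [Function.comp_apply]
    rw [← map_pow]
    congr 1
    have : q₀ = (q₀ - 1) + 1 := by omega
    rw [this, pow_succ, hzN, one_mul]
  · -- a block
    have hi : orderOf (q : ZMod r) ≤ n := by
      apply orderOf_le_of_dvd_card_GL hq hrF
      exact hΩ.trans ((Subgroup.relIndex_dvd_card _ _).trans (Subgroup.card_subgroup_dvd_card _))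
    obtain ⟨x, hxdet, hxr, O, hO, hxO⟩ := exists_block (AlgebraicClosure F) (ι := Fin n) hq hrF h1 (by rwa [hcard])
    have hi0 : orderOf (q : ZMod r) ≠ 0 := by
      exact (orderOf_pos' (not_dvd_card hq hrF)).ne'
    have hcO := hO.card_eq
    obtain ⟨z, hz⟩ : ∃ z, z ∈ O := by
      apply Multiset.card_pos_iff_exists_mem.1
      omega
    have hz1 : z ≠ 1 := (hO.prim z hz).ne_one hrp.one_lt
    obtain ⟨g, -, hg⟩ := H x ((mem_sl x).2 hxdet) ⟨1, by rw [hxr, one_smul, Units.val_one]⟩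
      (ne_scalar_of_mem (E := AlgebraicClosure F) (z := z) (w := z ^ q)
        (by rw [hxO]; exact Multiset.mem_add.2 (Or.inl hz))
        (by rw [hxO]; exact Multiset.mem_add.2 (Or.inl (hO.frob z hz)))
        (hO.frob_ne (by omega) hz).symm)
    have hpow : (x : Matrix (Fin n) (Fin n) F) ^ r = (1 : F) • (1 : Matrix (Fin n) (Fin n) F) := by
      rw [← Units.val_pow_eq_pow_val, hxr, one_smul, Units.val_one]
    obtain ⟨c, hc0, hcf, hc'⟩ := eig_of_sim hFq (by omega) hf (AlgebraicClosure F) hg hrF one_ne_zero hpow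
    have hmemr : ∀ y ∈ eig (AlgebraicClosure F) (x : Matrix (Fin n) (Fin n) F), y ^ r = 1 := by
      intro y hy
      rw [hxO] at hy
      rcases Multiset.mem_add.1 hy with h | h
      · exact (hO.prim y h).pow_eq_one
      · rw [Multiset.eq_of_mem_replicate h, one_pow]
    have hzmem : z ∈ eig (AlgebraicClosure F) (x : Matrix (Fin n) (Fin n) F) := by
      rw [hxO]; exact Multiset.mem_add.2 (Or.inl hz)
    have hex : ∃ y ∈ eig (AlgebraicClosure F) (x : Matrix (Fin n) (Fin n) F), y ^ q₀ = algebraMap F _ c / z := by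
      have : algebraMap F (AlgebraicClosure F) c / z ∈
          (eig (AlgebraicClosure F) (x : Matrix (Fin n) (Fin n) F)).map (fun z => algebraMap F (AlgebraicClosure F) c / z) :=
        Multiset.mem_map_of_mem (fun z => algebraMap F (AlgebraicClosure F) c / z) hzmem
      rw [← hc', Multiset.mem_map] at this
      exact this
    obtain ⟨y, hy, hyz⟩ := hex
    have hz0 : z ≠ 0 := (hO.prim z hz).ne_zero hrp.ne_zero
    have hcr : c ^ r = 1 := by
      have h2 : (algebraMap F (AlgebraicClosure F) c / z) ^ r = 1 := by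
        rw [← hyz, ← pow_mul, mul_comm, pow_mul, hmemr y hy, one_pow]
      rw [div_pow, (hO.prim z hz).pow_eq_one, div_one, ← map_pow] at h2
      exact (algebraMap F (AlgebraicClosure F)).injective (by rw [h2, map_one])
    have hc1 : c = 1 := det_eq_one_of_pow hq h1 hcr
    rw [hc1, map_one, one_div] at hyz
    have hyO : y ∈ O := by
      rw [hxO] at hy
      rcases Multiset.mem_add.1 hy with h | h
      · exact h
      · exfalso
        rw [Multiset.eq_of_mem_replicate h, one_pow] at hyz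
        exact hz1 (by rw [← inv_inv z, ← hyz, inv_one])
    obtain ⟨j, -, hj⟩ := (hO.mem_iff hz y).1 hyO
    -- `z ^ (q₀^(2j+1) + 1) = 1`
    have h3 : z ^ (q₀ ^ (2 * j + 1) + 1) = 1 := by
      have e2 : q₀ ^ (2 * j + 1) = q ^ j * q₀ := by rw [hq₀, pow_succ, pow_mul]
      rw [pow_succ, e2, pow_mul, ← hj, hyz, inv_mul_cancel₀ hz0]
    have h4 := (hO.prim z hz).dvd_of_pow_eq_one _ h3
    have h5 : (q₀ : ZMod r) ^ (2 * j + 1) = -1 := by
      rw [← ZMod.natCast_eq_zero_iff] at h4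
      push_cast at h4
      linear_combination h4
    have hne : (-1 : ZMod r) ≠ 1 := by
      intro h
      have h2 : ((2 : ℕ) : ZMod r) = 0 := by
        push_cast
        linear_combination -h
      rw [ZMod.natCast_eq_zero_iff] at h2
      exact hr2 ((Nat.prime_dvd_prime_iff_eq hrp Nat.prime_two).1 h2)
    have h6 : orderOf (q₀ : ZMod r) ∣ 2 * (2 * j + 1) := by
      apply orderOf_dvd_of_pow_eq_one
      rw [mul_comm, pow_mul, h5]
      ring
    have h7 : ¬ orderOf (q₀ : ZMod r) ∣ 2 * j + 1 := by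
      intro h
      rw [orderOf_dvd_iff_pow_eq_one, h5] at h
      exact hne h
    -- hence `orderOf q₀ = 2 * odd`
    apply hi4
    have h8 : 2 ∣ orderOf (q₀ : ZMod r) := by
      by_contra h
      apply h7
      exact (Nat.Coprime.dvd_of_dvd_mul_left
        ((Nat.Prime.coprime_iff_not_dvd Nat.prime_two).2 h).symm h6)
    obtain ⟨k, hk⟩ := h8
    refine ⟨k, ?_, hk⟩
    rw [hk] at h6
    have h9 := Nat.dvd_of_mul_dvd_mul_left (by norm_num) h6
    by_contra hko
    rw [Nat.not_odd_iff_even] at hko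
    have := hko.two_dvd.trans h9
    omega

theorem backward_two {p : ℕ} [Fact p.Prime] [CharP F p] {q : ℕ} (hq : Fintype.card F = q)
    (q₀ : ℕ) (hq₀ : q = q₀ ^ 2) (n : ℕ) (hn : 3 ≤ n) (f : (Fin n → F) → (Fin n → F) → F) (hf : Cfsg.Geo.IsUnitaryFormPow q₀ f)
    (h : p = 2 ∨ padicValNat 2 n ≤ padicValNat 2 (q - 1)) (x : GL (Fin n) F)
    (hdet : (x : Matrix (Fin n) (Fin n) F).det = 1) {z : F}
    (hx : (x : Matrix (Fin n) (Fin n) F) ^ 2 = z • (1 : Matrix (Fin n) (Fin n) F))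
    (hsc : ∀ z : F, (x : Matrix (Fin n) (Fin n) F) ≠ z • (1 : Matrix (Fin n) (Fin n) F)) :
    ∃ g : GL (Fin n) F, (g : Matrix (Fin n) (Fin n) F).det = 1 ∧ g⁻¹ * x * g ∈ Cfsg.Geo.similarityGroup f := by
  classical
  have hFq : Fintype.card F = q₀ ^ 2 := by rw [hq, hq₀]
  have hne : Nonempty (Fin n) := ⟨⟨0, by omega⟩⟩
  have hz0 : z ≠ 0 := by
    rintro rfl
    rw [zero_smul] at hx
    have h2 := congrArg Matrix.det hx
    rw [Matrix.det_pow, hdet, one_pow, Matrix.det_zero] at h2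
    exact one_ne_zero h2
  by_cases hp2 : p = 2
  · subst hp2
    obtain ⟨s, hs⟩ : ∃ s : F, s ^ 2 = z := (frobeniusEquiv F 2).surjective z
    have hs0 : s ≠ 0 := by
      rintro rfl
      exact hz0 (by rw [← hs]; simp)
    refine unip_sim_sl hFq hf x hs0 (s⁻¹ • (x : Matrix (Fin n) (Fin n) F) - 1) ?_ ?_ ?_
    · have h1 : (s⁻¹ • (x : Matrix (Fin n) (Fin n) F)) * (s⁻¹ • (x : Matrix (Fin n) (Fin n) F)) = 1 := by
        rw [Matrix.smul_mul, Matrix.mul_smul, ← pow_two, hx, smul_smul, smul_smul, ← hs]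
        rw [show s⁻¹ * s⁻¹ * s ^ 2 = 1 by field_simp, one_smul]
      rw [sub_mul, mul_sub, h1, mul_one, one_mul]
      have h2 : (1 : Matrix (Fin n) (Fin n) F) - s⁻¹ • (x : Matrix (Fin n) (Fin n) F) -
          (s⁻¹ • (x : Matrix (Fin n) (Fin n) F) - 1) =
          (2 : F) • (1 - s⁻¹ • (x : Matrix (Fin n) (Fin n) F)) := by
        rw [two_smul]
        abel
      rw [h2, CharTwo.two_eq_zero, zero_smul]
    · intro h1
      apply hsc s
      rw [sub_eq_zero] at h1
      rw [← h1, smul_smul, mul_inv_cancel₀ hs0, one_smul]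
    · rw [add_sub_cancel, smul_smul, mul_inv_cancel₀ hs0, one_smul]
  have hv : padicValNat 2 n ≤ padicValNat 2 (q - 1) := by
    rcases h with h | h
    · exact absurd h hp2
    · exact h
  have h20 : (2 : F) ≠ 0 := by
    intro h
    have h1 : ((2 : ℕ) : F) = 0 := by exact_mod_cast h
    have h2 := (CharP.cast_eq_zero_iff F p 2).1 h1
    exact hp2 ((Nat.prime_dvd_prime_iff_eq Fact.out Nat.prime_two).1 h2)
  have hodd := odd_of_two_ne_zero hq h20
  have hq0odd : Odd q₀ := by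
    have : Odd (q₀ ^ 2) := by rw [← hq₀]; exact hodd
    rwa [Nat.odd_pow_iff (by norm_num)] at this
  by_cases hsq : IsSquare z
  · obtain ⟨s, rfl⟩ := hsq
    have hs0 : s ≠ 0 := by rintro rfl; simp at hz0
    obtain ⟨S, d, hSd, hd⟩ := exists_of_sq_eq h20 hs0 (x : Matrix (Fin n) (Fin n) F) (by rw [hx, pow_two])
    refine diag_sim_sl hFq hf x S d hSd (fun i => ?_) 1 (fun i => rfl) (s * s ^ q₀)
      (mul_ne_zero hs0 (pow_ne_zero _ hs0)) (fun k => ?_)
    · rcases hd i with h | h <;> rw [h]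
      · exact hs0
      · exact neg_ne_zero.2 hs0
    · rw [Equiv.Perm.one_apply]
      rcases hd k with h | h <;> rw [h]
      rw [Odd.neg_pow hq0odd]
      ring
  · exfalso
    obtain ⟨k, hk, hk'⟩ := det_of_pow_eq (by norm_num) (irreducible_sq hsq) (x : Matrix (Fin n) (Fin n) F) hx
    rw [Fintype.card_fin] at hk
    rw [hdet] at hk'
    have h3 : (-z) ^ k = 1 := by
      rw [hk']
      congr 1
      ring
    have hringChar : ringChar F ≠ 2 := by
      intro h
      apply h20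
      have := ringChar.Nat.cast_ringChar (R := F)
      rw [h] at this
      exact_mod_cast this
    have hm1 : IsSquare (-1 : F) := by
      rw [FiniteField.isSquare_neg_one_iff, hq, hq₀]
      have h5 := Nat.odd_iff.1 hq0odd
      obtain ⟨k, hk⟩ : ∃ k, q₀ = 2 * k + 1 := ⟨q₀ / 2, by omega⟩
      rw [hk, show (2 * k + 1) ^ 2 = 4 * (k ^ 2 + k) + 1 by ring]
      omega
    have hnsq : ¬ IsSquare (-z) := by
      intro h
      apply hsq
      have := h.mul hm1
      rwa [mul_neg_one, neg_neg] at this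
    apply hnsq
    rw [FiniteField.isSquare_iff hringChar (neg_ne_zero.2 hz0)]
    have hq1 : q - 1 ≠ 0 := by
      have : 1 < q := by rw [← hq]; exact Fintype.one_lt_card
      omega
    have h4 : Fintype.card F / 2 * 2 = q - 1 := by
      obtain ⟨k, hk⟩ := hodd
      rw [hq]
      omega
    have h5 := orderOf_dvd_of_pow_eq_one h3
    have h6 : orderOf (-z) ∣ q - 1 := by
      apply orderOf_dvd_of_pow_eq_one
      rw [← hq]
      exact FiniteField.pow_card_sub_one_eq_one _ (neg_ne_zero.2 hz0)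
    rw [← orderOf_dvd_iff_pow_eq_one]
    have hk0 : k ≠ 0 := by rintro rfl; omega
    obtain ⟨u, hu⟩ := h6
    have hu0 : u ≠ 0 := by rintro rfl; simp at hu; omega
    have ho0 : orderOf (-z) ≠ 0 := by
      intro h
      rw [h, zero_mul] at hu
      exact hq1 hu
    have h7 : padicValNat 2 (q - 1) = padicValNat 2 (orderOf (-z)) + padicValNat 2 u := by
      rw [hu, padicValNat.mul ho0 hu0]
    have h8 : padicValNat 2 (orderOf (-z)) ≤ padicValNat 2 k := by
      obtain ⟨t, ht⟩ := h5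
      have ht0 : t ≠ 0 := by rintro rfl; exact hk0 (by rw [ht, mul_zero])
      rw [ht, padicValNat.mul ho0 ht0]
      omega
    have h9 : padicValNat 2 n = 1 + padicValNat 2 k := by
      rw [← hk, padicValNat.mul (by norm_num) hk0, padicValNat_self]
    have h10 : 2 ∣ u := by
      apply dvd_of_one_le_padicValNat
      omega
    obtain ⟨t, ht⟩ := h10
    refine ⟨t, ?_⟩
    have : Fintype.card F / 2 * 2 = (orderOf (-z) * t) * 2 := by rw [h4, hu, ht]; ring
    exact Nat.eq_of_mul_eq_mul_right (by norm_num) this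

theorem backward_small {p : ℕ} [Fact p.Prime] [CharP F p] {q : ℕ} (hq : Fintype.card F = q)
    (q₀ : ℕ) (hq₀ : q = q₀ ^ 2) (n : ℕ) (hn : 3 ≤ n) (f : (Fin n → F) → (Fin n → F) → F) (hf : Cfsg.Geo.IsUnitaryFormPow q₀ f)
    (r : ℕ) [Fact r.Prime] (hr : r = 3 ∨ r = 5) (hnr : n = r) (hv : padicValNat r (q₀ - 1) = 1) (x : GL (Fin n) F)
    (hdet : (x : Matrix (Fin n) (Fin n) F).det = 1) {z : F}
    (hx : (x : Matrix (Fin n) (Fin n) F) ^ r = z • (1 : Matrix (Fin n) (Fin n) F)) :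
    ∃ g : GL (Fin n) F, (g : Matrix (Fin n) (Fin n) F).det = 1 ∧ g⁻¹ * x * g ∈ Cfsg.Geo.similarityGroup f := by
  classical
  have hrp : r.Prime := Fact.out
  have hFq : Fintype.card F = q₀ ^ 2 := by rw [hq, hq₀]
  have hne : Nonempty (Fin n) := ⟨⟨0, by omega⟩⟩
  have h2 := two_le hFq
  have hrq0 : r ∣ q₀ - 1 := dvd_of_one_le_padicValNat (by omega)
  have hv' : padicValNat r (q - 1) = 1 := by
    have h3 : q - 1 = (q₀ + 1) * (q₀ - 1) := by
      have := Nat.sq_sub_sq q₀ 1
      rw [one_pow] at this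
      rw [hq₀, this]
    rw [h3, padicValNat.mul (by omega) (by omega), hv]
    have h4 : padicValNat r (q₀ + 1) = 0 := by
      apply padicValNat.eq_zero_of_not_dvd
      intro h
      have h5 : r ∣ 2 := by
        have := (Nat.dvd_add_right hrq0).1 (by
          have h6 : q₀ - 1 + 2 = q₀ + 1 := by omega
          rw [h6]; exact h)
        exact this
      have := Nat.le_of_dvd (by norm_num) h5
      rcases hr with h | h <;> omega
    rw [h4]
  obtain ⟨ζ, hζ, S, a, π, c, hxS, hπ, hc⟩ := Cfsg.Agent.H956.SmallPrime.main hq hr hv' hnr x hdet hx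
  have hne' : NeZero r := ⟨hrp.ne_zero⟩
  have hζ0 : ζ ≠ 0 := hζ.ne_zero hrp.ne_zero
  refine diag_sim_sl hFq hf x S _ hxS (fun i => pow_ne_zero _ hζ0) π hπ (ζ ^ c.val) (pow_ne_zero _ hζ0) (fun k => ?_)
  have hζq : ζ ^ q₀ = ζ := by
    obtain ⟨t, ht⟩ := hrq0
    have : q₀ = r * t + 1 := by omega
    rw [this, pow_succ, pow_mul, hζ.pow_eq_one, one_pow, one_mul]
  rw [← pow_mul, mul_comm (a (π k)).val, pow_mul, hζq, Cfsg.Agent.H956.SmallPrime.pow_val_mul hζ.pow_eq_one, hc]

/-- Elements of prime order of PSL_n(q), q = q₀², and the subgroups of unitary type. Here `T = PSL_n(F)` for a field `F` with `q = q₀²` elements (`n ≥ 3`), `f` is a non-degenerate unitary form on `F^n` for the involutory automorphism `x ↦ x^{q₀}`, and `H` is the subgroup of matrices of determinant 1 that preserve `f` up to a scalar — a subgroup of type GU_n(q₀) (maximality is not assumed); Ω is the set of cosets of `H` in `T`, so an element of `T` of prime order `r` (a matrix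 `x` of determinant 1 with `x^r` scalar, `x` not scalar) fixes a point of Ω exactly when some conjugate of `x` by a matrix of determinant 1 preserves `f` up to a scalar. Let `r` be a prime dividing the index of `H`, with `r = 2` or `r` different from the characteristic `p`, and with `(n, r) ≠ (6, 3)`. Then every element of `T` of order `r` fixes a point of Ω if and only if either `r = 2` and (`p = 2` or `(n)_2 ≤ (q − 1)_2`), or `r ∈ {3, 5}`, `n = r` and `(q₀ − 1)_r = r`. (Odd `r = p` and the case `(n, r) = (6, 3)` are not covered by this statement.) -/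
theorem result {F : Type*} [Field F] [Fintype F] {p : ℕ} [Fact p.Prime] [CharP F p] {q : ℕ} (hq : Fintype.card F = q)
    (q₀ : ℕ) (hq₀ : q = q₀ ^ 2) (n : ℕ) (hn : 3 ≤ n) (f : (Fin n → F) → (Fin n → F) → F) (hf : Cfsg.Geo.IsUnitaryFormPow q₀ f)
    (r : ℕ) [Fact r.Prime] (hr : r = 2 ∨ r ≠ p) (hgap : ¬ (n = 6 ∧ r = 3))
    (hΩ : r ∣ (Cfsg.Geo.similarityGroup f).relIndex (Cfsg.Geo.specialLinear (Fin n) F)) :
    (∀ x ∈ Cfsg.Geo.specialLinear (Fin n) F, (∃ z : F, ((x ^ r : GL (Fin n) F) : Matrix (Fin n) (Fin n) F) = z • (1 : Matrix (Fin n) (Fin n) F)) →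
      (∀ z : F, (x : Matrix (Fin n) (Fin n) F) ≠ z • (1 : Matrix (Fin n) (Fin n) F)) →
      ∃ g ∈ Cfsg.Geo.specialLinear (Fin n) F, g⁻¹ * x * g ∈ Cfsg.Geo.similarityGroup f) ↔
    ((r = 2 ∧ (p = 2 ∨ padicValNat 2 n ≤ padicValNat 2 (q - 1))) ∨ ((r = 3 ∨ r = 5) ∧ n = r ∧ padicValNat r (q₀ - 1) = 1)) := by
  refine ⟨forward hq q₀ hq₀ n hn f hf r hr hgap hΩ, ?_⟩
  rintro (⟨rfl, h⟩ | ⟨hr', hnr, hv⟩) x hx ⟨z, hz⟩ hsc
  · rw [Units.val_pow_eq_pow_val] at hz
    obtain ⟨g, hg, hg'⟩ := backward_two hq q₀ hq₀ n hn f hf h x ((mem_sl x).1 hx) hz hsc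
    exact ⟨g, (mem_sl g).2 hg, hg'⟩
  · rw [Units.val_pow_eq_pow_val] at hz
    obtain ⟨g, hg, hg'⟩ := backward_small hq q₀ hq₀ n hn f hf r hr' hnr hv x ((mem_sl x).1 hx) hz
    exact ⟨g, (mem_sl g).2 hg, hg'⟩

end Cfsg.Agent.S5982
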