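import Cfsg.Statements.S5983
import Cfsg.Agent.H957.SpForms
import Cfsg.Agent.H957.SpIndex
import Cfsg.Agent.H957.NoFixSymp
import Cfsg.Agent.H955.QCount
import Cfsg.Agent.ClassicalGeometry.QuadPlusBasic

set_option autoImplicit false
open scoped MatrixGroups
open Cfsg

namespace Cfsg.Agent.S5983

open Module QuadraticMap Matrix
open Cfsg.Agent.LieClassical.OrthCore (Nondeg)
open Cfsg.Agent.H955 (IsPlus)
open Cfsg.Agent.H957

section

variable {F : Type*} [Field F]

/-- A nondegenerate quadratic form given as a function, as a `QuadraticForm`. -/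
theorem exists_quadForm {ι : Type} [Fintype ι] [DecidableEq ι] {Q : (ι → F) → F}
    (hQ : Cfsg.Geo.IsNondegenerateQuadraticForm Q) : ∃ Q' : QuadraticForm F (ι → F), ⇑Q' = Q :=
  ⟨{ toFun := Q
     toFun_smul := fun a x => by rw [hQ.smul]; simp [pow_two]
     exists_companion' := ⟨LinearMap.mk₂ F (QuadraticMap.polar Q) hQ.polar_bilinear.add_left
        (fun c x v => hQ.polar_bilinear.smul_left c x v) hQ.polar_bilinear.add_right
        (fun c x v => hQ.polar_bilinear.smul_right c x v), fun x y => by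
          simp [QuadraticMap.polar]⟩ }, rfl⟩

theorem isPlusTypeOn_top {ι : Type} [Fintype ι] [DecidableEq ι] (Q : QuadraticForm F (ι → F)) :
    Cfsg.Geo.IsPlusTypeOn (⇑Q) ⊤ ↔ IsPlus Q := by
  constructor
  · rintro ⟨U, -, hU, hd⟩
    exact ⟨U, hU, by rw [hd, finrank_top]⟩
  · rintro ⟨U, hU, hd⟩
    exact ⟨U, le_top, hU, by rw [hd, finrank_top]⟩

variable {d : ℕ} {Q : QuadraticForm F (Fin d ⊕ Fin d → F)}

theorem mem_sp_iff (hQf : ∀ u v, polar Q u v = Cfsg.sympForm d F u v) (x : GL (Fin d ⊕ Fin d) F) :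
    x ∈ Cfsg.spGL d F ↔ ∀ u v, polar Q ((x : Matrix _ _ F) *ᵥ u) ((x : Matrix _ _ F) *ᵥ v) = polar Q u v := by
  rw [mem_spGL]
  exact forall₂_congr fun u v => by rw [hQf, hQf]

theorem exists_pair (hQf : ∀ u v, polar Q u v = Cfsg.sympForm d F u v) (hd : 1 ≤ d) :
    ∃ u v, polar Q u v ≠ 0 := by
  refine ⟨Pi.single (Sum.inr ⟨0, by omega⟩) 1, Pi.single (Sum.inl ⟨0, by omega⟩) 1, ?_⟩
  rw [hQf, ClassicalGeometry.SympBasic.sympForm_single_inr_left]
  simp

/-- The scalar of a similarity in the symplectic group is trivial. -/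
theorem mem_inf_iff (hQf : ∀ u v, polar Q u v = Cfsg.sympForm d F u v) (hd : 1 ≤ d)
    (x : GL (Fin d ⊕ Fin d) F) (hx : x ∈ Cfsg.spGL d F) :
    x ∈ Cfsg.Geo.quadSimilarityGroup (⇑Q) ↔ ∀ v, Q ((x : Matrix _ _ F) *ᵥ v) = Q v := by
  constructor
  · rintro ⟨c, hc⟩
    obtain ⟨u, v, huv⟩ := exists_pair hQf hd
    have h1 := (mem_sp_iff hQf x).1 hx u v
    have h2 : polar Q ((x : Matrix _ _ F) *ᵥ u) ((x : Matrix _ _ F) *ᵥ v) = (c : F) * polar Q u v := by
      simp only [polar]
      rw [← Matrix.mulVec_add, hc, hc, hc]; ring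
    rw [h1] at h2
    have h3 : (c : F) = 1 := mul_right_cancel₀ huv (by rw [← h2, one_mul])
    intro w
    rw [hc, h3, one_mul]
  · intro h
    exact ⟨1, fun v => by rw [h]; simp⟩

theorem inf_eq (hQf : ∀ u v, polar Q u v = Cfsg.sympForm d F u v) (hd : 1 ≤ d) :
    Cfsg.Geo.quadSimilarityGroup (⇑Q) ⊓ Cfsg.spGL d F = Cfsg.isometryGroup F (⇑Q) := by
  ext x
  rw [Subgroup.mem_inf]
  constructor
  · rintro ⟨h1, h2⟩
    exact mem_isometryGroup.2 ((mem_inf_iff hQf hd x h2).1 h1)
  · intro h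
    have h' := mem_isometryGroup.1 h
    have h2 : x ∈ Cfsg.spGL d F := by
      rw [mem_sp_iff hQf]
      intro u v
      simp only [polar]
      rw [← Matrix.mulVec_add, h', h', h']
    exact ⟨(mem_inf_iff hQf hd x h2).2 h', h2⟩

theorem index_mul (hQf : ∀ u v, polar Q u v = Cfsg.sympForm d F u v) (hd : 1 ≤ d) :
    Nat.card (Cfsg.isometryGroup F (⇑Q)) * (Cfsg.Geo.quadSimilarityGroup (⇑Q)).relIndex (Cfsg.spGL d F) =
      Nat.card (Cfsg.spGL d F) := by
  rw [← Subgroup.inf_relIndex_right, inf_eq hQf hd]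
  have h := Subgroup.relIndex_mul_relIndex (⊥ : Subgroup (GL (Fin d ⊕ Fin d) F)) (Cfsg.isometryGroup F (⇑Q))
    (Cfsg.spGL d F) bot_le (by rw [← inf_eq hQf hd]; exact inf_le_right)
  rwa [Subgroup.relIndex_bot_left, Subgroup.relIndex_bot_left] at h

variable [Fintype F]

/-- Twice the index. -/
theorem two_mul_index (hQf : ∀ u v, polar Q u v = Cfsg.sympForm d F u v) (hQ : Nondeg Q) (hd : 1 ≤ d) :
    (IsPlus Q → 2 * (Cfsg.Geo.quadSimilarityGroup (⇑Q)).relIndex (Cfsg.spGL d F) =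
      Fintype.card F ^ d * (Fintype.card F ^ d + 1)) ∧
    (¬ IsPlus Q → 2 * (Cfsg.Geo.quadSimilarityGroup (⇑Q)).relIndex (Cfsg.spGL d F) =
      Fintype.card F ^ d * (Fintype.card F ^ d - 1)) := by
  have h := index_mul hQf hd
  have hq : 2 ≤ Fintype.card F := Fintype.one_lt_card
  have hι : Fintype.card (Fin d ⊕ Fin d) = 2 * d := by
    simp only [Fintype.card_sum, Fintype.card_fin]; omega
  rw [card_spGL, Cfsg.Agent.S0245.result rfl] at h
  constructor
  · intro hP
    rw [card_isometryGroup_plus Q hQ hd hι hP] at h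
    simpa using index_arith hq hd true (by simpa using h)
  · intro hP
    rw [card_isometryGroup_minus Q hQ hd hι hP] at h
    simpa using index_arith hq hd false (by simpa using h)

omit [Fintype F] in
/-- In characteristic two the polar form of the plus form is the symplectic form. -/
theorem polar_plus_eq (h2 : (2 : F) = 0) (u v : Fin d ⊕ Fin d → F) :
    polar (LieClassical.OrthForms.plusForm d F) u v = Cfsg.sympForm d F u v := by
  rw [LieClassical.OrthForms.polar_plusForm, ClassicalGeometry.SympBasic.sympForm_eq_sum]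
  refine Finset.sum_congr rfl fun i _ => ?_
  linear_combination (u (.inl i) * v (.inr i)) * h2

/-- The odd case of the negative direction. -/
theorem odd_case [CharP F 2] (hQf : ∀ u v, polar Q u v = Cfsg.sympForm d F u v) (hQ : Nondeg Q) (hd : 1 ≤ d)
    {r : ℕ} [Fact r.Prime] (hr2 : r ≠ 2)
    (hΩ : r ∣ (Cfsg.Geo.quadSimilarityGroup (⇑Q)).relIndex (Cfsg.spGL d F)) :
    ∃ x ∈ Cfsg.spGL d F, x ^ r = 1 ∧ (∀ z : F, (x : Matrix (Fin d ⊕ Fin d) (Fin d ⊕ Fin d) F) ≠
        z • (1 : Matrix (Fin d ⊕ Fin d) (Fin d ⊕ Fin d) F)) ∧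
      ∀ g ∈ Cfsg.spGL d F, g⁻¹ * x * g ∉ Cfsg.Geo.quadSimilarityGroup (⇑Q) := by
  have h2 : (2 : F) = 0 := CharTwo.two_eq_zero
  have hrp : r.Prime := Fact.out
  have hι : Fintype.card (Fin d ⊕ Fin d) = 2 * d := by
    simp only [Fintype.card_sum, Fintype.card_fin]; omega
  have hfr : finrank F (Fin d ⊕ Fin d → F) = 2 * d := by
    rw [Module.finrank_fintype_fun_eq_card, hι]
  obtain ⟨h1, h1'⟩ := two_mul_index hQf hQ hd
  have hr : (r : F) ≠ 0 := by
    rw [Ne, CharP.cast_eq_zero_iff F 2 r]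
    intro h
    exact hr2 ((Nat.prime_dvd_prime_iff_eq Nat.prime_two hrp).1 h).symm
  obtain ⟨n, -, hn⟩ := FiniteField.card F 2
  have hrq : ¬ r ∣ Fintype.card F := by
    rw [hn]
    intro h
    exact hr2 ((Nat.prime_dvd_prime_iff_eq hrp Nat.prime_two).1 (hrp.dvd_of_dvd_pow h))
  have hrq' : ∀ m, ¬ r ∣ Fintype.card F ^ m := fun m h => hrq (hrp.dvd_of_dvd_pow h)
  have hq : 2 ≤ Fintype.card F := Fintype.one_lt_card
  -- `q ^ d = ∓ 1`
  have hε : (IsPlus Q → (Fintype.card F : ZMod r) ^ d = -1) ∧ (¬ IsPlus Q → (Fintype.card F : ZMod r) ^ d = 1) := by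
    constructor
    · intro hP
      have h3 : r ∣ Fintype.card F ^ d * (Fintype.card F ^ d + 1) := by
        rw [← h1 hP]; exact Dvd.dvd.mul_left hΩ 2
      have h4 := (hrp.dvd_mul.1 h3).resolve_left (hrq' d)
      rw [← ZMod.natCast_eq_zero_iff] at h4
      push_cast at h4
      exact eq_neg_of_add_eq_zero_left h4
    · intro hP
      have h3 : r ∣ Fintype.card F ^ d * (Fintype.card F ^ d - 1) := by
        rw [← h1' hP]; exact Dvd.dvd.mul_left hΩ 2
      have h4 := (hrp.dvd_mul.1 h3).resolve_left (hrq' d)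
      rw [← ZMod.natCast_eq_zero_iff, Nat.cast_sub (Nat.one_le_pow _ _ (by omega))] at h4
      push_cast at h4
      exact sub_eq_zero.1 h4
  have hsq : (Fintype.card F : ZMod r) ^ (2 * d) = 1 := by
    rw [mul_comm, pow_mul]
    by_cases hP : IsPlus Q
    · rw [hε.1 hP]; ring
    · rw [hε.2 hP]; ring
  have hA : (polarBilin Q).IsAlt := fun v => polar_self_two Q v
  obtain ⟨g, hg, hgr, hgf⟩ := exists_no_fix_symp (polarBilin Q) (nondegenerate_of_nondeg hQ) hA hr (by
    rw [hfr, ← ZMod.natCast_eq_zero_iff, Nat.cast_sub (Nat.one_le_pow _ _ (by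
      rw [Nat.card_eq_fintype_card]; omega))]
    push_cast
    rw [Nat.card_eq_fintype_card, hsq, sub_self])
  have hgsp : glOf g ∈ Cfsg.spGL d F := by
    rw [mem_sp_iff hQf]
    intro u v
    rw [glOf_mulVec, glOf_mulVec]
    exact hg u v
  have hgr' : glOf g ^ r = 1 := by rw [← glOf_pow, hgr, glOf_one]
  have h12 : (1 : ZMod r) ≠ -1 := H955.one_ne_neg_one_zmod (by
    have := hrp.two_le
    omega)
  refine ⟨glOf g, hgsp, hgr', ?_, ?_⟩
  · intro z hz
    have hz' : ∀ v, g v = z • v := by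
      intro v
      rw [← glOf_mulVec, hz, Matrix.smul_mulVec, Matrix.one_mulVec]
    obtain ⟨u, v, huv⟩ := exists_pair hQf hd
    have h5 := hg u v
    rw [hz', hz', polarBilin_apply_apply, polarBilin_apply_apply, polar_smul_left, polar_smul_right] at h5
    simp only [smul_eq_mul, ← mul_assoc] at h5
    have h6 : z * z = 1 := mul_right_cancel₀ huv (by rw [h5, one_mul])
    have h7 : z = 1 := eq_of_sq_eq h2 (by rw [h6, one_mul])
    have h8 := hgf u (by rw [hz', h7, one_smul])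
    rw [h8, polar_zero_left] at huv
    exact huv rfl
  · intro k hk hmem
    set y := k⁻¹ * glOf g * k with hy
    have hysp : y ∈ Cfsg.spGL d F :=
      Subgroup.mul_mem _ (Subgroup.mul_mem _ (Subgroup.inv_mem _ hk) hgsp) hk
    have hyQ := (mem_inf_iff hQf hd y hysp).1 hmem
    have hyr : y ^ r = 1 := by
      have : y = k⁻¹ * glOf g * k⁻¹⁻¹ := by rw [inv_inv]
      rw [this, conj_pow, hgr', mul_one, mul_inv_cancel]
    have hyf : ∀ v, eOf y v = v → v = 0 := by
      intro v hv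
      have h3 : glOf g * k = k * y := by rw [hy]; group
      have h4 := congrArg (fun m : GL (Fin d ⊕ Fin d) F => (m : Matrix (Fin d ⊕ Fin d) (Fin d ⊕ Fin d) F) *ᵥ v) h3
      rw [Units.val_mul, Units.val_mul, ← Matrix.mulVec_mulVec, ← Matrix.mulVec_mulVec, glOf_mulVec,
        ← eOf_apply y, hv] at h4
      have h5 := hgf _ h4
      have h6 : eOf k v = 0 := h5
      simpa using h6
    have hT : eOf y ∈ LieClassical.OrthCore.O Q := fun v => hyQ v
    have hTr : eOf y ^ r = 1 := by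
      apply LinearEquiv.ext
      intro v
      rw [← eOf_glOf (eOf y ^ r), glOf_pow, glOf_eOf, hyr]
      simp [eOf_apply]
    have hNq : ¬ r ∣ Nat.card F := by rw [Nat.card_eq_fintype_card]; exact hrq
    obtain ⟨h5, h6⟩ := H955.pow_eq_of_free hQ hfr hT hNq hTr hyf
    rw [Nat.card_eq_fintype_card] at h5 h6
    by_cases hP : IsPlus Q
    · exact h12 ((h5 hP).symm.trans (hε.1 hP))
    · exact h12 ((hε.2 hP).symm.trans (h6 hP))

/-- The case `r = 2`, `d` even, minus type: an involution not conjugate into the orthogonal group. -/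
theorem even_case [CharP F 2] (hQf : ∀ u v, polar Q u v = Cfsg.sympForm d F u v) (hQ : Nondeg Q) (hd : 1 ≤ d)
    (he : Even d) (hP : ¬ IsPlus Q) :
    ∃ x ∈ Cfsg.spGL d F, x ^ 2 = 1 ∧ (∀ z : F, (x : Matrix (Fin d ⊕ Fin d) (Fin d ⊕ Fin d) F) ≠
        z • (1 : Matrix (Fin d ⊕ Fin d) (Fin d ⊕ Fin d) F)) ∧
      ∀ g ∈ Cfsg.spGL d F, g⁻¹ * x * g ∉ Cfsg.Geo.quadSimilarityGroup (⇑Q) := by
  have h2 : (2 : F) = 0 := CharTwo.two_eq_zero
  set x := glOf (uEquiv (d := d) h2) with hx
  have hmv : ∀ v, (x : Matrix (Fin d ⊕ Fin d) (Fin d ⊕ Fin d) F) *ᵥ v = uFun v := fun v => by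
    rw [hx, glOf_mulVec]; rfl
  have hpol : ∀ u v, polar Q (uFun u) (uFun v) = polar Q u v := by
    intro u v
    rw [hQf, hQf, ← polar_plus_eq h2, ← polar_plus_eq h2]
    have hadd : uFun u + uFun v = uFun (u + v) := (map_add (uEquiv (d := d) h2) u v).symm
    simp only [polar]
    rw [hadd, plusForm_uFun h2 he, plusForm_uFun h2 he, plusForm_uFun h2 he]
  have hxsp : x ∈ Cfsg.spGL d F := by
    rw [mem_sp_iff hQf]
    intro u v
    rw [hmv, hmv, hpol]
  refine ⟨x, hxsp, ?_, ?_, ?_⟩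
  · rw [hx, ← glOf_pow, uEquiv_sq h2, glOf_one]
  · intro z hz
    -- evaluate on a vector with non-zero second half
    let i₀ : Fin d := ⟨0, by omega⟩
    have h1 := hmv (Pi.single (Sum.inr i₀) 1)
    rw [hz, Matrix.smul_mulVec, Matrix.one_mulVec] at h1
    have h3 := congrFun h1 (Sum.inl i₀.rev)
    simp [uFun] at h3
  · intro k hk hmem
    set y := k⁻¹ * x * k with hy
    have hysp : y ∈ Cfsg.spGL d F :=
      Subgroup.mul_mem _ (Subgroup.mul_mem _ (Subgroup.inv_mem _ hk) hxsp) hk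
    have hyQ := (mem_inf_iff hQf hd y hysp).1 hmem
    let R : QuadraticForm F (Fin d ⊕ Fin d → F) :=
      Q.comp (eOf k⁻¹ : (Fin d ⊕ Fin d → F) →ₗ[F] (Fin d ⊕ Fin d → F))
    have hRapp : ∀ v, R v = Q (((k⁻¹ : GL (Fin d ⊕ Fin d) F) : Matrix (Fin d ⊕ Fin d) (Fin d ⊕ Fin d) F) *ᵥ v) :=
      fun v => rfl
    have hRx : ∀ v, R (uFun v) = R v := by
      intro v
      have h3 : k⁻¹ * x = y * k⁻¹ := by rw [hy]; group
      have h4 := congrArg (fun m : GL (Fin d ⊕ Fin d) F => (m : Matrix (Fin d ⊕ Fin d) (Fin d ⊕ Fin d) F) *ᵥ v) h3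
      rw [Units.val_mul, Units.val_mul, ← Matrix.mulVec_mulVec, ← Matrix.mulVec_mulVec, hmv] at h4
      rw [hRapp, hRapp, h4, hyQ]
    have hRpol : ∀ u v, polar R u v = polar Q u v := by
      intro u v
      have h3 := (mem_sp_iff hQf k⁻¹).1 (Subgroup.inv_mem _ hk) u v
      rw [← h3]
      simp only [polar, hRapp, Matrix.mulVec_add]
    have hRn : Nondeg R := fun w hw => hQ w fun v => by rw [← hRpol]; exact hw v
    have hRe : ∀ v, Q (eOf k⁻¹ v) = R v := fun v => rfl
    apply hP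
    rw [← H955.isPlus_iff_of_equiv (eOf k⁻¹) hRe]
    refine H955.isPlus_of_le hRn (U := ClassicalGeometry.QuadPlusBasic.stdX d F) ?_ ?_
    · intro w hw
      rw [ClassicalGeometry.QuadPlusBasic.mem_stdX] at hw
      let v : Fin d ⊕ Fin d → F := Sum.elim (fun _ => 0) (fun i => w (.inl i.rev))
      have hw' : w = uFun v + v := by
        funext i
        rcases i with i | i
        · simp [uFun, v]
        · have : w (.inr i) = 0 := hw i
          rw [this]
          simp only [uFun, v, Pi.add_apply, Sum.elim_inr]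
          rw [← two_mul, h2, zero_mul]
      have hplus : ∀ v : Fin d ⊕ Fin d → F, polar (LieClassical.OrthForms.plusForm d F) (uFun v) v = 0 := by
        intro v
        have h5 : LieClassical.OrthForms.plusForm d F (uFun v + v) = 0 := by
          rw [LieClassical.OrthForms.coe_plusForm, LieClassical.OrthForms.quadFormPlus_apply]
          refine Finset.sum_eq_zero fun i _ => ?_
          have : (uFun v + v) (.inr i) = 0 := by
            simp only [uFun, Pi.add_apply, Sum.elim_inr]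
            rw [← two_mul, h2, zero_mul]
          rw [this, mul_zero]
        have h6 : polar (LieClassical.OrthForms.plusForm d F) (uFun v) v =
          LieClassical.OrthForms.plusForm d F (uFun v + v) - LieClassical.OrthForms.plusForm d F (uFun v) -
            LieClassical.OrthForms.plusForm d F v := rfl
        rw [h6, h5, plusForm_uFun h2 he]
        linear_combination (- LieClassical.OrthForms.plusForm d F v) * h2
      rw [hw', QuadraticMap.map_add R, hRx, hRpol, hQf, ← polar_plus_eq h2, hplus]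
      linear_combination (R v) * h2
    · rw [Module.finrank_fintype_fun_eq_card, ClassicalGeometry.QuadPlusBasic.finrank_stdX]
      simp only [Fintype.card_sum, Fintype.card_fin]; omega

/-- The positive direction. -/
theorem pos_case [CharP F 2] (hQf : ∀ u v, polar Q u v = Cfsg.sympForm d F u v) (hQ : Nondeg Q) (hd : 1 ≤ d)
    (h : IsPlus Q ∨ Odd d) (x : GL (Fin d ⊕ Fin d) F) (hx : x ∈ Cfsg.spGL d F) {z : F}
    (hz : ((x ^ 2 : GL (Fin d ⊕ Fin d) F) : Matrix (Fin d ⊕ Fin d) (Fin d ⊕ Fin d) F) =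
      z • (1 : Matrix (Fin d ⊕ Fin d) (Fin d ⊕ Fin d) F)) :
    ∃ g ∈ Cfsg.spGL d F, g⁻¹ * x * g ∈ Cfsg.Geo.quadSimilarityGroup (⇑Q) := by
  have h2 : (2 : F) = 0 := CharTwo.two_eq_zero
  have hι : Fintype.card (Fin d ⊕ Fin d) = 2 * d := by
    simp only [Fintype.card_sum, Fintype.card_fin]; omega
  have hfr : finrank F (Fin d ⊕ Fin d → F) = 2 * d := by
    rw [Module.finrank_fintype_fun_eq_card, hι]
  have hxp := (mem_sp_iff hQf x).1 hx
  have hz1 : z = 1 := by
    obtain ⟨u, v, huv⟩ := exists_pair hQf hd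
    have h1 : polar Q (((x ^ 2 : GL (Fin d ⊕ Fin d) F) : Matrix (Fin d ⊕ Fin d) (Fin d ⊕ Fin d) F) *ᵥ u)
        (((x ^ 2 : GL (Fin d ⊕ Fin d) F) : Matrix (Fin d ⊕ Fin d) (Fin d ⊕ Fin d) F) *ᵥ v) = polar Q u v := by
      rw [pow_two, Units.val_mul, ← Matrix.mulVec_mulVec, ← Matrix.mulVec_mulVec, hxp, hxp]
    rw [hz, Matrix.smul_mulVec, Matrix.smul_mulVec, Matrix.one_mulVec, Matrix.one_mulVec, polar_smul_left,
      polar_smul_right] at h1
    simp only [smul_eq_mul, ← mul_assoc] at h1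
    have h6 : z * z = 1 := mul_right_cancel₀ huv (by rw [h1, one_mul])
    exact eq_of_sq_eq h2 (by rw [h6, one_mul])
  have hxx : x ^ 2 = 1 := by
    apply Units.ext
    rw [hz, hz1, one_smul, Units.val_one]
  set T : Module.End F (Fin d ⊕ Fin d → F) :=
    Matrix.toLin' (x : Matrix (Fin d ⊕ Fin d) (Fin d ⊕ Fin d) F) with hT
  have hTT : T * T = 1 := by
    rw [hT, Module.End.mul_eq_comp, ← Matrix.toLin'_mul, ← Units.val_mul, ← pow_two, hxx, Units.val_one,
      Matrix.toLin'_one]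
    rfl
  obtain ⟨R, hRpol, hRx, hRQ⟩ := exists_invariant_type hQ hfr T hTT hxp h
  have hRn : Nondeg R := fun w hw => hQ w fun v => by rw [← hRpol]; exact hw v
  obtain ⟨e, he⟩ := H955.exists_equiv_of_isPlus_iff hRn hQ (by rw [hfr]; exact even_two_mul d) rfl hRQ
  have heinv : ∀ v, R (e.symm v) = Q v := fun v => by rw [← he, LinearEquiv.apply_symm_apply]
  have hg : glOf e.symm ∈ Cfsg.spGL d F := by
    rw [mem_sp_iff hQf]
    intro u v
    rw [glOf_mulVec, glOf_mulVec, ← hRpol]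
    simp only [polar, ← map_add, heinv]
  refine ⟨glOf e.symm, hg, ?_⟩
  set g := glOf e.symm with hgdef
  have hgsp : g⁻¹ * x * g ∈ Cfsg.spGL d F :=
    Subgroup.mul_mem _ (Subgroup.mul_mem _ (Subgroup.inv_mem _ hg) hx) hg
  rw [mem_inf_iff hQf hd _ hgsp]
  intro v
  have hginv : g⁻¹ = glOf e := by
    rw [inv_eq_iff_mul_eq_one, hgdef, ← glOf_mul, ← glOf_one]
    congr 1
    apply LinearEquiv.ext
    intro w
    simp
  rw [hginv, Units.val_mul, Units.val_mul, ← Matrix.mulVec_mulVec, ← Matrix.mulVec_mulVec, glOf_mulVec, he,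
    hgdef, glOf_mulVec]
  have h5 := hRx (e.symm v)
  rw [hT, Matrix.toLin'_apply] at h5
  rw [h5, heinv]

end

/-- Elements of prime order of PSp_n(q), q even, and the subgroups of orthogonal type. Here `T = Sp_{2d}(F)` for a field `F` of characteristic 2 with `q` elements (`d ≥ 2`, `(d, q) ≠ (2, 2)`), realised as the invertible matrices preserving the standard alternating form; `Q` is a non-degenerate quadratic form on `F^{2d}` whose polar form is that alternating form, and `H` is the subgroup of `T` preserving `Q` up to a scalar (equivalently preserving `Q`) — a subgroup of type O^±_{2d}(q) (maximality is not assumed); `Q` is of plus type when `F^{2d}` contains a `d`-dimensional subspace on which `Q` vanishes, of minus type otherwise. Ω is the set of cosets of `H` in `T`, so an element of `T` of prime order `r` (`x ∈ T` with `x^r` scalar, `x` not scalar) fixes a point of Ω exactly when some `T`-conjugate of `x` preserves `Q`. Let `r` be a prime dividing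 the index of `H`. Then every element of `T` of order `r` fixes a point of Ω if and only if `r = 2` and either `Q` is of plus type or `d` is odd. -/
theorem result {F : Type*} [Field F] [Fintype F] {p : ℕ} [Fact p.Prime] [CharP F p] {q : ℕ} (hq : Fintype.card F = q)
    (hp : p = 2) (d : ℕ) (hd : 2 ≤ d) (hT : (d, q) ≠ (2, 2)) (Q : (Fin d ⊕ Fin d → F) → F) (hQ : Cfsg.Geo.IsNondegenerateQuadraticForm Q)
    (hQf : ∀ u v, QuadraticMap.polar Q u v = Cfsg.sympForm d F u v)
    (r : ℕ) [Fact r.Prime]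
    (hΩ : r ∣ (Cfsg.Geo.quadSimilarityGroup Q).relIndex (Cfsg.spGL d F)) :
    (∀ x ∈ Cfsg.spGL d F, (∃ z : F, ((x ^ r : GL (Fin d ⊕ Fin d) F) : Matrix (Fin d ⊕ Fin d) (Fin d ⊕ Fin d) F) = z • (1 : Matrix (Fin d ⊕ Fin d) (Fin d ⊕ Fin d) F)) →
      (∀ z : F, (x : Matrix (Fin d ⊕ Fin d) (Fin d ⊕ Fin d) F) ≠ z • (1 : Matrix (Fin d ⊕ Fin d) (Fin d ⊕ Fin d) F)) →
      ∃ g ∈ Cfsg.spGL d F, g⁻¹ * x * g ∈ Cfsg.Geo.quadSimilarityGroup Q) ↔
    (r = 2 ∧ (Cfsg.Geo.IsPlusTypeOn Q ⊤ ∨ Odd d)) := by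
  subst hq
  subst hp
  have h2 : (2 : F) = 0 := CharTwo.two_eq_zero
  obtain ⟨Q', rfl⟩ := exists_quadForm hQ
  have hQn : Nondeg Q' := by
    intro x hx
    by_contra hx0
    obtain ⟨-, y, hy⟩ := hQ.nondegenerate x hx0
    exact hy (hx y)
  have hQn' := nondegenerate_of_nondeg hQn
  have hι : Fintype.card (Fin d ⊕ Fin d) = 2 * d := by
    simp only [Fintype.card_sum, Fintype.card_fin]; omega
  have hfr : finrank F (Fin d ⊕ Fin d → F) = 2 * d := by
    rw [Module.finrank_fintype_fun_eq_card, hι]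
  have hidx := two_mul_index hQf hQn (by omega)
  rw [isPlusTypeOn_top]
  constructor
  · intro H
    have hr2 : r = 2 := by
      by_contra hr2
      obtain ⟨x, hx, hxr, hxs, hxf⟩ := odd_case hQf hQn (by omega) hr2 hΩ
      obtain ⟨g, hg, hgx⟩ := H x hx ⟨1, by rw [hxr]; simp⟩ hxs
      exact hxf g hg hgx
    refine ⟨hr2, ?_⟩
    subst hr2
    by_contra hcon
    push Not at hcon
    obtain ⟨hP, hodd⟩ := hcon
    rw [Nat.not_odd_iff_even] at hodd
    obtain ⟨x, hx, hxr, hxs, hxf⟩ := even_case hQf hQn (by omega) hodd hP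
    obtain ⟨g, hg, hgx⟩ := H x hx ⟨1, by rw [hxr]; simp⟩ hxs
    exact hxf g hg hgx
  · rintro ⟨rfl, h⟩ x hx ⟨z, hz⟩ -
    exact pos_case hQf hQn (by omega) h x hx hz

end Cfsg.Agent.S5983
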