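import Cfsg.Statements.S5988
import Cfsg.Agent.H958.TransP
import Cfsg.Agent.LieClassical.OrthForms

set_option autoImplicit false
open scoped MatrixGroups
open Cfsg

namespace Cfsg.Agent.S5988

open Cfsg.Agent.H958 Cfsg.Agent.H955 Cfsg.Agent.LieClassical.OrthCore Cfsg.Agent.LieClassical.OrthTrans
  Cfsg.Agent.LieClassical.OrthFinite Cfsg.Agent.LieClassical.OrthForms

/-- Elements of prime order of PΩ⁺_n(q) with no fixed elliptic `m`-space. Here `T = PΩ⁺_n(F)`, `n = 2d ≥ 8`, realised through `Ω⁺_n(q)`, the commutator subgroup of the isometry group of `Q = Σ xᵢyᵢ` over the field `F` with `q` elements; an element of `T` of prime order `r` is an element `x` of `Ω⁺_n(q)` with `x^r` scalar and `x` not scalar; a nondegenerate `m`-space (even `m`) is a subspace on which the polar form of `Q` is nondegenerate; it is hyperbolic if it contains an `m/2`-dimensional subspace on which `Q` vanishes, elliptic otherwise. Let `m` be even with `2 ≤ m < n/2` and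 let `r` be a prime dividing the number of elliptic `m`-spaces; for `r ≠ p` let `i` be the multiplicative order of `q` modulo `r`, `c = i` for `i` even and `c = 2i` for `i` odd, and write `k = n mod c`, `ℓ = m mod i`, `ℓ' = m mod c`, `n' = ⌊n/i⌋`, `m' = ⌊m/i⌋`, `t = (r−1)/i`. Then every element of `T` of order `r` fixes some elliptic `m`-space if and only if one of: (i) `r = 2 ≠ p` and either `n ≡ 0 (mod 4)`, `q ≡ 3 (mod 4)` and `m ≡ 2 (mod 4)`, or `n ≡ 2 (mod 4)` and `q ≢ 1 (mod 8)`; (ii) `r ≠ p` odd, `i` odd, `c ≤ m` and `k > ℓ' > 0`; (iii) `r ≠ p` odd, `i` even, and either `k = 0` and (`n/i` odd, or `ℓ' = 0` and `m/i` odd), or `i ≤ m` and (`k > ℓ' > 0`, or `k = ℓ' > 0` and `(n + m − 2k)/i` odd, or `k > ℓ' = 0` and `m/i` odd). (For `r = p` there is always an element of order `p` fixing no elliptic `m`-space.) -/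
theorem result {F : Type*} [Field F] [Fintype F] {p : ℕ} [Fact p.Prime] [CharP F p] {q : ℕ} (hq : Fintype.card F = q)
    (d m : ℕ) (hd : 4 ≤ d) (hm : 2 ≤ m) (hme : Even m) (hmd : m < d)
    (r : ℕ) [Fact r.Prime]
    (hrΩ : r ∣ Nat.card {W : Submodule F (Fin d ⊕ Fin d → F) // Module.finrank F ↥W = m ∧ Cfsg.Geo.IsNondegenerateOn (QuadraticMap.polar (Cfsg.quadFormPlus d F)) W ∧ ¬ Cfsg.Geo.IsPlusTypeOn (Cfsg.quadFormPlus d F) W})
    (i c : ℕ) (hi : i = orderOf (q : ZMod r)) (hc : c = if Even i then i else 2 * i) :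
    (∀ x : GL (Fin d ⊕ Fin d) F, x ∈ Cfsg.Geo.omegaGL (Cfsg.quadFormPlus d F) →
      (∃ z : F, ((x ^ r : GL (Fin d ⊕ Fin d) F) : Matrix (Fin d ⊕ Fin d) (Fin d ⊕ Fin d) F) = z • (1 : Matrix (Fin d ⊕ Fin d) (Fin d ⊕ Fin d) F)) →
      (∀ z : F, (x : Matrix (Fin d ⊕ Fin d) (Fin d ⊕ Fin d) F) ≠ z • (1 : Matrix (Fin d ⊕ Fin d) (Fin d ⊕ Fin d) F)) →
      ∃ W : Submodule F (Fin d ⊕ Fin d → F), (Module.finrank F ↥W = m ∧ Cfsg.Geo.IsNondegenerateOn (QuadraticMap.polar (Cfsg.quadFormPlus d F)) W ∧ ¬ Cfsg.Geo.IsPlusTypeOn (Cfsg.quadFormPlus d F) W) ∧ W.map (Matrix.toLin' (x : Matrix (Fin d ⊕ Fin d) (Fin d ⊕ Fin d) F)) ≤ W) ↔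
    ((r = 2 ∧ p ≠ 2 ∧ ((Even d ∧ q % 4 = 3 ∧ m % 4 = 2) ∨ (Odd d ∧ q % 8 ≠ 1))) ∨
     (r ≠ p ∧ 2 < r ∧ Odd i ∧ c ≤ m ∧ 0 < m % c ∧ m % c < (2 * d) % c) ∨
     (r ≠ p ∧ 2 < r ∧ Even i ∧
       (((2 * d) % c = 0 ∧ (Odd ((2 * d) / i) ∨ (m % c = 0 ∧ Odd (m / i)))) ∨
        (i ≤ m ∧ ((0 < m % c ∧ m % c < (2 * d) % c) ∨
                  (0 < m % c ∧ m % c = (2 * d) % c ∧ Odd ((2 * d + m - 2 * ((2 * d) % c)) / i)) ∨
                  (m % c = 0 ∧ 0 < (2 * d) % c ∧ Odd (m / i))))))) := by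
  rw [← coe_plusForm] at hrΩ ⊢
  have hQ : Nondeg (plusForm d F) := nondeg_plus d
  have hdim : Module.finrank F (Fin d ⊕ Fin d → F) = 2 * d := finrank_plus d
  have hQp : IsPlus (plusForm d F) := isPlus_plus d
  set Q := plusForm d F with hQdef
  have hG : Good Q := good_of_finite hQ (by rw [hdim]; omega)
  obtain ⟨m', rfl⟩ : ∃ m', m = 2 * m' := ⟨m / 2, by obtain ⟨k, hk⟩ := hme; omega⟩
  have hiff : ∀ W : Submodule F (Fin d ⊕ Fin d → F),
      (¬ IsPlus (res Q W)) = (IsPlus (res Q W) ↔ False) := fun W => (iff_false _).symm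
  simp only [nondegOn_iff, plusOn_iff, hiff] at hrΩ ⊢
  have hVe : Even (Module.finrank F (Fin d ⊕ Fin d → F)) := by rw [hdim]; exact even_two_mul d
  by_cases hrp : r = p
  · -- `r = p`
    refine iff_of_false ?_ ?_
    · obtain ⟨U, hU, hUd⟩ : ∃ U : Submodule F (Fin d ⊕ Fin d → F), (∀ u ∈ U, Q u = 0) ∧
          Module.finrank F U = 2 * (d / 2) := by
        rcases Nat.even_or_odd d with ⟨k, hk⟩ | ⟨k, hk⟩
        · obtain ⟨U, hU, hUd⟩ := hQp
          exact ⟨U, hU, by omega⟩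
        · exact exists_tsing hQ hdim (by omega) (by omega)
      obtain ⟨T, hT, hJ, hTU⟩ := exists_JTwo hQ hU hUd
      refine not_of_elt hG _ hT (by rw [hrp]; exact hJ.pow_char)
        (hJ.not_scalar hQ (by rw [hTU]; omega)) ?_
      rintro W ⟨hWd, hW, hWp⟩ hWT
      obtain ⟨a, b, hab, -, -, ha, hb, ha', hb'⟩ := hJ.split hQ hW hWT
      have hPd := finrank_add_perp hQ W
      have h1 := isPlus_iff_perp hQ hW hVe (by rw [hWd]; exact even_two_mul _)
      rw [hTU, hUd] at hab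
      rw [hWd] at ha ha' hPd
      rw [hdim] at hPd
      have h3 : ¬ (2 * m' = 2 * a) := fun h => hWp.1 (ha' h)
      have h4 : ¬ (Module.finrank F (perp Q W) = 2 * b) := fun h => hWp.1 ((h1.1 hQp).2 (hb' h))
      omega
    · rintro (⟨h, h', -⟩ | ⟨h, -⟩ | ⟨h, -⟩)
      · exact h' (hrp ▸ h)
      · exact h hrp
      · exact h hrp
  by_cases hr2 : r = 2
  · subst hr2
    have hp2 : p ≠ 2 := fun h => hrp h.symm
    have h2 : (2 : F) ≠ 0 := two_ne_zero_of_ne hp2
    obtain ⟨W, hWn, hWd, hWp⟩ := exists_subspace hQ hVe m' (by omega) (by omega) False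
    have hWe : Even (Module.finrank F W) := by rw [hWd]; exact even_two_mul _
    rw [transfer_two (W₀ := W) hG _ (fun W' => by
      rw [← class_even hQ hWn hWe, hWd, hWp]),
      two_main h2 hG hdim hWn hWd (by omega) (by omega), FiniteField.isSquare_neg_one_iff,
      FiniteField.isSquare_two_iff, hq]
    have hqo : q % 2 = 1 := by
      rw [← hq]
      exact FiniteField.odd_card_of_char_ne_two (by rwa [ringChar.eq F p])
    simp only [hQp, hWp, true_iff, false_iff, Nat.even_iff, Nat.odd_iff, lt_irrefl, false_and,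
      and_false, or_false, true_and, ne_eq, hp2, not_false_eq_true]
    omega
  · have hr3 : 2 < r := lt_of_le_of_ne (Fact.out : r.Prime).two_le (Ne.symm hr2)
    have hrF : (r : F) ≠ 0 := cast_ne_zero hrp
    have hbk := bk_eq' hq hi hc
    obtain ⟨h1, h2⟩ := even_main hG hr3 hrF hdim (even_two_mul d) (by omega : 0 < m') (by omega) False
      hrΩ hbk
    have hc0 : 0 < c := by rw [← hbk]; exact bk_pos hrF
    rw [h1]
    simp only [hQp, true_iff, false_iff, not_true_eq_false] at h2 ⊢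
    rcases Nat.even_or_odd i with hie | hio
    · have hci : c = i := by rw [hc, if_pos hie]
      simp only [dl_even hq hi hie] at h2 ⊢
      rw [num_pm_even hc0 (by omega) (fun h => (h2 h).1), hci]
      simp only [hr2, hrp, hr3, hie, Nat.not_odd_iff_even.2 hie, false_and, and_false, false_or,
        true_and, ne_eq, not_false_eq_true]
    · simp only [dl_odd hq hi hio, not_true_eq_false] at h2 ⊢
      rw [num_pm_odd (fun h => (h2 h).1)]
      simp only [hr2, hrp, hr3, hio, Nat.not_even_iff_odd.2 hio, false_and, and_false, false_or,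
        or_false, true_and, ne_eq, not_false_eq_true]

end Cfsg.Agent.S5988
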