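import Cfsg.Statements.S5990
import Cfsg.Agent.H958.TransTwo
import Cfsg.Agent.LieClassical.QuadForms

set_option autoImplicit false
open scoped MatrixGroups
open Cfsg

namespace Cfsg.Agent.S5990

open Cfsg.Agent.H958 Cfsg.Agent.H955 Cfsg.Agent.LieClassical.OrthCore Cfsg.Agent.LieClassical.OrthTrans
  Cfsg.Agent.LieClassical.OrthFinite Cfsg.Agent.LieClassical.QuadForms

/-- Elements of prime order of PΩ⁻_n(q) with no fixed elliptic `m`-space. Here `T = PΩ⁻_n(F)`, `n = 2d ≥ 8`, realised through `Ω⁻_n(q)`, the commutator subgroup of the isometry group of `Q = Σ_{i<d−1} xᵢyᵢ + z₁² + a z₁z₂ + b z₂²` with `z₁² + a z₁z₂ + b z₂²` anisotropic, over the field `F` with `q` elements; an element of `T` of prime order `r` is an element `x` of `Ω⁻_n(q)` with `x^r` scalar and `x` not scalar; a nondegenerate `m`-space (even `m`) is a subspace on which the polar form of `Q` is nondegenerate; it is hyperbolic if it contains an `m/2`-dimensional subspace on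 which `Q` vanishes, elliptic otherwise. Let `m` be even with `2 ≤ m ≤ n − 2` (no restriction `m < n/2`: fixing an elliptic `m`-space is the same as fixing its hyperbolic orthogonal complement) and let `r` be a prime dividing the number of elliptic `m`-spaces, with `r = 2` or `r ≠ p`; for `r ≠ p` let `i` be the multiplicative order of `q` modulo `r`, `c = i` for `i` even and `c = 2i` for `i` odd, and write `k = n mod c`, `ℓ = m mod i`, `ℓ' = m mod c`, `n' = ⌊n/i⌋`, `m' = ⌊m/i⌋`, `t = (r−1)/i`. Then every element of `T` of order `r` fixes some elliptic `m`-space if and only if one of: (i) `r = p = 2` and (`n ≡ 0 (mod 4)` or `m ≡ 2 (mod 4)`); (ii) `r = 2 ≠ p` and (`n ≡ 0 (mod 4)`, or `q ≢ 7 (mod 8)`, or `m ≡ 2 (mod 4)`); (iii) `r ≠ p` odd, `i` odd, and `k = 0` or (`c ≤ m` and `k ≥ ℓ' > 0`); (iv) `r ≠ p` odd, `i` even, and either `k = 0` and (`n/i` even, or `ℓ' = 0` and `m/i` odd), or `k > 0`, `i ≤ m` and (`k > ℓ' > 0`, or `ℓ' = 0` and `m/i`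 odd, or `k = ℓ'` and `(n + m − 2k)/i` even). (Odd `r = p` is not covered by this statement.) -/
theorem result {F : Type*} [Field F] [Fintype F] {p : ℕ} [Fact p.Prime] [CharP F p] {q : ℕ} (hq : Fintype.card F = q)
    (d m : ℕ) (hd : 4 ≤ d) (hm : 2 ≤ m) (hme : Even m) (hmn : m + 2 ≤ 2 * d) (a b : F) (hab : ∀ x y : F, x ^ 2 + a * x * y + b * y ^ 2 = 0 → x = 0 ∧ y = 0)
    (r : ℕ) [Fact r.Prime] (hr : r = 2 ∨ r ≠ p)
    (hrΩ : r ∣ Nat.card {W : Submodule F ((Fin (d - 1) ⊕ Fin (d - 1)) ⊕ Fin 2 → F) // Module.finrank F ↥W = m ∧ Cfsg.Geo.IsNondegenerateOn (QuadraticMap.polar (Cfsg.quadFormMinus (d - 1) F a b)) W ∧ ¬ Cfsg.Geo.IsPlusTypeOn (Cfsg.quadFormMinus (d - 1) F a b) W})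
    (i c : ℕ) (hi : i = orderOf (q : ZMod r)) (hc : c = if Even i then i else 2 * i) :
    (∀ x : GL ((Fin (d - 1) ⊕ Fin (d - 1)) ⊕ Fin 2) F, x ∈ Cfsg.Geo.omegaGL (Cfsg.quadFormMinus (d - 1) F a b) →
      (∃ z : F, ((x ^ r : GL ((Fin (d - 1) ⊕ Fin (d - 1)) ⊕ Fin 2) F) : Matrix ((Fin (d - 1) ⊕ Fin (d - 1)) ⊕ Fin 2) ((Fin (d - 1) ⊕ Fin (d - 1)) ⊕ Fin 2) F) = z • (1 : Matrix ((Fin (d - 1) ⊕ Fin (d - 1)) ⊕ Fin 2) ((Fin (d - 1) ⊕ Fin (d - 1)) ⊕ Fin 2) F)) →
      (∀ z : F, (x : Matrix ((Fin (d - 1) ⊕ Fin (d - 1)) ⊕ Fin 2) ((Fin (d - 1) ⊕ Fin (d - 1)) ⊕ Fin 2) F) ≠ z • (1 : Matrix ((Fin (d - 1) ⊕ Fin (d - 1)) ⊕ Fin 2) ((Fin (d - 1) ⊕ Fin (d - 1)) ⊕ Fin 2) F)) →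
      ∃ W : Submodule F ((Fin (d - 1) ⊕ Fin (d - 1)) ⊕ Fin 2 → F), (Module.finrank F ↥W = m ∧ Cfsg.Geo.IsNondegenerateOn (QuadraticMap.polar (Cfsg.quadFormMinus (d - 1) F a b)) W ∧ ¬ Cfsg.Geo.IsPlusTypeOn (Cfsg.quadFormMinus (d - 1) F a b) W) ∧ W.map (Matrix.toLin' (x : Matrix ((Fin (d - 1) ⊕ Fin (d - 1)) ⊕ Fin 2) ((Fin (d - 1) ⊕ Fin (d - 1)) ⊕ Fin 2) F)) ≤ W) ↔
    ((r = 2 ∧ p = 2 ∧ (Even d ∨ m % 4 = 2)) ∨
     (r = 2 ∧ p ≠ 2 ∧ (Even d ∨ q % 8 ≠ 7 ∨ m % 4 = 2)) ∨
     (r ≠ p ∧ 2 < r ∧ Odd i ∧ ((2 * d) % c = 0 ∨ (c ≤ m ∧ 0 < m % c ∧ m % c ≤ (2 * d) % c))) ∨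
     (r ≠ p ∧ 2 < r ∧ Even i ∧
       (((2 * d) % c = 0 ∧ (Even ((2 * d) / i) ∨ (m % c = 0 ∧ Odd (m / i)))) ∨
        (0 < (2 * d) % c ∧ i ≤ m ∧ ((0 < m % c ∧ m % c < (2 * d) % c) ∨ (m % c = 0 ∧ Odd (m / i)) ∨
                                    (m % c = (2 * d) % c ∧ Even ((2 * d + m - 2 * ((2 * d) % c)) / i))))))) := by
  rw [← coe_minusForm] at hrΩ ⊢
  have hQ : Nondeg (minusForm (d - 1) F a b) := nondeg_minus (d - 1) hab
  have hdim : Module.finrank F ((Fin (d - 1) ⊕ Fin (d - 1)) ⊕ Fin 2 → F) = 2 * d := by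
    rw [finrank_minus]; omega
  have hQm : ¬ IsPlus (minusForm (d - 1) F a b) := not_isPlus_minus (d - 1) hab
  set Q := minusForm (d - 1) F a b with hQdef
  have hQf : IsPlus Q ↔ False := iff_of_false hQm id
  have hG : Good Q := good_of_finite hQ (by rw [hdim]; omega)
  obtain ⟨m', rfl⟩ : ∃ m', m = 2 * m' := ⟨m / 2, by obtain ⟨k, hk⟩ := hme; omega⟩
  have hiff : ∀ W : Submodule F ((Fin (d - 1) ⊕ Fin (d - 1)) ⊕ Fin 2 → F),
      (¬ IsPlus (res Q W)) = (IsPlus (res Q W) ↔ False) := fun W => (iff_false _).symm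
  simp only [nondegOn_iff, plusOn_iff, hiff] at hrΩ ⊢
  have hVe : Even (Module.finrank F ((Fin (d - 1) ⊕ Fin (d - 1)) ⊕ Fin 2 → F)) := by
    rw [hdim]; exact even_two_mul d
  by_cases hr2 : r = 2
  · subst hr2
    obtain ⟨W, hWn, hWd, hWp⟩ := exists_subspace hQ hVe m' (by omega) (by omega) False
    have hWe : Even (Module.finrank F W) := by rw [hWd]; exact even_two_mul _
    by_cases hp2 : p = 2
    · -- `r = p = 2`
      have h2 : (2 : F) = 0 := by
        have := CharP.cast_eq_zero F p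
        rw [hp2] at this
        exact_mod_cast this
      by_cases hcond : Even d ∨ Odd m'
      · refine iff_of_true ?_ ?_
        · rw [transfer_two (W₀ := W) hG _ (fun W' => by
            rw [← class_even hQ hWn hWe, hWd, hWp])]
          exact two_two h2 hQ hdim hWn hWd (by omega) (by omega)
            (Or.inr ⟨hQm, hWp.1, hcond⟩)
        · left
          refine ⟨rfl, hp2, ?_⟩
          rcases hcond with h | ⟨k, hk⟩
          · exact Or.inl h
          · right; omega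
      · push Not at hcond
        obtain ⟨hd1, hd2⟩ := hcond
        rw [Nat.not_even_iff_odd] at hd1
        rw [Nat.not_odd_iff_even] at hd2
        refine iff_of_false ?_ ?_
        · obtain ⟨U, hU, hUd⟩ : ∃ U : Submodule F ((Fin (d - 1) ⊕ Fin (d - 1)) ⊕ Fin 2 → F),
              (∀ u ∈ U, Q u = 0) ∧ Module.finrank F U = 2 * (d / 2) := by
            obtain ⟨k, hk⟩ := hd1
            exact exists_tsing hQ hdim (by omega) (by omega)
          obtain ⟨T, hT, hJ, hTU⟩ := exists_JTwo hQ hU hUd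
          have hTp : T ^ 2 = 1 := by
            have : CharP F 2 := hp2 ▸ (inferInstance : CharP F p)
            exact hJ.pow_char
          refine not_of_elt hG _ hT hTp (hJ.not_scalar hQ (by rw [hTU]; omega)) ?_
          rintro X ⟨hXd, hX, hXp⟩ hXT
          obtain ⟨a', b', hab', ha2, hb2, ha, hb, ha', -⟩ := hJ.split hQ hX hXT
          have hPd := finrank_add_perp hQ X
          rw [hTU, hUd] at hab'
          rw [hXd] at ha ha' hPd
          rw [hdim] at hPd
          have h3 : ¬ (2 * m' = 2 * a') := fun h => hXp.1 (ha' h)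
          obtain ⟨k, hk⟩ := hd1
          obtain ⟨l, hl⟩ := hd2
          obtain ⟨e, he⟩ := ha2
          obtain ⟨e', he'⟩ := hb2
          omega
        · obtain ⟨k, hk⟩ := hd1
          obtain ⟨l, hl⟩ := hd2
          rintro (⟨-, -, h | h⟩ | ⟨-, h, -⟩ | ⟨h, -⟩ | ⟨h, -⟩)
          · obtain ⟨e, he⟩ := h
            omega
          · omega
          · exact h hp2
          · exact h hp2.symm
          · exact h hp2.symm
    · have h2 : (2 : F) ≠ 0 := two_ne_zero_of_ne hp2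
      rw [transfer_two (W₀ := W) hG _ (fun W' => by
        rw [← class_even hQ hWn hWe, hWd, hWp]),
        two_main h2 hG hdim hWn hWd (by omega) (by omega), FiniteField.isSquare_neg_one_iff,
        FiniteField.isSquare_two_iff, hq]
      have hqo : q % 2 = 1 := by
        rw [← hq]
        exact FiniteField.odd_card_of_char_ne_two (by rwa [ringChar.eq F p])
      simp only [hQf, hWp, true_iff, false_iff, Nat.even_iff, Nat.odd_iff, lt_irrefl, false_and,
        and_false, or_false, false_or, true_and, ne_eq, hp2, not_false_eq_true]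
      omega
  · have hrp : r ≠ p := hr.resolve_left hr2
    have hr3 : 2 < r := lt_of_le_of_ne (Fact.out : r.Prime).two_le (Ne.symm hr2)
    have hrF : (r : F) ≠ 0 := cast_ne_zero hrp
    have hbk := bk_eq' hq hi hc
    obtain ⟨h1, h2⟩ := even_main hG hr3 hrF hdim (even_two_mul d) (by omega : 0 < m') (by omega) False
      hrΩ hbk
    have hc0 : 0 < c := by rw [← hbk]; exact bk_pos hrF
    rw [h1]
    simp only [hQf, true_iff, false_iff] at h2 ⊢
    rcases Nat.even_or_odd i with hie | hio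
    · have hci : c = i := by rw [hc, if_pos hie]
      simp only [dl_even hq hi hie, not_false_eq_true, true_iff] at h2 ⊢
      rw [num_mm_even hc0 (by omega) (fun h => (h2 h).1), hci]
      simp only [hr2, hrp, hr3, hie, Nat.not_odd_iff_even.2 hie, false_and, and_false, false_or,
        true_and, ne_eq, not_false_eq_true]
    · simp only [dl_odd hq hi hio, not_false_eq_true, true_iff, not_true_eq_false] at h2 ⊢
      rw [num_mm_odd (fun h => (h2 h).1)]
      simp only [hr2, hrp, hr3, hio, Nat.not_even_iff_odd.2 hio, false_and, and_false, false_or,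
        or_false, true_and, ne_eq, not_false_eq_true]

end Cfsg.Agent.S5990
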