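import Cfsg.Statements.S5993
import Cfsg.Agent.H959.OddBridge
import Cfsg.Agent.H959.JordanSub2
import Cfsg.Agent.H959.JordanApp
import Cfsg.Agent.LieClassical.QuadForms

set_option autoImplicit false
open scoped MatrixGroups
open Cfsg

namespace Cfsg.Agent.S5993

open Module QuadraticMap Cfsg.Agent.H959 Cfsg.Agent.LieClassical.QuadForms

/-- Elements of prime order of Ω_n(q), nq odd, with no fixed elliptic `m`-space. Here `T = Ω_n(F)`, `n = 2d+1 ≥ 7`, `q` odd, realised as the commutator subgroup of the isometry group of `Q = x₀² + Σ xᵢyᵢ` over the field `F` with `q` elements (trivial centre, so its elements of prime order `r` are used directly); a nondegenerate `m`-space (even `m`) is a subspace on which the polar form of `Q` is nondegenerate; it is hyperbolic if it contains an `m/2`-dimensional subspace on which `Q` vanishes, elliptic otherwise. Let `m` be even with `2 ≤ m ≤ n − 1` (no restriction `m < n/2`) and let `r` be a prime dividing the number of elliptic `m`-spaces;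 for `r ≠ p` let `i` be the multiplicative order of `q` modulo `r`, `c = i` for `i` even and `c = 2i` for `i` odd, and write `k = n mod c`, `ℓ' = m mod c`. Then every element of `T` of order `r` fixes some elliptic `m`-space if and only if `r = 2`, or `r ≠ p` is odd and one of: (i) `i` odd, `c ≤ m` and `k > ℓ' > 0`; (ii) `i` even, `i ≤ m`, `k > ℓ'`, and `m/i` odd whenever `ℓ' = 0`. (For `r = p` there is always an element of order `p` fixing no elliptic `m`-space.) -/
theorem result {F : Type*} [Field F] [Fintype F] {p : ℕ} [Fact p.Prime] [CharP F p] {q : ℕ} (hq : Fintype.card F = q) (hqodd : Odd q)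
    (d m : ℕ) (hd : 3 ≤ d) (hm : 2 ≤ m) (hme : Even m) (hmn : m ≤ 2 * d)
    (r : ℕ) [Fact r.Prime]
    (hrΩ : r ∣ Nat.card {W : Submodule F (Unit ⊕ (Fin d ⊕ Fin d) → F) // Module.finrank F ↥W = m ∧ Cfsg.Geo.IsNondegenerateOn (QuadraticMap.polar (Cfsg.quadFormOdd d F)) W ∧ ¬ Cfsg.Geo.IsPlusTypeOn (Cfsg.quadFormOdd d F) W})
    (i c : ℕ) (hi : i = orderOf (q : ZMod r)) (hc : c = if Even i then i else 2 * i) :
    (∀ x : GL (Unit ⊕ (Fin d ⊕ Fin d)) F, x ∈ Cfsg.Geo.omegaGL (Cfsg.quadFormOdd d F) → orderOf x = r →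
      ∃ W : Submodule F (Unit ⊕ (Fin d ⊕ Fin d) → F), (Module.finrank F ↥W = m ∧ Cfsg.Geo.IsNondegenerateOn (QuadraticMap.polar (Cfsg.quadFormOdd d F)) W ∧ ¬ Cfsg.Geo.IsPlusTypeOn (Cfsg.quadFormOdd d F) W) ∧ W.map (Matrix.toLin' (x : Matrix (Unit ⊕ (Fin d ⊕ Fin d)) (Unit ⊕ (Fin d ⊕ Fin d)) F)) ≤ W) ↔
    (r = 2 ∨
     (r ≠ p ∧ 2 < r ∧ Odd i ∧ c ≤ m ∧ 0 < m % c ∧ m % c < (2 * d + 1) % c) ∨
     (r ≠ p ∧ 2 < r ∧ Even i ∧ i ≤ m ∧ m % c < (2 * d + 1) % c ∧ (0 < m % c ∨ Odd (m / i)))) := by
  have hp : p.Prime := Fact.out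
  have hrp : r.Prime := Fact.out
  have hp2 : p ≠ 2 := by
    rintro rfl
    have h1 : ringChar F = 2 := ringChar.eq F 2
    have h3 := FiniteField.even_card_of_char_two h1
    rw [hq] at h3
    rw [Nat.odd_iff] at hqodd
    omega
  have hpodd : Odd p := hp.odd_of_ne_two hp2
  have h2 : (2 : F) ≠ 0 := by
    intro h
    have h1 : ((2 : ℕ) : F) = 0 := by exact_mod_cast h
    rw [CharP.cast_eq_zero_iff F p] at h1
    exact hp2 ((Nat.prime_dvd_prime_iff_eq hp Nat.prime_two).mp h1)
  have hQ : (polarBilin (oddForm d F)).Nondegenerate := nondeg_of_rad h2 _ (oddForm_nondeg d)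
  have hQ' : Cfsg.Agent.LieClassical.OrthCore.Nondeg (oddForm d F) := fun x hx => hQ.1 x hx
  have hcard : Fintype.card (Unit ⊕ (Fin d ⊕ Fin d)) = 2 * d + 1 := by
    rw [Fintype.card_sum, Fintype.card_sum, Fintype.card_fin, Fintype.card_unit]; ring
  have hfr : finrank F (Unit ⊕ (Fin d ⊕ Fin d) → F) = 2 * d + 1 := by
    rw [Module.finrank_fintype_fun_eq_card, hcard]
  have hodd : Odd (finrank F (Unit ⊕ (Fin d ⊕ Fin d) → F)) := by rw [hfr]; exact ⟨d, rfl⟩
  rw [← coe_oddForm] at hrΩ ⊢
  have hPP : ∀ W : Submodule F (Unit ⊕ (Fin d ⊕ Fin d) → F),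
      (Module.finrank F ↥W = m ∧ Cfsg.Geo.IsNondegenerateOn (QuadraticMap.polar (oddForm d F)) W ∧
        ¬ Cfsg.Geo.IsPlusTypeOn (oddForm d F) W) ↔
      (finrank F W = m ∧ Cfsg.Agent.LieClassical.OrthCore.Nondeg (Cfsg.Agent.H955.res (oddForm d F) W) ∧
        ¬ Cfsg.Agent.H955.IsPlus (Cfsg.Agent.H955.res (oddForm d F) W)) := by
    intro W
    rw [nondegOn_iff, plusOn_iff]
  by_cases hr2 : r = 2
  · -- involutions
    refine iff_of_true ?_ (Or.inl hr2)
    intro x hx hxr
    have hx2 : x ^ 2 = 1 := by rw [← hr2, ← hxr]; exact pow_orderOf_eq_one x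
    have hT2 : H957.eOf x ^ 2 = 1 := by rw [← eOf_pow, hx2, eOf_one]
    have hTO : H957.eOf x ∈ Cfsg.Agent.LieClassical.OrthCore.O (oddForm d F) :=
      fun v => H957.isometry_of_omegaGL hx v
    have hdet : LinearMap.det ((H957.eOf x : (Unit ⊕ (Fin d ⊕ Fin d) → F) ≃ₗ[F] _) :
        (Unit ⊕ (Fin d ⊕ Fin d) → F) →ₗ[F] _) = 1 := by
      rw [H957.coe_eOf, LinearMap.det_toLin', det_of_mem_omegaGL hx]
    rw [det_of_sq_eq_one h2 hT2] at hdet
    have hev : Even (finrank F (Cfsg.Agent.H955.comS (H957.eOf x))) := by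
      by_contra hcon
      rw [Nat.not_even_iff_odd] at hcon
      rw [hcon.neg_one_pow] at hdet
      apply h2
      have : (1 : F) + 1 = 0 := by
        nth_rewrite 1 [← hdet]
        ring
      rw [← this]; norm_num
    have hsum := Cfsg.Agent.H955.finrank_fixS_add_comS (H957.eOf x)
    obtain ⟨W, h1, h3, h4, h5⟩ := exists_inv_two h2 hQ' (m := m) hme (by omega) (by omega) hTO hT2
      (by
        rw [Nat.odd_iff] at hodd ⊢
        rw [Nat.even_iff] at hev
        omega) False
    exact ⟨W, (hPP W).2 ⟨h1, h3, fun h => h4.1 h⟩, map_le_iff.2 h5⟩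
  · have hr3 : 2 < r := by
      have := hrp.two_le
      omega
    by_cases hrp' : r = p
    · -- unipotent elements
      refine iff_of_false ?_ ?_
      · intro H
        obtain ⟨x, hx, hxp, hxW⟩ := exists_no_elliptic h2 p hpodd (oddForm d F) hQ d (by omega) hcard
        obtain ⟨W, ⟨h1, h3, h4⟩, h5⟩ := H x hx (by rw [hxp, hrp'])
        exact h4 (hxW W h5 (by rw [h1]; exact hme) h3)
      · rintro (h | ⟨h, -⟩ | ⟨h, -⟩)
        · exact hr2 h
        · exact h hrp'
        · exact h hrp'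
    · have hrF : (r : F) ≠ 0 := by
        intro h
        rw [CharP.cast_eq_zero_iff F p] at h
        exact hrp' ((Nat.prime_dvd_prime_iff_eq hp hrp).mp h).symm
      have hi' : i = Cfsg.Agent.H958.ii F r := by
        rw [hi, Cfsg.Agent.H958.ii, Nat.card_eq_fintype_card, hq]
      have hc' : c = Cfsg.Agent.H958.bk F r := by
        rw [hc, Cfsg.Agent.H958.bk, hi']
      have key := odd_main (Q := oddForm d F) hr3 hrF h2 hQ' hodd hme (by omega) (by omega) (by
        convert hrΩ using 1
        exact Nat.card_congr (Equiv.subtypeEquivRight fun W => (hPP W).symm))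
      have h5 := omega_iff_O h2 hQ (r := r) hr3 (P := fun W =>
        (Module.finrank F ↥W = m ∧ Cfsg.Geo.IsNondegenerateOn (QuadraticMap.polar (oddForm d F)) W ∧
        ¬ Cfsg.Geo.IsPlusTypeOn (oddForm d F) W))
      refine h5.trans ?_
      have h6 : (∀ T ∈ Cfsg.Agent.LieClassical.OrthCore.O (oddForm d F), T ^ r = 1 → T ≠ 1 →
          ∃ W : Submodule F (Unit ⊕ (Fin d ⊕ Fin d) → F), (Module.finrank F ↥W = m ∧
            Cfsg.Geo.IsNondegenerateOn (QuadraticMap.polar (oddForm d F)) W ∧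
            ¬ Cfsg.Geo.IsPlusTypeOn (oddForm d F) W) ∧ ∀ w ∈ W, T w ∈ W) ↔
          ∀ T ∈ Cfsg.Agent.LieClassical.OrthCore.O (oddForm d F), T ^ r = 1 → T ≠ 1 →
          ∃ W : Submodule F (Unit ⊕ (Fin d ⊕ Fin d) → F), (finrank F W = m ∧
            Cfsg.Agent.LieClassical.OrthCore.Nondeg (Cfsg.Agent.H955.res (oddForm d F) W) ∧
            ¬ Cfsg.Agent.H955.IsPlus (Cfsg.Agent.H955.res (oddForm d F) W)) ∧ ∀ w ∈ W, T w ∈ W := by
        refine forall_congr' fun T => imp_congr_right fun _ => imp_congr_right fun _ => imp_congr_right fun _ =>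
          exists_congr fun W => and_congr_left fun _ => hPP W
      refine h6.trans (key.trans ?_)
      rw [hfr, ← hc']
      have hcpos : 0 < c := by rw [hc']; exact Cfsg.Agent.H958.bk_pos hrF
      have hcev : Even c := by rw [hc']; exact Cfsg.Agent.H958.bk_even F r
      have hdl : Cfsg.Agent.H958.dl F r (m / c) ↔ (Odd i ∨ Even (m / c)) := by
        rw [Cfsg.Agent.H958.dl, ← hi']
      rw [hdl]
      have hkc : 0 < (2 * d + 1) % c := by
        rcases Nat.eq_zero_or_pos ((2 * d + 1) % c) with h | h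
        · exfalso
          have h7 := hcev.trans_dvd (Nat.dvd_of_mod_eq_zero h)
          rw [Nat.even_iff] at h7
          omega
        · exact h
      rcases Nat.even_or_odd i with hie | hio
      · have hci : c = i := by rw [hc, if_pos hie]
        have hno : ¬ Odd i := Nat.not_odd_iff_even.2 hie
        subst hci
        constructor
        · rintro (⟨h7, h8, h9⟩ | ⟨h7, h8⟩)
          · exact Or.inr (Or.inr ⟨hrp', hr3, hie, h7, h9, Or.inl h8⟩)
          · refine Or.inr (Or.inr ⟨hrp', hr3, hie, ?_, by omega, Or.inr ?_⟩)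
            · exact Nat.le_of_dvd (by omega) (Nat.dvd_of_mod_eq_zero h7)
            · rw [← Nat.not_even_iff_odd]
              exact fun h => h8 (Or.inr h)
        · rintro (h | ⟨-, -, h, -⟩ | ⟨-, -, -, h7, h8, h9⟩)
          · exact absurd h hr2
          · exact absurd h hno
          · rcases Nat.eq_zero_or_pos (m % c) with h10 | h10
            · refine Or.inr ⟨h10, ?_⟩
              rintro (h11 | h11)
              · exact hno h11
              · rcases h9 with h9 | h9
                · omega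
                · exact (Nat.not_even_iff_odd.2 h9) h11
            · exact Or.inl ⟨h7, h10, h8⟩
      · have hno : ¬ Even i := Nat.not_even_iff_odd.2 hio
        constructor
        · rintro (⟨h7, h8, h9⟩ | ⟨h7, h8⟩)
          · exact Or.inr (Or.inl ⟨hrp', hr3, hio, h7, h8, h9⟩)
          · exact absurd (Or.inl hio) h8
        · rintro (h | ⟨-, -, -, h7, h8, h9⟩ | ⟨-, -, h, -⟩)
          · exact absurd h hr2
          · exact Or.inl ⟨h7, h8, h9⟩
          · exact absurd h hno

end Cfsg.Agent.S5993
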