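import Cfsg.Statements.S5999
import Cfsg.Agent.H960.Nine

set_option autoImplicit false
open scoped MatrixGroups
open Cfsg

namespace Cfsg.Agent.S5999

open Cfsg.Geo Matrix Cfsg.Agent.H960 Cfsg.Agent.LieClassical.HermBasic

/-- Elements of prime order of PSU_3(p), p ≡ 2 (mod 3), and the normalizer of an extraspecial subgroup of order 27. Here `T = PSU_3(p)` for a prime `p ≥ 5` with `p ≡ 2 (mod 3)`, realised through `SU_3(p)`, the matrices of determinant 1 over the field `F` with `p²` elements preserving the hermitian form `Σ uᵢvᵢ^p`; `R` is a non-abelian subgroup of order 27 and exponent 3 of the full unitary group of that form (an extraspecial group 3^{1+2}, acting absolutely irreducibly), and `H` is the subgroup of `SU_3(p)` normalizing `R` — a subgroup of type 3^{1+2}.Sp₂(3) (maximality is not assumed). Ω is the set of cosets of `H`, so an element of `T` of prime order `r` (`x ∈ SU_3(p)` with `x^r` scalar, `x` not scalar) fixes a point of Ω exactly when some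 `SU_3(p)`-conjugate of `x` normalizes `R`. Let `r` be a prime dividing the index of `H`. Then every element of `T` of order `r` fixes a point of Ω if and only if `r = 2`, or `r = 3` and `p ≡ 8 (mod 9)`. -/
theorem result {F : Type*} [Field F] [Fintype F] {p : ℕ} [Fact p.Prime] [CharP F p] (hF : Fintype.card F = p ^ 2) (hp : 5 ≤ p) (hp3 : p % 3 = 2)
    (R : Subgroup (GL (Fin 3) F)) (hRU : R ≤ Cfsg.GU 3 F p) (hR : Nat.card R = 27) (hRe : Monoid.exponent R = 3) (hRna : ¬ IsMulCommutative R)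
    (r : ℕ) [Fact r.Prime]
    (hΩ : r ∣ (Cfsg.Geo.subgroupNormalizer R).relIndex (Cfsg.GU 3 F p ⊓ Cfsg.Geo.specialLinear (Fin 3) F)) :
    (∀ x ∈ Cfsg.GU 3 F p ⊓ Cfsg.Geo.specialLinear (Fin 3) F, (∃ z : F, ((x ^ r : GL (Fin 3) F) : Matrix (Fin 3) (Fin 3) F) = z • (1 : Matrix (Fin 3) (Fin 3) F)) →
      (∀ z : F, (x : Matrix (Fin 3) (Fin 3) F) ≠ z • (1 : Matrix (Fin 3) (Fin 3) F)) →
      ∃ g ∈ Cfsg.GU 3 F p ⊓ Cfsg.Geo.specialLinear (Fin 3) F, g⁻¹ * x * g ∈ Cfsg.Geo.subgroupNormalizer R) ↔ (r = 2 ∨ (r = 3 ∧ p % 9 = 8)) := by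
  refine Iff.trans (lhs_iff _ _ _) ?_
  have hp : p.Prime := Fact.out
  have hr : r.Prime := Fact.out
  have hcast : ∀ q : ℕ, q.Prime → q ≠ p → (q : F) ≠ 0 := by
    intro q hq hqp h
    rw [CharP.cast_eq_zero_iff F p] at h
    exact hqp ((Nat.prime_dvd_prime_iff_eq hp hq).1 h).symm
  have h2 : (2 : F) ≠ 0 := by
    have := hcast 2 Nat.prime_two (by rintro rfl; omega)
    exact_mod_cast this
  have h3 : (3 : F) ≠ 0 := by
    have := hcast 3 Nat.prime_three (by rintro rfl; omega)
    exact_mod_cast this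
  have hRfin : Finite R := Nat.finite_of_card_ne_zero (by rw [hR]; norm_num)
  have hRe' : ∀ g ∈ R, g ^ 3 = 1 := by
    intro g hg
    have h1 : (⟨g, hg⟩ : R) ^ 3 = 1 := by
      have := Monoid.pow_exponent_eq_one (⟨g, hg⟩ : R)
      rwa [hRe] at this
    exact congrArg Subtype.val h1
  have hna : ∃ a ∈ R, ∃ b ∈ R, a * b ≠ b * a := by
    by_contra hcon
    push Not at hcon
    apply hRna
    exact ⟨⟨fun a b => Subtype.ext (hcon a a.2 b b.2)⟩⟩
  obtain ⟨ω₀, hω₀⟩ : ∃ ω : F, ω * ω + ω + 1 = 0 := by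
    apply exists_omega
    rw [hF]
    have h1 : 1 ≤ p ^ 2 := Nat.one_le_pow _ _ hp.pos
    rw [← Nat.modEq_iff_dvd' h1, Nat.ModEq, Nat.pow_mod, hp3]
  have h3p : 3 ∣ p + 1 := by omega
  obtain ⟨Q0, a, b, ω, H0⟩ := exists_heis h3 hω₀ hR hRe' hna
  obtain ⟨Q, hQ, H⟩ := H0.exists_GU hF h3p h3 hRU
  have hA := Amb.gu hF 3
  have hodd : Odd p := hp.odd_of_ne_two (by omega)
  constructor
  · intro L
    by_contra hcon
    push Not at hcon
    obtain ⟨hr2, hr3⟩ := hcon
    by_cases hr3' : r = 3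
    · subst hr3'
      have hp9 : p % 9 = 2 ∨ p % 9 = 5 := by
        have := hr3 rfl
        omega
      have h81 := dvd_81 hR (le_normalizer R) (le_inf hRU H.le_sl) hΩ
      rw [card_SU3 hF] at h81
      refine not_81 ?_ (pow3_add hp9) (pow3_add' hp9) h81
      intro h
      have := Nat.prime_three.dvd_of_dvd_pow h
      omega
    · exact heis_five h3 hR H hr2 hr3' hΩ L
  · rintro (rfl | ⟨rfl, hmod⟩)
    · refine heis_two h2 hA ?_ H hQ ?_
      · exact Even.neg_one_pow (hodd.add_odd odd_one)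
      intro y hy hyy
      have hprim : IsPrimitiveRoot (-1 : F) 2 := by
        rw [IsPrimitiveRoot.iff (by norm_num)]
        refine ⟨by norm_num, fun l h0 hl => ?_⟩
        have : l = 1 := by omega
        rw [this, pow_one]
        intro h
        exact h2 (by linear_combination -h)
      obtain ⟨B, hB, w, hw, hyB⟩ := exists_diag_U hF hprim (by norm_num)
        (even_iff_two_dvd.1 (hodd.add_odd odd_one)) (by exact_mod_cast h2) 3
        (y : Matrix (Fin 3) (Fin 3) F) (iso_of_mem hy) (by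
          rw [pow_two, ← Units.val_mul, hyy, Units.val_one])
      obtain ⟨B', hB', hBB, hBB'⟩ := hB.exists_inv hF
      refine ⟨⟨B, B', hBB, hBB'⟩, (mem_GU_iff _).2 hB, w, fun i => ?_, hyB⟩
      exact mul_self_eq_one_iff.1 (by rw [← pow_two]; exact hw i)
    · refine heis_three h3 hA H hQ ?_ ?_ ?_
      · intro c hc
        obtain ⟨k, hk⟩ := h3p
        rw [hk, pow_mul, hc, one_pow]
      · intro y hy hyy
        obtain ⟨B, hB, w, hw, hyB⟩ := exists_diag_U hF (prim_omega h3 hω₀) (by norm_num) h3p (by exact_mod_cast h3) 3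
          (y : Matrix (Fin 3) (Fin 3) F) (iso_of_mem hy) (by
            rw [← Units.val_pow_eq_pow_val, hyy, Units.val_one])
        obtain ⟨B', hB', hBB, hBB'⟩ := hB.exists_inv hF
        exact ⟨⟨B, B', hBB, hBB'⟩, (mem_GU_iff _).2 hB, w, hw, hyB⟩
      · -- ninth roots of unity
        intro c hc
        have h9p : 9 ∣ p + 1 := by omega
        obtain ⟨ζ₀, h9, h93⟩ := exists_nine (F := F) (by
          rw [hF]
          have h1 : 1 ≤ p ^ 2 := Nat.one_le_pow _ _ hp.pos
          rw [← Nat.modEq_iff_dvd' h1, Nat.ModEq, Nat.pow_mod, hmod])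
        obtain ⟨ζ, hζ9, hζ⟩ := cube_of_nine h9 h93 hc
        refine ⟨ζ, ?_, hζ⟩
        obtain ⟨k, hk⟩ := h9p
        rw [hk, pow_mul, hζ9, one_pow]

end Cfsg.Agent.S5999
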