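import Cfsg.Statements.S6000
import Cfsg.Agent.H960.FiveCase
import Cfsg.Agent.ClassicalGeometry.PSL2Basic

set_option autoImplicit false
open scoped MatrixGroups
open Cfsg

namespace Cfsg.Agent.S6000

open Cfsg.Geo Matrix Cfsg.Agent.H960

/-- Elements of prime order of PSL_4(p), p ≡ 1 (mod 4), and the normalizer of a 2-group of symplectic type of order 2⁶. Here `T = PSL_4(F)` for the field `F` with `p` elements, `p` a prime with `p ≡ 1 (mod 4)`; `R` is an absolutely irreducible subgroup of GL_4(F) of order 2⁶ that is a 2-group of symplectic type of exponent 4 with centre of order 4 (the central product of the scalars of order 4 with an extraspecial group 2^{1+4}), and `H` is the subgroup of matrices of determinant 1 normalizing `R` — a subgroup of type 2⁴.Sp₄(2) (maximality is not assumed). Ω is the set of cosets of `H` in `T`, so an element of `T` of prime order `r` (a matrix `x` of determinant 1 with `x^r` scalar, `x` not scalar) fixes a point of Ω exactly when some conjugate of `x` by a matrix of determinant 1 normalizes `R`.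 Let `r` be a prime dividing the index of `H`. Then every element of `T` of order `r` fixes a point of Ω if and only if `r = 2`, or `r = 3` and `p ≡ 2 (mod 3)`, or `r = 5` and `p ≡ ±2 (mod 5)` (`p` has multiplicative order 4 modulo 5). -/
theorem result {F : Type*} [Field F] [Fintype F] {p : ℕ} [Fact p.Prime] [CharP F p] (hF : Fintype.card F = p) (hp4 : p % 4 = 1)
    (R : Subgroup (GL (Fin 4) F)) (hR : Cfsg.Geo.IsLinearSymplecticTypeData 2 R) (hR6 : Nat.card R = 2 ^ 6)
    (r : ℕ) [Fact r.Prime]
    (hΩ : r ∣ (Cfsg.Geo.subgroupNormalizer R).relIndex (Cfsg.Geo.specialLinear (Fin 4) F)) :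
    (∀ x ∈ Cfsg.Geo.specialLinear (Fin 4) F, (∃ z : F, ((x ^ r : GL (Fin 4) F) : Matrix (Fin 4) (Fin 4) F) = z • (1 : Matrix (Fin 4) (Fin 4) F)) →
      (∀ z : F, (x : Matrix (Fin 4) (Fin 4) F) ≠ z • (1 : Matrix (Fin 4) (Fin 4) F)) →
      ∃ g ∈ Cfsg.Geo.specialLinear (Fin 4) F, g⁻¹ * x * g ∈ Cfsg.Geo.subgroupNormalizer R) ↔ (r = 2 ∨ (r = 3 ∧ p % 3 = 2) ∨ (r = 5 ∧ orderOf (p : ZMod 5) = 4)) := by
  refine Iff.trans (lhs_iff _ _ _) ?_
  have hG : specialLinear (Fin 4) F = ⊤ ⊓ specialLinear (Fin 4) F := (top_inf_eq _).symm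
  rw [hG] at hΩ ⊢
  have hp : p.Prime := Fact.out
  have hr : r.Prime := Fact.out
  have hcast : ∀ q : ℕ, q.Prime → q ≠ p → (q : F) ≠ 0 := by
    intro q hq hqp h
    rw [CharP.cast_eq_zero_iff F p] at h
    exact hqp ((Nat.prime_dvd_prime_iff_eq hp hq).1 h).symm
  have h2 : (2 : F) ≠ 0 := by
    have := hcast 2 Nat.prime_two (by rintro rfl; omega)
    exact_mod_cast this
  have h3 : (3 : F) ≠ 0 := by
    have := hcast 3 Nat.prime_three (by rintro rfl; omega)
    exact_mod_cast this
  have hRZ : Nat.card (Subgroup.center R) = 4 := by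
    obtain ⟨p', e, -, -, h⟩ := hR.field
    rcases h with ⟨h, -⟩ | ⟨-, -, h, -⟩ | ⟨-, -, h, -⟩
    · exact absurd h (by decide)
    · exact h
    · rw [Fintype.card_fin] at h
      norm_num at h
  have hRfin : Finite R := Nat.finite_of_card_ne_zero (by rw [hR6]; norm_num)
  have E : Ext R := ext_of_symplectic h2 hR.symplecticType hR.absIrred (by rw [hR6, hRZ]; norm_num) (by rw [hRZ]; norm_num)
  have hZ : Nat.card (R ⊓ scalars (Fin 4) F : Subgroup (GL (Fin 4) F)) = 4 := by rw [← card_center_eq E.c1, hRZ]
  have hA := Amb.top (F := F) 4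
  constructor
  · intro L
    by_cases hr2 : r = 2
    · exact Or.inl hr2
    right
    by_cases hrp : r = p
    · exfalso
      subst hrp
      -- transvections
      obtain ⟨N, hN⟩ : ∃ N : Matrix (Fin 4) (Fin 4) F, N = Matrix.vecMulVec (Pi.single 0 1) (Pi.single 1 1) := ⟨_, rfl⟩
      have hN01 : N 0 1 = 1 := by rw [hN, Matrix.vecMulVec_apply, Pi.single_eq_same, Pi.single_eq_same, one_mul]
      have hNN : N * N = 0 := by
        rw [hN, Matrix.vecMulVec_mul_vecMulVec, dotProduct_single, Pi.single_eq_of_ne (by decide), zero_mul, zero_smul,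
          Matrix.vecMulVec_zero]
      have hpow : ∀ k : ℕ, (1 + N) ^ k = 1 + (k : F) • N := by
        intro k
        induction k with
        | zero => rw [pow_zero, Nat.cast_zero, zero_smul, add_zero]
        | succ k ih =>
          rw [pow_succ, ih, mul_add, mul_one, add_mul, one_mul, smul_mul_assoc, hNN, smul_zero, add_zero,
            Nat.cast_succ, add_smul, one_smul, add_assoc]
      have hdet : (1 + N).det = 1 := by
        rw [Matrix.det_of_isUpperTriangular]
        · rw [Fin.prod_univ_four]
          simp [hN, Matrix.vecMulVec_apply]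
        · intro i k hik
          have hik' : k < i := hik
          rw [hN, Matrix.add_apply, Matrix.vecMulVec_apply, Matrix.one_apply_ne (ne_of_gt hik'), zero_add]
          fin_cases i <;> fin_cases k <;> simp at hik' ⊢
      obtain ⟨x, hx⟩ : ∃ x : GL (Fin 4) F, (x : Matrix (Fin 4) (Fin 4) F) = 1 + N :=
        ⟨Matrix.GeneralLinearGroup.mkOfDetNeZero _ (by rw [hdet]; exact one_ne_zero), rfl⟩
      refine L.transv E hr2 (x := x) ⟨Subgroup.mem_top _, (mem_sl x).2 (by rw [hx, hdet])⟩ ?_ ?_
        (hx.trans (by rw [hN])) (by rw [← hN]; exact hNN)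
      · apply m_ext
        rw [Units.val_pow_eq_pow_val, hx, hpow, CharP.cast_eq_zero, zero_smul, add_zero, Units.val_one]
      · intro h
        have h1 := congrArg (fun g : GL (Fin 4) F => (g : Matrix (Fin 4) (Fin 4) F) 0 1) h
        simp only [hx, Matrix.add_apply, Units.val_one, hN01] at h1
        rw [Matrix.one_apply_ne (by decide), zero_add] at h1
        exact one_ne_zero h1
    · rcases L.three_or_five E hZ hr2 hΩ with h5 | h3'
      · -- `r = 5`
        right
        subst h5
        refine ⟨rfl, ?_⟩
        by_contra hord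
        have h5F : ((5 : ℕ) : F) ≠ 0 := hcast 5 Nat.prime_five hrp
        have hp5 : ¬ 5 ∣ p := fun h => hrp ((Nat.prime_dvd_prime_iff_eq Nat.prime_five hp).1 h)
        have hmod : p % 5 = 1 ∨ p % 5 = 4 := mod5_of_order hp5 hord
        have hdvd : 5 ∣ Nat.card (Matrix.SpecialLinearGroup (Fin 2) F) := by
          rw [Cfsg.Agent.ClassicalGeometry.PSL2Basic.card_SL2, hF]
          apply Dvd.dvd.mul_left
          have h1 : 1 ≤ p ^ 2 := Nat.one_le_pow _ _ hp.pos
          rw [← Nat.modEq_iff_dvd' h1]
          rw [Nat.ModEq, Nat.pow_mod]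
          rcases hmod with h | h <;> rw [h]
        obtain ⟨C, hC⟩ := exists_prime_orderOf_dvd_card' (G := Matrix.SpecialLinearGroup (Fin 2) F) 5 hdvd
        have hC5 : C ^ 5 = 1 := orderOf_dvd_iff_pow_eq_one.1 (by rw [hC])
        have hC1 : C ≠ 1 := by
          intro h
          rw [h, orderOf_one] at hC
          norm_num at hC
        exact L.no_five E hZ (by exact_mod_cast h5F) C (Subgroup.mem_top _) hC5 hC1
      · -- `r = 3`
        left
        subst h3'
        refine ⟨rfl, ?_⟩
        by_contra hmod
        have hp3 : p % 3 = 1 := by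
          have h4 : p % 3 ≠ 0 := fun h => hrp ((Nat.prime_dvd_prime_iff_eq Nat.prime_three hp).1 (Nat.dvd_of_mod_eq_zero h))
          have := Nat.mod_lt p (show 0 < 3 by norm_num)
          omega
        obtain ⟨ω, hω⟩ : ∃ ω : F, ω * ω + ω + 1 = 0 := by
          apply exists_omega
          rw [hF]
          omega
        have hω0 : ω ≠ 0 := by
          rintro rfl
          apply one_ne_zero (α := F)
          linear_combination hω
        exact L.no_three hA E hZ h2 h3 hω hω0
  · obtain ⟨j, hj, hjs, hjj⟩ := exists_j E hZ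
    obtain ⟨u, v, s, t, P⟩ := E.exists_pauli_of_four hj hjs hjj
    rintro (rfl | ⟨rfl, hmod⟩ | ⟨rfl, hord⟩)
    · apply two_case h2 E hA adm_top le_top P hj hjs hjj
      · intro y _ hyy
        have h1 : IsPrimitiveRoot (-1 : F) 2 := by
          rw [IsPrimitiveRoot.iff (by norm_num)]
          refine ⟨by norm_num, fun l h0 hl => ?_⟩
          have : l = 1 := by omega
          rw [this, pow_one]
          intro h
          exact h2 (by linear_combination -h)
        obtain ⟨B, w, hw, hB⟩ := exists_diag_GL h1 (by norm_num) (by exact_mod_cast h2)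
          (M := (y : Matrix (Fin 4) (Fin 4) F)) (by
            rw [pow_two, ← Units.val_mul, hyy, Units.val_one])
        refine ⟨B, Subgroup.mem_top _, w, fun i => ?_, hB⟩
        exact mul_self_eq_one_iff.1 (by rw [← pow_two]; exact hw i)
      · intro x hx hxs hxx
        obtain ⟨c, hc⟩ := (mem_scalars_iff' _).1 hxs
        have hcc : c * c = -1 := by
          have h1 := congrArg (fun g : GL (Fin 4) F => (g : Matrix (Fin 4) (Fin 4) F) 0 0) hxx
          simp only [Units.val_mul (x * x), hc, Matrix.smul_mul, Matrix.one_mul, Units.val_neg, Units.val_one,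
            Matrix.smul_apply, Matrix.one_apply_eq, Matrix.neg_apply, smul_eq_mul, mul_one] at h1
          exact h1
        have hc0 : c ≠ 0 := by
          rintro rfl
          rw [mul_zero] at hcc
          exact one_ne_zero (α := F) (by linear_combination hcc)
        by_cases hsq : IsSquare c
        · obtain ⟨d, hd⟩ := hsq
          have hd0 : d ≠ 0 := by
            rintro rfl
            exact hc0 (by rw [hd, mul_zero])
          obtain ⟨ζ, -, hζ⟩ := hA.diag (fun _ => d) (fun _ => hd0)
          rw [← Matrix.smul_one_eq_diagonal] at hζ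
          refine ⟨ζ, Subgroup.mem_top _, (mem_scalars_iff' _).2 ⟨d, hζ⟩, ?_⟩
          apply m_ext
          rw [hc, Units.val_mul, hζ, Matrix.smul_mul, Matrix.one_mul, smul_smul, hd]
        · exfalso
          obtain ⟨B, hB⟩ := exists_frameA (M := (x : Matrix (Fin 4) (Fin 4) F)) (a := 0) (b := -c)
            (by rw [zero_smul, add_zero, ← Units.val_mul, hc, neg_smul, add_neg_cancel])
            (fun t ht => hsq ⟨t, by linear_combination -ht⟩)
          have h1 := congrArg Matrix.det hB
          rw [Matrix.det_mul, Matrix.det_mul, det_jA, mul_comm] at h1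
          have h4 := mul_left_cancel₀ (det_ne B) h1
          rw [(mem_sl x).1 hx.2] at h4
          exact h2 (by linear_combination h4 + hcc)
    · have hroot := no_omega (F := F) h3 (by rw [hF]; exact hmod)
      exact three_case h2 h3 E adm_top le_top P hj hjs hjj
        (fun x _ y _ hx hy => conj_typeA_GL h2 h3 hroot hx hy)
        (fun x _ y _ hx3 hx1 hx hy3 hy1 hy => conj_typeB_GL (by rw [hF]; exact hmod) h3 hroot hx3 hx1 hx hy3 hy1 hy)
    · have h5p : p ≠ 5 := fun h => ne_five_of_order hord (by rw [h])
      have h5F : ((5 : ℕ) : F) ≠ 0 := hcast 5 Nat.prime_five (Ne.symm h5p)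
      exact five_case h2 (by exact_mod_cast h5F) E hA adm_top le_top P
        (fun x _ hx hx1 => norms_of_order4 hF hord (by simp) hx hx1)

end Cfsg.Agent.S6000
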