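import Cfsg.Statements.S6002
import Cfsg.Agent.H960.Minus
import Cfsg.Agent.H960.SpFrame
import Cfsg.Agent.H960.Five
import Cfsg.Agent.H960.Trace5
import Cfsg.Agent.ClassicalGeometry.PSL2Basic

set_option autoImplicit false
set_option linter.unusedSimpArgs false
open scoped MatrixGroups
open Cfsg

namespace Cfsg.Agent.S6002

open Cfsg.Geo Matrix Cfsg.Agent.H960
open Cfsg.Agent.ClassicalGeometry.SympBasic

local notation "I4" => (Fin 2 ⊕ Fin 2)

/-- the embedding of `SL₂` -/
def emb {F : Type*} [Field F] (C : Matrix (Fin 2) (Fin 2) F) : Matrix I4 I4 F :=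
  Matrix.fromBlocks (Matrix.diagonal ![C 0 0, 1]) (Matrix.diagonal ![C 0 1, 0])
    (Matrix.diagonal ![C 1 0, 0]) (Matrix.diagonal ![C 1 1, 1])

theorem emb_mul {F : Type*} [Field F] (C D : Matrix (Fin 2) (Fin 2) F) : emb (C * D) = emb C * emb D := by
  rw [emb, emb, emb, Matrix.fromBlocks_multiply]
  congr 1 <;> ext i j <;> fin_cases i <;> fin_cases j <;>
    simp [Matrix.mul_apply, Fin.sum_univ_two, Matrix.diagonal]

theorem emb_one {F : Type*} [Field F] : emb (1 : Matrix (Fin 2) (Fin 2) F) = 1 := by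
  rw [emb, ← Matrix.fromBlocks_one]
  congr 1 <;> ext i j <;> fin_cases i <;> fin_cases j <;> simp [Matrix.diagonal]

theorem emb_trace {F : Type*} [Field F] (C : Matrix (Fin 2) (Fin 2) F) : (emb C).trace = C.trace + 2 := by
  simp [emb, Matrix.trace, Fin.sum_univ_two]
  ring

/-- as a homomorphism -/
def embHom {F : Type*} [Field F] : Matrix.SpecialLinearGroup (Fin 2) F →* GL I4 F where
  toFun C := ⟨emb C, emb (C⁻¹ : Matrix.SpecialLinearGroup (Fin 2) F), by
      rw [← emb_mul, ← Matrix.SpecialLinearGroup.coe_mul, mul_inv_cancel, Matrix.SpecialLinearGroup.coe_one, emb_one],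
    by rw [← emb_mul, ← Matrix.SpecialLinearGroup.coe_mul, inv_mul_cancel, Matrix.SpecialLinearGroup.coe_one, emb_one]⟩
  map_one' := Units.ext (by
    change emb _ = 1
    rw [Matrix.SpecialLinearGroup.coe_one, emb_one])
  map_mul' C D := Units.ext (by
    change emb _ = emb _ * emb _
    rw [Matrix.SpecialLinearGroup.coe_mul, emb_mul])

theorem embHom_coe {F : Type*} [Field F] (C : Matrix.SpecialLinearGroup (Fin 2) F) :
    ((embHom C : GL I4 F) : Matrix I4 I4 F) = emb C := rfl

theorem embHom_mem {F : Type*} [Field F] (C : Matrix.SpecialLinearGroup (Fin 2) F) : embHom C ∈ spGL 2 F := by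
  rw [mem_spGL, ← mem_symplecticGroup_iff, embHom_coe, emb, SymplecticGroup.fromBlocks_mem_iff]
  have hdet := C.2
  rw [Matrix.det_fin_two] at hdet
  refine ⟨?_, ?_, ?_⟩
  · ext i j
    fin_cases i <;> fin_cases j <;> simp [Matrix.mul_apply, Fin.sum_univ_two, Matrix.diagonal, mul_comm]
  · ext i j
    fin_cases i <;> fin_cases j <;> simp [Matrix.mul_apply, Fin.sum_univ_two, Matrix.diagonal, mul_comm]
  · ext i j
    fin_cases i <;> fin_cases j <;> simp [Matrix.mul_apply, Fin.sum_univ_two, Matrix.diagonal]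
    linear_combination hdet

theorem scalar_sp {F : Type*} [Field F] {z : GL I4 F} (hz : z ∈ spGL 2 F) (hzs : z ∈ scalars I4 F) :
    z = 1 ∨ z = -1 := by
  obtain ⟨c, hc⟩ := (mem_scalars_iff' z).1 hzs
  have h1 := hz (Pi.single (Sum.inr 0) 1) (Pi.single (Sum.inl 0) 1)
  change sympForm 2 F ((z : Matrix I4 I4 F) *ᵥ _) ((z : Matrix I4 I4 F) *ᵥ _) = _ at h1
  rw [hc, Matrix.smul_mulVec, Matrix.smul_mulVec, Matrix.one_mulVec, Matrix.one_mulVec, sympForm_smul_left,
    sympForm_smul_right, sympForm_single_inr_left, Pi.single_eq_same, mul_one] at h1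
  rcases mul_self_eq_one_iff.1 h1 with h | h
  · left
    exact Units.ext (by rw [hc, h, one_smul]; rfl)
  · right
    exact Units.ext (by rw [hc, h, neg_smul, one_smul]; rfl)

theorem sp_trans {F : Type*} [Field F] (v : I4 → F) : ∃ T ∈ spGL 2 F, (T : Matrix I4 I4 F) = sympTransvection 2 v 1 ∧
    ∀ k : ℕ, ((T ^ k : GL I4 F) : Matrix I4 I4 F) = sympTransvection 2 v (k : F) := by
  have hmem := sympTransvection_mem v (1 : F)
  have hdet := SymplecticGroup.symplectic_det hmem
  refine ⟨Matrix.GeneralLinearGroup.mk'' _ hdet, ?_, rfl, ?_⟩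
  · rw [mem_spGL, ← mem_symplecticGroup_iff]
    exact hmem
  · intro k
    induction k with
    | zero => rw [pow_zero, Nat.cast_zero, sympTransvection_zero]; rfl
    | succ k ih =>
      rw [pow_succ, Units.val_mul, ih, Nat.cast_succ, ← sympTransvection_mul]
      rfl

/-- Elements of prime order of PSp_4(p), p odd, and the normalizer of an extraspecial 2-group of order 2⁵ of minus type. Here `T = PSp_4(F)` for the field `F` with `p` elements, `p` an odd prime, realised through the matrices preserving the standard alternating form `f`; `R` is an absolutely irreducible subgroup of `T` (it preserves `f`) that is a 2-group of symplectic type of exponent 4, order 2⁵ and centre of order 2, of minus type (no elementary abelian subgroup of order 2³), and `H` is the subgroup of `T` normalizing `R` — a subgroup of type 2^{1+4}.O₄⁻(2) (maximality is not assumed). Ω is the set of cosets of `H` in `T`, so an element of `T` of prime order `r` (`x ∈ T` with `x^r` scalar, `x` not scalar) fixes a point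 of Ω exactly when some `T`-conjugate of `x` normalizes `R`. Let `r` be a prime dividing the index of `H`. Then every element of `T` of order `r` fixes a point of Ω if and only if `r = 2`, or `r = 5` and `p` has multiplicative order 4 modulo 5. -/
theorem result {F : Type*} [Field F] [Fintype F] {p : ℕ} [Fact p.Prime] [CharP F p] (hF : Fintype.card F = p) (hodd : Odd p)
    (R : Subgroup (GL (Fin 2 ⊕ Fin 2) F)) (hRs : Cfsg.Geo.IsSymplecticTypeGroup 2 R) (hRi : Cfsg.Geo.ActsAbsolutelyIrreducibly (Cfsg.Geo.matrixSet R))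
    (hRf : R ≤ Cfsg.spGL 2 F) (hR5 : Nat.card R = 2 ^ 5) (hRZ : Nat.card (Subgroup.center R) = 2) (hRm : Cfsg.Geo.IsOfMinusType 2 R)
    (r : ℕ) [Fact r.Prime]
    (hΩ : r ∣ (Cfsg.Geo.subgroupNormalizer R).relIndex (Cfsg.spGL 2 F)) :
    (∀ x ∈ Cfsg.spGL 2 F, (∃ z : F, ((x ^ r : GL (Fin 2 ⊕ Fin 2) F) : Matrix (Fin 2 ⊕ Fin 2) (Fin 2 ⊕ Fin 2) F) = z • (1 : Matrix (Fin 2 ⊕ Fin 2) (Fin 2 ⊕ Fin 2) F)) →
      (∀ z : F, (x : Matrix (Fin 2 ⊕ Fin 2) (Fin 2 ⊕ Fin 2) F) ≠ z • (1 : Matrix (Fin 2 ⊕ Fin 2) (Fin 2 ⊕ Fin 2) F)) →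
      ∃ g ∈ Cfsg.spGL 2 F, g⁻¹ * x * g ∈ Cfsg.Geo.subgroupNormalizer R) ↔ (r = 2 ∨ (r = 5 ∧ orderOf (p : ZMod 5) = 4)) := by
  refine Iff.trans (lhs_iff _ _ _) ?_
  have hp : p.Prime := Fact.out
  have hr : r.Prime := Fact.out
  have h2 : (2 : F) ≠ 0 := by
    intro h
    have h1 : ((2 : ℕ) : F) = 0 := by simpa using h
    rw [CharP.cast_eq_zero_iff F p] at h1
    have h3 := (Nat.prime_dvd_prime_iff_eq hp Nat.prime_two).1 h1
    rw [h3] at hodd
    exact absurd hodd (by decide)
  have hcast : ∀ q : ℕ, q.Prime → q ≠ p → (q : F) ≠ 0 := by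
    intro q hq hqp h
    rw [CharP.cast_eq_zero_iff F p] at h
    exact hqp ((Nat.prime_dvd_prime_iff_eq hp hq).1 h).symm
  have E : Ext R := ext_of_symplectic h2 hRs hRi (by rw [hR5, hRZ]; norm_num) (by rw [hRZ])
  have hZ2 : Nat.card (R ⊓ scalars I4 F : Subgroup (GL I4 F)) = 2 := by rw [← card_center_eq E.c1, hRZ]
  have hn : Fintype.card I4 = 4 := by simp
  have hfinG : Finite (spGL 2 F) := inferInstance
  constructor
  · intro L
    by_contra hcon
    push Not at hcon
    obtain ⟨hr2, hr5⟩ := hcon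
    -- the general use of `L`
    have use : ∀ x ∈ spGL 2 F, x ^ r = 1 → x ∉ scalars I4 F → ∃ g ∈ spGL 2 F,
        g⁻¹ * x * g ∈ subgroupNormalizer R ∧ (g⁻¹ * x * g) ^ r = 1 ∧ g⁻¹ * x * g ∉ scalars I4 F := by
      intro x hx hxr hxs
      obtain ⟨g, hg, hgN⟩ := L x hx (by rw [hxr]; exact (scalars I4 F).one_mem) hxs
      refine ⟨g, hg, hgN, ?_, ?_⟩
      · have := conj_pow (i := r) (a := g⁻¹) (b := x)
        rw [inv_inv] at this
        rw [this, hxr]; simp
      · intro h
        apply hxs
        have h1 : x = g * (g⁻¹ * x * g) * g⁻¹ := by group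
        rw [h1, ← comm_of_scalar h, mul_inv_cancel_right]
        exact h
    by_cases hrp : r = p
    · -- transvections
      subst hrp
      set e : I4 → F := Pi.single (Sum.inl 0) 1 with he
      obtain ⟨T, hT, hTm, hTk⟩ := sp_trans e
      have hTr : T ^ r = 1 := by
        apply Units.ext
        rw [hTk, CharP.cast_eq_zero, sympTransvection_zero]; rfl
      have hTs : T ∉ scalars I4 F := by
        intro h
        obtain ⟨c, hc⟩ := (mem_scalars_iff' T).1 h
        rw [hTm, sympTransvection] at hc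
        have h1 := congrFun (congrFun hc (Sum.inl 0)) (Sum.inr 0)
        simp [he, Matrix.vecMulVec_apply, Matrix.J] at h1
      obtain ⟨g, hg, hgN, -, hgs⟩ := use T hT hTr hTs
      have hginv : ((g⁻¹ : GL I4 F) : Matrix I4 I4 F) ∈ Matrix.symplecticGroup (Fin 2) F := by
        rw [mem_symplecticGroup_iff]
        exact (mem_spGL _).1 ((spGL 2 F).inv_mem hg)
      have hm : ((g⁻¹ * T * g : GL I4 F) : Matrix I4 I4 F) =
          sympTransvection 2 (((g⁻¹ : GL I4 F) : Matrix I4 I4 F) *ᵥ e) 1 := by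
        rw [Units.val_mul, Units.val_mul, hTm, mul_sympTransvection hginv, Matrix.mul_assoc, ← Units.val_mul,
          inv_mul_cancel, Units.val_one, Matrix.mul_one]
      set e' := ((g⁻¹ : GL I4 F) : Matrix I4 I4 F) *ᵥ e with he'
      have hself : Matrix.vecMulVec e' (Matrix.J (Fin 2) F *ᵥ e') * Matrix.vecMulVec e' (Matrix.J (Fin 2) F *ᵥ e') = 0 := by
        have h1 := sympTransvection_mul e' (1 : F) (-1)
        rw [add_neg_cancel, sympTransvection_zero, sympTransvection, sympTransvection] at h1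
        have h3 : (1 + (1 : F) • Matrix.vecMulVec e' (Matrix.J (Fin 2) F *ᵥ e')) *
          (1 + (-1 : F) • Matrix.vecMulVec e' (Matrix.J (Fin 2) F *ᵥ e')) =
            1 - Matrix.vecMulVec e' (Matrix.J (Fin 2) F *ᵥ e') * Matrix.vecMulVec e' (Matrix.J (Fin 2) F *ᵥ e') := by
          rw [one_smul, neg_smul, one_smul]; noncomm_ring
        rw [h3] at h1
        simpa using h1
      have h0 := no_transvection E (by rw [hn]; norm_num) hgN (a := e') (b := Matrix.J (Fin 2) F *ᵥ e')
        (by rw [hm, sympTransvection, one_smul]) hself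
      apply hgs
      have h1 : g⁻¹ * T * g = 1 := by
        apply Units.ext
        rw [hm, sympTransvection, h0, smul_zero, add_zero]; rfl
      rw [h1]
      exact (scalars I4 F).one_mem
    · -- an element of order `r`
      have hrG : r ∣ Nat.card (spGL 2 F) := hΩ.trans (Subgroup.relIndex_dvd_card _ _)
      have nonscalar : ∀ x ∈ spGL 2 F, x ^ r = 1 → x ≠ 1 → x ∉ scalars I4 F := by
        intro x hx hxr hx1 hs
        rcases scalar_sp hx hs with h | h
        · exact hx1 h
        · have h4 : x ^ 4 = 1 := by rw [h]; exact Even.neg_one_pow (by decide)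
          exact hx1 (pow_eq_one_of_coprime h4 hxr (coprime_four hr hr2))
      obtain ⟨x0, hx0⟩ := exists_prime_orderOf_dvd_card' (G := spGL 2 F) r hrG
      have hx0r : (x0 : GL I4 F) ^ r = 1 := by
        have : x0 ^ r = 1 := orderOf_dvd_iff_pow_eq_one.1 (by rw [hx0])
        exact congrArg Subtype.val this
      have hx01 : (x0 : GL I4 F) ≠ 1 := by
        intro h
        have h1 : x0 = 1 := Subtype.ext h
        rw [h1, orderOf_one] at hx0
        exact hr.one_lt.ne hx0
      obtain ⟨g, hg, hgN, hgr, hgs⟩ := use x0 x0.2 hx0r (nonscalar _ x0.2 hx0r hx01)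
      have hcases := trace_cases E hn (by rw [hZ2]; norm_num) hr2 hgN
        (by rw [hgr]; exact (scalars I4 F).one_mem) hgs
      have h35 : r = 5 ∨ r = 3 := by
        rcases hcases with h | h
        · exact Or.inl h.1
        · exact Or.inr h.1
      rcases h35 with h5 | h3
      · -- `r = 5`
        subst h5
        have h5F : ((5 : ℕ) : F) ≠ 0 := hcast 5 Nat.prime_five hrp
        have hord := hr5 rfl
        have hp5 : ¬ 5 ∣ p := fun h => hrp ((Nat.prime_dvd_prime_iff_eq Nat.prime_five hp).1 h)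
        have hmod : p % 5 = 1 ∨ p % 5 = 4 := mod5_of_order hp5 hord
        have hdvd : 5 ∣ Nat.card (Matrix.SpecialLinearGroup (Fin 2) F) := by
          rw [Cfsg.Agent.ClassicalGeometry.PSL2Basic.card_SL2, hF]
          apply Dvd.dvd.mul_left
          have h1 : 1 ≤ p ^ 2 := Nat.one_le_pow _ _ hp.pos
          rw [← Nat.modEq_iff_dvd' h1]
          rw [Nat.ModEq, Nat.pow_mod]
          rcases hmod with h | h <;> rw [h]
        obtain ⟨C, hC⟩ := exists_prime_orderOf_dvd_card' (G := Matrix.SpecialLinearGroup (Fin 2) F) 5 hdvd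
        have hC5 : C ^ 5 = 1 := orderOf_dvd_iff_pow_eq_one.1 (by rw [hC])
        have hC1 : C ≠ 1 := by
          intro h
          rw [h, orderOf_one] at hC
          norm_num at hC
        have hCm : (C : Matrix (Fin 2) (Fin 2) F) ≠ 1 := fun h => hC1 (Subtype.ext h)
        have hC5m : (C : Matrix (Fin 2) (Fin 2) F) ^ 5 = 1 := by
          rw [← Matrix.SpecialLinearGroup.coe_pow, hC5, Matrix.SpecialLinearGroup.coe_one]
        have htr := trace5 C.2 hC5m hCm
        have hx5 : (embHom C) ^ 5 = 1 := by rw [← map_pow, hC5, map_one]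
        have hx1 : embHom C ≠ 1 := by
          intro h
          have h1 := congrArg (fun g : GL I4 F => (g : Matrix I4 I4 F)) h
          change emb (C : Matrix (Fin 2) (Fin 2) F) = 1 at h1
          apply hCm
          rw [← emb_one, emb, emb, Matrix.fromBlocks_inj] at h1
          obtain ⟨a1, a2, a3, a4⟩ := h1
          have b1 := congrFun (congrFun a1 0) 0
          have b2 := congrFun (congrFun a2 0) 0
          have b3 := congrFun (congrFun a3 0) 0
          have b4 := congrFun (congrFun a4 0) 0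
          simp only [Matrix.diagonal_apply_eq, Matrix.cons_val_zero] at b1 b2 b3 b4
          ext i j
          fin_cases i <;> fin_cases j
          · exact b1
          · exact b2
          · exact b3
          · exact b4
        obtain ⟨g, hg, hgN, hgr, hgs⟩ := use _ (embHom_mem C) hx5 (nonscalar _ (embHom_mem C) hx5 hx1)
        have hcases := trace_cases E hn (by rw [hZ2]; norm_num) hr2 hgN
          (by rw [hgr]; exact (scalars I4 F).one_mem) hgs
        rcases hcases with ⟨-, -, h⟩ | ⟨h, -⟩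
        · have e1 : (g⁻¹ * embHom C * g)⁻¹ = g⁻¹ * embHom C⁻¹ * g := by rw [map_inv]; group
          rw [e1, conj_trace, conj_trace, embHom_coe, embHom_coe, emb_trace, emb_trace] at h
          have e2 : ((C⁻¹ : Matrix.SpecialLinearGroup (Fin 2) F) : Matrix (Fin 2) (Fin 2) F).trace =
              (C : Matrix (Fin 2) (Fin 2) F).trace := by
            rw [Matrix.SpecialLinearGroup.coe_inv, Matrix.adjugate_fin_two]
            simp [Matrix.trace, Fin.sum_univ_two, add_comm]
          rw [e2] at h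
          exact trace5_ne (by exact_mod_cast h5F) htr h
        · norm_num at h
      · -- `r = 3`
        subst h3
        have h3F : ((3 : ℕ) : F) ≠ 0 := hcast 3 Nat.prime_three hrp
        set C : Matrix.SpecialLinearGroup (Fin 2) F := ⟨!![0, -1; 1, -1], by rw [Matrix.det_fin_two]; simp⟩ with hC
        have hC3 : C ^ 3 = 1 := by
          apply Subtype.ext
          rw [Matrix.SpecialLinearGroup.coe_pow, Matrix.SpecialLinearGroup.coe_one, pow_succ, pow_succ, pow_one]
          ext i j
          fin_cases i <;> fin_cases j <;> simp [hC, Matrix.mul_apply, Fin.sum_univ_two]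
        have hx3 : (embHom C) ^ 3 = 1 := by rw [← map_pow, hC3, map_one]
        have hx1 : embHom C ≠ 1 := by
          intro h
          have h1 := congrArg (fun g : GL I4 F => (g : Matrix I4 I4 F)) h
          change emb (C : Matrix (Fin 2) (Fin 2) F) = 1 at h1
          rw [← emb_one, emb, emb, Matrix.fromBlocks_inj] at h1
          have b1 := congrFun (congrFun h1.1 0) 0
          simp [hC] at b1
        obtain ⟨g, hg, hgN, hgr, hgs⟩ := use _ (embHom_mem C) hx3 (nonscalar _ (embHom_mem C) hx3 hx1)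
        have hcases := trace_cases E hn (by rw [hZ2]; norm_num) hr2 hgN
          (by rw [hgr]; exact (scalars I4 F).one_mem) hgs
        have e1 : (g⁻¹ * embHom C * g)⁻¹ = g⁻¹ * embHom C⁻¹ * g := by rw [map_inv]; group
        have e2 : ((C⁻¹ : Matrix.SpecialLinearGroup (Fin 2) F) : Matrix (Fin 2) (Fin 2) F).trace =
            (C : Matrix (Fin 2) (Fin 2) F).trace := by
          rw [Matrix.SpecialLinearGroup.coe_inv, Matrix.adjugate_fin_two]
          simp [Matrix.trace, Fin.sum_univ_two, add_comm]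
        have e3 : (C : Matrix (Fin 2) (Fin 2) F).trace = -1 := by
          simp [hC, Matrix.trace, Fin.sum_univ_two]
        rcases hcases with ⟨h, -⟩ | ⟨-, ⟨h, -⟩ | ⟨-, h⟩⟩
        · norm_num at h
        · exact no_fpf_of_minus E hRm hZ2 hgN (by rw [hgr]; exact (scalars I4 F).one_mem) h
        · rw [e1, conj_trace, conj_trace, embHom_coe, embHom_coe, emb_trace, emb_trace, e2, e3] at h
          apply h3F
          push_cast
          linear_combination -h
  · have hsp2 : ∀ x ∈ spGL 2 F, ∀ k, x ^ k ∈ scalars I4 F → x ^ k = 1 ∨ x ^ k = -1 := fun x hx k hk =>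
      scalar_sp ((spGL 2 F).pow_mem hx k) hk
    obtain ⟨u, v, s, t, P⟩ := E.exists_pauli_of_minus hRm
    rintro (rfl | ⟨rfl, hord⟩)
    · intro x hx hxr hxs
      have hus : u ∉ scalars I4 F := E.not_scalar_of_anti P.vu
      have key : ∃ y ∈ R, ∃ g ∈ spGL 2 F, g⁻¹ * x * g = y := by
        rcases hsp2 x hx 2 hxr with h | h
        · rw [pow_two] at h
          refine ⟨u, P.hu, ?_⟩
          have hnn : ∀ w : GL I4 F, w ∉ scalars I4 F → w ≠ 1 ∧ w ≠ -1 := by
            intro w hw
            constructor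
            · rintro rfl; exact hw (scalars I4 F).one_mem
            · rintro rfl; exact hw ((mem_scalars_iff' _).2 ⟨-1, by simp⟩)
          exact conj_of_frames _ (frame_of_invol h2 hx h (hnn x hxs).1 (hnn x hxs).2)
            (frame_of_invol h2 (hRf P.hu) P.uu (hnn u hus).1 (hnn u hus).2)
        · rw [pow_two] at h
          exact ⟨s, P.hs, conj_of_frames _ (frame_of_quart h2 hx h) (frame_of_quart h2 (hRf P.hs) P.ss)⟩
      obtain ⟨y, hy, g, hg, hgy⟩ := key
      exact ⟨g, hg, by rw [hgy]; exact le_normalizer R hy⟩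
    · intro x hx hxr hxs
      have h5p : p ≠ 5 := fun h => ne_five_of_order hord (by rw [h])
      have h5F : ((5 : ℕ) : F) ≠ 0 := hcast 5 Nat.prime_five (Ne.symm h5p)
      have hneg : (-1 : GL I4 F) ∈ spGL 2 F := hRf E.neg
      have hnegs : (-1 : GL I4 F) ∈ scalars I4 F := (mem_scalars_iff' _).2 ⟨-1, by simp⟩
      -- normalise
      have norm5 : ∀ w ∈ spGL 2 F, w ^ 5 ∈ scalars I4 F → ∃ ε : GL I4 F, (ε = 1 ∨ ε = -1) ∧ (ε * w) ^ 5 = 1 := by
        intro w hw hw5
        rcases hsp2 w hw 5 hw5 with h | h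
        · exact ⟨1, Or.inl rfl, by rw [one_mul, h]⟩
        · refine ⟨-1, Or.inr rfl, ?_⟩
          rw [neg_one_mul, Odd.neg_pow (by decide), h, neg_neg]
      obtain ⟨ε, hε, hεw⟩ := norm5 (w5 h2 P) (w5_mem spStarG hRf h2 P) (w5_pow_scalar E.c1 h2 P)
      obtain ⟨δ, hδ, hδx⟩ := norm5 x hx hxr
      have hsg : ∀ ε : GL I4 F, (ε = 1 ∨ ε = -1) → ε ∈ spGL 2 F ∧ ε ∈ scalars I4 F := by
        rintro ε (rfl | rfl)
        · exact ⟨(spGL 2 F).one_mem, (scalars I4 F).one_mem⟩
        · exact ⟨hneg, hnegs⟩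
      have hw1 : ε * w5 h2 P ≠ 1 := by
        intro h
        apply w5_not_scalar h2 P
        have h1 : w5 h2 P = ε⁻¹ := (inv_eq_of_mul_eq_one_right h).symm
        rw [h1]
        exact (scalars I4 F).inv_mem (hsg ε hε).2
      obtain ⟨g, hg, hgN⟩ := conj_into (G := spGL 2 F) (N := subgroupNormalizer R) (r := 5) (by exact_mod_cast h5F)
        (fun x _ hx hx1 => norms_of_order4 hF hord hn hx hx1)
        (y := ε * w5 h2 P) ((spGL 2 F).mul_mem (hsg ε hε).1 (w5_mem spStarG hRf h2 P))
        ((subgroupNormalizer R).mul_mem (scalars_le_normalizer R (hsg ε hε).2) (w5_mem_normalizer h2 P))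
        hεw hw1 (x := δ * x) ((spGL 2 F).mul_mem (hsg δ hδ).1 hx) hδx
      refine ⟨g, hg, ?_⟩
      have h1 : g⁻¹ * x * g = δ⁻¹ * (g⁻¹ * (δ * x) * g) := by
        have h3 : δ⁻¹ * g⁻¹ = g⁻¹ * δ⁻¹ := comm_of_scalar ((scalars I4 F).inv_mem (hsg δ hδ).2) _
        calc g⁻¹ * x * g = g⁻¹ * δ⁻¹ * (δ * x) * g := by group
          _ = δ⁻¹ * g⁻¹ * (δ * x) * g := by rw [h3]
          _ = _ := by group
      rw [h1]
      exact (subgroupNormalizer R).mul_mem
        (scalars_le_normalizer R ((scalars I4 F).inv_mem (hsg δ hδ).2)) hgN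

end Cfsg.Agent.S6002
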